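import Cfsg.Agent.H9.TOSys

/-! Small orthogonal factors: the invariant Lie algebra. Sketch: notes/TENS.md, Batch 3. -/

set_option autoImplicit false
set_option linter.unusedSectionVars false
set_option linter.unusedVariables false
set_option linter.unusedSimpArgs false

namespace Cfsg.Agent.H9

open scoped MatrixGroups Matrix
open Matrix Cfsg.Geo Cfsg.Agent.H98

universe u

variable {ι β τ : Type} [Fintype ι] [DecidableEq ι] [Fintype β] [DecidableEq β] [Fintype τ]
  [DecidableEq τ] {F : Type u} [Field F]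

variable [Finite F] [Nonempty ι] {M : Subgroup (GL ι F)} {ε : F} {f : (ι → F) → (ι → F) → F}
  {f₂ : (β → F) → (β → F) → F} {φ : τ → Matrix β β F →ₐ[F] Matrix ι ι F} {G : τ → Subgroup (GL β F)}

namespace TOLie

variable (φ f₂) in
/-- The sums of skew elements of the factors. -/
def gg (hf : IsSesq (RingEquiv.refl F) 1 f₂) : Submodule F (Matrix ι ι F) where
  carrier := {z | ∃ a : τ → Matrix β β F, (∀ j, adj (RingEquiv.refl F) f₂ (a j) = -a j) ∧
    z = ∑ j, φ j (a j)}
  add_mem' := by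
    rintro _ _ ⟨a, ha, rfl⟩ ⟨b, hb, rfl⟩
    exact ⟨a + b, fun j => by rw [Pi.add_apply, hf.adj_add, ha, hb, neg_add],
      by simp [Finset.sum_add_distrib]⟩
  zero_mem' := ⟨0, fun j => by simp [hf.adj_zero], by simp⟩
  smul_mem' := by
    rintro c _ ⟨a, ha, rfl⟩
    exact ⟨c • a, fun j => by rw [Pi.smul_apply, hf.adj_smul, ha, RingEquiv.refl_apply, smul_neg],
      by simp [Finset.smul_sum]⟩

theorem phi_mem (hf : IsSesq (RingEquiv.refl F) 1 f₂) (j : τ) {s : Matrix β β F}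
    (hs : adj (RingEquiv.refl F) f₂ s = -s) : φ j s ∈ gg f₂ φ hf :=
  ⟨Pi.single j s, fun l => by
    by_cases h : l = j
    · rw [h, Pi.single_eq_same, hs]
    · rw [Pi.single_eq_of_ne h, hf.adj_zero, neg_zero], by
    rw [Finset.sum_eq_single j (fun l _ h => by rw [Pi.single_eq_of_ne h, map_zero]) (by simp),
      Pi.single_eq_same]⟩

theorem lie_sum (S : Sys φ) (a : τ → Matrix β β F) (l : τ) (b : Matrix β β F) :
    (∑ j, φ j (a j)) * φ l b - φ l b * ∑ j, φ j (a j) = φ l (a l * b - b * a l) := by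
  rw [Finset.sum_mul, Finset.mul_sum, ← Finset.sum_sub_distrib, Finset.sum_eq_single l
    (fun j _ h => by rw [S.cm l j (Ne.symm h), sub_self]) (by simp), map_sub, map_mul, map_mul]

end TOLie

open TOLie in
theorem OSys.dich_of_Pi (O : OSys φ M G ε f f₂) {i : τ} {Pi : Matrix ι ι F →ₗ[F] Matrix ι ι F}
    (hP : ∀ g ∈ M, ∀ z, Pi (cj g z) = cj g (Pi z))
    (h0 : ∀ c, Cm (φ i) c → ∀ s, adj (RingEquiv.refl F) f₂ s = -s →
      Pi (c * φ i s) = φ i (ptr (φ i) (c * φ i s))) (j : τ) {g : GL ι F} (hg : g ∈ M) :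
    g ∈ KB (φ j) ∨ ∀ b, Cm (φ j) (cj g (φ j b)) := by
  have hf := (O.O i).C.ses
  have hF := (O.A i).hf
  have h2 := (O.O i).two
  have := (O.O i).C.nonempty
  have hA : ∀ j c, Cm (φ j) c → ∀ s, adj (RingEquiv.refl F) f₂ s = -s →
      Pi (c * φ j s) = φ j (ptr (φ j) (c * φ j s)) := fun j c hc s hs => by
    obtain ⟨g, hg, x, hx, e⟩ := O.tr i j
    have e' : ∀ b, cj g⁻¹ (φ j b) = φ i (cj x⁻¹ b) := fun b => by
      rw [← cj_inv_cj g (φ i _), e, cj_cj_inv]
    have k := h0 (cj g⁻¹ c) (fun b => by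
      rw [← cj_inv_cj x b, ← e', ← map_mul, ← map_mul, hc]) (cj x⁻¹ s)
      (by rw [adj_cj hf (inv_mem hx), hs, map_neg])
    rw [← e', ← map_mul] at k
    rw [← cj_cj_inv g (c * φ j s), hP g hg, k, e, cj_cj_inv]
    congr 1
    refine eq_of_trace_mul fun b => ?_
    rw [trace_ptr_mul, ← cj_cj_inv x b, ← map_mul, trace_cj, trace_ptr_mul, ← e', ← map_mul, trace_cj,
      cj_cj_inv]
  have hB : ∀ z, Pi (z - adj (RingEquiv.refl F) f z) ∈ gg f₂ φ hf := fun z =>
    O.S.skew_mem hF hf (fun j => (O.A j).adjφ) h2 (Y := (gg f₂ φ hf).comap Pi) (fun j c s hc hs => by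
      obtain ⟨a, ha⟩ := hc.exists_ptr
      rw [Submodule.mem_comap, hA j c hc s hs, ha, map_smul]
      exact Submodule.smul_mem _ _ (phi_mem hf j hs)) z
  have hC : ∀ g ∈ M, ∀ j s, adj (RingEquiv.refl F) f₂ s = -s → cj g (φ j s) ∈ gg f₂ φ hf :=
    fun g hg j s hs => by
      obtain ⟨c, hc, e⟩ := exists_ptr_one (φ := φ j)
      have hc' := (O.A j).cm_adj hc
      have e' : ptr (φ j) (adj (RingEquiv.refl F) f c * φ j s) = s := eq_of_trace_mul fun b => by
        have k1 := hF.trace_adj (φ j (adj (RingEquiv.refl F) f₂ (s * b)) * c)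
        have k2 := trace_ptr_mul (φ := φ j) (c * φ j 1) (adj (RingEquiv.refl F) f₂ (s * b))
        rw [hF.adj_mul, (O.A j).adjφ, hf.adj_adj, RingEquiv.refl_apply, trace_mul_comm (φ j _)] at k1
        rw [e, map_one, mul_one, one_mul, hf.trace_adj, RingEquiv.refl_apply] at k2
        rw [trace_ptr_mul, mul_assoc, ← map_mul, k1, k2]
      have := hB (cj g (c * φ j s))
      rw [adj_cj hF ((O.A j).iso hg), ← map_sub, hP g hg, hF.adj_mul, (O.A j).adjφ, hs, map_neg,
        neg_mul, sub_neg_eq_add, hc', ← add_mul, hA j _ (hc.add hc') s hs, add_mul, map_add, e, e',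
        ← two_smul F, map_smul, map_smul] at this
      exact (Submodule.smul_mem_iff _ h2).1 this
  obtain ⟨x, y, H⟩ := (O.O i).C.exists_hp
  obtain ⟨v, v1, v2, v3⟩ := PasO.exists_v (O.O i).C h2 H
  have a0 := PasO.Nv_ne_zero hf H v2 v1 (by rintro rfl; exact v3 (hf.zero_left _))
  have a1 := TOB.adj_Nv hf x v
  generalize PasO.Nv f₂ x v = a at a0 a1
  obtain ⟨b, hb, e1⟩ := hC g hg j a a1
  obtain ⟨l, hl⟩ : ∃ l, b l ≠ 0 := by
    by_contra hc
    push Not at hc
    simp only [hc, map_zero, Finset.sum_const_zero, map_eq_zero_iff _ (cj g).injective,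
      map_eq_zero_iff _ (phi_injective (φ := φ j))] at e1
    exact a0 e1
  obtain ⟨a', ha', hn⟩ : ∃ a', adj (RingEquiv.refl F) f₂ a' = -a' ∧ b l * a' ≠ a' * b l := by
    by_contra hc
    push Not at hc
    exact hl ((O.O i).skew_cent (hb l) hc)
  obtain ⟨b', hb', e2⟩ := hC g⁻¹ (inv_mem hg) l a' ha'
  have e3 : cj g (φ j (b' j * a - a * b' j)) = -φ l (b l * a' - a' * b l) := by
    rw [← lie_sum O.S, ← lie_sum O.S, ← e1, ← e2, map_sub, map_mul, map_mul, cj_cj_inv, neg_sub]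
  have top := (O.O i).lie_top
    (S := (φ l).range.comap (((cj g : _ ≃ₐ[F] _) : Matrix ι ι F →ₐ[F] Matrix ι ι F).comp (φ j)))
    (fun s hs t ⟨t', ht⟩ => by
      obtain ⟨d, -, e⟩ := hC g hg j s hs
      refine ⟨d l * t' - t' * d l, ?_⟩
      change φ l t' = cj g (φ j t) at ht
      change φ l _ = cj g (φ j _)
      rw [← lie_sum O.S, ← e, ht, map_sub, map_sub, map_mul, map_mul, map_mul, map_mul])
    (s := b' j * a - a * b' j) ⟨-(b l * a' - a' * b l), by
      change φ l _ = cj g (φ j _)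
      rw [e3, map_neg]⟩ (fun h => by
      rw [h, map_zero, map_zero, eq_comm, neg_eq_zero,
        map_eq_zero_iff _ (phi_injective (φ := φ l)), sub_eq_zero] at e3
      exact hn e3)
    (by rw [hf.adj_sub, hf.adj_mul, hf.adj_mul, a1, hb', neg_mul_neg, neg_mul_neg, neg_sub])
  have k : ∀ b, cj g (φ j b) ∈ (φ l).range := fun b => by
    have : b ∈ (⊤ : Subalgebra F (Matrix β β F)) := Algebra.mem_top
    rw [← top] at this
    exact this
  by_cases h : l = j
  · exact Or.inl (mem_KB_of (h ▸ k))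
  · refine Or.inr fun b => ?_
    obtain ⟨t, ht⟩ := k b
    exact ht ▸ O.S.cm j l (Ne.symm h) t

end Cfsg.Agent.H9
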