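import Cfsg.Agent.H9.TOSys

/-! Small orthogonal factors: failure of the local statement. Sketch: notes/TENS.md, Batch 3. -/

set_option autoImplicit false
set_option linter.unusedSectionVars false
set_option linter.unusedVariables false
set_option linter.unusedSimpArgs false

namespace Cfsg.Agent.H9

open scoped MatrixGroups Matrix
open Matrix Cfsg.Geo Cfsg.Agent.H98

universe u

variable {ι β τ : Type} [Fintype ι] [DecidableEq ι] [Fintype β] [DecidableEq β] [Fintype τ]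
  [DecidableEq τ] {F : Type u} [Field F]

variable [Finite F] [Nonempty ι] {M : Subgroup (GL ι F)} {ε : F} {f : (ι → F) → (ι → F) → F}
  {f₂ : (β → F) → (β → F) → F} {x y : β → F}

theorem Amb.lev_of_nil {φ : Matrix β β F →ₐ[F] Matrix ι ι F} {G : Subgroup (GL β F)}
    (A : Amb φ M G (RingEquiv.refl F) ε f 1 f₂) (h2 : (2 : F) ≠ 0) (H : HP f₂ x y) {z : β → F}
    (h3 : f₂ z x = 0) (h4 : f₂ z y = 0) (hz : f₂ z z ≠ 0) {γ : Matrix ι ι F} (hγ : Cm φ γ)
    (h0 : γ ≠ 0) (hγγ : γ * γ = 0) (h : 1 + γ * φ (PasO.Nv f₂ x z) ∈ matrixSet M) :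
    ∃ c ∈ Lev M (φ (br f₂ x y)) (φ (pr f₂ 1 x y)) φ true, ¬ Sc c := by
  have hf := A.C.ses
  have k : ∀ b w, γ * (φ b * (γ * w)) = 0 := fun b w => by rw [hγ.left, ← mul_assoc, hγγ, zero_mul]
  let L : AddSubgroup (Matrix β β F) :=
    { carrier := {b | 1 + γ * φ b ∈ matrixSet M}
      add_mem' := fun {a b} ha hb => by
        have := ms_mul ha hb
        simp only [mul_add, add_mul, one_mul, mul_one, mul_assoc, k, add_zero] at this
        show _ ∈ matrixSet M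
        rwa [map_add, mul_add, ← add_assoc]
      zero_mem' := by simpa using ms_one
      neg_mem' := fun {a} ha => ms_inv ha (by
        simp only [map_neg, mul_neg, mul_add, add_mul, one_mul, mul_one, mul_assoc, k]; simp) }
  have hL : ∀ v, f₂ v y = 0 → PasO.Nv f₂ (elm f₂ 1 y v (-f₂ v v / 2) *ᵥ x)
      (elm f₂ 1 y v (-f₂ v v / 2) *ᵥ z) ∈ L := fun v hv => by
    obtain ⟨g, hg, e⟩ := mem_matrixSet.1 (A.C.el y v _ H.yy hv (GO.vd hf h2 v))
    have := ms_cj h (A.sub g hg)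
    rwa [map_add, map_one, hγ.cj_gφ_mul, PasO.cj_Nv hf (A.C.le hg), e] at this
  have P := A.pd H
  obtain ⟨a, ha⟩ : ∃ a, a = φ (br f₂ x y) := ⟨_, rfl⟩
  obtain ⟨δ, hδ⟩ : ∃ δ, δ = (2 * f₂ z z) • γ := ⟨_, rfl⟩
  have hc : Cm φ δ := hδ ▸ hγ.smul _
  have h6 : δ * δ = 0 := by simp [hδ, hγγ]
  have h7 : 1 + δ * (a - adj (RingEquiv.refl F) f a) ∈ matrixSet M := by
    have := sub_mem (hL z h4) (hL (-z) (by rw [hf.neg_left, h4, neg_zero]))
    change 1 + γ * φ _ ∈ matrixSet M at this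
    convert this using 2
    rw [ha, hδ, A.adj_br, one_smul, ← map_sub, smul_mul_assoc, ← mul_smul_comm, ← map_smul]
    congr 2
    simp only [PasO.Nv, elm_mulVec hf, hf.neg_left, hf.neg_right, PasO.sym hf x z, h3, h4, H.xy,
      br_add_left, br_add_right hf, br_sub_left, br_sub_right hf, br_smul_left, br_smul_right hf,
      br_neg_left, br_neg_right hf, RingEquiv.refl_apply]
    module
  obtain ⟨l, hl, e⟩ := mem_matrixSet.1 h7
  have h8 : a * δ = δ * a := ha ▸ hc _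
  have h9 : adj (RingEquiv.refl F) f a * δ = δ * adj (RingEquiv.refl F) f a := by rw [ha, A.adjφ, hc]
  have h10 : (l⁻¹ : GL ι F) = 1 - δ * (a - adj (RingEquiv.refl F) f a) :=
    Units.inv_eq_of_mul_eq_one_right (e ▸ PasA.one_add_mul_one_sub (by
      rw [mul_assoc, ← mul_assoc _ δ, sub_mul, h8, h9, ← mul_sub, ← mul_assoc, ← mul_assoc, h6]; simp))
  refine ⟨1 - δ, mem_Lev_left (fun c ρ => A.rho_smul_o h2 H c) (Cm.one.sub hc) ?_, fun hs => ?_⟩
  · rw [← ha] at P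
    change _ ∈ LM M (φ (br f₂ x y)) _
    rw [A.hp, ← ha]
    refine mem_LM_of hl (u' := 1 + δ) (by simp [mul_sub, sub_mul, h8]) (by simp [mul_add, add_mul, h8])
      P.aa (P.EE A.hf) (P.Ea A.hf) (by simp [mul_sub, sub_mul, mul_add, add_mul, h9]; abel) ?_ ?_
    · simp [e, add_mul, mul_assoc, mul_sub, sub_mul, P.ab, P.bb A.hf]; abel
    · simp [h10, mul_assoc, sub_mul, P.aa, P.ba]
  · exact smul_ne_zero (mul_ne_zero h2 hz) h0 (hδ ▸ Sc.eq_zero (by simpa using Sc.one.sub hs) h6)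

theorem TOL.comm {φ : Matrix β β F →ₐ[F] Matrix ι ι F} {G : Subgroup (GL β F)}
    (A : Amb φ M G (RingEquiv.refl F) ε f 1 f₂) (H : HP f₂ x y) (hJ : ∀ j, JJ φ M f₂ x j → j = 0)
    {v : β → F} (h1 : f₂ x v = 0) (h2 : f₂ y v = 0) (hv : f₂ v v ≠ 0) {c d : Matrix ι ι F}
    (hc : Cm φ c) (hd : Cm φ d) (c1 : c * φ (br f₂ x v) ∈ Rho M (φ (br f₂ x y)) (φ (pr f₂ 1 x y)))
    (d1 : d * φ (br f₂ x v) ∈ Rho M (φ (br f₂ x y)) (φ (pr f₂ 1 x y))) : c * d = d * c := by
  have k : ∀ {c d}, Cm φ c → Cm φ d → c * φ (br f₂ x v) ∈ Rho M (φ (br f₂ x y)) (φ (pr f₂ 1 x y)) →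
      d * φ (br f₂ x v) ∈ Rho M (φ (br f₂ x y)) (φ (pr f₂ 1 x y)) →
      d * adj (RingEquiv.refl F) f c = c * adj (RingEquiv.refl F) f d := fun hc hd c1 d1 => by
    have := hJ _ (A.jj_comm H hc hd c1 d1)
    rwa [one_mul, ← smul_sub, smul_eq_zero, or_iff_right hv, sub_eq_zero] at this
  have o := (one_mul (φ (br f₂ x v))).symm ▸ A.h0 H h1 h2
  have e1 := k hc Cm.one c1 o
  have e2 := k hd Cm.one d1 o
  have e3 := k hc hd c1 d1
  rw [one_mul, A.hf.adj_one, mul_one] at e1 e2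
  rw [e1, e2] at e3
  exact e3.symm

variable {φ : τ → Matrix β β F →ₐ[F] Matrix ι ι F} {G : τ → Subgroup (GL β F)}

theorem OSys.jj_ne (O : OSys φ M G ε f f₂) (H : HP f₂ x y) {i : τ} (h : ¬ Loc (φ i) M x) :
    ∃ j, JJ (φ i) M f₂ x j ∧ j ≠ 0 := by
  by_contra hJ
  push Not at hJ
  have A := O.A i
  have hf := A.C.ses
  have h2 := (O.O i).two
  have D := H.ad hf
  obtain ⟨ρ, hρ, w, hw, hn⟩ := (A.nc H h).resolve_right fun ⟨j, h1, h3⟩ => h3 (hJ j h1 ▸ Sc.zero)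
  obtain ⟨v, v1, v2, e⟩ := GO.decomp hf H w
  have e0 : cf (φ i) (dl f₂ y) ρ x = 0 := by
    have := cf_mul_phi (φ := φ i) (dl f₂ y) (br f₂ x y) ρ x
    rwa [br, Rho.mul_a D.Ea hρ, cf_zero, ← br, br_mulVec hf, H.xy, one_smul, eq_comm] at this
  rw [e, hw, zero_smul, add_zero, cf_add_right, cf_smul_right, e0, smul_zero, add_zero] at hn
  have v3 : f₂ v v ≠ 0 := fun h0 => hn (by
    rw [(O.O i).an x y H v v1 v2 h0, cf_zero_right]; exact Sc.zero)
  have v4 := hf.eq_zero_comm.1 v1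
  have v5 := hf.eq_zero_comm.1 v2
  have s : ∀ u, ρ * φ i (br f₂ v u) = cf (φ i) (dl f₂ y) ρ v * φ i (br f₂ x u) := fun u => by
    rw [br, br, ← sandwich, show φ i (vecMulVec x (dl f₂ y)) * ρ = ρ from Rho.a_mul hρ]
  have hc := cf_cm (φ := φ i) (dl f₂ y) ρ v
  let R : Submodule F (Matrix ι ι F) :=
    { carrier := Rho M (φ i (br f₂ x y)) (φ i (pr f₂ 1 x y))
      add_mem' := add_mem
      zero_mem' := zero_mem _
      smul_mem' := fun c _ h => A.rho_smul_o h2 H c h }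
  have hR : ∀ j, j ≠ i → ∀ g ∈ G j, ∀ z ∈ R, cj (gφ (φ j) g) z ∈ R := fun j hj g hg z hz => by
    have := Rho.cj ((O.A j).sub g hg) hz
    rwa [(O.S.cm j i hj _).cj_gφ, (O.S.cm j i hj _).cj_gφ] at this
  by_cases hk : Fintype.card β = 4 → ∀ i z, f₂ z z ≠ 0 → rfz f₂ z ∈ matrixSet (G i)
  · have c1 : cf (φ i) (dl f₂ y) ρ v * φ i (br f₂ x v) ∈ R := by
      rcases (O.O i).k with k3 | k4
      · have : br f₂ v v = f₂ v v • (pr f₂ 1 x y - br f₂ x y) := matrix_ext_mulVec fun u => by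
          obtain ⟨u0, a1, a2, a3⟩ := GO.decomp hf H u
          have a4 := GO.eq_zero_of_three hf k3.le H v1 v2 v3 (w := f₂ v v • u0 - f₂ u0 v • v)
            (by simp [hf.sub_left, hf.smul_left, a1, v1]) (by simp [hf.sub_left, hf.smul_left, a2, v2])
            (by simp [hf.sub_left, hf.smul_left, mul_comm])
          have a5 : f₂ u v = f₂ u0 v := by
            conv_lhs => rw [a3]
            simp [hf.add_left, hf.smul_left, v4, v5]
          rw [smul_mulVec, sub_mulVec, pr_mulVec hf, br_mulVec hf, br_mulVec hf, a5,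
            ← sub_eq_zero.1 a4]
          congr 1
          conv_rhs => enter [1, 1]; rw [a3]
          module
        rw [← s, this, map_smul, mul_smul_comm, br, D.rho_mul hρ]
        exact R.smul_mem _ hρ
      · obtain ⟨g, hg, e1⟩ := mem_matrixSet.1 (hk k4 i v v3)
        have e2 : (g : Matrix β β F) *ᵥ x = (1 : F) • x := by
          rw [e1, rfz, sub_mulVec, smul_mulVec, br_mulVec hf, v4]; simp
        have := sub_mem hρ (D.mem_RM (A.sub g hg) one_ne_zero e2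
          (pr_stab hf (A.C.le hg) one_ne_zero H e2) ρ hρ)
        rw [inv_one, one_smul, e1, rfz, sub_mul, one_mul, smul_mul_assoc, br_pr hf v5, map_sub,
          mul_sub, Rho.mul_E D.EE hρ, sub_sub_cancel, map_smul, mul_smul_comm, s] at this
        exact (R.smul_mem_iff (div_ne_zero h2 v3)).1 this
    let P : Matrix ι ι F → Prop := fun d => Cm (φ i) d ∧ d * φ i (br f₂ x v) ∈ R
    let E : NonUnitalSubalgebra F (Matrix ι ι F) :=
      { carrier := {z | ∀ w, (∀ d, P d → d * w = w * d) → w * z = z * w}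
        add_mem' := fun h h' w hw => by rw [mul_add, add_mul, h w hw, h' w hw]
        zero_mem' := fun w _ => by simp
        smul_mem' := fun c z h w hw => by rw [mul_smul_comm, smul_mul_assoc, h w hw]
        mul_mem' := fun h h' w hw => by rw [← mul_assoc, h w hw, mul_assoc, h' w hw, mul_assoc] }
    obtain ⟨j, hj, h3⟩ := O.S.inv' (i := i) (G := G) (D := E)
      (fun j _ => pas_o (O.O j).C h2 (O.O j).hex fun k4 =>
        hk (by rcases (O.O j).k with k | k <;> omega) j)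
      (fun z hz b => hz _ fun d hd => (hd.1 b).symm)
      (fun j hj g hg z hz w hw => by
        have := hz (cj (gφ (φ j) g)⁻¹ w) fun d hd => (cj (gφ (φ j) g)).injective (by
          rw [map_mul, map_mul, cj_cj_inv]
          refine hw _ ⟨hd.1.cj (mem_KB_of_cm (O.S.cm i j hj.symm _)), ?_⟩
          rw [← (O.S.cm j i hj (br f₂ x v)).cj_gφ g, ← map_mul]
          exact hR j hj g hg _ hd.2)
        have := congrArg (cj (gφ (φ j) g)) this
        rwa [map_mul, map_mul, cj_cj_inv] at this)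
      (c := cf (φ i) (dl f₂ y) ρ v) (fun w hw => (hw _ ⟨hc, c1⟩).symm) hn
    obtain ⟨b, hb⟩ := not_comm_all (α := β) (F := F) (by rcases (O.O j).k with k | k <;> omega)
    exact hb (scalar_of_cm_phi (φ := φ j) fun b' => h3 b _ fun d hd =>
      h3 b' d fun d' hd' => TOL.comm A H hJ v4 v5 v3 hd'.1 hd.1 hd'.2 hd.2)
  obtain ⟨k4, hk⟩ := Classical.not_imp.1 hk
  have ht := (O.rf k4).resolve_right hk
  have := A.C.nonempty
  have rg : ∀ {i j : τ}, i ≠ j → ∀ {c}, Cm (φ i) c → ∃ b, φ j b = c := fun {i j} hij c hc =>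
    O.S.cm_le (D := (φ j).range.toNonUnitalSubalgebra) (one_mem (φ j).range) (fun l hl b => by
      obtain rfl : l = j := by
        by_contra h
        have := Finset.card_le_univ ({i, j, l} : Finset τ)
        rw [Finset.card_eq_three.2 ⟨i, j, l, hij, Ne.symm hl, Ne.symm h, rfl⟩] at this
        omega
      exact ⟨b, rfl⟩) hc
  obtain ⟨j, hj⟩ := Fintype.exists_ne_of_one_lt_card (by omega) i
  have c2 : adj (RingEquiv.refl F) f (cf (φ i) (dl f₂ y) ρ v) = cf (φ i) (dl f₂ y) ρ v := by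
    have k1 := A.h0 H v4 v5
    have k0 := hρ
    rw [A.hp] at k0 k1
    have := (A.pd H).comm_mem A.hf A.iso k0 k1
    have k2 : φ i (br f₂ x v) * adj (RingEquiv.refl F) f ρ -
        ρ * adj (RingEquiv.refl F) f (φ i (br f₂ x v)) =
        (adj (RingEquiv.refl F) f (cf (φ i) (dl f₂ y) ρ v) - cf (φ i) (dl f₂ y) ρ v) *
          φ i (br f₂ x x) := by
      rw [A.adj_br, one_smul, s, show φ i (br f₂ x v) * adj (RingEquiv.refl F) f ρ =
        adj (RingEquiv.refl F) f (ρ * φ i (br f₂ v x)) by rw [A.hf.adj_mul, A.adj_br, one_smul], s,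
        A.hf.adj_mul, A.adj_br, one_smul, A.cm_adj hc, ← sub_mul]
    rw [k2] at this
    exact sub_eq_zero.1 (hJ _ (A.jj_of_zed H ((A.cm_adj hc).sub hc) this))
  obtain ⟨t, ht⟩ := rg hj.symm hc
  obtain ⟨u, hu, hu'⟩ : ∃ z, f₂ z z = 0 ∧ f₂ (t *ᵥ z) z ≠ 0 := by
    by_contra hz
    push Not at hz
    obtain ⟨a, e⟩ := PasO.adj_eq (O.O j).C h2 (O.O j).hex hz
    rw [phi_injective (φ := φ j) (show φ j (adj (RingEquiv.refl F) f₂ t) = φ j t by
      rw [← (O.A j).adjφ, ht, c2]), eq_sub_iff_add_eq, ← two_smul F] at e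
    exact hn (ht ▸ Sc.phi (Sc.of_smul h2 ⟨a, e⟩))
  have u0 : u ≠ 0 := by rintro rfl; exact hu' (hf.zero_right _)
  obtain ⟨T, hT, e1⟩ := PasO.opE1 (O.O j).C h2 (O.O j).hex hu u0
  obtain ⟨ρ', hρ', e2⟩ := exists_tens hT (hR j hj) (z := ρ) hρ
  have r0 : ρ' ≠ 0 := by
    rintro rfl
    obtain ⟨ℓ, hℓ⟩ := not_forall.1 fun h => one_ne_zero (α := Matrix ι ι F)
      ((Module.forall_dual_apply_eq_zero_iff F _).1 h)
    have := e2 (ℓ ∘ₗ cfL (φ i) (dl f₂ y) v)
    rw [map_zero, ← TOS.cp_cf (O.S.cm j i hj), ← ht, ← one_mul (φ j t), Cm.one.cp_mul_phi, map_smul,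
      e1] at this
    exact smul_ne_zero hℓ (smul_ne_zero hu' (br_ne_zero hf u0 u0)) this.symm
  obtain ⟨p, q, r, e3⟩ := pure_of_cp (φ := φ j) (w := ρ') (br_ne_zero hf u0 u0) fun ℓ =>
    ⟨_, by rw [e2, e1]⟩
  obtain ⟨b, hb⟩ := rg hj ((cf_cm (φ := φ j) (bv F p) ρ' (bv F q)).smul r)
  rw [← hb, O.S.cm i j hj.symm] at e3
  have n0 : φ j (br f₂ u u) ≠ 0 := fun h =>
    br_ne_zero hf u0 u0 (phi_injective (φ := φ j) (h.trans (map_zero _).symm))
  have canc : ∀ {b b'}, φ j (br f₂ u u) * φ i b = φ j (br f₂ u u) * φ i b' → b = b' :=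
    fun {b b'} e => by_contra fun h => n0 ((O.S.cm i j hj.symm _).eq_zero_of_mul (sub_ne_zero.2 h)
      (by rw [map_sub, mul_sub, e, sub_self]))
  have b1 : br f₂ x (adj (RingEquiv.refl F) f₂ b *ᵥ y) = b := canc (by
    rw [← br_mul hf, map_mul, ← (O.S.cm i j hj.symm _).left, ← e3]; exact Rho.a_mul hρ')
  have b2 : b * (pr f₂ 1 x y - br f₂ x y) = b := canc (by
    rw [map_mul, ← mul_assoc, ← e3]; exact D.rho_mul hρ')
  generalize adj (RingEquiv.refl F) f₂ b *ᵥ y = v' at b1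
  subst b1
  have b3 : f₂ x v' = 0 := by
    have := congrArg (· *ᵥ x) b2
    simp only [← mulVec_mulVec, sub_mulVec, pr_fix hf H.xx, br_mulVec hf, H.xy, one_smul, sub_self,
      hf.zero_left, zero_smul] at this
    exact (smul_eq_zero.1 this.symm).resolve_right (H.ne hf)
  have b4 : f₂ y v' = 0 := by
    have := congrArg (· *ᵥ y) b2
    simp only [← mulVec_mulVec, sub_mulVec, H.pr_y hf, br_mulVec hf, H.yy, one_smul, sub_self,
      hf.zero_left, zero_smul] at this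
    exact (smul_eq_zero.1 this.symm).resolve_right (H.ne hf)
  have b5 : f₂ v' v' ≠ 0 := fun h0 => r0 (by
    rw [e3, (O.O i).an x y H v' (hf.eq_zero_comm.1 b3) (hf.eq_zero_comm.1 b4) h0, br_zero_right hf,
      map_zero, mul_zero])
  obtain ⟨u', H'⟩ := (O.O j).C.partner u0 hu
  obtain ⟨g, hg, a, ha, e4⟩ := (O.O j).C.trans hu H'.yy u0 (H'.ne' hf)
  have k1 := hR j hj g hg _ hρ'
  rw [e3, map_mul, (O.S.cm j i hj _).cj_gφ, cj_gφ, cj_br hf ((O.O j).C.le hg), e4] at k1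
  have k2 := TOL.comm A H hJ b3 b4 b5 (O.S.cm i j hj.symm _) (O.S.cm i j hj.symm _) (e3 ▸ hρ') k1
  rw [← map_mul, ← map_mul] at k2
  have k3 := congrArg (· *ᵥ u) (phi_injective k2)
  simp only [← mulVec_mulVec, br_mulVec hf, hu, zero_smul, mulVec_zero, hf.smul_left, hf.smul_right,
    H'.xy, H'.yx hf, RingEquiv.refl_apply, mul_one, hf.zero_left] at k3
  exact smul_ne_zero (mul_ne_zero ha ha) u0 (by simpa using k3)

theorem OSys.lev (O : OSys φ M G ε f f₂) (H : HP f₂ x y) {i : τ} (h : ¬ Loc (φ i) M x) :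
    ∃ j, ∃ c ∈ Lev M (φ j (br f₂ x y)) (φ j (pr f₂ 1 x y)) (φ j) true, ¬ Sc c := by
  classical
  obtain ⟨j₀, hj₀, j0⟩ := O.jj_ne H h
  have A := O.A i
  have hf := A.C.ses
  have h2 := (O.O i).two
  have := Fintype.ofFinite F
  let J : AddSubgroup (Matrix ι ι F) :=
    { carrier := {j | JJ (φ i) M f₂ x j}
      add_mem' := A.jj_add H.xx
      zero_mem' := A.jj_zero
      neg_mem' := A.jj_neg H.xx }
  have em : ∀ {v w}, f₂ v x = 0 → f₂ w x = 0 → eo f₂ x v * eo f₂ x w = eo f₂ x (v + w) :=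
    fun {v w} hv hw => by
      rw [eo, eo, eo, elm_mul hf H.xx hv hw]
      congr 1
      simp only [hf.add_left, hf.add_right, PasO.sym hf v w]
      field_simp; ring
  have ng : ∀ {v}, f₂ v x = 0 → f₂ (-v) x = 0 := fun hv => by rw [hf.neg_left, hv, neg_zero]
  have e1 : ∀ {v}, f₂ v x = 0 → eo f₂ x v * eo f₂ x (-v) = 1 := fun hv => by
    rw [em hv (ng hv), add_neg_cancel, eo, elm_zero hf, hf.zero_left]; simp
  let D : τ × (β → F) → Module.End F (Matrix ι ι F) := fun a =>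
    LinearMap.mulLeft F (φ a.1 (eo f₂ x a.2)) * LinearMap.mulRight F (φ a.1 (eo f₂ x (-a.2))) - 1
  have hD : ∀ a z, D a z = φ a.1 (eo f₂ x a.2) * (z * φ a.1 (eo f₂ x (-a.2))) - z := fun _ _ => rfl
  have cm : ∀ l l' {v w}, f₂ v x = 0 → f₂ w x = 0 →
      φ l (eo f₂ x v) * φ l' (eo f₂ x w) = φ l' (eo f₂ x w) * φ l (eo f₂ x v) := fun l l' v w hv hw => by
    by_cases e : l = l'
    · rw [e, ← map_mul, ← map_mul, em hv hw, em hw hv, add_comm]
    · exact O.S.cm l l' e _ _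
  obtain ⟨ζ, hζ, z0, hz⟩ := common_ker (Finset.univ.filter fun a : τ × (β → F) =>
    a.1 ≠ i ∧ f₂ a.2 x = 0) (fun a => (D a).toAddMonoidHom) (fun a ha b hb z => by
      simp only [Finset.mem_filter] at ha hb
      have k1 := cm a.1 b.1 ha.2.2 hb.2.2
      have k2 := cm a.1 b.1 (ng ha.2.2) (ng hb.2.2)
      simp only [LinearMap.toAddMonoidHom_coe, hD, mul_sub, sub_mul, mul_assoc, k2]
      simp only [← mul_assoc, k1]
      abel)
    (fun a ha => by
      simp only [Finset.mem_filter] at ha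
      have n : ∀ {v}, f₂ v x = 0 → IsNilpotent (φ a.1 (eo f₂ x v) - 1) := fun hv =>
        ⟨3, by rw [← map_one (φ a.1), ← map_sub, ← map_pow, eo, elm_sub_one_cube hf H.xx hv, map_zero]⟩
      have l1 := (LinearMap.isNilpotent_mulLeft_iff F _).2 (n ha.2.2)
      have l2 := (LinearMap.isNilpotent_mulRight_iff F _).2 (n (ng ha.2.2))
      obtain ⟨m, hm⟩ := Commute.isNilpotent_add (x := LinearMap.mulLeft F (φ a.1 (eo f₂ x a.2) - 1))
          (y := LinearMap.mulLeft F (φ a.1 (eo f₂ x a.2)) *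
            LinearMap.mulRight F (φ a.1 (eo f₂ x (-a.2)) - 1)) (by
              ext1 z; simp only [Module.End.mul_apply, LinearMap.mulLeft_apply,
                LinearMap.mulRight_apply]; noncomm_ring) l1
          ((LinearMap.commute_mulLeft_right _ _).isNilpotent_mul_left l2)
      refine ⟨m, fun z => ?_⟩
      rw [LinearMap.toAddMonoidHom_coe, ← Module.End.pow_apply, show D a = _ from ?_, hm,
        LinearMap.zero_apply]
      ext1 z
      simp only [hD, LinearMap.add_apply, Module.End.mul_apply, LinearMap.mulLeft_apply,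
        LinearMap.mulRight_apply]
      noncomm_ring)
    J (fun a ha z hz => by
      simp only [Finset.mem_filter] at ha
      obtain ⟨g, hg, e⟩ := mem_matrixSet.1 ((O.O a.1).eo_mem H.xx ha.2.2)
      have hc : Cm (φ i) (gφ (φ a.1) g) := O.S.cm i a.1 ha.2.1.symm _
      have := A.jj_cj ((O.A a.1).sub g hg) (φ' := φ i) (x' := x) (c := 1)
        (by rw [cj_eq_iff, one_smul, hc]) hz (hz.1.cj (mem_KB_of_cm hc))
      rw [one_smul, cj_apply, coe_gφ, coe_gφ_inv, Units.inv_eq_of_mul_eq_one_right (e ▸ e1 ha.2.2), e,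
        mul_assoc] at this
      exact sub_mem (show _ ∈ J from this) hz) (z := j₀) hj₀ j0
  have ce : ∀ j, j ≠ i → ∀ v, f₂ v x = 0 → φ j (eo f₂ x v) * ζ = ζ * φ j (eo f₂ x v) :=
    fun j hj v hv => by
      have h0 : D (j, v) ζ = 0 := hz (j, v) (by simp [hj, hv])
      rw [hD, sub_eq_zero] at h0
      have := congrArg (· * φ j (eo f₂ x v)) h0
      simp only [mul_assoc, ← map_mul] at this
      rwa [mul_eq_one_comm.1 (e1 hv), map_one, mul_one] at this
  have ct : ∀ j, j ≠ i → ∀ ℓ, ∃ (a b : F) (w : β → F), f₂ w x = 0 ∧ f₂ w y = 0 ∧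
      cp (φ j) ℓ ζ = a • (1 : Matrix β β F) + PasO.Nv f₂ x w + b • br f₂ x x := fun j hj ℓ =>
    (O.O j).cent H fun v hv _ => by
      have : (2 : F) • PasO.Nv f₂ x v = eo f₂ x v - eo f₂ x (-v) := by
        simp only [eo_eq, PasO.Nv, hf.neg_left, hf.neg_right, br_neg_left, br_neg_right hf, neg_neg]
        module
      refine smul_right_injective _ h2 ?_
      simp only [← mul_smul_comm, ← smul_mul_assoc (2 : F) (PasO.Nv f₂ x v)]
      rw [this, mul_sub, sub_mul, ← cp_mul_phi, ← cp_mul_phi, ← ce j hj v hv, ← ce j hj _ (ng hv),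
        cp_phi_mul, cp_phi_mul]
  obtain ⟨j, ℓ, hℓ⟩ : ∃ j ℓ, adj (RingEquiv.refl F) f₂ (cp (φ j) ℓ ζ) ≠ cp (φ j) ℓ ζ := by
    by_contra hc
    push Not at hc
    have := O.S.adj_eq_of_cp A.hf hf (fun j => (O.A j).adjφ) hc
    rw [A.jj_adj H.xx (H.ne hf) hζ, one_smul, neg_eq_iff_add_eq_zero, ← two_smul F] at this
    exact smul_ne_zero h2 z0 this
  have hj : j ≠ i := by
    rintro rfl
    exact hℓ (by rw [hζ.1.cp_eq, hf.adj_smul, hf.adj_one]; rfl)
  obtain ⟨a, b, w, w1, w2, e⟩ := ct j hj ℓ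
  have w0 : w ≠ 0 := by
    rintro rfl
    refine hℓ ?_
    simp only [e, PasO.Nv, br_zero_left, br_zero_right hf, sub_self, add_zero, hf.adj_add,
      hf.adj_smul, hf.adj_one, adj_br hf, one_smul, RingEquiv.refl_apply]
  have w3 : f₂ w w ≠ 0 := fun h0 => w0 ((O.O j).an x y H w w1 w2 h0)
  obtain ⟨g, hg, e2⟩ := mem_matrixSet.1 (rfz_mem hf w3)
  have gv : ∀ v, (g : Matrix β β F) *ᵥ v = v - (2 / f₂ w w * f₂ v w) • w := fun v => by
    rw [e2, rfz, sub_mulVec, one_mulVec, smul_mulVec, br_mulVec hf, smul_smul]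
  have gx : (g : Matrix β β F) *ᵥ x = x := by rw [gv, PasO.sym hf x w, w1]; simp
  have k1 : ζ - cj (gφ (φ j) g) ζ ∈ J := by
    have e3 : cj (gφ (φ j) g * (gφ (φ i) g)⁻¹) ζ = cj (gφ (φ j) g) ζ := by
      rw [cj_mul, ← map_inv, hζ.1.cj_gφ]
    have e4 : cj (gφ (φ i) g) (φ i (br f₂ x x)) = φ i (br f₂ x x) := by
      rw [cj_gφ, cj_br hf hg, gx]
    have e5 : cj (gφ (φ i) g)⁻¹ (φ i (br f₂ x x)) = φ i (br f₂ x x) := by
      conv_lhs => rw [← e4, cj_inv_cj]
    have := A.jj_cj (O.tw i j g hg) (φ' := φ i) (x' := x) (c := 1) (by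
      rw [one_smul, cj_mul, e5, (O.S.cm j i hj _).cj_gφ]) hζ
      (e3 ▸ hζ.1.cj (mem_KB_of_cm (O.S.cm i j hj.symm _)))
    rw [one_smul, e3] at this
    exact sub_mem hζ (show _ ∈ J from this)
  have k2 : ∀ ℓ a b w', cp (φ j) ℓ ζ = a • (1 : Matrix β β F) + PasO.Nv f₂ x w' + b • br f₂ x x →
      cp (φ j) ℓ (ζ - cj (gφ (φ j) g) ζ) = (2 / f₂ w w * f₂ w' w) • PasO.Nv f₂ x w :=
    fun ℓ a b w' e => by
      rw [map_sub, cp_cj_gφ, e, map_add, map_add, map_smul, map_smul, map_one, PasO.cj_Nv hf hg,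
        cj_br hf hg, gx, gv, PasO.Nv_sub hf, PasO.Nv_smul hf]
      abel
  have n0 := PasO.Nv_ne_zero hf H w2 w1 w0
  obtain ⟨p, q, r, e3⟩ := pure_of_cp (φ := φ j) (w := ζ - cj (gφ (φ j) g) ζ) n0 fun ℓ => by
    obtain ⟨a, b, w', -, -, e⟩ := ct j hj ℓ
    exact ⟨_, k2 ℓ a b w' e⟩
  have c1 := (cf_cm (φ := φ j) (bv F p) (ζ - cj (gφ (φ j) g) ζ) (bv F q)).smul r
  have c2 := (k1.1.cm_cf (O.S.cm i j hj.symm) (bv F p) (bv F q)).smul r
  generalize r • cf (φ j) (bv F p) (ζ - cj (gφ (φ j) g) ζ) (bv F q) = c at e3 c1 c2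
  refine ⟨j, (O.A j).lev_of_nil h2 H w1 w2 w3 (c1.mul (O.S.cm j i hj (br f₂ x x))) (fun h0 => ?_) ?_ ?_⟩
  · have := k2 ℓ a b w e
    rw [e3, c2.eq_zero_of_mul (br_ne_zero hf (H.ne hf) (H.ne hf)) h0, zero_mul, map_zero,
      div_mul_cancel₀ _ w3] at this
    exact smul_ne_zero h2 n0 this.symm
  · rw [mul_assoc, c2.left, ← map_mul, br_mul_br hf, H.xx]; simp
  · have := k1.2
    rwa [e3, mul_assoc, O.S.cm j i hj, ← mul_assoc] at this

end Cfsg.Agent.H9
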