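import Cfsg.Agent.H9.TOBas

/-! Small orthogonal factors: conjugates of Eichler elements. -/

set_option autoImplicit false
set_option linter.unusedSectionVars false
set_option linter.unusedVariables false
set_option linter.unusedSimpArgs false

namespace Cfsg.Agent.H9

open scoped MatrixGroups Matrix
open Matrix Cfsg.Geo Cfsg.Agent.H98 PasO TOB

universe u

variable {ι β τ : Type} [Fintype ι] [DecidableEq ι] [Fintype β] [DecidableEq β] [Fintype τ]
  [DecidableEq τ] {F : Type u} [Field F]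

variable [Finite F] [Nonempty ι] {M : Subgroup (GL ι F)} {ε : F} {f : (ι → F) → (ι → F) → F}
  {f₂ : (β → F) → (β → F) → F} {x y : β → F} {φ : Matrix β β F →ₐ[F] Matrix ι ι F}
  {G : Subgroup (GL β F)}

namespace TOD

section
variable (hf : IsSesq (RingEquiv.refl F) 1 f₂) (H : HP f₂ x y)
include hf H

theorem sc_of_pure {c δ : Matrix ι ι F} (hc : Cm φ c) (hδ : Cm φ δ) {b : Matrix β β F}
    (e : c * φ b = 1 + δ * φ (br f₂ x x)) : Sc δ := by
  have h1 := congrArg (cf φ (dl f₂ y) · x) e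
  have h2 := congrArg (cf φ (dl f₂ y) · y) e
  simp only [cf_add, cf_one, hc.cf_mul_phi, hδ.cf_mul_phi, br_mulVec hf, dl_dot hf, H.xx, H.xy, H.yy,
    sym hf y x, zero_smul, one_smul, hf.zero_left, add_zero, zero_add] at h1 h2
  have h3 : f₂ (b *ᵥ x) y ≠ 0 := fun h => by simp [h] at h1
  exact h2 ▸ (Sc.of_smul h3 (h1 ▸ Sc.one)).smul _

theorem sq_eo {v : β → F} (hv : f₂ v x = 0) :
    (eo f₂ x v - 1) * (eo f₂ x v - 1) = (-f₂ v v) • br f₂ x x := by
  rw [eo, elm_sub_one_sq hf H.xx hv, one_mul]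

theorem Nv_eq (h2 : (2 : F) ≠ 0) {v : β → F} (hv : f₂ v x = 0) : Nv f₂ x v =
    eo f₂ x v - 1 - (2 : F)⁻¹ • ((eo f₂ x v - 1) * (eo f₂ x v - 1)) := by
  rw [sq_eo hf H hv, eo_eq, smul_smul, div_eq_inv_mul]; module

theorem n_eq {v : β → F} (hv : f₂ v x = 0) (h0 : f₂ v v ≠ 0) :
    br f₂ x x = (-f₂ v v)⁻¹ • ((eo f₂ x v - 1) * (eo f₂ x v - 1)) := by
  rw [sq_eo hf H hv, smul_smul, inv_mul_cancel₀ (neg_ne_zero.2 h0), one_smul]

theorem skew_eq_zero (h2 : (2 : F) ≠ 0) (hk : Fintype.card β ≤ 4) {v w : β → F} (hx : f₂ v x = 0)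
    (hy : f₂ v y = 0) (hv : f₂ v v ≠ 0) (hx' : f₂ w x = 0) (hy' : f₂ w y = 0) (hv' : f₂ w v = 0)
    (hw : f₂ w w ≠ 0) {T : Matrix β β F} (hT : adj (RingEquiv.refl F) f₂ T = -T) (h1 : T *ᵥ x = 0)
    (h3 : T *ᵥ v = 0) (h4 : f₂ (T *ᵥ y) w = 0) : T = 0 := by
  have k : ∀ z u, T *ᵥ u = 0 → f₂ (T *ᵥ z) u = 0 := fun z u h => by
    rw [skew_f hf hT, h, hf.zero_right, neg_zero]
  have four := fun z => eq_zero_of_four hf hk H hx hy hv hx' hy' hv' hw (k z x h1)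
  have h5 := four y (skew_self hf h2 hT y) (k _ _ h3) h4
  have h6 := four w (k _ _ h5) (k _ _ h3) (skew_self hf h2 hT w)
  exact matrix_ext_mulVec fun z => by rw [four z (k _ _ h5) (k _ _ h3) (k _ _ h6), zero_mulVec]

end

theorem stab_le (A : Amb φ M G (RingEquiv.refl F) ε f 1 f₂) (hL : LocA φ M f₂) (H : HP f₂ x y)
    {g : GL ι F} (hg : g ∈ M) (h : Mov φ g x x) : Algebra.adjoin F (StabS G x) ≤ AG φ g :=
  Algebra.adjoin_le (by
    rintro _ ⟨⟨k, hk, rfl⟩, a, ha⟩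
    exact (A.actL hL).mem_of_fix hg ⟨H.ne A.C.ses, H.xx⟩ h hk ha)

theorem Nv_mem (O : OS f₂ G) (H : HP f₂ x y) {v : β → F} (hv : f₂ v x = 0) :
    Nv f₂ x v ∈ Algebra.adjoin F (StabS G x) := by
  have := sub_mem (Algebra.subset_adjoin (R := F) (s := StabS G x) ⟨O.eo_mem H.xx hv, 1, by
    rw [eo, GO.elm_fix O.C.ses _ H.xx (by rw [sym O.C.ses, hv]), one_smul]⟩) (one_mem _)
  rw [Nv_eq O.C.ses H O.two hv]
  exact sub_mem this (Subalgebra.smul_mem _ (mul_mem this this) _)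

end TOD

open TOD

variable (A : Amb φ M G (RingEquiv.refl F) ε f 1 f₂) (O : OS f₂ G)
include A O

theorem eq_zero_of_KB (H : HP f₂ x y) {δ : Matrix ι ι F} (h1 : Cm φ δ)
    (h2 : adj (RingEquiv.refl F) f δ = -δ) {k : GL ι F} (hk : k ∈ KB φ)
    (e : (k : Matrix ι ι F) = 1 + δ * φ (br f₂ x x)) : δ = 0 := by
  obtain ⟨c, l, hc, rfl⟩ := exists_of_mem_KB hk
  obtain ⟨a, rfl⟩ := sc_of_pure A.C.ses H hc h1 e
  rw [A.hf.adj_smul, A.hf.adj_one, eq_neg_iff_add_eq_zero, RingEquiv.refl_apply, ← two_smul F] at h2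
  exact (smul_eq_zero.1 h2).resolve_left O.two

theorem bdec (hL : LocA φ M f₂) (H : HP f₂ x y) {g : GL ι F} (hg : g ∈ M) (h : Mov φ g x x) :
    ∃ ζ, ∃ k ∈ KB φ, Cm φ ζ ∧ adj (RingEquiv.refl F) f ζ = -ζ ∧
      (g : Matrix ι ι F) = (1 + ζ * φ (br f₂ x x)) * k := by
  have hf := A.C.ses
  have hx := H.ne hf
  have hS := stab_le A hL H hg h
  have hn := A.C.br_mem_stab hx H.xx
  have hN := fun v hv => Nv_mem O H (v := v) hv
  have nn : br f₂ x x * br f₂ x x = 0 := by rw [br_mul_br hf, H.xx, zero_smul]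
  have yx : f₂ y x = 1 := by rw [sym hf, H.xy]
  -- the intertwiner
  obtain ⟨c, hc, ec⟩ := h.inv hx
  obtain ⟨ℓ, hℓ⟩ := Module.Projective.exists_dual_eq_one F c.ne_zero
  have l1 : cp φ ℓ g *ᵥ x = x := by
    have := congrArg (fun z => cp φ ℓ z *ᵥ x) (ec (dl f₂ y))
    simpa only [cp_mul_phi, hc.cp_mul_phi, hℓ, one_smul, ← mulVec_mulVec, vmv_mulVec, dl_dot hf,
      H.xy] using this
  have l2 : ∀ s ∈ Algebra.adjoin F (StabS G x), ∃ t, cj g (φ s) = φ t ∧ cp φ ℓ g * s = t * cp φ ℓ g :=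
    fun s hs => by
      obtain ⟨t, ht⟩ := hS hs
      exact ⟨t, ht.symm, by
        rw [← cp_mul_phi, ← cp_phi_mul]; exact congrArg _ ((cj_eq_iff _ _ _).1 ht.symm)⟩
  have l3 : ∀ u, cp φ ℓ g *ᵥ u = 0 → ∀ s ∈ Algebra.adjoin F (StabS G x), ∀ a : F, s *ᵥ u = a • x →
      a = 0 := fun u hu s hs a e => by
    obtain ⟨t, -, ht⟩ := l2 s hs
    have := congrArg (· *ᵥ u) ht
    simp only [← mulVec_mulVec, hu, e, mulVec_smul, l1, mulVec_zero] at this
    exact (smul_eq_zero.1 this).resolve_right hx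
  have l4 : IsUnit (cp φ ℓ g) := Matrix.mulVec_injective_iff_isUnit.1
    ((injective_iff_map_eq_zero (cp φ ℓ g).mulVecLin).2 fun u hu => by
      obtain ⟨w, a1, a2, e⟩ := GO.decomp hf H u
      have b1 := l3 u hu _ hn _ (br_mulVec hf _ _ _)
      have b2 := l3 u hu _ (hN w a1) (f₂ u w) (by rw [Nv_mulVec hf, b1, zero_smul, sub_zero])
      rw [b1, zero_smul, add_zero] at e
      rw [e, hf.add_left, hf.smul_left, sym hf x, a1, mul_zero, add_zero] at b2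
      rw [O.an x y H w a1 a2 b2, zero_add] at e
      rw [e, l3 u hu 1 (one_mem _) (f₂ u y) (by rw [one_mulVec]; exact e), zero_smul])
  obtain ⟨l, hl⟩ := l4
  have l5 : ∀ s ∈ Algebra.adjoin F (StabS G x), cj g (φ s) = φ (cj l s) := fun s hs => by
    obtain ⟨t, h1, h2⟩ := l2 s hs
    rw [h1, (cj_eq_iff _ _ _).2 (hl ▸ h2)]
  -- the centraliser
  obtain ⟨g', hg'⟩ : ∃ g' : GL ι F, g' = (gφ φ l)⁻¹ * g := ⟨_, rfl⟩
  have m1 : ∀ s ∈ Algebra.adjoin F (StabS G x), ∀ ℓ', cp φ ℓ' g' * s = s * cp φ ℓ' g' :=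
    fun s hs ℓ' => by
      rw [← cp_mul_phi, ← cp_phi_mul, ← (cj_eq_iff _ _ _).1 (show cj g' (φ s) = φ s by
        rw [hg', cj_mul, l5 s hs, ← cj_gφ, cj_inv_cj])]
  have m2 : (g' : Matrix ι ι F) = cf φ (dl f₂ y) g' x + cf φ (dl f₂ y) g' y * φ (br f₂ x x) :=
    ext_cp (φ := φ) fun ℓ' => by
      obtain ⟨a, b, w, a1, a2, e⟩ := O.cent H fun v h1 _ => m1 _ (hN v h1) ℓ'
      have := congrArg (· *ᵥ y) (m1 _ (O.piW_mem H) ℓ')
      simp [← mulVec_mulVec, e, add_mulVec, sub_mulVec, mulVec_add, mulVec_sub, smul_mulVec,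
        mulVec_smul, mulVec_neg, br_mulVec hf, Nv_mulVec hf, H.xx, H.xy, H.yy, yx, a1, a2,
        sym hf y w] at this
      rw [map_add, (cf_cm _ _ _).cp_eq, (cf_cm _ _ _).cp_mul_phi, ← dot_cp, ← dot_cp, e, this]
      simp [add_mulVec, smul_mulVec, br_mulVec hf, dl_dot hf, H.xx, H.xy, H.yy, yx, Nv, br_zero_left,
        br_zero_right hf, hf.zero_left, hf.add_left, hf.smul_left]
  have m3 : ∀ ψ, g' * φ (vecMulVec x ψ) = cf φ (dl f₂ y) g' x * φ (vecMulVec x ψ) := fun ψ => by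
    nth_rewrite 1 [m2]
    rw [add_mul, mul_assoc, ← map_mul, br_mul_vmv hf, H.xx, zero_smul, map_zero, mul_zero, add_zero]
  obtain ⟨d, hd, ed⟩ := Mov.inv hx ⟨_, cf_cm _ _ _, m3⟩
  rw [← sub_eq_zero.1 ((hd.sub (cf_cm (dl f₂ y) g' x)).eq_zero_of_mul (br_ne_zero hf hx hx)
    (by rw [sub_mul, br, ← ed, m3, sub_self]))] at m2
  obtain ⟨c₁, c1, m4⟩ : ∃ c₁, Cm φ c₁ ∧ (g' : Matrix ι ι F) = d + c₁ * φ (br f₂ x x) :=
    ⟨_, cf_cm _ _ _, m2⟩
  -- the conjugate of `n`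
  obtain ⟨z, hz⟩ := exists_dl hf (dl f₂ x ᵥ* ((l⁻¹ : GL β F) : Matrix β β F))
  have n1 : cj l (br f₂ x x) = br f₂ x z := by
    rw [cj_apply, br, mul_vmv, vmv_mul, hl, l1, br, hz]
  have n2 : br f₂ z x = br f₂ x z := phi_injective (φ := φ) (by
    have := adj_cj A.hf (A.iso hg) (φ (br f₂ x x))
    rwa [A.adj_br, one_smul, l5 _ hn, n1, A.adj_br, one_smul] at this)
  have n3 : z = f₂ y z • x := by simpa [br_mulVec hf, yx] using congrArg (· *ᵥ y) n2
  rw [n3, br_smul_right hf] at n1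
  have hd' : Cm φ ((d⁻¹ : GL ι F) : Matrix ι ι F) := hd.inv d.mul_inv d.inv_mul
  obtain ⟨ζ, z1, e1⟩ : ∃ ζ, Cm φ ζ ∧
      (g : Matrix ι ι F) = (1 + ζ * φ (br f₂ x x)) * (d * gφ φ l : GL ι F) := by
    refine ⟨f₂ y z • (c₁ * (d⁻¹ : GL ι F)), (c1.mul hd').smul _, ?_⟩
    have e2 := (cj_eq_iff _ _ _).1 n1
    rw [show g = gφ φ l * g' by rw [hg', mul_inv_cancel_left], Units.val_mul, m4, Units.val_mul,
      coe_gφ, mul_add, add_mul, one_mul, hd, c1.left, ← map_mul, e2, map_mul, map_smul,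
      smul_mul_assoc, smul_mul_assoc, smul_mul_assoc, mul_smul_comm, mul_assoc, mul_assoc,
      hd.left, Units.inv_mul_cancel_left, RingEquiv.refl_apply]
  -- making the coefficient skew
  have z2 := A.cm_adj z1
  have u1 : ∀ {a b}, Cm φ b → (1 + a * φ (br f₂ x x)) * (1 + b * φ (br f₂ x x)) =
      1 + (a + b) * φ (br f₂ x x) := fun {a b} hb => by
    rw [add_mul, mul_add, mul_add, mul_assoc a _ (b * _), hb.left, ← map_mul, nn, map_zero, add_mul]
    simp only [mul_one, one_mul, mul_zero, add_zero]; abel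
  have e3 : ((d * gφ φ l : GL ι F) : Matrix ι ι F) = (1 + -ζ * φ (br f₂ x x)) * g := by
    rw [e1, ← mul_assoc, u1 z1]; simp
  obtain ⟨s, hs⟩ := sc_of_pure hf H (hd.mul (A.cm_adj hd)) (z1.neg.add z2.neg)
    (b := l * adj (RingEquiv.refl F) f₂ l) (by
      rw [← u1 z2.neg, map_mul, ← A.adjφ, mul_assoc, ← (A.cm_adj hd).left, A.adjφ, ← A.cm_adj hd,
        ← A.adjφ, ← A.hf.adj_mul, ← mul_assoc, ← coe_gφ, ← Units.val_mul, e3, A.hf.adj_mul, mul_assoc,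
        ← mul_assoc (g : Matrix ι ι F), ms_isom A.hf A.iso (coe_mem_matrixSet hg), one_mul,
        A.hf.adj_add, A.hf.adj_one, A.hf.adj_mul, A.adj_br, one_smul, A.hf.adj_neg, z2.neg])
  have h2 := O.two
  refine ⟨ζ + (s / 2) • 1, gφ φ (mkG (1 - (s / 2) • br f₂ x x) (1 + (s / 2) • br f₂ x x) (by
    simp [mul_add, sub_mul, nn])) * (d * gφ φ l), mul_mem (gφ_mem_KB _) (mul_mem (mem_KB_of_cm hd)
      (gφ_mem_KB _)), z1.add (Cm.one.smul _), ?_, ?_⟩
  · rw [A.hf.adj_add, A.hf.adj_smul, A.hf.adj_one, RingEquiv.refl_apply,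
      show adj (RingEquiv.refl F) f ζ = -ζ - s • 1 by rw [← hs]; abel]
    match_scalars <;> field_simp <;> ring
  · rw [Units.val_mul, ← mul_assoc, coe_gφ, coe_mkG, map_sub, map_one, map_smul, sub_eq_add_neg,
      ← neg_smul, ← one_mul (φ (br f₂ x x)), ← smul_mul_assoc, one_mul, u1 (Cm.one.smul _), e1]
    simp

theorem btype (hL : LocA φ M f₂) (H : HP f₂ x y) {g : GL ι F} (hg : g ∈ M) {v : β → F}
    (h1 : f₂ v x = 0) (h2 : f₂ v y = 0) (h0 : v ≠ 0) (h : cj g (φ (eo f₂ x v)) ∈ φ.range) :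
    ∃ h ∈ G, Mov φ ((gφ φ h * g : GL ι F) : Matrix ι ι F) x x := by
  have := A.C.nonempty
  have hf := A.C.ses
  have h3 := sub_mem (mem_AG.2 h) (one_mem _)
  have h4 : br f₂ x x ∈ AG φ g := n_eq hf H h1 (fun e => h0 (O.an x y H v h1 h2 e)) ▸
    Subalgebra.smul_mem _ (mul_mem h3 h3) _
  obtain ⟨u, hu, hm⟩ := mov_of_cj (H.ne hf) (dl_ne_zero hf (H.ne hf)) h4
  have L := A.actL hL
  obtain ⟨k, hk, a, e⟩ := L.trans u x (L.iso g hg x u ⟨H.ne hf, H.xx⟩ hu hm) ⟨H.ne hf, H.xx⟩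
  exact ⟨k, hk, (mov_phi e).mul hm⟩

theorem ctype (hL : LocA φ M f₂) (H : HP f₂ x y) {g : GL ι F} (hg : g ∈ M) {v : β → F}
    (h1 : f₂ v x = 0) (h2 : f₂ v y = 0) (h0 : v ≠ 0) (h : Cm φ (cj g (φ (eo f₂ x v)))) {w : β → F}
    (h3 : f₂ w x = 0) (h4 : f₂ w y = 0) : Cm φ (cj g (φ (PasO.Nv f₂ x w))) := by
  have hf := A.C.ses
  have two := O.two
  have hv : f₂ v v ≠ 0 := fun e => h0 (O.an x y H v h1 h2 e)
  have c0 : Cm φ (cj g (φ (eo f₂ x v - 1))) := by rw [map_sub, map_sub, map_one, map_one]; exact h.sub Cm.one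
  have c1 : Cm φ (cj g (φ (Nv f₂ x v))) := by
    rw [Nv_eq hf H two h1, map_sub, map_sub, map_smul, map_smul, map_mul, map_mul]
    exact c0.sub ((c0.mul c0).smul _)
  have c2 : Cm φ (cj g (φ (br f₂ x x))) := by
    rw [n_eq hf H h1 hv, map_smul, map_smul, map_mul, map_mul]
    exact (c0.mul c0).smul _
  wlog h5 : f₂ w v = 0 generalizing w
  · have := (this (w := w - (f₂ w v / f₂ v v) • v) (by simp [hf.sub_left, hf.smul_left, h1, h3])
      (by simp [hf.sub_left, hf.smul_left, h2, h4])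
      (by simp [hf.sub_left, hf.smul_left, hv])).add (c1.smul (f₂ w v / f₂ v v))
    rwa [← map_smul, ← map_smul, ← map_add, ← map_add, ← Nv_smul hf, ← Nv_add hf,
      sub_add_cancel] at this
  by_cases h6 : w = 0
  · simpa [h6, Nv, br_zero_left, br_zero_right hf] using Cm.zero
  have hw : f₂ w w ≠ 0 := fun e => h6 (O.an x y H w h3 h4 e)
  have key : ∀ k ∈ G, cj (gφ φ k * gφ φ k) (cj g (φ (Nv f₂ x w))) = cj g (φ (Nv f₂ x w)) := by
    intro k hk
    have ht := M.mul_mem (M.mul_mem (M.inv_mem hg) (A.sub k hk)) hg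
    have cm : ∀ {b}, Cm φ (cj g (φ b)) → cj (g⁻¹ * gφ φ k * g) (φ b) = φ b := fun hb => by
      rw [cj_mul, cj_mul, hb.cj_gφ, cj_inv_cj]
    obtain ⟨s, hs⟩ := stab_le A hL H ht (mov_of_comm (dl_ne_zero hf (H.ne hf))
      ((cj_eq_iff _ _ _).1 (cm c2))) (Nv_mem O H h3)
    replace hs : cj (g⁻¹ * gφ φ k * g) (φ (Nv f₂ x w)) = φ s := hs.symm
    have mul : ∀ {b b'}, Cm φ (cj g (φ b)) → Nv f₂ x w * b = 0 → b *ᵥ y = b' → s *ᵥ b' = 0 :=
      fun {b b'} hb e e' => by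
        rw [← e', mulVec_mulVec, phi_injective (φ := φ) (show φ (s * b) = φ 0 by
          rw [map_mul, ← hs, ← cm hb, ← map_mul, ← map_mul, e, map_zero, map_zero]), zero_mulVec]
    have s1 := mul c2 (Nv_mul_n hf H.xx h3) (b' := x) (by rw [br_mulVec hf, sym hf, H.xy, one_smul])
    have s2 := mul c1 (by rw [Nv_mul hf H.xx h3 h1, sym hf, h5, neg_zero, zero_smul]) (b' := -v)
      (by rw [Nv_mulVec hf, sym hf y, h2, sym hf, H.xy]; simp)
    have s3 : adj (RingEquiv.refl F) f₂ s = -s := phi_injective (φ := φ) (by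
      rw [← A.adjφ, ← hs, adj_cj A.hf (A.iso ht), A.adjφ, adj_Nv hf, map_neg, map_neg, map_neg, hs])
    obtain ⟨a, rfl⟩ : ∃ a : F, s = a • Nv f₂ x w := ⟨-f₂ (s *ᵥ y) w / f₂ w w, sub_eq_zero.1
      (skew_eq_zero hf H two (by have := O.k; omega) h1 h2 hv h3 h4 h5 hw
        (by rw [hf.adj_sub, hf.adj_smul, s3, adj_Nv hf]; simp; abel)
        (by simp [sub_mulVec, smul_mulVec, s1, Nv_mulVec hf, H.xx, sym hf x w, h3])
        (by simp [sub_mulVec, smul_mulVec, neg_eq_zero.1 (mulVec_neg v s ▸ s2), Nv_mulVec hf, h1,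
          sym hf v w, h5])
        (by simp [sub_mulVec, smul_mulVec, Nv_mulVec hf, sym hf y, h4, H.xy, hf.sub_left,
          hf.smul_left, hf.neg_left, hf.add_left, hw]))⟩
    have s4 := congrArg (fun z => z * z) hs
    simp only [← map_mul, Nv_mul hf H.xx h3 h3, smul_mul_smul_comm, map_smul, cm c2] at s4
    replace s4 : (a * a - 1) • -f₂ w w • φ (br f₂ x x) = 0 := by rw [sub_smul, ← s4, one_smul, sub_self]
    rw [smul_eq_zero, smul_eq_zero, ← map_zero φ, phi_injective.eq_iff] at s4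
    have s5 := (s4.resolve_right fun h => h.elim (neg_ne_zero.2 hw)
      (br_ne_zero hf (H.ne hf) (H.ne hf)))
    have s6 := congrArg (cj g) hs
    rw [← cj_mul, ← mul_assoc, ← mul_assoc, mul_inv_cancel, one_mul, cj_mul, map_smul, map_smul] at s6
    rw [cj_mul, s6, map_smul, s6, smul_smul, sub_eq_zero.1 s5, one_smul]
  have := A.C.top_of_br (S := (Subalgebra.centralizer F {cj g (φ (Nv f₂ x w))}).comap φ)
    fun u u0 hu => (A.C.partner u0 hu).elim fun u' H' => A.C.br_mem H' fun z θ a1 a2 a3 => by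
      have a4 : f₂ ((2 : F)⁻¹ • z) u = 0 := by rw [hf.smul_left, a1, mul_zero]
      obtain ⟨k, hk, e⟩ := O.eo_mem hu a4
      have := (cj_eq_iff _ _ _).1 (key k hk)
      rw [← map_mul, coe_gφ, Units.val_mul, show (k : Matrix β β F) = _ from e, eo,
        elm_mul hf hu a4 a4, ← add_smul, show (2 : F)⁻¹ + 2⁻¹ = 1 by field_simp; ring, one_smul,
        show _ - _ = θ by
          rw [Vd, RingEquiv.refl_apply] at a3
          rw [hf.smul_left, smul_r hf]; field_simp; linear_combination (-4 : F) * a3] at this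
      simpa [Subalgebra.mem_centralizer_iff] using this.symm
  exact fun b => ((Subalgebra.mem_centralizer_iff F).1 (this.ge (Algebra.mem_top (x := b))) _ rfl).symm

end Cfsg.Agent.H9
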