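import Cfsg.Agent.H9.TOBas

/-! Small orthogonal factors: Eichler elements normalising the factor. Sketch: notes/TENS.md, Batch 3. -/

set_option autoImplicit false
set_option linter.unusedSectionVars false
set_option linter.unusedVariables false
set_option linter.unusedSimpArgs false

namespace Cfsg.Agent.H9

open scoped MatrixGroups Matrix
open Matrix Cfsg.Geo Cfsg.Agent.H98

universe u

variable {ι β τ : Type} [Fintype ι] [DecidableEq ι] [Fintype β] [DecidableEq β] [Fintype τ]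
  [DecidableEq τ] {F : Type u} [Field F]

variable [Finite F] [Nonempty ι] {M : Subgroup (GL ι F)} {ε : F} {f : (ι → F) → (ι → F) → F}
  {f₂ : (β → F) → (β → F) → F} {x y : β → F} {φ : Matrix β β F →ₐ[F] Matrix ι ι F}
  {G : Subgroup (GL β F)}

namespace TOT

theorem norm (A : Amb φ M G (RingEquiv.refl F) ε f 1 f₂) (p : ℕ) [Fact p.Prime] [CharP F p]
    {k : GL ι F} (hk : k ∈ KB φ) (h1 : (k : Matrix ι ι F) * adj (RingEquiv.refl F) f k = 1)
    (h2 : ((k : Matrix ι ι F) - 1) ^ p = 0) : ∃ c c' b, Cm φ c ∧ (1 + c) * c' = 1 ∧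
      (k : Matrix ι ι F) = (1 + c) * φ (1 + b) ∧
      (1 + b) * adj (RingEquiv.refl F) f₂ (1 + b) = 1 ∧ b ^ p = 0 ∧ c ^ p = 0 := by
  have hf := A.C.ses
  have hF := A.hf
  have := A.C.nonempty
  obtain ⟨c, l, hc, rfl⟩ := exists_of_mem_KB hk
  rw [Units.val_mul, coe_gφ] at h1 h2 ⊢
  have cm : Commute (c : Matrix ι ι F) (φ l) := (hc l).symm
  rw [sub_pow_char_of_commute _ (Commute.one_right _), one_pow, sub_eq_zero, cm.mul_pow,
    ← map_pow] at h2
  have c1 : Cm φ ((c : Matrix ι ι F) ^ p) := fun b => ((show Commute (φ b) c from hc b).pow_right _).eq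
  obtain ⟨a, ha⟩ := scalar_of_cm_phi (c1.inv h2 (mul_eq_one_comm.1 h2))
  obtain ⟨m, rfl⟩ := (Finite.injective_iff_surjective.1 (frobenius F p).injective) a
  rw [frobenius_def] at ha
  have m0 : m ≠ 0 := by
    rintro rfl
    rw [zero_pow (Fact.out : p.Prime).ne_zero, zero_smul] at ha
    exact (l ^ p).ne_zero ha
  have e1 : (m⁻¹ • (l : Matrix β β F)) ^ p = 1 := by
    rw [smul_pow, ha, smul_smul, inv_pow, inv_mul_cancel₀ (pow_ne_zero _ m0), one_smul]
  have e2 : (m • (c : Matrix ι ι F)) ^ p = 1 := by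
    rw [ha, map_smul, map_one, mul_smul_comm, mul_one] at h2
    rw [smul_pow, h2]
  have e3 : (c : Matrix ι ι F) * φ l = (m • (c : Matrix ι ι F)) * φ (m⁻¹ • (l : Matrix β β F)) := by
    rw [map_smul, smul_mul_smul_comm, mul_inv_cancel₀ m0, one_smul]
  have e4 : (m • (c : Matrix ι ι F)) * (m⁻¹ • ((c⁻¹ : GL ι F) : Matrix ι ι F)) = 1 := by
    rw [smul_mul_smul_comm, mul_inv_cancel₀ m0, one_smul, Units.mul_inv]
  have c2 := hc.smul m
  rw [e3] at h1 ⊢
  generalize m • (c : Matrix ι ι F) = d at e2 e4 c2 h1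
  generalize m⁻¹ • (l : Matrix β β F) = t at e1 h1
  have c3 := A.cm_adj c2
  rw [hF.adj_mul, A.adjφ, mul_assoc, ← mul_assoc (φ t), ← map_mul, c3, ← mul_assoc] at h1
  obtain ⟨n, hn⟩ := scalar_of_cm_phi ((c2.mul c3).inv h1 (mul_eq_one_comm.1 h1))
  have n0 : n ≠ 0 := by
    rintro rfl
    rw [hn, zero_smul, map_zero, mul_zero] at h1
    exact zero_ne_one h1
  have e5 : adj (RingEquiv.refl F) f₂ t * t = n • (1 : Matrix β β F) := by
    have : t * (n⁻¹ • adj (RingEquiv.refl F) f₂ t) = 1 := by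
      rw [mul_smul_comm, hn, smul_smul, inv_mul_cancel₀ n0, one_smul]
    rw [← mul_eq_one_comm.1 this, smul_mul_assoc, smul_smul, mul_inv_cancel₀ n0, one_smul]
  have e6 : n = 1 := by
    have := congrArg (· ^ p) hn
    simp only [(show Commute t (adj (RingEquiv.refl F) f₂ t) from hn.trans e5.symm).mul_pow,
      ← hf.adj_pow, e1, hf.adj_one, mul_one, smul_pow, one_pow] at this
    refine (frobenius F p).injective ?_
    rw [frobenius_def, map_one]
    exact smul_left_injective F one_ne_zero (this.symm.trans (one_smul _ _).symm)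
  refine ⟨d - 1, _, t - 1, c2.sub Cm.one, (add_sub_cancel 1 d).symm ▸ e4, ?_, ?_, ?_, ?_⟩
  · rw [add_sub_cancel, add_sub_cancel]
  · rw [add_sub_cancel, hn, e6, one_smul]
  · rw [sub_pow_char_of_commute _ (Commute.one_right _), e1, one_pow, sub_self]
  · rw [sub_pow_char_of_commute _ (Commute.one_right _), e2, one_pow, sub_self]

theorem three_ne (h3 : (3 : F) ≠ 0) {c c' : Matrix ι ι F} {b : Matrix β β F} (hc : Cm φ c)
    (hc' : (1 + c) * c' = 1) (hb : IsNilpotent b) (hb2 : b * b ≠ 0)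
    (h : ((1 + c) * φ (1 + b) - 1) ^ 3 = 0) : c = 0 := by
  classical
  have m3 : 3 ≤ Nat.find hb := (Nat.le_find_iff _ _).2 fun m hm h => hb2 (by
    rw [← pow_two]; exact pow_eq_zero_of_le (by omega) h)
  obtain ⟨n, hn⟩ := Nat.exists_eq_add_of_le m3
  have z1 : b ^ (3 + n) = 0 := hn ▸ Nat.find_spec hb
  have z2 : b ^ (2 + n) ≠ 0 := Nat.find_min hb (by omega)
  have z3 : ∀ m, 3 + n ≤ m → φ b ^ m = 0 := fun m hm => by
    rw [← map_pow, pow_eq_zero_of_le hm z1, map_zero]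
  have cm : ∀ z, φ b * (c * z) = c * (φ b * z) := hc.left b
  have e : ((1 + c) * φ (1 + b) - 1) ^ 3 = c ^ 3 + (3 : F) • (c ^ 2 * (1 + c) * φ b) +
      (3 : F) • (c * (1 + c) ^ 2 * φ b ^ 2) + (1 + c) ^ 3 * φ b ^ 3 := by
    simp only [map_add, map_one, pow_succ, pow_zero, mul_add, add_mul, mul_sub, sub_mul, one_mul,
      mul_one, mul_assoc, cm, hc b]
    module
  rw [e] at h
  have cp : ∀ m, Cm φ (c ^ m) := fun m b => ((show Commute (φ b) c from hc b).pow_right _).eq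
  have c1 := Cm.one.add hc
  have k : ∀ m, c ^ 3 * φ b ^ m + (3 : F) • (c ^ 2 * (1 + c) * φ b ^ (m + 1)) +
      (3 : F) • (c * (1 + c) ^ 2 * φ b ^ (2 + m)) + (1 + c) ^ 3 * φ b ^ (3 + m) = 0 := fun m => by
    have := congrArg (· * φ b ^ m) h
    simp only [zero_mul] at this
    rwa [add_mul, add_mul, add_mul, smul_mul_assoc, smul_mul_assoc, mul_assoc _ (φ b), ← pow_succ',
      mul_assoc _ (φ b ^ 2), mul_assoc _ (φ b ^ 3), ← pow_add, ← pow_add] at this
  have k1 := k (2 + n)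
  rw [z3 (2 + n + 1) (by omega), z3 (2 + (2 + n)) (by omega), z3 (3 + (2 + n)) (by omega)] at k1
  simp only [mul_zero, smul_zero, add_zero, ← map_pow] at k1
  have k2 := k (1 + n)
  rw [(cp 3).eq_zero_of_mul z2 k1, z3 (2 + (1 + n)) (by omega), z3 (3 + (1 + n)) (by omega),
    show 1 + n + 1 = 2 + n by ring] at k2
  simp only [mul_zero, smul_zero, add_zero, zero_mul, zero_add, ← map_pow, smul_eq_zero, h3,
    false_or] at k2
  have k3 := k n
  rw [(cp 3).eq_zero_of_mul z2 k1, ((cp 2).mul c1).eq_zero_of_mul z2 k2, z3 (3 + n) le_rfl] at k3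
  simp only [mul_zero, smul_zero, add_zero, zero_mul, zero_add, ← map_pow, smul_eq_zero, h3,
    false_or, pow_two (1 + c)] at k3
  have := congrArg (· * (c' * c')) ((hc.mul (c1.mul c1)).eq_zero_of_mul z2 k3)
  simp only [mul_assoc, zero_mul] at this
  rwa [← mul_assoc _ c', hc', one_mul, hc', mul_one] at this

theorem rank_add (a b : Matrix ι ι F) : (a + b).rank ≤ a.rank + b.rank := by
  unfold Matrix.rank
  rw [mulVecLin_add]
  exact (Submodule.finrank_mono (LinearMap.range_add_le _ _)).trans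
    (Submodule.finrank_add_le_finrank_add_finrank _ _)

theorem exists_dual {b : Matrix β β F} (h3 : b * (b * b) = 0) (h2 : b * b ≠ 0) :
    ∃ y ψ : β → F, ψ ⬝ᵥ y = 0 ∧ ψ ⬝ᵥ b *ᵥ y = 0 ∧ ψ ⬝ᵥ b *ᵥ b *ᵥ y = 1 ∧ b *ᵥ b *ᵥ b *ᵥ y = 0 := by
  obtain ⟨y, hy⟩ : ∃ y, b *ᵥ b *ᵥ y ≠ 0 := by
    by_contra h
    push Not at h
    exact h2 (matrix_ext_mulVec fun v => by rw [← mulVec_mulVec, h, zero_mulVec])
  have z : b *ᵥ b *ᵥ b *ᵥ y = 0 := by rw [mulVec_mulVec, mulVec_mulVec, mul_assoc, h3, zero_mulVec]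
  obtain ⟨ψ, h4, h5⟩ := exists_dot_of_not_mem (W := Submodule.span F {y, b *ᵥ y})
    (u := b *ᵥ b *ᵥ y) fun h => by
      obtain ⟨r, s, e⟩ := Submodule.mem_span_pair.1 h
      have e1 := congrArg (b *ᵥ ·) e
      have e2 := congrArg (b *ᵥ ·) e1
      simp only [mulVec_add, mulVec_smul, z, mulVec_zero, smul_zero, add_zero, smul_eq_zero, hy,
        or_false] at e1 e2
      rw [e2, zero_smul, zero_add, smul_eq_zero, or_iff_left hy] at e1
      rw [e1, e2] at e
      exact hy (by simpa using e.symm)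
  exact ⟨y, ψ, h4 _ (Submodule.subset_span (by simp)), h4 _ (Submodule.subset_span (by simp)), h5, z⟩

theorem rank_ge [Nonempty β] (hf : IsSesq (RingEquiv.refl F) 1 f₂) (hk : 4 ≤ Fintype.card β)
    {c c' : Matrix ι ι F} {b : Matrix β β F} (hc : Cm φ c) (hc' : (1 + c) * c' = 1) (c0 : c ≠ 0)
    (h3 : b * (b * b) = 0) (h2 : b * b ≠ 0) :
    2 * dd φ + 1 ≤ ((1 + c) * φ (1 + b) - 1).rank := by
  obtain ⟨y, ψ, a1, a2, a3, a4⟩ := exists_dual h3 h2
  obtain ⟨w, w0, w1, w2⟩ : ∃ w, w ≠ 0 ∧ b *ᵥ w = 0 ∧ ψ ⬝ᵥ w = 0 := by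
    obtain ⟨t0, e0⟩ := exists_dl hf ψ
    obtain ⟨t1, e1⟩ := exists_dl hf (ψ ᵥ* b)
    obtain ⟨t2, e2⟩ := exists_dl hf (ψ ᵥ* b ᵥ* b)
    obtain ⟨w, w0, hw⟩ := exists_perp hf (m := 3) hk ![t0, t1, t2]
    have b0 : ψ ⬝ᵥ w = 0 := by rw [← e0, dl_dot hf]; exact hw 0
    have b1 : ψ ⬝ᵥ b *ᵥ w = 0 := by rw [dotProduct_mulVec, ← e1, dl_dot hf]; exact hw 1
    have b2 : ψ ⬝ᵥ b *ᵥ b *ᵥ w = 0 := by
      rw [dotProduct_mulVec, dotProduct_mulVec, ← e2, dl_dot hf]; exact hw 2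
    by_cases d1 : b *ᵥ w = 0
    · exact ⟨w, w0, d1, b0⟩
    by_cases d2 : b *ᵥ b *ᵥ w = 0
    · exact ⟨_, d1, d2, b1⟩
    · exact ⟨_, d2, by rw [mulVec_mulVec, mulVec_mulVec, mul_assoc, h3, zero_mulVec], b2⟩
  obtain ⟨v0, hv0, n0⟩ := hc.exists_V0 c0
  have c1 := Cm.one.add hc
  have inj : ∀ v, (1 + c) *ᵥ v = 0 → v = 0 := fun v hv => by
    rw [← one_mulVec v, ← mul_eq_one_comm.1 hc', ← mulVec_mulVec, hv, mulVec_zero]
  have := finrank_le_rank (W := V0 φ × V0 φ × F) ((tvL φ y).coprod ((tvL φ (b *ᵥ y)).coprod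
    (LinearMap.toSpanSingleton F _ (tv φ w v0)))) ((1 + c) * φ (1 + b) - 1) (by
      rintro ⟨v1, v2, a⟩ h
      have e : (1 + c) * φ (1 + b) - 1 = c + (1 + c) * φ b := by rw [map_add, map_one]; noncomm_ring
      simp only [e, LinearMap.coprod_apply, tvL_apply, LinearMap.toSpanSingleton_apply, add_mulVec c,
        mulVec_add, mulVec_smul, ← mulVec_mulVec, phi_tv, hc.mulVec_tv, c1.mulVec_tv, w1,
        tv_zero_left, mulVec_zero, add_zero] at h
      have m1 := hc.mulVec_mem v1.2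
      have m2 := hc.mulVec_mem v2.2
      have m3 := c1.mulVec_mem v1.2
      have m4 := c1.mulVec_mem v2.2
      have m5 := hc.mulVec_mem hv0
      have k1 := congrArg (ev φ ψ) h
      have k2 := congrArg (ev φ (ψ ᵥ* b)) h
      simp only [ev_add, ev_smul, ev_zero, ev_tv _ _ m1, ev_tv _ _ m2, ev_tv _ _ m3, ev_tv _ _ m4,
        ev_tv _ _ m5, ← dotProduct_mulVec, a1, a2, a3, a4, w1, w2, zero_smul, one_smul, smul_zero,
        add_zero, zero_add, dotProduct_zero] at k1 k2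
      have z2 := inj _ k1
      rw [z2, mulVec_zero, zero_add] at k2
      have z1 := inj _ k2
      simp only [z1, z2, mulVec_zero, tv_zero, zero_add, smul_zero, add_zero, smul_eq_zero] at h
      rw [show v1 = 0 from Subtype.ext z1, show v2 = 0 from Subtype.ext z2,
        h.resolve_right fun h => n0 (tv_eq_zero w0 m5 h)]
      rfl)
  simp only [Module.finrank_prod, Module.finrank_self] at this
  unfold dd
  omega

end TOT

variable (A : Amb φ M G (RingEquiv.refl F) ε f 1 f₂) (O : OS f₂ G)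
include A O

theorem tri_o (hL : LocA φ M f₂) (H : HP f₂ x y) {g : GL ι F} (hg : g ∈ M) {v : β → F}
    (h1 : f₂ v x = 0) (h2 : f₂ v y = 0) {e : GL β F} (he : (e : Matrix β β F) = eo f₂ x v)
    (h : g * gφ φ e * g⁻¹ ∈ KB φ) : cj g (φ e) ∈ φ.range ∨ Cm φ (cj g (φ e)) := by
  have hf := O.C.ses
  have hF := A.hf
  have two := O.two
  have := O.C.nonempty
  obtain ⟨p, hp⟩ := CharP.exists F
  have pp : Fact p.Prime := ⟨CharP.char_is_prime F p⟩
  have p3 : 3 ≤ p := by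
    have := pp.out.two_le
    have : p ≠ 2 := by rintro rfl; exact two (by exact_mod_cast CharP.cast_eq_zero F 2)
    omega
  have eG : e ∈ G := mem_of_ms (he ▸ O.eo_mem H.xx h1)
  have kM : g * gφ φ e * g⁻¹ ∈ M := mul_mem (mul_mem hg (A.sub e eG)) (inv_mem hg)
  have ek : ((g * gφ φ e * g⁻¹ : GL ι F) : Matrix ι ι F) = cj g (φ e) := by
    rw [cj_apply, Units.val_mul, Units.val_mul, coe_gφ]
  have k3 : (cj g (φ e) - 1) ^ 3 = 0 := by
    rw [← map_one (cj g), ← map_one φ, ← map_sub, ← map_sub, ← map_pow, ← map_pow, he, eo,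
      elm_sub_one_cube hf H.xx h1, map_zero, map_zero]
  obtain ⟨c, c', b, hc, hc', e1, e2, e3, e4⟩ := TOT.norm A p h
    (by rw [(mem_Isom hF).1 (A.iso kM), Units.mul_inv]) (by rw [ek]; exact pow_eq_zero_of_le p3 k3)
  rw [ek] at e1
  by_cases c0 : c = 0
  · exact Or.inl ⟨1 + b, by rw [e1, c0, add_zero, one_mul]; rfl⟩
  by_cases b0 : b = 0
  · exact Or.inr (by rw [e1, b0, add_zero, map_one, mul_one]; exact Cm.one.add hc)
  exfalso
  have b2 : b * b ≠ 0 := fun h => b0 (add_eq_left.1 (O.unip_sq e2 (by rwa [add_sub_cancel_left])))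
  by_cases h3 : (3 : F) = 0
  swap
  · exact c0 (TOT.three_ne h3 hc hc' ⟨p, e3⟩ b2 (e1 ▸ k3))
  obtain rfl : p = 3 := ((Nat.prime_dvd_prime_iff_eq pp.out Nat.prime_three).1
    ((CharP.cast_eq_zero_iff F p 3).1 (by exact_mod_cast h3)))
  rw [pow_three] at e3 e4
  rcases O.k with k | k
  swap
  · have r1 := TOT.rank_ge hf k.ge hc hc' c0 e3 b2
    have r2 : cj g (φ e) - 1 = cj g (φ (br f₂ x (v + (-f₂ v v / 2) • x)) + φ (br f₂ (-v) x)) := by
      rw [← map_one (cj g), ← map_one φ, ← map_sub, ← map_sub, ← map_add, he, eo, elm,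
        br_add_right hf, br_smul_right hf, br_neg_left, one_smul, RingEquiv.refl_apply]
      congr 2
      abel
    rw [← e1, r2] at r1
    have r3 := (r1.trans (rank_cj_le _ _)).trans (TOT.rank_add _ _)
    have r4 := rank_phi_vmv_le (φ := φ) x (dl f₂ (v + (-f₂ v v / 2) • x))
    have r5 := rank_phi_vmv_le (φ := φ) (-v) (dl f₂ x)
    rw [br, br] at r3
    omega
  have q3 : Nat.card F ≠ 3 := fun h => O.hex ⟨k, h⟩
  have q7 : 7 ≤ Nat.card F := by
    have := Fintype.ofFinite F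
    obtain ⟨n, -, hn⟩ := FiniteField.card F 3
    rw [Nat.card_eq_fintype_card, hn] at q3 ⊢
    have : (n : ℕ) ≠ 1 := fun h => q3 (by rw [h]; rfl)
    have := Nat.pow_le_pow_right (n := 3) (by norm_num) (show 2 ≤ (n : ℕ) by have := n.pos; omega)
    omega
  obtain ⟨a, a0, a1⟩ := PasO.exists_sq_ne two q3
  obtain ⟨y', ψ, d1, d2, d3, d4⟩ := TOT.exists_dual e3 b2
  obtain ⟨t, ht, et⟩ := mem_matrixSet.1 (ms_cj (A.ms (O.eo_mem H.xx (v := a • v)
    (by rw [hf.smul_left, h1, mul_zero]))) hg)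
  have e5 : eo f₂ x (a • v) = 1 + a • (eo f₂ x v - 1) + (a - a * a) • ((eo f₂ x v - 1) *
      (eo f₂ x v - 1)) := by
    rw [eo, eo, elm_sub_one_sq hf H.xx h1]
    simp only [elm, br_smul_left, br_smul_right hf, RingEquiv.refl_apply, hf.smul_left, PasO.smul_r hf]
    match_scalars <;> try ring1
    field_simp
    linear_combination (f₂ v v * (1 - a)) * h3
  have cm : ∀ z, φ b * (c * z) = c * (φ b * z) := hc.left b
  have e6 : (t : Matrix ι ι F) = (1 + a • c + (a - a * a) • (c * c)) * φ 1 +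
      (a • (1 + c) + (2 * (a - a * a)) • (c * (1 + c))) * φ b +
      ((a - a * a) • ((1 + c) * (1 + c))) * φ (b * b) := by
    rw [et, e5, ← he]
    simp only [map_add, map_smul, map_mul, map_sub, map_one, e1, mul_add, add_mul, mul_sub, sub_mul,
      one_mul, mul_one, mul_assoc, cm, hc b, smul_mul_assoc]
    module
  have c1 := Cm.one.add hc
  have s0 : Cm φ (1 + a • c + (a - a * a) • (c * c)) := (Cm.one.add (hc.smul _)).add ((hc.mul hc).smul _)
  have s1 : Cm φ (a • (1 + c) + (2 * (a - a * a)) • (c * (1 + c))) :=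
    (c1.smul _).add ((hc.mul c1).smul _)
  have s2 : Cm φ ((a - a * a) • ((1 + c) * (1 + c))) := (c1.mul c1).smul _
  have u0 : b *ᵥ b *ᵥ y' ≠ 0 := fun h => by simp [h] at d3
  have u1 : f₂ (b *ᵥ b *ᵥ y') (b *ᵥ b *ᵥ y') = 0 := by
    have := congrArg (· *ᵥ (b *ᵥ b *ᵥ y')) (mul_eq_one_comm.1 e2)
    simp only [← mulVec_mulVec, add_mulVec, one_mulVec, d4, add_zero, hf.adj_add, hf.adj_one,
      add_eq_left] at this
    rw [hf.adj_spec, this, hf.zero_right]
  obtain ⟨d, l, hd, rfl⟩ := exists_of_mem_KB ((A.actL hL).mem_KB (geoL_o O.C two (Or.inr q7)) ht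
    ⟨u0, u1⟩ u0 ⟨_, s0, fun χ => by
      simp only [e6, add_mul, mul_assoc _ (φ _) (φ _), ← map_mul, mul_vmv, ← mulVec_mulVec, d4,
        one_mulVec, mulVec_zero]
      simp⟩)
  rw [Units.val_mul, coe_gφ] at e6
  have k1 := congrArg (cf φ ψ · y') e6
  have k2 := congrArg (cf φ (ψ ᵥ* b ᵥ* b) · y') e6
  simp only [cf_add, hd.cf_mul_phi, s0.cf_mul_phi, s1.cf_mul_phi, s2.cf_mul_phi, ← mulVec_mulVec,
    ← dotProduct_mulVec, one_mulVec, d1, d2, d3, d4, mulVec_zero, dotProduct_zero, zero_smul,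
    one_smul, add_zero, zero_add] at k1 k2
  generalize ψ ⬝ᵥ (l : Matrix β β F) *ᵥ y' = r at k1
  generalize ψ ⬝ᵥ b *ᵥ b *ᵥ (l : Matrix β β F) *ᵥ y' = s at k2
  have k4 : s • (a - a * a) • ((1 + c) * (1 + c)) = r • (1 + a • c + (a - a * a) • (c * c)) := by
    rw [← k1, ← k2, smul_comm]
  have s3 : s ≠ 0 := by
    rintro rfl
    have := congrArg (c * ·) k2
    have t2 := congrArg (c * ·) this
    simp only [zero_smul, mul_zero, mul_add, mul_one, mul_smul_comm, e4, smul_zero, add_zero] at this t2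
    rw [← t2, smul_zero, add_zero] at this
    exact c0 this.symm
  have n1 : s * (a - a * a) * (2 - a) ≠ 0 := by
    refine mul_ne_zero (mul_ne_zero s3 fun h => a1 ?_) fun h => a1 ?_
    · have : a = 1 := mul_left_cancel₀ a0 (by linear_combination -h)
      rw [this, one_mul]
    · linear_combination (-a - 2) * h + h3
  have k5 := congrArg (c * ·) k4
  have k6 := congrArg (c * ·) k5
  simp only [mul_add, add_mul, mul_one, one_mul, mul_smul_comm, e4, mul_zero, smul_zero,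
    add_zero] at k4 k5 k6
  by_cases c2 : c * c = 0
  · simp only [c2, smul_zero, add_zero, smul_smul] at k4 k5
    rw [← smul_left_injective F c0 k5] at k4
    exact smul_ne_zero n1 c0 (by linear_combination (norm := module) k4)
  · rw [smul_smul] at k6
    rw [← smul_left_injective F c2 k6] at k5
    exact smul_ne_zero n1 c2 (by linear_combination (norm := module) k5)

end Cfsg.Agent.H9
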