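import Cfsg.Agent.H9.TOBas

/-! Small orthogonal factors over a prime field: nilpotent deformations. Sketch: notes/TENS.md, Batch 3. -/

set_option autoImplicit false
set_option linter.unusedSectionVars false
set_option linter.unusedVariables false
set_option linter.unusedSimpArgs false

namespace Cfsg.Agent.H9

open scoped MatrixGroups Matrix
open Matrix Cfsg.Geo Cfsg.Agent.H98

universe u

variable {ι β τ : Type} [Fintype ι] [DecidableEq ι] [Fintype β] [DecidableEq β] [Fintype τ]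
  [DecidableEq τ] {F : Type u} [Field F]

namespace TZ

variable {M : Subgroup (GL ι F)} {φ : Matrix β β F →ₐ[F] Matrix ι ι F} {ζ : Matrix ι ι F}

variable (φ M) in
/-- The leading terms at level `s + 1`. -/
def LL (hp : ∀ a : F, ∃ n : ℕ, a = n) (h1 : Cm φ ζ) (s : ℕ) : Submodule F (Matrix β β F) :=
  have cb : ∀ b, Commute ζ (φ b) := fun b => (h1 b).symm
  have z : ∃ a, Commute ζ a ∧ 1 + ζ ^ (s + 1) * (φ 0 + ζ * a) ∈ matrixSet M :=
    ⟨0, Commute.zero_right _, by simpa using ms_one⟩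
  have ad : ∀ {b b'}, (∃ a, Commute ζ a ∧ 1 + ζ ^ (s + 1) * (φ b + ζ * a) ∈ matrixSet M) →
      (∃ a, Commute ζ a ∧ 1 + ζ ^ (s + 1) * (φ b' + ζ * a) ∈ matrixSet M) →
      ∃ a, Commute ζ a ∧ 1 + ζ ^ (s + 1) * (φ (b + b') + ζ * a) ∈ matrixSet M := by
    rintro b b' ⟨a, ha, h⟩ ⟨a', ha', h'⟩
    have c1 := (cb b).add_right ((Commute.refl ζ).mul_right ha)
    have c2 := (cb b').add_right ((Commute.refl ζ).mul_right ha')
    refine ⟨a + a' + ζ ^ s * ((φ b + ζ * a) * (φ b' + ζ * a')), (ha.add_right ha').add_right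
      (((Commute.refl ζ).pow_right s).mul_right (c1.mul_right c2)), ?_⟩
    convert ms_mul h h' using 1
    have e : φ (b + b') + ζ * (a + a' + ζ ^ s * ((φ b + ζ * a) * (φ b' + ζ * a'))) =
        (φ b + ζ * a) + (φ b' + ζ * a') + ζ ^ (s + 1) * ((φ b + ζ * a) * (φ b' + ζ * a')) := by
      rw [map_add, pow_succ']; noncomm_ring
    rw [e]
    generalize φ b + ζ * a = A at c1
    generalize φ b' + ζ * a' = A' at c2
    have := (c1.pow_left (s + 1)).eq
    generalize ζ ^ (s + 1) = w at this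
    simp only [mul_add, add_mul, one_mul, mul_one, mul_assoc]
    rw [← mul_assoc A w, ← this, mul_assoc]
    abel
  { carrier := {b | ∃ a, Commute ζ a ∧ 1 + ζ ^ (s + 1) * (φ b + ζ * a) ∈ matrixSet M}
    add_mem' := ad
    zero_mem' := z
    smul_mem' := fun c b hb => by
      obtain ⟨n, rfl⟩ := hp c
      induction n with
      | zero => rw [Nat.cast_zero, zero_smul]; exact z
      | succ n ih => rw [Nat.cast_succ, add_smul, one_smul]; exact ad ih hb }

variable {hp : ∀ a : F, ∃ n : ℕ, a = n} {h1 : Cm φ ζ}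

theorem mem_LL {s : ℕ} {b : Matrix β β F} : b ∈ LL M φ hp h1 s ↔
    ∃ a, Commute ζ a ∧ 1 + ζ ^ (s + 1) * (φ b + ζ * a) ∈ matrixSet M := Iff.rfl

theorem inv_ex {c : Matrix ι ι F} (hc : Commute ζ c) (h : 1 + ζ * c ∈ matrixSet M) :
    ∃ w, Commute ζ w ∧ 1 + ζ * w ∈ matrixSet M ∧ (1 + ζ * c) * (1 + ζ * w) = 1 := by
  obtain ⟨g, hg, e⟩ := mem_matrixSet.1 h
  have c1 : Commute ζ (g : Matrix ι ι F) :=
    e ▸ (Commute.one_right ζ).add_right ((Commute.refl ζ).mul_right hc)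
  have k : (1 + ζ * c) * (1 + ζ * (-c * ((g⁻¹ : GL ι F) : Matrix ι ι F))) = 1 := by
    have c2 : (1 + ζ * c) * (ζ * c) = ζ * c * g := by rw [e]; noncomm_ring
    rw [mul_add, mul_one, neg_mul, mul_neg, mul_neg, ← mul_assoc ζ, ← mul_assoc, c2, mul_assoc,
      Units.mul_inv, mul_one, add_neg_cancel_right]
  exact ⟨_, hc.neg_right.mul_right c1.units_inv_right, ms_inv h k, k⟩

theorem lie {s : ℕ} {b b' : Matrix β β F} (h : b ∈ LL M φ hp h1 s) (h' : b' ∈ LL M φ hp h1 0) :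
    b * b' - b' * b ∈ LL M φ hp h1 (s + 1) := by
  have cb : ∀ b, Commute ζ (φ b) := fun b => (h1 b).symm
  obtain ⟨a, ha, h⟩ := h
  obtain ⟨a', ha', h'⟩ := h'
  rw [zero_add, pow_one] at h'
  have r := Commute.refl ζ
  have c1 := (cb b).add_right (r.mul_right ha)
  have c2 := (cb b').add_right (r.mul_right ha')
  have e : (φ b + ζ * a) * (φ b' + ζ * a') - (φ b' + ζ * a') * (φ b + ζ * a) = φ (b * b' - b' * b) +
      ζ * (φ b * a' + a * (φ b' + ζ * a') - (φ b' * a + a' * (φ b + ζ * a))) := by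
    simp only [map_sub, map_mul, mul_add, add_mul, mul_sub, mul_assoc, h1.left]
    abel
  have c3 : Commute ζ (φ b * a' + a * (φ b' + ζ * a') - (φ b' * a + a' * (φ b + ζ * a))) :=
    (((cb b).mul_right ha').add_right (ha.mul_right c2)).sub_right
      (((cb b').mul_right ha).add_right (ha'.mul_right c1))
  generalize φ b * a' + a * (φ b' + ζ * a') - (φ b' * a + a' * (φ b + ζ * a)) = d at e c3
  generalize φ b + ζ * a = A at c1 e h
  generalize φ b' + ζ * a' = A' at c2 e h'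
  have k : (1 + ζ * A') * (1 + ζ ^ (s + 1) * A) = 1 + ζ * (A' + ζ ^ s * A + A' * (ζ ^ (s + 1) * A)) := by
    rw [pow_succ']; noncomm_ring
  obtain ⟨w, hw, w1, w2⟩ := inv_ex (M := M) ((c2.add_right ((r.pow_right s).mul_right c1)).add_right
    (c2.mul_right ((r.pow_right _).mul_right c1))) (k ▸ ms_mul h' h)
  refine ⟨d + (A * A' - A' * A) * w, c3.add_right (((c1.mul_right c2).sub_right
    (c2.mul_right c1)).mul_right hw), ?_⟩
  convert ms_mul (ms_mul h h') w1 using 1
  have k2 : (1 + ζ ^ (s + 1) * A) * (1 + ζ * A') = (1 + ζ * A') * (1 + ζ ^ (s + 1) * A) +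
      ζ ^ (s + 1 + 1) * (A * A' - A' * A) := by
    have e1 : A * (ζ * A') = ζ * (A * A') := by rw [← mul_assoc, ← c1.eq, mul_assoc]
    have e2 : ζ * (A' * (ζ ^ (s + 1) * A)) = ζ ^ (s + 1) * (ζ * (A' * A)) := by
      rw [← mul_assoc A', ← (c2.pow_left _).eq, ← mul_assoc, ← mul_assoc, (r.pow_right _).eq]
      simp only [mul_assoc]
    rw [pow_succ _ (s + 1)]
    simp only [mul_add, add_mul, mul_sub, one_mul, mul_one, mul_assoc, e1, e2]
    abel
  have k3 : (A * A' - A' * A) * (ζ * w) = ζ * ((A * A' - A' * A) * w) := by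
    rw [← mul_assoc, ← ((c1.mul_right c2).sub_right (c2.mul_right c1)).eq, mul_assoc]
  rw [k2, k, add_mul, w2, mul_assoc, mul_add (A * A' - A' * A), mul_one, k3, mul_add ζ d, ← add_assoc,
    ← e]

theorem invS {G : Subgroup (GL β F)} (h : ∀ g ∈ G, gφ φ g ∈ M) (s : ℕ) :
    InvS G (LL M φ hp h1 s : Set (Matrix β β F)) := by
  rintro g hg b ⟨a, ha, hb⟩
  have := ms_cj hb (h g hg)
  rw [map_add, map_one, map_mul, map_pow, map_add, map_mul, h1.cj_gφ, cj_gφ] at this
  refine ⟨_, ?_, this⟩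
  have := ha.map (cj (gφ φ g))
  rwa [h1.cj_gφ] at this

end TZ

variable [Finite F] [Nonempty ι] {M : Subgroup (GL ι F)} {ε : F} {f : (ι → F) → (ι → F) → F}
  {f₂ : (β → F) → (β → F) → F} {x y : β → F} {φ : Matrix β β F →ₐ[F] Matrix ι ι F}
  {G : Subgroup (GL β F)} (A : Amb φ M G (RingEquiv.refl F) ε f 1 f₂) (O : OS f₂ G)
include A O

open TZ in
theorem zeta_zero (hp : ∀ a : F, ∃ n : ℕ, a = n) (hL : LocA φ M f₂) (H : HP f₂ x y) {g k : GL ι F}
    (hg : g ∈ M) (hk : k ∈ KB φ) {ζ : Matrix ι ι F} (h1 : Cm φ ζ)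
    (h2 : adj (RingEquiv.refl F) f ζ = -ζ) (h3 : IsNilpotent ζ)
    (e : (g : Matrix ι ι F) = (1 + ζ * φ (br f₂ x x)) * k) : ζ = 0 := by
  have hf := O.C.ses
  have hF := A.hf
  have two := O.two
  have I := invS (hp := hp) (h1 := h1) A.sub
  obtain ⟨v, v1, v2, v3⟩ := PasO.exists_v O.C two H
  have H' := GO.hp_symm hf H
  -- one singular point gives all
  have all : ∀ s {u}, f₂ u u = 0 → u ≠ 0 → br f₂ u u ∈ LL M φ hp h1 s → ∀ w, f₂ w w = 0 →
      br f₂ w w ∈ LL M φ hp h1 s := fun s u hu u0 h w hw => by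
    by_cases w0 : w = 0
    · rw [w0, br_zero_left]; exact zero_mem _
    obtain ⟨t, ht, a, ha, e⟩ := O.C.trans hu hw u0 w0
    have : cj t (br f₂ u u) ∈ LL M φ hp h1 s := I s t ht _ h
    rwa [cj_br hf (O.C.le ht), e, br_smul_left, br_smul_right hf, RingEquiv.refl_apply,
      Submodule.smul_mem_iff _ ha, Submodule.smul_mem_iff _ ha] at this
  have op : ∀ s {u b}, f₂ u u = 0 → b ∈ LL M φ hp h1 s → f₂ (b *ᵥ u) u ≠ 0 → ∀ w, f₂ w w = 0 →
      br f₂ w w ∈ LL M φ hp h1 s := fun s u b hu hb h0 => by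
    have u0 : u ≠ 0 := by rintro rfl; exact h0 (hf.zero_right _)
    obtain ⟨T, hT, e⟩ := PasO.opE1 O.C two O.hex hu u0
    have := Op.mem hT (I s) hb
    rw [e, Submodule.smul_mem_iff _ h0] at this
    exact all s hu u0 this
  have ev : eo f₂ y v *ᵥ x = x + (-f₂ v v / 2) • y - v := by
    rw [eo, elm_mulVec hf, PasO.sym hf x v, v1, H.xy]; simp
  have base : ∀ w, f₂ w w = 0 → br f₂ w w ∈ LL M φ hp h1 0 := by
    obtain ⟨b, hb, eb⟩ := mem_matrixSet.1 (O.eo_mem H.yy v2)
    obtain ⟨l, hl⟩ := hk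
    have nn : ∀ z, φ (br f₂ x x) * (φ (br f₂ x x) * z) = 0 := fun z => by
      rw [← mul_assoc, ← map_mul, br_mul_br hf, H.xx]; simp
    have u1 : (1 + ζ * φ (br f₂ x x)) * (1 - ζ * φ (br f₂ x x)) = 1 := by
      have := nn 1
      rw [mul_one] at this
      simp only [mul_sub, add_mul, one_mul, mul_one, mul_assoc, h1.left, this, mul_zero]; abel
    have u2 : mkG _ _ u1 ∈ Isom (RingEquiv.refl F) f := (mem_Isom hF).2 (by
      rw [coe_mkG, coe_mkG_inv, hF.adj_add, hF.adj_one, hF.adj_mul, h2, A.adj_br, one_smul, mul_neg,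
        h1, sub_eq_add_neg])
    have e1 : g = mkG _ _ u1 * k := Units.ext e
    have e2 : cj g (φ (cj l⁻¹ (b : Matrix β β F))) = cj (mkG _ _ u1) (φ b) := by
      rw [e1, cj_mul, hl, cj_cj_inv]
    have m1 : cj l⁻¹ (b : Matrix β β F) ∈ matrixSet G := O.un _ (phi_injective (φ := φ) (by
      rw [map_mul, ← A.adjφ, map_one]
      refine (cj g).injective ?_
      rw [map_mul, ← adj_cj hF (A.iso hg), e2, adj_cj hF u2, ← map_mul, A.adjφ, ← map_mul,
        (mem_Isom hf).1 (O.C.le hb), Units.mul_inv, map_one, map_one, map_one]))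
      (by rw [← map_one (cj l⁻¹), ← map_sub, ← map_pow, eb, eo, elm_sub_one_cube hf H.yy v2, map_zero])
    have m2 := ms_mul (ms_cj (A.ms m1) hg) (A.ms (mem_matrixSet.2 ⟨b⁻¹, inv_mem hb, rfl⟩))
    have m3 : br f₂ x x - cj b (br f₂ x x) ∈ LL M φ hp h1 0 := by
      refine ⟨-φ (br f₂ x x * cj b (br f₂ x x)), (show Commute ζ _ from (h1 _).symm).neg_right, ?_⟩
      convert m2 using 1
      have k : φ b * φ ((b⁻¹ : GL β F) : Matrix β β F) = 1 := by rw [← map_mul, Units.mul_inv, map_one]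
      rw [e2, cj_apply, cj_apply, coe_mkG, coe_mkG_inv]
      simp only [zero_add, pow_one, map_sub, map_mul, mul_sub, sub_mul, mul_add, add_mul, mul_neg,
        one_mul, mul_one, mul_assoc, h1.left, k]
      abel
    refine op 0 H.xx m3 ?_
    rw [cj_br hf (O.C.le hb), eb, ev, sub_mulVec, br_mulVec hf, br_mulVec hf]
    simp only [hf.sub_left, hf.add_left, hf.smul_left, hf.sub_right, hf.add_right, PasO.smul_r hf,
      H.xx, H.xy, H'.xy, v1, PasO.sym hf x v]
    simpa [two] using v3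
  have step : ∀ s, (∀ w, f₂ w w = 0 → br f₂ w w ∈ LL M φ hp h1 s) ∨
      ∀ u w, f₂ u u = 0 → f₂ w u = 0 → PasO.Nv f₂ u w ∈ LL M φ hp h1 s := fun s => by
    induction s with
    | zero => exact Or.inl base
    | succ s ih =>
      rcases ih with ih | ih
      · refine Or.inr fun u w hu hw => ?_
        by_cases u0 : u = 0
        · rw [u0, PasO.Nv, br_zero_left, br_zero_right hf, sub_zero]; exact zero_mem _
        obtain ⟨u', K⟩ := O.C.partner u0 hu
        have k1 := lie (ih u hu) (base u' K.yy)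
        rw [br_mul_br hf, br_mul_br hf, K.xy, (GO.hp_symm hf K).xy, one_smul, one_smul] at k1
        obtain ⟨b, hb, eb⟩ := mem_matrixSet.1 (O.eo_mem hu hw)
        have k2 : cj b (PasO.Nv f₂ u u') ∈ LL M φ hp h1 (s + 1) := I _ b hb _ k1
        have k3 := sub_mem (show PasO.Nv f₂ u u' ∈ _ from k1) k2
        rwa [PasO.cj_Nv hf (O.C.le hb), eb, eo, elm_mulVec hf, elm_mulVec hf, hu, PasO.sym hf u w, hw,
          (GO.hp_symm hf K).xy, mul_zero, mul_zero, add_zero, zero_smul, zero_smul, add_zero, sub_zero,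
          PasO.Nv_sub hf, PasO.Nv_add hf, PasO.Nv_smul hf, PasO.Nv_self, smul_zero, add_zero, mul_one,
          one_smul, sub_sub_cancel] at k3
      · refine Or.inl (op _ (u := x + (-f₂ v v / 2) • y - v) ?_ (lie (ih x v H.xx v1) (base y H.yy)) ?_)
        · simp only [hf.sub_left, hf.add_left, hf.smul_left, hf.sub_right, hf.add_right,
            PasO.smul_r hf, H.xx, H.yy, H.xy, H'.xy, v1, v2, PasO.sym hf x v, PasO.sym hf y v]
          field_simp; ring
        · simp only [sub_mulVec, ← mulVec_mulVec, br_mulVec hf, TOB.Nv_mulVec hf, mulVec_smul,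
            hf.sub_left, hf.add_left, hf.smul_left, hf.sub_right, hf.add_right,
            PasO.smul_r hf, H.xx, H.yy, H.xy, H'.xy, v1, v2, PasO.sym hf x v, PasO.sym hf y v]
          convert mul_ne_zero two v3 using 1
          field_simp; ring
  have fin : ∀ s, ζ ^ (s + 1 + 1) = 0 → ζ ^ (s + 1) = 0 := fun s hs => by
    obtain ⟨b, b0, bx, a, ha, hb⟩ : ∃ b, b ≠ 0 ∧ b *ᵥ x = 0 ∧ b ∈ LL M φ hp h1 s := by
      rcases step s with h | h
      · exact ⟨_, br_ne_zero hf (H.ne hf) (H.ne hf), by rw [br_mulVec hf, H.xx, zero_smul], h x H.xx⟩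
      · exact ⟨_, PasO.Nv_ne_zero hf H v2 v1 (by rintro rfl; exact v3 (hf.zero_left _)),
          by rw [TOB.Nv_mulVec hf, H.xx, PasO.sym hf x v, v1]; simp, h x v H.xx v1⟩
    rw [mul_add, ← mul_assoc, ← pow_succ, hs, zero_mul, add_zero] at hb
    obtain ⟨t, ht, et⟩ := mem_matrixSet.1 hb
    have k1 := hL x (H.ne hf) H.xx t ht fun ψ => by
      rw [et, add_mul, one_mul, mul_assoc, ← map_mul, mul_vmv, bx]; simp
    have k2 := sub_mem k1 (one_mem φ.range)
    rw [et, add_sub_cancel_left] at k2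
    have c : Cm φ (ζ ^ (s + 1)) := fun b => ((show Commute (φ b) ζ from h1 b).pow_right _).eq
    exact Sc.eq_zero (scalar_of_mul_mem_range c b0 k2) (by
      rw [← pow_add, show s + 1 + (s + 1) = s + 1 + 1 + s by ring, pow_add, hs, zero_mul])
  obtain ⟨m, hm⟩ := h3
  have : ∀ m, ζ ^ (m + 1) = 0 → ζ = 0 := fun m => by
    induction m with
    | zero => simp
    | succ m ih => exact fun h => ih (fin m h)
  exact this m (by rw [pow_succ, hm, zero_mul])

end Cfsg.Agent.H9
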