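import Cfsg.Agent.H9.TOSys
import Cfsg.Agent.H9.TODec
import Cfsg.Agent.H9.TOTri
import Cfsg.Agent.H9.TZeta

/-! Small orthogonal factors: the equivariant projection. -/

set_option autoImplicit false
set_option linter.unusedSectionVars false
set_option linter.unusedVariables false
set_option linter.unusedSimpArgs false

namespace Cfsg.Agent.H9

open scoped MatrixGroups Matrix
open Matrix Cfsg.Geo Cfsg.Agent.H98 PasO

universe u

variable {ι β τ : Type} [Fintype ι] [DecidableEq ι] [Fintype β] [DecidableEq β] [Fintype τ]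
  [DecidableEq τ] {F : Type u} [Field F]

variable [Finite F] [Nonempty ι] {M : Subgroup (GL ι F)} {ε : F} {f : (ι → F) → (ι → F) → F}
  {f₂ : (β → F) → (β → F) → F} {x y : β → F}

namespace TOP

theorem isPGroup_closure {G : Type*} [Group G] {p : ℕ} {S : Set G}
    (hc : ∀ a ∈ S, ∀ b ∈ S, a * b = b * a) (hp : ∀ a ∈ S, a ^ p = 1) :
    IsPGroup p (Subgroup.closure S) := by
  have h1 := Subgroup.closure_le_centralizer_centralizer S
  refine fun ⟨u, hu⟩ => ⟨1, Subtype.ext ?_⟩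
  rw [pow_one, SubgroupClass.coe_pow, OneMemClass.coe_one]
  induction hu using Subgroup.closure_induction with
  | mem a ha => exact hp a ha
  | one => exact one_pow p
  | mul a b ha hb h h' => rw [Commute.mul_pow (Set.centralizer_centralizer_comm_of_comm hc _ (h1 ha) _ (h1 hb)), h, h',
      one_mul]
  | inv a ha h => rw [inv_pow, h, inv_one]

theorem prime_field (h2 : (2 : F) ≠ 0) (h : ¬ 7 ≤ Nat.card F) (a : F) : ∃ n : ℕ, a = n := by
  have := Fintype.ofFinite F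
  have h1 := FiniteField.odd_card_of_char_ne_two (F := F) fun e => h2 (by
    exact_mod_cast e ▸ ringChar.Nat.cast_ringChar (R := F))
  have h3 := Fintype.one_lt_card (α := F)
  rw [Nat.card_eq_fintype_card] at h
  have hp : (Fintype.card F).Prime := by
    obtain h4 | h4 : Fintype.card F = 3 ∨ Fintype.card F = 5 := by omega
    all_goals rw [h4]; norm_num
  have : Fact (Fintype.card F).Prime := ⟨hp⟩
  obtain ⟨b, rfl⟩ := (ZMod.ringEquivOfPrime F hp rfl).surjective a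
  exact ⟨b.val, by rw [← map_natCast (ZMod.ringEquivOfPrime F hp rfl), ZMod.natCast_zmod_val]⟩

section
variable (hf : IsSesq (RingEquiv.refl F) 1 f₂) (h2 : (2 : F) ≠ 0) (hx : f₂ x x = 0) {v w : β → F}
include hf h2 hx

theorem eo_mul (hv : f₂ v x = 0) (hw : f₂ w x = 0) : eo f₂ x v * eo f₂ x w = eo f₂ x (v + w) := by
  rw [eo, eo, eo, elm_mul hf hx hv hw, hf.add_left, hf.add_right, hf.add_right, sym hf v w]
  congr 1
  field_simp
  ring

omit hx in
theorem eo_neg : eo f₂ x (-v) = 1 - Nv f₂ x v - (f₂ v v / 2) • br f₂ x x := by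
  rw [eo_eq, ← neg_one_smul F v, Nv_smul hf, hf.smul_left, smul_r hf]
  simp [sub_eq_add_neg]

omit hx in
theorem Nv_eq : Nv f₂ x v = (2 : F)⁻¹ • (eo f₂ x v - eo f₂ x (-v)) := by
  rw [eq_inv_smul_iff₀ h2, eo_neg hf h2, eo_eq]; module

omit hx h2 in
theorem eo_zero : eo f₂ x 0 = 1 := by simp [eo_eq, Nv, br_zero_left, br_zero_right hf, hf.zero_left]

theorem eo_pow (hv : f₂ v x = 0) (m : ℕ) : eo f₂ x v ^ m = eo f₂ x ((m : F) • v) := by
  induction m with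
  | zero => simp [eo_zero hf]
  | succ m ih =>
    rw [pow_succ, ih, eo_mul hf h2 hx (by rw [hf.smul_left, hv, mul_zero]) hv, Nat.cast_succ,
      add_smul, one_smul]

omit h2 in
theorem eo_fix (hv : f₂ v x = 0) : eo f₂ x v *ᵥ x = (1 : F) • x := by
  rw [eo, GO.elm_fix hf _ hx (by rw [sym hf, hv]), one_smul]

end

variable {φ : Matrix β β F →ₐ[F] Matrix ι ι F}

variable (φ) in
/-- The units of the centraliser of a factor. -/
def CG : Subgroup (GL ι F) where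
  carrier := {g | Cm φ g}
  mul_mem' := fun h h' => Cm.mul h h'
  one_mem' := Cm.one
  inv_mem' := fun {g} h => Cm.inv h g.mul_inv g.inv_mul

theorem conj_mem_KB {g : GL ι F} {e : GL β F} (h : cj g⁻¹ (φ e) ∈ φ.range ∨ Cm φ (cj g⁻¹ (φ e))) :
    g⁻¹ * gφ φ e * g ∈ KB φ := by
  rw [← coe_gφ, cj_coe, inv_inv] at h
  exact h.elim (fun h => (exists_gφ h).elim fun x hx => hx ▸ gφ_mem_KB x) mem_KB_of_cm

/-- Sums of conjugates by Eichler elements. -/
theorem nrm_eq (hf : IsSesq (RingEquiv.refl F) 1 f₂) (h2 : (2 : F) ≠ 0) (hx : f₂ x x = 0)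
    {A : Type u} [AddCommGroup A] [Fintype A] (L : A →+ (β → F)) (hL : ∀ a, f₂ (L a) x = 0)
    {e : A → GL β F} (he : ∀ a, (e a : Matrix β β F) = eo f₂ x (L a)) (hA : (Fintype.card A : F) = 0)
    (hs : ∀ T : (β → F) → Matrix ι ι F, (∀ (c : F) a, T (c • a) = (c * c) • T a) →
      (∀ a b, T (a + b) + T (a - b) = (2 : F) • T a + (2 : F) • T b) → ∑ a, T (L a) = 0)
    (w : Matrix ι ι F) : ∃ γ, Cm φ γ ∧ nrm (fun a => gφ φ (e a)) w = γ * φ (br f₂ x x) := by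
  have hi : ∀ a, (((e a)⁻¹ : GL β F) : Matrix β β F) = eo f₂ x (-L a) := fun a =>
    Units.inv_eq_of_mul_eq_one_right (by
      rw [he, eo_mul hf h2 hx (hL a) (by rw [hf.neg_left, hL, neg_zero]), add_neg_cancel, eo_zero hf])
  obtain ⟨n, hn⟩ : ∃ n, n = φ (br f₂ x x) := ⟨_, rfl⟩
  obtain ⟨T, hT⟩ : ∃ T : (β → F) → Matrix ι ι F, ∀ a, T a =
    -(φ (Nv f₂ x a) * w * φ (Nv f₂ x a)) - (f₂ a a / 2) • (n * w + w * n) := ⟨_, fun _ => rfl⟩
  have h1 := hs T (fun c a => by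
    simp only [hT, Nv_smul hf, map_smul, hf.smul_left, smul_r hf, smul_mul_assoc, mul_smul_comm]
    module) (fun a b => by
    simp only [hT, Nv_add hf, Nv_sub hf, map_add, map_sub, hf.add_left, hf.add_right, hf.sub_left,
      hf.sub_right, add_mul, mul_add, sub_mul, mul_sub]
    match_scalars <;> field_simp <;> ring)
  refine ⟨(∑ a, f₂ (L a) (L a) ^ 2 / 4) • cf φ (dl f₂ x) w x, (cf_cm _ _ _).smul _, ?_⟩
  have h3 : cf φ (dl f₂ x) w x * φ (br f₂ x x) = n * w * n := by rw [hn, br, sandwich]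
  have h4 : (4 : F) ≠ 0 := by rw [show (4 : F) = 2 * 2 by norm_num]; exact mul_ne_zero h2 h2
  refine smul_right_injective _ h2 ?_
  simp only
  rw [nrm_apply, two_smul, smul_mul_assoc, h3]
  nth_rewrite 1 [← Equiv.sum_comp (Equiv.neg A) (fun a => cj (gφ φ (e a)) w)]
  rw [← Finset.sum_add_distrib, Finset.sum_congr rfl (g := fun a => (2 : F) • (w + T (L a) +
    (f₂ (L a) (L a) ^ 2 / 4) • (n * w * n))), ← Finset.smul_sum, Finset.sum_add_distrib,
    Finset.sum_add_distrib, h1, Finset.sum_const, ← Nat.cast_smul_eq_nsmul F, Finset.card_univ, hA,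
    Finset.sum_smul, zero_smul, zero_add, zero_add]
  intro a _
  simp only [cj_apply, coe_gφ, coe_gφ_inv, hi, he, Equiv.neg_apply, map_neg, neg_neg, eo_neg hf h2,
    hT]
  simp only [eo_eq, map_sub, map_add, map_one, map_smul, ← hn, add_mul, mul_add, sub_mul, mul_sub,
    one_mul, mul_one, smul_mul_assoc, mul_smul_comm]
  match_scalars <;> field_simp <;> ring

variable {G : Subgroup (GL β F)} (A : Amb φ M G (RingEquiv.refl F) ε f 1 f₂) (O : OS f₂ G)
  (hL : LocA φ M f₂) (H : HP f₂ x y) {g : GL ι F} (hg : g ∈ M)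
include A O hL H hg

theorem rng {v : β → F} (h1 : f₂ v x = 0) (h2 : f₂ v y = 0) (h0 : v ≠ 0)
    (h : cj g⁻¹ (φ (eo f₂ x v)) ∈ φ.range) :
    (∀ w, f₂ w x = 0 → cj g⁻¹ (φ (eo f₂ x w)) ∈ φ.range) ∧ ∃ g₁ ∈ M, Mov φ g₁ x x ∧
      g₁⁻¹ * g ∈ KB φ := by
  obtain ⟨k, hk, hm⟩ := btype A O hL H (M.inv_mem hg) h1 h2 h0 h
  have h3 := M.mul_mem (A.sub k hk) (M.inv_mem hg)
  refine ⟨fun w hw => ?_, _, M.inv_mem h3, hm.symm (H.ne A.C.ses), by simpa using gφ_mem_KB k⟩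
  obtain ⟨e, he, ee⟩ := O.eo_mem H.xx hw
  have := cj_mem_range ((KB φ).inv_mem (gφ_mem_KB k)) (mem_AG.1 ((A.actL hL).mem_of_fix h3
    ⟨H.ne A.C.ses, H.xx⟩ hm he (a := 1) (by rw [show (e : Matrix β β F) = _ from ee,
      eo_fix A.C.ses H.xx hw])))
  rwa [cj_mul, cj_inv_cj, show (e : Matrix β β F) = _ from ee] at this

theorem cmt {v : β → F} (h1 : f₂ v x = 0) (h2 : f₂ v y = 0) (h0 : v ≠ 0)
    (h : Cm φ (cj g⁻¹ (φ (eo f₂ x v)))) {w : β → F} (h3 : f₂ w x = 0) (h4 : f₂ w y = 0) :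
    Cm φ (cj g⁻¹ (φ (eo f₂ x w))) := by
  have h5 := ctype A O hL H (M.inv_mem hg) h1 h2 h0 h h3 h4
  have h6 := (h5.mul h5).smul (2 : F)⁻¹
  rw [← map_mul, ← map_mul, Nv_mul A.C.ses H.xx h3 h3, ← map_smul, ← map_smul, smul_smul] at h6
  have := (Cm.one.add h5).add h6
  rwa [← map_one (cj g⁻¹), ← map_one φ, ← map_add, ← map_add, ← map_add, ← map_add, mul_neg,
    neg_smul, ← sub_eq_add_neg, ← div_eq_inv_mul, ← eo_eq] at this

end TOP

open TOP

variable {φ : τ → Matrix β β F →ₐ[F] Matrix ι ι F} {G : τ → Subgroup (GL β F)}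

theorem TOP.fix (O : OSys φ M G ε f f₂) {i : τ} (hL : LocA (φ i) M f₂) (H : HP f₂ x y) {g : GL ι F}
    (hg : g ∈ M) (hm : Mov (φ i) g x x) (h : ∀ j, j ≠ i → ∀ w, f₂ w x = 0 → f₂ w y = 0 →
      ∀ e : GL β F, (e : Matrix β β F) = eo f₂ x w → g⁻¹ * gφ (φ j) e * g ∈ KB (φ i)) :
    g ∈ KB (φ i) := by
  have A := O.A i
  have hf := A.C.ses
  have h2 := (O.O i).two
  have := A.C.nonempty
  by_cases h7 : 7 ≤ Nat.card F
  · exact (A.actL hL).mem_KB (geoL_o A.C h2 (Or.inr h7)) hg ⟨H.ne hf, H.xx⟩ (H.ne hf) hm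
  obtain ⟨ζ, k, hk, h3, h4, e⟩ := bdec A (O.O i) hL H hg hm
  have hn : φ i (br f₂ x x) * φ i (br f₂ x x) = 0 := by
    rw [← map_mul, br_mul_br hf, H.xx, zero_smul, map_zero]
  have e1 : ((g * k⁻¹ : GL ι F) : Matrix ι ι F) = 1 + ζ * φ i (br f₂ x x) := by
    rw [Units.val_mul, e, Units.mul_inv_cancel_right]
  have e2 : (((g * k⁻¹)⁻¹ : GL ι F) : Matrix ι ι F) = 1 - ζ * φ i (br f₂ x x) :=
    Units.inv_eq_of_mul_eq_one_right (by
      rw [e1, add_mul, mul_sub, mul_sub, mul_assoc ζ, mul_assoc ζ, h3.left, hn]; simp)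
  have key : ∀ j, j ≠ i → ∀ w, f₂ w x = 0 → f₂ w y = 0 →
      φ j (eo f₂ x w) * ζ = ζ * φ j (eo f₂ x w) := fun j hj w a1 a2 => by
    obtain ⟨e, he, ee⟩ := (O.O j).eo_mem H.xx a1
    have c1 : Cm (φ i) (gφ (φ j) e : GL ι F) := O.S.cm i j hj.symm _
    have c2 := h3.cj (mem_KB_of_cm c1)
    have := eq_zero_of_KB A (O.O i) H (c2.sub h3) (by
      rw [A.hf.adj_sub, adj_cj A.hf (A.iso ((O.A j).sub e he)), h4, map_neg]; abel)
      (k := (g * k⁻¹)⁻¹ * (gφ (φ j) e * (g * k⁻¹) * (gφ (φ j) e)⁻¹)) (by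
        have := mul_mem (mul_mem (mul_mem hk (h j hj w a1 a2 e ee)) (inv_mem hk))
          (inv_mem (mem_KB_of_cm c1))
        simpa [mul_assoc] using this) (by
        rw [Units.val_mul, ← cj_coe, e1, e2, map_add, map_one, map_mul,
          (cj_eq_iff _ _ _).2 (c1 _).symm, sub_mul, mul_add, mul_add, mul_assoc ζ, mul_assoc ζ,
          c2.left, hn, sub_mul]
        simp only [mul_one, one_mul, mul_zero, add_zero]; abel)
    rwa [sub_eq_zero, cj_eq_iff, coe_gφ, show (e : Matrix β β F) = _ from ee] at this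
  have := zeta_zero A (O.O i) (prime_field h2 h7) hL H hg hk h3 h4 (O.nil_of_fix H h3
    (fun j hj v a1 a2 => by
      rw [Nv_eq hf h2, map_smul, map_sub, smul_mul_assoc, mul_smul_comm, sub_mul, mul_sub,
        key j hj v a1 a2, key j hj (-v) (by rw [hf.neg_left, a1, neg_zero])
          (by rw [hf.neg_left, a2, neg_zero])]) h4) e
  rw [this, zero_mul, add_zero, one_mul] at e
  exact Units.ext e ▸ hk

theorem TOP.fam {G : Subgroup (GL β F)} (O : OS f₂ G) (H : HP f₂ x y) :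
    ∃ (A : Type u) (_ : AddCommGroup A) (_ : Fintype A) (L : A →+ (β → F)),
      (∀ a, f₂ (L a) x = 0 ∧ f₂ (L a) y = 0) ∧ (∀ a, a ≠ 0 → L a ≠ 0) ∧ (∃ a : A, a ≠ 0) ∧
      (Fintype.card A : F) = 0 ∧ ∀ T : (β → F) → Matrix ι ι F,
      (∀ (c : F) a, T (c • a) = (c * c) • T a) →
      (∀ a b, T (a + b) + T (a - b) = (2 : F) • T a + (2 : F) • T b) → ∑ a, T (L a) = 0 := by
  have := Fintype.ofFinite F
  have hf := O.C.ses
  obtain ⟨v, a1, a2, a3⟩ := exists_v O.C O.two H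
  by_cases h3 : Nat.card F = 3
  · obtain ⟨w, b1, b2, b3, b4⟩ := exists_ns' hf O.two (by have := O.k; have := O.hex; omega) H a1 a2 a3
    refine ⟨F × F, inferInstance, inferInstance, AddMonoidHom.mk' (fun a => a.1 • v + a.2 • w)
      fun a b => by simp only [Prod.fst_add, Prod.snd_add]; module, fun a => ?_, fun a ha h => ha ?_,
      ⟨1, one_ne_zero⟩, by simp, fun T h1 h2 => smul_right_injective _ O.two ?_⟩
    · simp [hf.add_left, hf.smul_left, a1, a2, b1, b2]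
    · have c1 := congrArg (f₂ · v) h
      have c2 := congrArg (f₂ · w) h
      simp [hf.add_left, hf.smul_left, hf.zero_left, a3, b3, b4, sym hf v w] at c1 c2
      exact Prod.ext c1 c2
    simp only [two_smul, AddMonoidHom.mk'_apply]
    nth_rewrite 2 [← Equiv.sum_comp ((Equiv.refl F).prodCongr (Equiv.neg F))]
    simp only [Equiv.prodCongr_apply, Prod.map_fst, Prod.map_snd, Equiv.refl_apply, Equiv.neg_apply,
      neg_smul, ← sub_eq_add_neg, ← Finset.sum_add_distrib, h2]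
    rw [Finset.sum_add_distrib, Fintype.sum_prod_type, Fintype.sum_prod_type_right]
    simp [← Nat.cast_smul_eq_nsmul F]
  obtain ⟨l, l0, l1⟩ := exists_sq_ne O.two h3
  refine ⟨F, inferInstance, inferInstance, AddMonoidHom.mk' (fun a => a • v)
    fun a b => add_smul a b v, fun a => ?_, fun a ha => smul_ne_zero ha ?_, ⟨1, one_ne_zero⟩,
    by simp, fun T h1 h2 => smul_right_injective _ (sub_ne_zero.2 l1) ?_⟩
  · simp [hf.smul_left, a1, a2]
  · rintro rfl; exact a3 (hf.zero_left _)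
  simp only [sub_smul, one_smul, smul_zero, AddMonoidHom.mk'_apply, Finset.smul_sum, ← h1, smul_smul]
  rw [Finset.sum_sub_distrib]
  exact sub_eq_zero.2 (Equiv.sum_comp (Equiv.mulLeft₀ l l0) fun a => T (a • v))

theorem OSys.exists_Pi (O : OSys φ M G ε f f₂) (hL : ∀ i, LocA (φ i) M f₂) (i : τ) :
    ∃ Pi : Matrix ι ι F →ₗ[F] Matrix ι ι F, (∀ g ∈ M, ∀ z, Pi (cj g z) = cj g (Pi z)) ∧
      ∀ c, Cm (φ i) c → ∀ s, adj (RingEquiv.refl F) f₂ s = -s →
        Pi (c * φ i s) = φ i (ptr (φ i) (c * φ i s)) := by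
  obtain ⟨Pi, hP, h⟩ := H9.exists_Pi (φ i) M
  refine ⟨Pi, hP, fun c hc s hs => sub_eq_zero.1 ?_⟩
  have A := O.A i
  have Os := O.O i
  have hf := A.C.ses
  have h2 := Os.two
  refine Os.skew_span (Z := LinearMap.ker (dfc (φ i) Pi c)) (fun x w hx hw => ?_) hs
  by_cases h0 : x = 0
  · simp [h0, Nv, br_zero_left, br_zero_right hf]
  obtain ⟨y, H⟩ := A.C.partner h0 hx
  obtain ⟨v, a1, a2, ew⟩ := GO.decomp hf H w
  rw [ew, hw, zero_smul, add_zero, Nv_add hf, Nv_smul hf, Nv_self, smul_zero, add_zero,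
    LinearMap.mem_ker]
  obtain ⟨B, _, _, L, hW, hi, ⟨b₀, hb₀⟩, hB, hs⟩ := TOP.fam (ι := ι) Os H
  choose e he ee using fun a => Os.eo_mem H.xx (hW a).1
  replace ee : ∀ a, (e a : Matrix β β F) = eo f₂ x (L a) := ee
  let S : Set (GL ι F) := {u | ∃ j, j ≠ i ∧ ∃ w, f₂ w x = 0 ∧ f₂ w y = 0 ∧ ∃ e : GL β F,
    (e : Matrix β β F) = eo f₂ x w ∧ u = gφ (φ j) e}
  have hS : Subgroup.closure S ≤ CG (φ i) := (Subgroup.closure_le _).2 (by
    rintro _ ⟨j, hj, w, -, -, e, -, rfl⟩; exact O.S.cm i j hj.symm _)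
  have tri : ∀ g ∈ M, ∀ a, g⁻¹ * gφ (φ i) (e a) * g ∈ KB (φ i) →
      cj g⁻¹ (φ i (eo f₂ x (L a))) ∈ (φ i).range ∨ Cm (φ i) (cj g⁻¹ (φ i (eo f₂ x (L a)))) :=
    fun g hg a h => ee a ▸ tri_o A Os (hL i) H (M.inv_mem hg) (hW a).1 (hW a).2 (ee a)
      (by rwa [inv_inv])
  have key : ∀ g ∈ M, (∀ a, g⁻¹ * gφ (φ i) (e a) * g ∈ KB (φ i)) →
      (¬ ∀ a, Cm (φ i) (cj g⁻¹ (gφ (φ i) (e a) : GL ι F))) →
      ∃ g₁ ∈ M, Mov (φ i) g₁ x x ∧ g₁⁻¹ * g ∈ KB (φ i) := fun g hg h1 h3 => by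
    obtain ⟨a, ha⟩ := not_forall.1 h3
    rw [coe_gφ, ee] at ha
    exact (rng A Os (hL i) H hg (hW a).1 (hW a).2 (fun h => ha (by
      rw [h, eo_zero hf, map_one, map_one]; exact Cm.one)) ((tri g hg a (h1 a)).resolve_right ha)).2
  have hn : ∀ {ζ}, Cm (φ i) ζ → ∀ {u : GL ι F}, (u : Matrix ι ι F) = 1 + ζ * φ i (br f₂ x x) →
      ∀ {d}, Cm (φ i) d → cj u (d * φ i (Nv f₂ x v)) = d * φ i (Nv f₂ x v) := fun hζ u hu d hd => by
    rw [cj_eq_iff, hu, add_mul, mul_add, mul_assoc, mul_assoc d _ (_ * _), hd.left, hζ.left,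
      ← map_mul, ← map_mul, n_mul_Nv hf hx a1, Nv_mul_n hf hx a1]
    simp
  refine (h B (fun a => gφ (φ i) (e a)) (fun a b => by
      rw [← map_mul]; congr 1
      exact Units.ext (by rw [Units.val_mul, ee, ee, ee, eo_mul hf h2 hx (hW a).1 (hW b).1, map_add]))
    (fun a => A.sub _ (he a)) (fun a => gφ_mem_KB _) (fun h => ?_)
    (fun g hg a ha h1 a' => conj_mem_KB (ee a' ▸ (tri g hg a h1).imp
      (fun h => (rng A Os (hL i) H hg (hW a).1 (hW a).2 (hi a ha) h).1 _ (hW a').1)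
      fun h => cmt A Os (hL i) H hg (hW a).1 (hW a).2 (hi a ha) h (hW a').1 (hW a').2))
    (Subgroup.closure S) ((Subgroup.closure_le _).2 (by
      rintro _ ⟨j, hj, w, b1, -, e, he, rfl⟩
      exact (O.A j).sub e (mem_of_ms (he ▸ (O.O j).eo_mem hx b1))))
    (fun u hu => mem_KB_of_cm (hS hu)) (isPGroup_closure ?_ ?_)
    (fun u hu a => Units.ext (hS hu (e a)).symm) (fun g hg h1 h3 h4 => ?_) (c * φ i (Nv f₂ x v))
    (fun a => ?_) (fun g hg h1 => piG_eq_zero fun b => ?_) fun g hg h1 h3 => ?_).elim fun w hw => ?_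
  · obtain ⟨a, ha⟩ := scalar_of_cm_phi (h b₀)
    have := congrArg (fun z => f₂ (L b₀) (z *ᵥ y)) ha
    simp only [ee, eo, elm_partner hf H (hW b₀).2, smul_mulVec, one_mulVec, hf.sub_right,
      hf.add_right, smul_r hf, (hW b₀).1, (hW b₀).2, mul_zero, add_zero, zero_sub, neg_eq_zero] at this
    exact hi b₀ hb₀ (Os.an x y H _ (hW b₀).1 (hW b₀).2 this)
  · rintro _ ⟨j, -, w, b1, -, e, he, rfl⟩ _ ⟨j', -, w', b2, -, e', he', rfl⟩
    refine Units.ext ?_
    by_cases hj : j = j'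
    · rw [hj, ← map_mul, ← map_mul, coe_gφ, coe_gφ, Units.val_mul, Units.val_mul, he, he',
        eo_mul hf h2 hx b1 b2, eo_mul hf h2 hx b2 b1, add_comm]
    · exact O.S.cm j j' hj _ _
  · rintro _ ⟨j, -, w, b1, -, e, he, rfl⟩
    rw [← map_pow, show e ^ ringChar F = 1 from Units.ext (by
      rw [Units.val_pow_eq_pow_val, he, eo_pow hf h2 hx b1, ringChar.Nat.cast_ringChar, zero_smul,
        eo_zero hf, Units.val_one]), map_one]
  · obtain ⟨g₁, c1, c2, c3⟩ := key g hg h1 h3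
    have := TOP.fix O (hL i) H c1 c2 fun j hj w b1 b2 e he => by
      have := mul_mem (mul_mem c3 (h4 _ (Subgroup.subset_closure ⟨j, hj, w, b1, b2, e, he, rfl⟩)))
        (inv_mem c3)
      simpa [mul_assoc] using this
    simpa using mul_mem this c3
  · rw [hc.cj_gφ_mul, (cj_eq_iff _ _ _).2]
    rw [ee, Nv_eq hf h2, mul_smul_comm, smul_mul_assoc, mul_sub, sub_mul,
      eo_mul hf h2 hx (hW a).1 a1, eo_mul hf h2 hx a1 (hW a).1, add_comm,
      eo_mul hf h2 hx (hW a).1 (by rw [hf.neg_left, a1, neg_zero]),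
      eo_mul hf h2 hx (by rw [hf.neg_left, a1, neg_zero]) (hW a).1, add_comm (-v)]
  · have h3 := ctype A Os (hL i) H (M.inv_mem hg) (hW b₀).1 (hW b₀).2 (hi b₀ hb₀)
      (ee b₀ ▸ h1 b₀) a1 a2
    have h4 := congrArg (cj g) (h3 b)
    rw [map_mul, map_mul, cj_cj_inv] at h4
    rw [← hc, mul_assoc]
    refine (Matrix.isNilpotent_trace_of_isNilpotent (Commute.isNilpotent_mul_right ?_ ⟨3, ?_⟩)).eq_zero
    · rw [Commute, SemiconjBy, hc.left, ← h4, mul_assoc]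
    · rw [← map_pow, pow_succ', pow_two, Nv_mul hf hx a1 a1, mul_smul_comm, Nv_mul_n hf hx a1,
        smul_zero, map_zero]
  · obtain ⟨g₁, c1, c2, c3⟩ := key g hg h1 h3
    obtain ⟨ζ, k, hk, d1, -, d2⟩ := bdec A Os (hL i) H c1 c2
    have e1 : ((g₁ * k⁻¹ : GL ι F) : Matrix ι ι F) = 1 + ζ * φ i (br f₂ x x) := by
      rw [Units.val_mul, d2, Units.mul_inv_cancel_right]
    obtain ⟨a, ha⟩ := hc.exists_ptr
    have e2 := hn d1 e1 hc
    have e3 := hn d1 e1 (Cm.one.smul a)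
    rw [show g = g₁ * k⁻¹ * (k * (g₁⁻¹ * g)) by group, piG_mul_KB _ (mul_mem hk c3), piG_apply]
    nth_rewrite 1 [← e2]
    rw [cj_inv_cj, ha, map_smul]
    simpa using e3
  · obtain ⟨γ, hγ, eγ⟩ := nrm_eq (φ := φ i) hf h2 hx L (fun a => (hW a).1) ee hB hs w
    obtain ⟨k, hk, μ, ν, m0, m1, -, e1, -, e2⟩ := Os.exists_h H
    have := dfc_cj hc (hP _ (A.sub k hk)) (Nv f₂ x v)
    rw [cj_Nv hf (A.C.le hk), e1, e2 v a1 a2, Nv_smul hf, show Nv f₂ (μ • x) v = μ • Nv f₂ x v by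
      rw [Nv, br_smul_left, br_smul_right hf, Nv, smul_sub]; rfl, map_smul, map_smul, dfc_apply, hw,
      eγ, hγ.cj_gφ_mul, cj_br hf (A.C.le hk), e1, br_smul_left, br_smul_right hf, map_smul, map_smul,
      mul_smul_comm, mul_smul_comm, RingEquiv.refl_apply, ← sub_eq_zero, ← sub_smul] at this
    rw [dfc_apply, hw, eγ]
    exact (smul_eq_zero.1 ((smul_eq_zero.1 this).resolve_left (sub_ne_zero.2 m1))).resolve_left m0

end Cfsg.Agent.H9
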