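import Cfsg.Agent.H9.TFac
import Cfsg.Agent.H9.SpAschT
import Cfsg.Agent.H28.SpinorCalc

/-! Membership in Omega of reflections of a factor and of twisted swaps. -/

set_option autoImplicit false
set_option linter.unusedSectionVars false
set_option linter.unusedVariables false
set_option linter.unusedSimpArgs false

namespace Cfsg.Agent.H9

open scoped MatrixGroups Matrix
open Matrix Cfsg.Geo Cfsg.Agent.H98

universe u

variable {ι β τ : Type} [Fintype ι] [DecidableEq ι] [Fintype β] [DecidableEq β] [Fintype τ]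
  [DecidableEq τ] {F : Type u} [Field F]

namespace OmO

open H28 QuadraticMap

theorem lift_of_invol {Q : QuadraticForm F (ι → F)} (h2 : (2 : F) ≠ 0) {g : O Q} (hg : g * g = 1)
    {α γ : Type*} (s : Finset α) (v : α → ι → F) (hv : ∀ a ∈ s, Q (v a) ≠ 0)
    (ho : ∀ a ∈ s, ∀ b ∈ s, a ≠ b → polar Q (v a) (v b) = 0)
    (hn : ∀ a ∈ s, mat g *ᵥ v a = -v a) (w : γ → ι → F)
    (hw : Submodule.span F (Set.range w) = ⊤)
    (hc : ∀ c, mat g *ᵥ w c = w c ∨ ∃ a ∈ s, ∃ t : F, w c - mat g *ᵥ w c = t • v a) :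
    IsLift Q g (s.card : ZMod 2) (∏ a ∈ s, Q (v a)) := by
  obtain ⟨g', h1, h3, h4⟩ := exists_prod_refl s v hv ho
  have h5 : ∀ x, mat g *ᵥ x = x → rho Q g' x = x := fun x hx => h4 x fun a ha => by
    have := H11.polar_of_mem g.2 (v a) x
    change polar Q (mat g *ᵥ _) (mat g *ᵥ _) = _ at this
    rw [hn a ha, hx, polar_neg_left] at this
    exact mul_left_cancel₀ h2 (by linear_combination -this)
  have h6 : rho Q g' = rho Q g := LinearMap.ext_on_range hw fun c => by
    change _ = mat g *ᵥ w c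
    rcases hc c with h | ⟨a, ha, t, h⟩
    · rw [h5 _ h, h]
    · have h7 := h5 (w c + mat g *ᵥ w c) (by
        rw [mulVec_add, mulVec_mulVec, add_comm]
        congr 1
        change mat (g * g) *ᵥ _ = _
        rw [hg]; exact one_mulVec _)
      have h8 : rho Q g' (w c - mat g *ᵥ w c) = -(w c - mat g *ᵥ w c) := by
        rw [h, map_smul, h3 a ha, smul_neg]
      rw [map_add] at h7
      rw [map_sub] at h8
      refine smul_right_injective _ h2 ?_
      simp only
      linear_combination (norm := module) h7 + h8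
  rwa [show g' = g from O_ext fun x => by rw [h6]] at h1

theorem mem_of_lift [Finite F] {Q : QuadraticForm F (ι → F)} (h : H11.ND Q) (h2 : (2 : F) ≠ 0)
    {g : O Q} {c : F} (H : IsLift Q g 0 c) (hc : IsSquare c) : (g : GL ι F) ∈ omegaGL Q := by
  obtain ⟨g', h1, h3⟩ := (exists_mem_omega_iff h.nondegenerate (eichOK_of_two_ne_zero h2) rfl H).2
    ⟨rfl, hc⟩
  exact ⟨g', h1, Units.ext h3⟩

theorem exists_basis (h2 : (2 : F) ≠ 0) {k : ℕ} {f : (Fin k → F) → (Fin k → F) → F}
    (hf : IsSesq (RingEquiv.refl F) 1 f) : ∃ b : Module.Basis (Fin k) F (Fin k → F),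
      (∀ a a', a ≠ a' → f (b a) (b a') = 0) ∧ ∀ a, f (b a) (b a) ≠ 0 := by
  obtain ⟨Q, h, rfl⟩ := H11.exists_qf_of_sesq h2 hf
  have := invertibleOfNonzero h2
  obtain ⟨b, hb⟩ := LinearMap.BilinForm.exists_orthogonal_basis (B := polarBilin Q)
    ⟨fun x y => polar_comm Q x y⟩
  have hn := hb.not_isOrtho_basis_self_of_separatingLeft h.nondegenerate.1
  exact ⟨b.reindex (finCongr (by simp)), fun a a' e => by
    simpa using hb (i := (finCongr (by simp)).symm a) (j := (finCongr (by simp)).symm a')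
      (by simpa using e), fun a => by simpa using hn ((finCongr (by simp)).symm a)⟩

variable {k t : ℕ} (e : ι ≃ (Fin t → Fin k)) (P : GL ι F)

/-- pure vectors -/
def pv (u : Fin t → Fin k → F) : ι → F := frmV e P fun x => ∏ i, u i (x i)

theorem span_pv (b : Module.Basis (Fin k) F (Fin k → F)) :
    Submodule.span F (Set.range fun a : Fin t → Fin k => pv e P fun j => b (a j)) = ⊤ := by
  refine top_unique fun v _ => ?_
  obtain ⟨x, rfl⟩ := (frmV e P).surjective v
  let T : GL (Fin k) F := @unitOfInvertible _ _ ((Pi.basisFun F (Fin k)).toMatrix b)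
    ((Pi.basisFun F (Fin k)).invertibleToMatrix b)
  rw [← mulVec_inv_mulVec (pureG fun _ : Fin t => T) x, mulVec_eq_sum, map_sum]
  refine Submodule.sum_mem _ fun a _ => ?_
  rw [op_smul_eq_smul, map_smul]
  exact Submodule.smul_mem _ _ (Submodule.subset_span ⟨a, rfl⟩)

/-- `y` at the place `i` -/
def ins (i : Fin t) (y : Fin k → F) (u : {j // j ≠ i} → Fin k → F) : Fin t → Fin k → F :=
  fun j => if h : j = i then y else u ⟨j, h⟩

theorem prod_ins {R : Type*} [CommMonoid R] (i : Fin t) (g : Fin t → R) :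
    ∏ j, g j = g i * ∏ j : {j // j ≠ i}, g j := Fintype.prod_eq_mul_prod_subtype_ne g i

theorem ins_self (i : Fin t) (y : Fin k → F) (u : {j // j ≠ i} → Fin k → F) : ins i y u i = y :=
  dif_pos rfl

theorem ins_ne (i : Fin t) (y : Fin k → F) (u : {j // j ≠ i} → Fin k → F) (j : {j // j ≠ i}) :
    ins i y u j = u j := dif_neg j.2

theorem pv_ins (i : Fin t) (y : Fin k → F) (u : {j // j ≠ i} → Fin k → F) :
    pv e P (ins i y u) = frmV e P fun x => y (x i) * ∏ j : {j // j ≠ i}, u j (x j) := by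
  simp only [pv, prod_ins i, ins_self, ins_ne]

theorem φP_pv (i : Fin t) (X : Matrix (Fin k) (Fin k) F) (y : Fin k → F)
    (u : {j // j ≠ i} → Fin k → F) :
    φP e P i X *ᵥ pv e P (ins i y u) = pv e P (ins i (X *ᵥ y) u) := by
  rw [φP_apply, pv, frm_mulVec, powEmb_apply, pureT_mulVec, pv_ins]
  simp only [prod_ins i, ins_self, ins_ne, Function.update_self]
  congr 1
  ext x
  congr 1
  exact Finset.prod_congr rfl fun j _ => by rw [Function.update_of_ne j.2]; simp

theorem isSquare_prod {τ : Type} [Fintype τ] [DecidableEq τ] [Nontrivial τ] (hk : Even k) (C : F)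
    (d : Fin k → F) : IsSquare (∏ a : τ → Fin k, (C * ∏ j, d (a j))) := by
  rw [Finset.prod_mul_distrib, Finset.prod_const, Finset.prod_comm]
  refine (Even.isSquare_pow ?_ _).mul (Finset.isSquare_prod _ fun j _ => ?_)
  · rw [Finset.card_univ, Fintype.card_fun, Fintype.card_fin]
    exact hk.pow_of_ne_zero Fintype.card_ne_zero
  · rw [← (Equiv.piSplitAt j fun _ => Fin k).symm.prod_comp, Fintype.prod_prod_type]
    refine Finset.isSquare_prod _ fun s _ => ?_
    simp only [Equiv.piSplitAt_symm_apply, dif_pos, Finset.prod_const]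
    refine Even.isSquare_pow ?_ _
    obtain ⟨j', hj⟩ := exists_ne j
    have : Nonempty {j' // j' ≠ j} := ⟨⟨j', hj⟩⟩
    rw [Finset.card_univ, Fintype.card_fun, Fintype.card_fin]
    exact hk.pow_of_ne_zero Fintype.card_ne_zero

variable {e P} {Q : QuadraticForm F (ι → F)} (h2 : (2 : F) ≠ 0)
  {f : (Fin k → F) → (Fin k → F) → F} (hf : IsSesq (RingEquiv.refl F) 1 f) {c : F} (hc : c ≠ 0)
  (hcf : ∀ u v, polar Q (pv e P u) (pv e P v) = c * ∏ i, f (u i) (v i))
  {b : Module.Basis (Fin k) F (Fin k → F)} (ho : ∀ a a', a ≠ a' → f (b a) (b a') = 0)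
  (hd : ∀ a, f (b a) (b a) ≠ 0)
include h2 hf hc hcf ho hd

theorem lift_refl (i : Fin t) {z : Fin k → F} (hz : f z z ≠ 0) {g : O Q}
    (hg : mat g = φP e P i (rfz f z)) : IsLift Q g ((k ^ (t - 1) : ℕ) : ZMod 2)
      (∏ a : {j // j ≠ i} → Fin k, (c * f z z / 2 * ∏ j, f (b (a j)) (b (a j)))) := by
  have h1 : ∀ a : {j // j ≠ i} → Fin k, Q (pv e P (ins i z fun j => b (a j))) =
      c * f z z / 2 * ∏ j, f (b (a j)) (b (a j)) := fun a => mul_left_cancel₀ h2 (by
    rw [← H11.polar_self', hcf, prod_ins i]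
    simp only [ins_self, ins_ne]
    field_simp)
  have h3 : ∀ y, rfz f z *ᵥ y = y - (2 / f z z * f y z) • z := fun y => by
    rw [rfz, sub_mulVec, one_mulVec, smul_mulVec, br_mulVec hf, smul_smul]
  have := lift_of_invol h2 (g := g) (Subtype.ext (Units.ext (by
      change mat g * mat g = 1
      rw [hg, ← map_mul, rfz_sq hf hz, map_one]))) Finset.univ
    (fun a : {j // j ≠ i} → Fin k => pv e P (ins i z fun j => b (a j)))
    (fun a _ => h1 a ▸ mul_ne_zero (div_ne_zero (mul_ne_zero hc hz) h2)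
      (Finset.prod_ne_zero_iff.2 fun j _ => hd _))
    (fun a _ a' _ h => by
      obtain ⟨j, hj⟩ := Function.ne_iff.1 h
      rw [hcf, Finset.prod_eq_zero (Finset.mem_univ j.1) (by rw [ins_ne, ins_ne, ho _ _ hj]),
        mul_zero])
    (fun a _ => by
      rw [hg, φP_pv, h3, pv_ins, pv_ins, ← map_neg]
      congr 1
      ext x
      simp only [Pi.sub_apply, Pi.smul_apply, Pi.neg_apply, smul_eq_mul]
      field_simp
      ring) _ (span_pv e P b) fun a => Or.inr ⟨fun j => a j, Finset.mem_univ _,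
        2 / f z z * f (b (a i)) z, by
      rw [show (fun j => b (a j)) = ins i (b (a i)) fun j => b (a j) from funext fun j => by
        unfold ins; split_ifs with h <;> simp [*], hg, φP_pv, h3, pv_ins, pv_ins, pv_ins,
        ← map_sub, ← map_smul]
      congr 1
      ext x
      simp only [Pi.sub_apply, Pi.smul_apply, smul_eq_mul]
      ring⟩
  simpa only [h1, Finset.card_univ, Fintype.card_fun, Fintype.card_fin, Fintype.card_subtype_compl,
    Fintype.card_unique] using this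

end OmO

namespace OmO

open H28 QuadraticMap

variable {k : ℕ} {e : ι ≃ (Fin 2 → Fin k)} {P : GL ι F} {Q : QuadraticForm F (ι → F)}

theorem swap_pv (x y : Fin k → F) :
    frm e P (permM (Fin k) F (Equiv.swap 0 1)) *ᵥ pv e P ![x, y] = pv e P ![y, x] := by
  rw [pv, frm_mulVec, pv]
  congr 1
  ext a
  simp [permM, mulVec, dotProduct, mul_comm]

theorem lift_swap (h2 : (2 : F) ≠ 0) {f : (Fin k → F) → (Fin k → F) → F} {c : F} (hc : c ≠ 0)
    (hcf : ∀ u v, polar Q (pv e P u) (pv e P v) = c * ∏ i, f (u i) (v i))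
    {b : Module.Basis (Fin k) F (Fin k → F)} (ho : ∀ a a', a ≠ a' → f (b a) (b a') = 0)
    (hd : ∀ a, f (b a) (b a) ≠ 0) {g : O Q}
    (hg : mat g = frm e P (permM (Fin k) F (Equiv.swap 0 1))) :
    IsLift Q g ((Finset.univ.filter fun p : Fin k × Fin k => p.1 < p.2).card : ZMod 2)
      (∏ p ∈ Finset.univ.filter fun p : Fin k × Fin k => p.1 < p.2,
        c * (f (b p.1) (b p.1) * f (b p.2) (b p.2))) := by
  have h0 : ∀ x y x' y', polar Q (pv e P ![x, y]) (pv e P ![x', y']) = c * (f x x' * f y y') :=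
    fun x y x' y' => by simp [hcf]
  have h1 : ∀ p ∈ Finset.univ.filter fun p : Fin k × Fin k => p.1 < p.2,
      Q (pv e P ![b p.1, b p.2] - pv e P ![b p.2, b p.1]) =
      c * (f (b p.1) (b p.1) * f (b p.2) (b p.2)) := fun p hp => mul_left_cancel₀ h2 (by
    rw [← H11.polar_self']
    simp only [polar_sub_left, polar_sub_right, h0, ho _ _ (Finset.mem_filter.1 hp).2.ne,
      ho _ _ (Finset.mem_filter.1 hp).2.ne']
    ring)
  have h3 : ∀ a a' d d', ¬ (a = a' ∧ d = d') → f (b a) (b a') * f (b d) (b d') = 0 :=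
    fun a a' d d' h => by
      rcases not_and_or.1 h with h | h <;> simp [ho _ _ h]
  rw [← Finset.prod_congr rfl h1]
  refine lift_of_invol h2 (g := g) (Subtype.ext (Units.ext (by
      change mat g * mat g = 1
      rw [hg, ← map_mul, ← map_one (frm e P), ← permM_mul_permM_symm (Equiv.swap 0 1),
        Equiv.symm_swap]))) _ _
    (fun p hp => h1 p hp ▸ mul_ne_zero hc (mul_ne_zero (hd _) (hd _))) (fun p hp q hq h => ?_)
    (fun p _ => by rw [hg, mulVec_sub, swap_pv, swap_pv, neg_sub]) _ (span_pv e P b) fun a => ?_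
  · have hp := (Finset.mem_filter.1 hp).2
    have hq := (Finset.mem_filter.1 hq).2
    have h' : ¬ (p.1 = q.1 ∧ p.2 = q.2) := fun e => h (Prod.ext e.1 e.2)
    simp only [polar_sub_left, polar_sub_right, h0]
    rw [h3 _ _ _ _ h', h3 _ _ _ _ (fun e => h' e.symm), h3, h3] <;> first | omega | simp
  · rw [show (fun j => b (a j)) = ![b (a 0), b (a 1)] from funext fun j => by fin_cases j <;> rfl,
      hg, swap_pv]
    rcases lt_trichotomy (a 0) (a 1) with h | h | h
    · exact Or.inr ⟨(a 0, a 1), by simpa using h, 1, (one_smul _ _).symm⟩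
    · exact Or.inl (by rw [h])
    · exact Or.inr ⟨(a 1, a 0), by simpa using h, -1, by simp⟩

end OmO

variable [Finite F] {Q : (ι → F) → F} (hQ : IsNondegenerateQuadraticForm Q) (h2 : (2 : F) ≠ 0)
  {k : ℕ} {f₁ : (Fin k → F) → (Fin k → F) → F} (hf₁ : IsSymmetricForm f₁) {P : GL ι F}
include hQ h2 hf₁

open OmO in
theorem refl_mem_omega {t : ℕ} (hk : Even k) (ht : 3 ≤ t) {e : ι ≃ (Fin t → Fin k)}
    (hT : IsTensorPowerFormStructure id (QuadraticMap.polar Q) f₁ e P) (i : Fin t) {z : Fin k → F}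
    (hz : f₁ z z ≠ 0) {h : GL (Fin k) F} (hh : (h : Matrix (Fin k) (Fin k) F) = rfz f₁ z) :
    gφ (φP e P i) h ∈ omegaGL Q := by
  have s1 := isSesq_of_symmetric hf₁
  have hi := Q_of_isom hQ h2
  obtain ⟨Q, rfl, hN⟩ := H11.exists_qf hQ
  obtain ⟨c, hc, hcf⟩ := tensorPowerForm_pure s1 hT
  obtain ⟨b, ho, hd⟩ := exists_basis h2 s1
  obtain ⟨h', hh', e'⟩ := rfz_mem s1 hz
  obtain rfl : h = h' := Units.ext (hh.trans e'.symm)
  have H := lift_refl h2 s1 hc hcf ho hd i hz
    (g := ⟨_, hi (gφ_isom hN.sesq s1 (adj_φP hN.sesq s1 hT i) hh')⟩) (congrArg (φP e P i) hh)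
  rw [(ZMod.natCast_eq_zero_iff_even).2 (hk.pow_of_ne_zero (by omega))] at H
  have : Nontrivial {j // j ≠ i} := Fintype.one_lt_card_iff_nontrivial.1 (by simp; omega)
  exact mem_of_lift hN h2 H (isSquare_prod hk _ fun a => f₁ (b a) (b a))

open OmO in
theorem swap_mem_omega (hk : k = 3 ∨ k = 4) {e : ι ≃ (Fin 2 → Fin k)}
    (hT : IsTensorPowerFormStructure id (QuadraticMap.polar Q) f₁ e P) :
    ∃ h ∈ Isom (RingEquiv.refl F) f₁,
      frmG e P (permG (Fin k) F (Equiv.swap 0 1)) * gφ (φP e P 0) h ∈ omegaGL Q := by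
  have s1 := isSesq_of_symmetric hf₁
  have hi := Q_of_isom hQ h2
  obtain ⟨Q, rfl, hN⟩ := H11.exists_qf hQ
  obtain ⟨c, hc, hcf⟩ := tensorPowerForm_pure s1 hT
  obtain ⟨b, ho, hd⟩ := exists_basis h2 s1
  obtain ⟨z, hz⟩ : ∃ z, f₁ z z = 2 * ∏ a, f₁ (b a) (b a) := by
    obtain ⟨Q₁, n₁, rfl⟩ := H11.exists_qf_of_sesq h2 s1
    obtain ⟨z, -, hz⟩ := n₁.exists_ne_eq (by simp; omega) (∏ a, QuadraticMap.polar Q₁ (b a) (b a))
    exact ⟨z, by rw [H11.polar_self', hz]⟩
  have hz0 : f₁ z z ≠ 0 := hz ▸ mul_ne_zero h2 (Finset.prod_ne_zero_iff.2 fun a _ => hd a)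
  obtain ⟨h, hh, e'⟩ := rfz_mem s1 hz0
  have H := (lift_swap h2 hc hcf ho hd (g := ⟨_, hi (perm_isom hN.sesq s1 hT _)⟩) rfl).mul
    (lift_refl h2 s1 hc hcf ho hd 0 hz0
      (g := ⟨_, hi (gφ_isom hN.sesq s1 (adj_φP hN.sesq s1 hT 0) hh)⟩) (congrArg (φP e P 0) e'))
  have : Unique {j : Fin 2 // j ≠ 0} := ⟨⟨⟨1, by decide⟩⟩, by decide⟩
  rw [← (Equiv.funUnique _ _).symm.prod_comp, hz, mul_div_assoc, mul_div_cancel_left₀ _ h2] at H
  refine ⟨h, hh, mem_of_lift hN h2 (by convert H; rcases hk with rfl | rfl <;> decide) ?_⟩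
  rcases hk with rfl | rfl
  · refine ⟨c ^ 3 * (∏ a, f₁ (b a) (b a)) ^ 3, ?_⟩
    simp [Finset.prod_filter, Fintype.prod_prod_type, Fin.prod_univ_three]
    ring
  · refine ⟨c ^ 5 * (∏ a, f₁ (b a) (b a)) ^ 4, ?_⟩
    simp [Finset.prod_filter, Fintype.prod_prod_type, Fin.prod_univ_four]
    ring

end Cfsg.Agent.H9
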