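import Cfsg.Agent.H9.TC7
import Cfsg.Agent.H9.TOLoc
import Cfsg.Agent.H9.TOPi
import Cfsg.Agent.H9.TOLie
import Cfsg.Agent.H9.TOmO

/-! Maximality of the stabilisers of tensor powers of orthogonal spaces. -/

set_option autoImplicit false
set_option linter.unusedSectionVars false
set_option linter.unusedVariables false
set_option linter.unusedSimpArgs false

namespace Cfsg.Agent.H9

open scoped MatrixGroups Matrix
open Matrix Cfsg.Geo Cfsg.Agent.H98

universe u

variable {ι β : Type} [Fintype ι] [DecidableEq ι] [Fintype β] [DecidableEq β] {F : Type u} [Field F]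

theorem an_of_three [Finite F] {f : (β → F) → (β → F) → F} {G : Subgroup (GL β F)}
    (C : Cl (RingEquiv.refl F) 1 f G) (h2 : (2 : F) ≠ 0) (hk : ¬ 4 ≤ Fintype.card β) : An f :=
  fun x y H z h1 h3 hz => by
    obtain ⟨v, a1, a2, a3⟩ := PasO.exists_v C h2 H
    obtain ⟨c, rfl⟩ := PasO.eq_smul_of_three C.ses hk H a1 a2 a3 h1 h3
    rw [C.ses.smul_left, PasO.smul_r C.ses, ← mul_assoc] at hz
    rw [mul_self_eq_zero.1 ((mul_eq_zero.1 hz).resolve_right a3), zero_smul]

variable {k t : ℕ} {e : ι ≃ (Fin t → Fin k)} {P : GL ι F} {f₁ : (Fin k → F) → (Fin k → F) → F}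

/-- Orthogonal factors in an orthogonal group. -/
theorem isMaximalIn_om_wreath_o [Fintype F] {Q : (ι → F) → F} (hQ : IsNondegenerateQuadraticForm Q)
    (h2 : (2 : F) ≠ 0) (hk : 3 ≤ k) (ht : 2 ≤ t) (hex : ¬ (Fintype.card F = 3 ∧ k = 3))
    (hf₁ : IsSymmetricForm f₁) (h4 : k = 4 → ¬ IsPlusTypeOn (fun v => f₁ v v) ⊤)
    (hT : IsTensorPowerFormStructure id (QuadraticMap.polar Q) f₁ e P) :
    IsMaximalIn (omegaGL Q) (tensorWreathSubgroup k t e P ⊓ omegaGL Q) := by
  refine isMaximalIn_inf (by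
    obtain ⟨Q, rfl, h⟩ := H11.exists_qf hQ
    exact h.not_le_wreath h2 hk ht hf₁ hT) fun M hH hM => ?_
  have hn : 3 * k ≤ Fintype.card ι := (three_mul_le_pow (Or.inl ⟨hk, ht⟩)).trans (card_of_pow e).ge
  have : Nonempty ι := Fintype.card_pos_iff.1 (by omega)
  have B := amG_om hQ h2 (by omega)
  have s1 := isSesq_of_symmetric hf₁
  have hk' : 3 ≤ Fintype.card (Fin k) := by simpa using hk
  have hex' : ¬ (Fintype.card (Fin k) = 3 ∧ Nat.card F = 3) := by simpa [and_comm] using hex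
  have ad := adj_φP B.hf s1 hT
  have hR : ∀ i x, gφ (φP e P i) x ∈ omegaGL Q → gφ (φP e P i) x ∈ M :=
    fun i x hx => hH ⟨gφP_mem e P i x, hx⟩
  have A := fun i => B.amb (ad i) hM (hR i) (B.cl_o s1 h2 hk' (ad i) (hR i)) fun h hh => hh.2
  have hC := (alt_P B.hf s1 hT (perm_isom B.hf s1 hT) B.cm hH).cyc
  have tw : ∀ i j, ∀ h ∈ Isom (RingEquiv.refl F) f₁,
      gφ (φP e P j) h * (gφ (φP e P i) h)⁻¹ ∈ M := fun i j h hh => by
    refine hH ⟨Subgroup.mul_mem _ (gφP_mem e P j h) (Subgroup.inv_mem _ (gφP_mem e P i h)), ?_⟩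
    have := B.cm _ (perm_isom B.hf s1 hT (Equiv.swap i j)) _ (gφ_isom B.hf s1 (ad i) hh)
    rwa [show _ * gφ (φP e P i) h * _ = gφ (φP e P j) h from Units.ext (by
      rw [← cj_coe, coe_gφ, cj_perm_φP, Equiv.swap_apply_left, coe_gφ])] at this
  have hG : ∀ {j x y sd}, HP f₁ x y → (∃ c ∈ Lev M (φP e P j (br f₁ x y)) (φP e P j (pr f₁ 1 x y))
      (φP e P j) sd, ¬ Sc c) → omegaGL Q ≤ M := fun {j x y sd} H ⟨c, hc, hn'⟩ =>
    (sys_P e P).gen_of_lev hC A hk' (pas_o (cl_o_full s1 h2 hk') h2 hex' fun _ z => rfz_mem s1)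
      (fun l _ g hg => ⟨g, hg, tw j l g hg⟩) (B.hasGen (A j) hM (Or.inl (by simpa using hn))) H hc hn'
  by_cases h5 : 5 ≤ Fintype.card (Fin k)
  · exact wreath_fin (by omega) (by omega) hC (A ⟨0, by omega⟩).C
      (fun i x y H h => ((A i).lev_o h2 h5 x y H h).elim fun _ => hG H) fun h i => (A i).dich_o h2 h5 (h i)
  have O : OSys (φP e P) M (fun i => GM (φP e P i) M (RingEquiv.refl F) f₁) 1
      (QuadraticMap.polar Q) f₁ := by
    refine ⟨sys_P e P, A, fun i => ⟨(A i).C, h2, by omega, ?_, hex',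
      fun b => B.ms_unip s1 (ad i) (hR i)⟩, tw, fun h => ?_, fun i j => ?_⟩
    · by_cases h : Fintype.card (Fin k) = 4
      · exact h4_of_minus s1 h4 h2 h
      · exact an_of_three (A i).C h2 (by omega)
    · refine or_iff_not_imp_left.2 fun h' i z hz => ?_
      obtain ⟨r, hr, er⟩ := rfz_mem s1 hz
      simp only [Fintype.card_fin] at h h'
      exact ⟨r, ⟨hr, hR i r (refl_mem_omega hQ h2 hf₁ (by rw [h]; decide) (by omega) hT i hz er)⟩, er⟩
    by_cases hij : i = j
    · exact ⟨1, one_mem _, 1, one_mem _, fun b => by rw [cj_one, cj_one, hij]⟩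
    by_cases h3 : t = 2
    · subst h3
      obtain ⟨x, hx, hg⟩ := swap_mem_omega hQ h2 hf₁ (by simp at h5; omega) hT
      have hg' := hH ⟨mul_mem (perm_mem_wreath e P _) (gφP_mem e P 0 x), hg⟩
      by_cases h0 : i = 0
      · obtain rfl : j = 1 := by omega
        exact ⟨_, hg', x, hx, fun b => by rw [h0, cj_mul, cj_gφ, cj_perm_φP]; rfl⟩
      · obtain rfl : j = 0 := by omega
        obtain rfl : i = 1 := by omega
        exact ⟨_, hg', 1, one_mem _, fun b => by
          rw [cj_mul, ((sys_P e P).cm 0 1 (by decide) b).cj_gφ, cj_perm_φP, cj_one]; rfl⟩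
    · obtain ⟨l, hl⟩ : ∃ l, l ∉ ({i, j} : Finset (Fin t)) := by
        by_contra h
        push Not at h
        have := (Finset.card_le_card fun l (_ : l ∈ Finset.univ) => h l).trans Finset.card_le_two
        simp at this; omega
      simp only [Finset.mem_insert, Finset.mem_singleton, not_or] at hl
      obtain ⟨g, hg, h1, -⟩ := hC i j l hij (Ne.symm hl.1) (Ne.symm hl.2)
      exact ⟨g, hg, 1, one_mem _, fun b => by rw [h1, cj_one]⟩
  exact wreath_fin (by omega) (by omega) hC (A ⟨0, by omega⟩).C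
    (fun i x y H h => (O.lev H h).elim fun _ => hG H) fun h i g hg =>
      (O.exists_Pi h i).elim fun Pi hP => O.dich_of_Pi hP.1 hP.2 i hg

end Cfsg.Agent.H9
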