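import Cfsg.Agent.H9.SpAschT
import Cfsg.Agent.H98.Descent
import Cfsg.Agent.H98.Master

/-! The extraspecial and almost simple cases of Aschbacher's theorem for the symplectic group, and
the theorem itself (strong form). -/

set_option autoImplicit false
set_option linter.unusedSectionVars false
set_option linter.unusedVariables false
set_option linter.style.haveILetI false

namespace Cfsg.Agent.H9

open scoped MatrixGroups Matrix Kronecker
open Cfsg.Geo Cfsg.Agent.H98

section General

variable {ι : Type} [Fintype ι] [DecidableEq ι] {F : Type*} [Field F]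

theorem hasEnoughRoots_of_sq (h2 : (2 : F) ≠ 0) {G : Type*} [Group G] (h : ∀ x : G, x * x = 1) :
    HasEnoughRootsOfUnity F (Monoid.exponent G) := by
  haveI : HasEnoughRootsOfUnity F 2 := ⟨⟨-1, IsPrimitiveRoot.neg_one (ringChar F) fun h => h2 (by
    have := (ringChar.spec F 2).2 (by rw [h])
    exact_mod_cast this)⟩, inferInstance⟩
  exact HasEnoughRootsOfUnity.of_dvd F (n := 2)
    (Monoid.exponent_dvd_of_forall_pow_eq_one fun x => by rw [sq, h])

/-- An elementary abelian `2`-group of isometries of an alternating form whose non-trivial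
elements have trace zero has order at most half the dimension. -/
theorem two_mul_card_le_of_elemAb (h2 : (2 : F) ≠ 0) {f : (ι → F) → (ι → F) → F}
    (hf : IsSesq (RingEquiv.refl F) (-1) f) (hn : (Fintype.card ι : F) ≠ 0) {G : Type*} [CommGroup G]
    [Finite G] (hG : ∀ x : G, x * x = 1) (ρ : G →* Matrix ι ι F)
    (hρ : ∀ x u v, f (ρ x *ᵥ u) (ρ x *ᵥ v) = f u v) (ht : ∀ x, x ≠ 1 → (ρ x).trace = 0) :
    2 * Nat.card G ≤ Fintype.card ι := by
  classical
  haveI := Fintype.ofFinite G
  haveI := hasEnoughRoots_of_sq h2 hG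
  have hcard := CommGroup.card_monoidHom_of_hasEnoughRootsOfUnity G F
  haveI : Finite (G →* Fˣ) := Nat.finite_of_card_ne_zero (by rw [hcard]; exact Nat.card_pos.ne')
  haveI := Fintype.ofFinite (G →* Fˣ)
  have hχ : ∀ (χ : G →* Fˣ) (a : G), (χ a : F) * χ a = 1 := fun χ a => by
    rw [← Units.val_mul, ← map_mul, hG, map_one, Units.val_one]
  let e : (G →* Fˣ) → Matrix ι ι F := fun χ => ∑ a, (χ a : F) • ρ a
  have he0 : ∀ χ, e χ ≠ 0 := by
    intro χ h
    have := congrArg Matrix.trace h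
    simp only [e, Matrix.trace_sum, Matrix.trace_smul, Matrix.trace_zero] at this
    rw [Finset.sum_eq_single 1 (fun a _ ha => by rw [ht a ha, smul_zero]) (by simp)] at this
    simp [hn] at this
  have hae : ∀ χ (a : G), ρ a * e χ = (χ a : F) • e χ := by
    intro χ a
    simp only [e, Finset.mul_sum, Finset.smul_sum, Matrix.mul_smul, ← map_mul, smul_smul]
    refine Fintype.sum_equiv (Equiv.mulLeft a) _ _ fun b => ?_
    simp only [Equiv.coe_mulLeft, map_mul, Units.val_mul, ← mul_assoc, hχ, one_mul]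
  have hv : ∀ χ : G →* Fˣ, ∃ v : ι → F, v ≠ 0 ∧ ∀ a, ρ a *ᵥ v = (χ a : F) • v := by
    intro χ
    obtain ⟨u, hu⟩ : ∃ u, e χ *ᵥ u ≠ 0 := by
      by_contra hc
      push Not at hc
      exact he0 χ (matrix_ext_mulVec fun v => by rw [hc, Matrix.zero_mulVec])
    exact ⟨_, hu, fun a => by rw [Matrix.mulVec_mulVec, hae, Matrix.smul_mulVec]⟩
  choose v hv0 hv using hv
  have hG0 : (Fintype.card G : F) ≠ 0 := by
    haveI : Fact (Nat.Prime 2) := ⟨Nat.prime_two⟩
    obtain ⟨k, hk⟩ := (IsPGroup.iff_card (p := 2) (G := G)).1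
      (fun x => ⟨1, by rw [pow_one, sq, hG]⟩)
    rw [← Nat.card_eq_fintype_card, hk]
    simpa using fun h => absurd h h2
  have hev : ∀ χ ψ, e ψ *ᵥ v χ = if χ = ψ then (Fintype.card G : F) • v χ else 0 := by
    intro χ ψ
    simp only [e, Matrix.sum_mulVec, Matrix.smul_mulVec, hv, smul_smul, ← Finset.sum_smul]
    split_ifs with h
    · subst h; simp [hχ]
    · have := sum_hom_units_eq_zero ((Units.coeHom F).comp (ψ * χ)) (fun h1 => h (by
        ext a
        have h3 : (ψ a : F) * χ a = 1 := by simpa using DFunLike.congr_fun h1 a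
        rw [← one_mul (χ a : F), ← hχ ψ a, mul_assoc, h3, mul_one]))
      simp only [MonoidHom.comp_apply, MonoidHom.mul_apply, Units.coeHom_apply, Units.val_mul] at this
      rw [this, zero_smul]
  have hli : LinearIndependent F v := by
    rw [Fintype.linearIndependent_iff]
    intro c hc ψ
    have := congrArg (fun x => e ψ *ᵥ x) hc
    simp only [Matrix.mulVec_sum, Matrix.mulVec_smul, hev, smul_ite, smul_zero, Finset.sum_ite_eq',
      Finset.mem_univ, if_true, Matrix.mulVec_zero, smul_smul, smul_eq_zero, mul_eq_zero, hG0, hv0,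
      or_false] at this
    exact this
  have horth : ∀ χ ψ, f (v χ) (v ψ) = 0 := by
    intro χ ψ
    by_cases h : χ = ψ
    · rw [h]; exact alt_of_skew h2 hf _
    · by_contra h0
      apply h
      ext a
      have := hρ a (v χ) (v ψ)
      rw [hv, hv, hf.smul_left, bil_smul_right hf, ← mul_assoc] at this
      have h3 : (χ a : F) * ψ a = 1 := mul_right_cancel₀ h0 (by rw [this, one_mul])
      rw [← mul_one (χ a : F), ← hχ ψ a, ← mul_assoc, h3, one_mul]
  have hle : Submodule.span F (Set.range v) ≤ perp hf (Submodule.span F (Set.range v)) := by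
    rw [Submodule.span_le]
    rintro _ ⟨χ, rfl⟩ w hw
    induction hw using Submodule.span_induction with
    | mem x hx => obtain ⟨ψ, rfl⟩ := hx; exact horth χ ψ
    | zero => exact hf.zero_right _
    | add x y _ _ hx hy => rw [hf.add_right, hx, hy, add_zero]
    | smul c x _ hx => rw [hf.smul_right, hx, mul_zero]
  have h1 := Submodule.finrank_mono hle
  have h3 := finrank_add_finrank_perp hf (Submodule.span F (Set.range v))
  rw [finrank_span_eq_card hli, ← Nat.card_eq_fintype_card, hcard] at h1 h3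
  omega

/-- A `2`-group of isometries of an alternating form with non-scalar elements of trace zero is of
minus type. -/
theorem isOfMinusType_of_alt [Finite F] [Nonempty ι] (h2 : (2 : F) ≠ 0) {f : (ι → F) → (ι → F) → F}
    (hf : IsSesq (RingEquiv.refl F) (-1) f) {k : ℕ} (hn : Fintype.card ι = 2 ^ k)
    {R : Subgroup (GL ι F)} (hR : Fixes R f)
    (ht : ∀ x ∈ R, x ∉ scalars ι F → (x : Matrix ι ι F).trace = 0) : IsOfMinusType k R := by
  intro A hA hsq
  open scoped IsMulCommutative in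
  have hsq' : ∀ x : A, x * x = 1 := fun x => Subtype.ext (hsq x x.2)
  have hn' : (Fintype.card ι : F) ≠ 0 := by rw [hn]; simpa using fun h => absurd h h2
  let ρ : A →* GL ι F := R.subtype.comp A.subtype
  have hρ : Function.Injective ρ := Subtype.val_injective.comp Subtype.val_injective
  have hsc : ∀ a : A, ρ a ∈ scalars ι F → ρ a = 1 ∨ ρ a = scal ι (-1) := by
    intro a ha
    obtain ⟨c, hc⟩ := mem_scalars_iff'.1 ha
    have h1 : scal ι (c * c) = scal ι 1 := by rw [scal_mul, ← hc, ← map_mul, hsq', map_one, scal_one]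
    have h3 : (c : F) * c = 1 := by rw [← Units.val_mul, scal_injective h1, Units.val_one]
    rcases mul_self_eq_one_iff.1 h3 with h | h
    · left; rw [hc, show c = 1 from Units.ext h, scal_one]
    · right; rw [hc, show c = -1 from Units.ext h]
  obtain ⟨A0, h0, h1⟩ : ∃ A0 : Subgroup A, Nat.card A ≤ 2 * Nat.card A0 ∧
      ∀ a ∈ A0, a ≠ 1 → ρ a ∉ scalars ι F := by
    by_cases hz : ∃ z : A, z ≠ 1 ∧ ρ z ∈ scalars ι F
    · obtain ⟨z, hz1, hz⟩ := hz
      haveI := hasEnoughRoots_of_sq h2 hsq'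
      open scoped IsMulCommutative in
      obtain ⟨φ, hφ⟩ := CommGroup.exists_apply_ne_one_of_hasEnoughRootsOfUnity A F hz1
      refine ⟨φ.ker, ?_, fun a ha ha1 has => hφ ?_⟩
      · rw [← φ.ker.index_mul_card, Subgroup.index_ker]
        refine Nat.mul_le_mul_right _ ?_
        have : (φ.range : Set Fˣ) ⊆ {1, -1} := by
          rintro _ ⟨a, rfl⟩
          have h3 : (φ a : F) * φ a = 1 := by
            rw [← Units.val_mul, ← map_mul, hsq', map_one, Units.val_one]
          rcases mul_self_eq_one_iff.1 h3 with h | h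
          · exact Or.inl (Units.ext h)
          · exact Or.inr (Units.ext h)
        exact (Set.ncard_le_ncard this (Set.toFinite _)).trans
          ((Set.ncard_insert_le _ _).trans (by simp))
      · have e1 := (hsc a has).resolve_left fun h => ha1 (hρ (h.trans (map_one ρ).symm))
        have e2 := (hsc z hz).resolve_left fun h => hz1 (hρ (h.trans (map_one ρ).symm))
        rw [← hρ (e1.trans e2.symm)]
        exact ha
    · push Not at hz
      exact ⟨⊤, by rw [Subgroup.card_top]; omega, fun a _ ha => hz a ha⟩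
  open scoped IsMulCommutative in
  have := two_mul_card_le_of_elemAb h2 hf hn' (G := A0) (fun x => Subtype.ext (hsq' x))
    ((Units.coeHom _).comp (ρ.comp A0.subtype))
    (fun x u v => fixes_iff.1 hR _ ((x : A) : R).2 u v)
    (fun x hx => ht _ ((x : A) : R).2 (h1 x x.2 fun h => hx (Subtype.ext h)))
  rw [pow_succ]
  have h4 : 0 < 2 ^ k := by positivity
  omega

theorem card_prime_of_bot_eq_top [Fintype F] (h : (⊥ : Subfield F) = ⊤) : (Fintype.card F).Prime := by
  obtain ⟨p, hp, -⟩ := FiniteField.card' F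
  haveI : Fact p.Prime := ⟨CharP.char_is_prime F p⟩
  have := Subfield.card_bot F p
  rw [h, Nat.card_congr Subfield.topEquiv.toEquiv, Nat.card_eq_fintype_card] at this
  rw [this]
  exact Fact.out

end General

variable {m : ℕ} {F : Type*} [Field F] [Fintype F]

theorem sp_of_realisable {H L : Subgroup (GL (Fin m ⊕ Fin m) F)} (hL : L ≤ spGL m F)
    (hs : grpAlg L = ⊤) (hn : NzG H L) {F₀ : Subfield F} (h0 : F₀ ≠ ⊤)
    (hr : RealisableOver F₀ (matrixSet L)) : ∃ X, SpClass m F X ∧ H ≤ X := by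
  obtain ⟨F₁, r, hle, hr', hc⟩ := exists_prime_index_subfield F₀ h0
  obtain ⟨B, hB⟩ := hr
  have hB' := fun s hs i j => hle (hB s hs i j)
  obtain ⟨ζ, hζ, hrat⟩ := exists_rational_form isSesq_symp hs F₁ B hB'
    (fun x hx => ⟨1, F₁.one_mem, fun u v => by rw [one_mul]; exact hL hx u v⟩)
  exact ⟨_, .sub F₁ r B⁻¹ ζ hr' hc hζ hrat, le_subfieldSubgroup hs hn F₁ B hB'⟩

theorem scal_mem_spGL (hm : 1 ≤ m) {c : Fˣ} : scal (Fin m ⊕ Fin m) c ∈ spGL m F ↔ c ^ 2 = 1 := by
  rw [mem_spGL]
  simp only [coe_scal, Matrix.smul_mulVec, Matrix.one_mulVec, H27.sympForm_smul_left,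
    H27.sympForm_smul_right]
  constructor
  · intro h
    have := h (Pi.single (Sum.inr ⟨0, hm⟩) 1) (Pi.single (Sum.inl ⟨0, hm⟩) 1)
    rw [H27.sympForm_single_inr_left] at this
    apply Units.ext
    simpa [sq] using this
  · intro h u v
    have : (c : F) * c = 1 := by rw [← Units.val_mul, ← sq, h, Units.val_one]
    rw [← mul_assoc, this, one_mul]

theorem sp_caseE (hm : 2 ≤ m) {H : Subgroup (GL (Fin m ⊕ Fin m) F)} (hH : H ≤ spGL m F)
    (hZ : ¬ CaseZ H) (hE : CaseE H) : ∃ X, SpClass m F X ∧ H ≤ X := by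
  obtain ⟨r, k, R, E⟩ := hE
  haveI : Nonempty (Fin m ⊕ Fin m) := ⟨Sum.inl ⟨0, by omega⟩⟩
  have hc : Fintype.card (Fin m ⊕ Fin m) = 2 * m := by simp; omega
  obtain rfl : r = 2 := by
    have : 2 ∣ r ^ k := by rw [← E.card_index, hc]; exact Dvd.intro _ rfl
    exact ((Nat.prime_dvd_prime_iff_eq Nat.prime_two E.prime).1 (Nat.prime_two.dvd_of_dvd_pow this)).symm
  have h2 : (2 : F) ≠ 0 := by exact_mod_cast E.ne_char
  have ho : Odd (Fintype.card F) := by_contra fun h => h2 (two_eq_zero_of_not_odd h)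
  have h4 : ∀ x ∈ R, x ^ 4 = 1 := fun x hx => by
    have := Monoid.pow_exponent_eq_one (⟨x, hx⟩ : R)
    rw [E.sympl.exponent_eq] at this
    exact congrArg Subtype.val this
  have hle : R ≤ (R ⊓ spGL m F) ⊔ scalars _ F := by
    intro x hx
    obtain ⟨h, hh, c, hxc⟩ := mem_sup_scalars.1 (E.le_hat hx)
    obtain ⟨s, hs⟩ := mem_scalars_iff'.1 (E.pow_mem x hx)
    have hs2 : s ^ 2 = 1 := scal_injective (ι := Fin m ⊕ Fin m) (by
      rw [scal_pow, ← hs, ← pow_mul, h4 x hx, scal_one])
    have h1 : h ^ 2 = scal _ (s * (c ^ 2)⁻¹) := by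
      rw [scal_mul, ← hs, hxc, Commute.mul_pow (scal_comm c h), ← scal_pow, scal_comm, mul_assoc,
        ← scal_mul, mul_inv_cancel, scal_one, mul_one]
    have h3 := (scal_mem_spGL (by omega)).1 (h1 ▸ (spGL m F).pow_mem (hH hh) 2)
    rw [mul_pow, hs2, one_mul, inv_pow, inv_eq_one, ← pow_mul] at h3
    have hcR : scal _ c ∈ R := (E.scal_mem_iff c).2 h3
    refine mem_sup_scalars.2 ⟨h, ⟨?_, hH hh⟩, c, hxc⟩
    have := R.mul_mem (R.inv_mem hcR) hx
    rwa [hxc, inv_mul_cancel_left] at this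
  set R0 := R ⊓ spGL m F with hR0
  have hspan : grpAlg R0 = ⊤ := by
    rw [eq_top_iff, ← E.span, ← grpAlg_sup_scalars R0]
    exact grpAlg_mono hle
  have hnz : NzG H R0 := fun h hh x hx => ⟨E.nz h hh x hx.1,
    (spGL m F).mul_mem ((spGL m F).mul_mem (hH hh) hx.2) ((spGL m F).inv_mem (hH hh))⟩
  have hsc : ∀ c : Fˣ, scal (Fin m ⊕ Fin m) c ∈ R0 ↔ c ^ 2 = 1 := fun c =>
    ⟨fun h => (scal_mem_spGL (by omega)).1 h.2, fun h => ⟨(E.scal_mem_iff c).2 (by
      rw [show 2 * Nat.gcd 2 2 = 2 * 2 by norm_num, pow_mul, h, one_pow]),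
      (scal_mem_spGL (by omega)).2 h⟩⟩
  have hcs : Nat.card (R0 ⊓ scalars (Fin m ⊕ Fin m) F : Subgroup _) = 2 := by
    rw [card_inf_scalars_of_iff hsc, Nat.card_eq_fintype_card]
    obtain ⟨j, hj⟩ := ho
    rw [hj]
    simp
  by_cases hb : (⊥ : Subfield F) = ⊤
  · have hp := card_prime_of_bot_eq_top hb
    have hcomm : ∀ x ∈ R0, ∀ y ∈ R0, x * y * x⁻¹ * y⁻¹ ∈ scalars _ F :=
      fun x hx y hy => E.comm_mem x hx.1 y hy.1
    have hexp : Monoid.exponent R0 = 2 * Nat.gcd 2 2 := by
      have h1 : Monoid.exponent R0 ∣ 2 ^ 2 :=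
        Monoid.exponent_dvd_of_forall_pow_eq_one fun x => Subtype.ext (h4 x x.2.1)
      obtain ⟨i, hi, h3⟩ := (Nat.dvd_prime_pow Nat.prime_two).1 h1
      rcases hi.eq_or_lt with rfl | hi
      · exact h3
      · exfalso
        obtain ⟨x, hx, y, hy, hxy⟩ := exists_noncomm_of_span (by omega) hspan
        have h5 : ∀ z : R0, z ^ 2 = 1 := fun z => by
          refine Monoid.exponent_dvd_iff_forall_pow_eq_one.1 ?_ z
          rw [h3]
          exact (pow_dvd_pow 2 (by omega : i ≤ 1)).trans (by norm_num)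
        exact hxy (congrArg Subtype.val
          (Commute.of_orderOf_dvd_two (fun z => orderOf_dvd_of_pow_eq_one (h5 z))
            (⟨x, hx⟩ : R0) ⟨y, hy⟩).eq)
    refine ⟨_, .ext R0 _ k (symplecticType_of_not_caseZ hZ (inf_le_left.trans E.le_hat) hnz
      Nat.prime_two (E.sympl.pGroup.to_le inf_le_left) hexp) (absIrr_of_grpAlg_eq_top hspan)
      (fixes_of_le_spGL inf_le_right).le_similarityGroup hp ho rfl ?_ ?_ ?_ ?_, hnz.le_normalizer⟩
    · rw [card_eq_of_comm_mem hspan hcomm, hcs, E.card_index]; ring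
    · rw [card_center_eq_of_span hspan, hcs]
    · exact isOfMinusType_of_alt h2 isSesq_symp E.card_index (fixes_of_le_spGL inf_le_right)
        fun x hx => E.trace_eq_zero x hx.1
    · rw [← hc, E.card_index]
  · refine sp_of_realisable inf_le_right hspan hnz hb (realisable_of_trace hspan ⊥ fun x hx => ?_)
    by_cases hx' : x ∈ scalars _ F
    · obtain ⟨c, rfl⟩ := mem_scalars_iff'.1 hx'
      have h1 : (c : F) * c = 1 := by rw [← Units.val_mul, ← sq, (hsc c).1 hx, Units.val_one]
      rw [coe_scal, Matrix.trace_smul, Matrix.trace_one, smul_eq_mul]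
      refine Subfield.mul_mem _ ?_ (natCast_mem _ _)
      rcases mul_self_eq_one_iff.1 h1 with h | h <;> rw [h]
      · exact Subfield.one_mem _
      · exact Subfield.neg_mem _ (Subfield.one_mem _)
    · rw [E.trace_eq_zero x hx.1 hx']
      exact Subfield.zero_mem _

theorem sp_caseS (hm : 2 ≤ m) {H : Subgroup (GL (Fin m ⊕ Fin m) F)} (hH : H ≤ spGL m F)
    (hS : CaseS H) : (∃ X, SpClass m F X ∧ H ≤ X) ∨ InSymplecticResidualClass H := by
  obtain ⟨L, C⟩ := hS
  haveI : Nonempty (Fin m ⊕ Fin m) := ⟨Sum.inl ⟨0, by omega⟩⟩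
  have hLf := fixes_of_le_spGL (C.le.trans hH)
  by_cases hr : ∃ F₀ : Subfield F, F₀ ≠ ⊤ ∧ RealisableOver F₀ (matrixSet L)
  · obtain ⟨F₀, h0, hr⟩ := hr
    exact Or.inl (sp_of_realisable (C.le.trans hH) C.span C.normal h0 hr)
  push Not at hr
  by_cases hQ : ∃ Q : (Fin m ⊕ Fin m → F) → F, IsNondegenerateQuadraticForm Q ∧
      FixesQuadForm (matrixSet L) Q
  · left
    obtain ⟨Q, hQ, hQL⟩ := hQ
    obtain ⟨c, hc0, hc⟩ := form_unique isSesq_symp (isSesq_polar hQ) C.span hLf (fixes_polar hQL)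
    have he : ¬ Odd (Fintype.card F) := by
      intro ho
      have h1 := hc (Pi.single (Sum.inr ⟨0, by omega⟩) 1) (Pi.single (Sum.inl ⟨0, by omega⟩) 1)
      have h3 := hc (Pi.single (Sum.inl ⟨0, by omega⟩) 1) (Pi.single (Sum.inr ⟨0, by omega⟩) 1)
      rw [QuadraticMap.polar_comm, h1, H27.sympForm_single_inr_left,
        H27.sympForm_single_inl_left] at h3
      simp only [Pi.single_eq_same, mul_one, mul_neg] at h3
      exact mul_ne_zero (two_ne_zero_of_odd ho) hc0 (by linear_combination h3)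
    have hp : ∀ u v, QuadraticMap.polar (fun v => c⁻¹ * Q v) u v = sympForm m F u v := by
      intro u v
      have := hc u v
      simp only [QuadraticMap.polar] at this ⊢
      rw [← mul_sub, ← mul_sub, this, inv_mul_cancel_left₀ hc0]
    have hp' : QuadraticMap.polar (fun v => c⁻¹ * Q v) = sympForm m F := by
      funext u v; exact hp u v
    have hQ' : IsNondegenerateQuadraticForm (fun v => c⁻¹ * Q v) :=
      ⟨fun a v => by rw [hQ.smul]; ring, by rw [hp']; exact isSesq_symp.isBilinear,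
        by rw [hp']; exact isSesq_symp.nondeg⟩
    refine ⟨_, .quad _ he hQ' hp, le_quadSimilarityGroup_of_nz (by simp; omega) hQ' C.span ?_ C.normal⟩
    intro s hs v
    change c⁻¹ * Q _ = c⁻¹ * Q v
    rw [hQL s hs]
  refine Or.inr ⟨L, C.residualCore hr, hQ, ?_⟩
  rintro ⟨σ, g, hg, hgL⟩
  refine hr (RingHom.eqLocusField (σ : F →+* F) (RingHom.id F)) (fun h => hg.ne_refl ?_)
    (realisable_of_trace C.span _ fun x hx => ?_)
  · ext a
    exact (h.ge (Subfield.mem_top a) : (σ : F →+* F) a = RingHom.id F a)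
  · change σ _ = _
    rw [← trace_inv_of_fixes (isSesq_of_unitary hg) hgL hx, trace_inv_of_fixes isSesq_symp hLf hx]
    rfl

/-- Aschbacher's theorem for the symplectic groups, strong form. -/
theorem sp_aschbacher (hm : 2 ≤ m) {H : Subgroup (GL (Fin m ⊕ Fin m) F)} (hH : H ≤ spGL m F) :
    (∃ X, SpClass m F X ∧ H ≤ X) ∨ InSymplecticResidualClass H := by
  by_cases hI : Irr H
  swap
  · exact Or.inl (sp_caseR hH hI)
  by_cases hZ : CaseZ H
  · exact Or.inl (sp_caseZ hm hH hI (hZ.caseZf isSesq_symp (fixes_of_le_spGL hH)))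
  rcases master (by simp; omega) H with h | h | h | h | h | h
  · exact absurd hI h
  · exact absurd h hZ
  · exact Or.inl (sp_caseT hm hH hI h)
  · exact Or.inl (sp_caseE hm hH hZ h)
  · exact Or.inl (sp_caseW hH h)
  · exact sp_caseS hm hH h

end Cfsg.Agent.H9
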