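import Cfsg.Agent.H9.SpProper
import Cfsg.Agent.H27.Dec
import Cfsg.Agent.H27.Orth
import Cfsg.Agent.H99.Dec
import Cfsg.Agent.H98.Linear

/-! Numerical restrictions and non-maximal members of the symplectic geometric classes. -/

set_option autoImplicit false
set_option linter.unusedSectionVars false
set_option linter.unusedVariables false
set_option linter.style.haveILetI false

namespace Cfsg.Agent.H9

open scoped MatrixGroups Matrix Kronecker
open Cfsg.Geo Cfsg.Agent.H98

section Groups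

variable {G : Type*} [Group G]

theorem exists_between {S X M : Subgroup G} (hM : X ⊓ S ≤ M) (hS : ¬ S ≤ M) {g : G} (hgM : g ∈ M)
    (hgS : g ∈ S) (hgX : g ∉ X) : ∃ K : Subgroup G, X ⊓ S < K ∧ K < S :=
  ⟨M ⊓ S, lt_of_le_of_ne (le_inf hM inf_le_right) fun h => hgX (h.ge ⟨hgM, hgS⟩).1,
    lt_of_le_of_ne inf_le_right fun h => hS (inf_eq_right.1 h)⟩

theorem not_max_of_between {S H : Subgroup G} (h : ∃ K : Subgroup G, H < K ∧ K < S) :
    ¬ IsMaximalIn S H := by
  obtain ⟨K, h1, h2⟩ := h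
  obtain ⟨g, hg, hg'⟩ := SetLike.exists_of_lt h1
  exact H99.not_isMaximalIn_of h1.le h2.not_ge hg (h2.le hg) hg'

end Groups

section Small

variable {F : Type*} [Field F] [Fintype F]

theorem sq_eq_one_of_card_three (hq : Fintype.card F = 3) {c : F} (hc : c ≠ 0) : c ^ 2 = 1 := by
  simpa [hq] using FiniteField.pow_card_sub_one_eq_one c hc

theorem three_eq_zero_of_card_three (hq : Fintype.card F = 3) : (3 : F) = 0 := by
  simpa [hq] using FiniteField.cast_card_eq_zero F

theorem eq_one_of_card_two (hq : Fintype.card F = 2) {c : F} (hc : c ≠ 0) : c = 1 := by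
  simpa [hq] using FiniteField.pow_card_sub_one_eq_one c hc

theorem five_le_of_odd (ho : Odd (Fintype.card F)) (h3 : Fintype.card F ≠ 3) : 5 ≤ Fintype.card F := by
  have := Fintype.one_lt_card (α := F)
  obtain ⟨k, hk⟩ := ho
  omega

theorem eq_two_of_not_three_le (h3 : ¬ 3 ≤ Fintype.card F) : Fintype.card F = 2 := by
  have := Fintype.one_lt_card (α := F)
  omega

end Small

section Bil

variable {ι : Type} [Fintype ι] [DecidableEq ι] {F : Type*} [Field F]
variable {ε : F} {f : (ι → F) → (ι → F) → F}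

/-- A bilinear form given as a function, as a Mathlib bilinear form. -/
def toBil (hf : IsSesq (RingEquiv.refl F) ε f) : LinearMap.BilinForm F (ι → F) :=
  LinearMap.mk₂ F f hf.add_left hf.smul_left hf.add_right (fun c v x => hf.smul_right c v x)

theorem toBil_apply (hf : IsSesq (RingEquiv.refl F) ε f) (u v : ι → F) : toBil hf u v = f u v := rfl

theorem toBil_sepLeft (hf : IsSesq (RingEquiv.refl F) ε f) : (toBil hf).SeparatingLeft :=
  fun _ h => hf.eq_zero_of_left h

theorem toBil_isSymm (hf : IsSesq (RingEquiv.refl F) 1 f) : (toBil hf).IsSymm :=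
  ⟨fun u v => by simpa [toBil_apply] using hf.herm u v⟩

theorem det_sq_of_sim (hf : IsSesq (RingEquiv.refl F) ε f) {g : GL ι F} {c : F}
    (h : ∀ u v, f ((g : Matrix ι ι F) *ᵥ u) ((g : Matrix ι ι F) *ᵥ v) = c * f u v) :
    (g : Matrix ι ι F).det ^ 2 = c ^ Fintype.card ι := by
  have h1 : adj (RingEquiv.refl F) f g * g = c • (1 : Matrix ι ι F) := by
    rw [hf.adj_of_sim h, smul_mul_assoc, ← Units.val_mul, inv_mul_cancel, Units.val_one]; rfl
  have h2 := congrArg Matrix.det h1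
  have h3 : adj (RingEquiv.refl F) f g = (gramMatrix f)⁻¹ * (g : Matrix ι ι F)ᵀ * gramMatrix f := rfl
  rw [h3, Matrix.det_mul, Matrix.det_mul, Matrix.det_mul, Matrix.det_transpose, Matrix.det_smul,
    Matrix.det_one, mul_one] at h2
  have h4 := Matrix.det_nonsing_inv_mul_det _ hf.isUnit_det_gram
  linear_combination h2 - (g : Matrix ι ι F).det ^ 2 * h4

theorem mem_span_pair_of_two {W : Submodule F (ι → F)} (hW : Module.finrank F W = 2) {u v x : ι → F}
    (hu : u ∈ W) (hv : v ∈ W) (hv0 : v ≠ 0) (h : ∀ c : F, u ≠ c • v) (hx : x ∈ W) :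
    ∃ a b : F, x = a • u + b • v := by
  have hli : LinearIndependent F ![v, u] :=
    (LinearIndependent.pair_iff' hv0).2 fun a ha => h a ha.symm
  have h1 : Submodule.span F (Set.range ![v, u]) = W := by
    refine Submodule.eq_of_le_of_finrank_eq ?_ (by rw [finrank_span_eq_card hli, hW]; simp)
    rw [Submodule.span_le]
    rintro _ ⟨i, rfl⟩
    fin_cases i <;> simpa
  rw [← h1, Submodule.mem_span_range_iff_exists_fun] at hx
  obtain ⟨c, hc⟩ := hx
  exact ⟨c 1, c 0, by rw [← hc]; simp [add_comm]⟩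

end Bil

variable {m : ℕ} {F : Type*} [Field F]

theorem even_finrank_of_nondegOn {W : Submodule F (Fin m ⊕ Fin m → F)}
    (h : IsNondegenerateOn (sympForm m F) W) : Even (Module.finrank F W) := by
  obtain ⟨k, hk⟩ := H3.even_finrank_of_isAlt ((toBil (isSesq_symp (m := m) (F := F))).restrict W)
    (fun x => H27.sympForm_self x.1) ⟨fun x hx => by
      by_contra h0
      obtain ⟨y, hy, hxy⟩ := (h x x.2 (fun e => h0 (Subtype.ext e))).2
      exact hxy (hx ⟨y, hy⟩), fun x hx => by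
      by_contra h0
      obtain ⟨y, hy, hxy⟩ := (h x x.2 (fun e => h0 (Subtype.ext e))).1
      exact hxy (hx ⟨y, hy⟩)⟩
  exact ⟨k, by omega⟩

theorem even_of_dec {t k : ℕ} {D : Fin t → Submodule F (Fin m ⊕ Fin m → F)}
    (h : IsNondegenerateMDecomposition (sympForm m F) k D) : Even k ∧ 0 < k ∧ 2 ≤ t ∧ t * k = 2 * m := by
  have h2 := h.decomp.two_le
  refine ⟨?_, h.decomp.pos, h2, by simpa [two_mul] using mDecomp_mul_eq h.decomp⟩
  rw [← h.decomp.finrank_eq ⟨0, by omega⟩]
  exact even_finrank_of_nondegOn (h.nondegenerate _)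

theorem fld_dvd (hm : 1 ≤ m) {r : ℕ} {K : Subalgebra F (Matrix (Fin m ⊕ Fin m) (Fin m ⊕ Fin m) F)}
    (hK : IsFieldSubalgebra r K) (hs : IsSelfAdjointFor (sympForm m F) K)
    (ha : ∀ k ∈ K, ∀ v, sympForm m F (k *ᵥ v) v = 0) : r ∣ m := by
  haveI : Nonempty (Fin m ⊕ Fin m) := ⟨Sum.inl ⟨0, hm⟩⟩
  have hf : IsSesq (RingEquiv.refl F) (-1) (sympForm m F) := isSesq_symp
  obtain ⟨U, ⟨hU, hK'⟩, hmax⟩ := set_has_maximal_iff_noetherian.2
    (inferInstance : IsNoetherian F (Fin m ⊕ Fin m → F))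
    {U | U ≤ perp hf U ∧ ∀ k ∈ K, ∀ v ∈ U, k *ᵥ v ∈ U} ⟨⊥, bot_le, by simp⟩
  have h1 : perp hf U ≤ U := by
    intro v hv
    by_contra hvU
    let U' : Submodule F (Fin m ⊕ Fin m → F) :=
      { carrier := {x | ∃ u ∈ U, ∃ k ∈ K, x = u + k *ᵥ v}
        add_mem' := by
          rintro _ _ ⟨u, hu, k, hk, rfl⟩ ⟨u', hu', k', hk', rfl⟩
          exact ⟨u + u', U.add_mem hu hu', k + k', K.add_mem hk hk', by rw [Matrix.add_mulVec]; abel⟩
        zero_mem' := ⟨0, U.zero_mem, 0, K.zero_mem, by simp⟩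
        smul_mem' := by
          rintro c _ ⟨u, hu, k, hk, rfl⟩
          exact ⟨c • u, U.smul_mem c hu, c • k, K.smul_mem hk c, by rw [Matrix.smul_mulVec, smul_add]⟩ }
    refine hmax U' ⟨?_, ?_⟩ (lt_of_le_of_ne (fun u hu => ⟨u, hu, 0, K.zero_mem, by simp⟩) fun h =>
      hvU (h.ge ⟨0, U.zero_mem, 1, K.one_mem, by simp⟩))
    · rintro _ ⟨u, hu, k, hk, rfl⟩
      rw [mem_perp]
      rintro _ ⟨u', hu', k', hk', rfl⟩
      have hv' := (mem_perp' hf).1 hv
      have e1 : sympForm m F u (k' *ᵥ v) = 0 := by rw [← hs k' hk', hv' _ (hK' k' hk' u hu)]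
      have e2 : sympForm m F (k *ᵥ v) u' = 0 := by
        rw [hf.eq_zero_comm, ← hs k hk, hv' _ (hK' k hk u' hu')]
      have e3 : sympForm m F (k *ᵥ v) (k' *ᵥ v) = 0 := by
        rw [← hs k' hk', Matrix.mulVec_mulVec, ha _ (K.mul_mem hk' hk)]
      rw [hf.add_left, hf.add_right, hf.add_right, e1, e2, e3, (mem_perp hf).1 (hU hu) _ hu']; simp
    · rintro k' hk' _ ⟨u, hu, k, hk, rfl⟩
      exact ⟨_, hK' k' hk' u hu, _, K.mul_mem hk' hk, by rw [Matrix.mulVec_add, Matrix.mulVec_mulVec]⟩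
  have h2 := finrank_add_finrank_perp hf U
  rw [le_antisymm h1 hU] at h2
  have h3 : Module.finrank F U = m := by simp at h2; omega
  exact h3 ▸ IsFieldSubalgebra_dvd hK hK'

theorem tens_num (hm : 1 ≤ m) {n₁ n₂ : ℕ} (e : (Fin m ⊕ Fin m) ≃ Fin n₁ × Fin n₂)
    {f₁ : (Fin n₁ → F) → (Fin n₁ → F) → F} (h₁ : IsSymplecticForm f₁) :
    Even n₁ ∧ 0 < n₁ ∧ n₁ * n₂ = 2 * m :=
  ⟨by simpa using even_card_of_symplectic h₁, (e (Sum.inl ⟨0, hm⟩)).1.pos,
    by simpa [two_mul] using (Fintype.card_congr e).symm⟩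

theorem wr_num (hm : 1 ≤ m) (hm' : m ≤ 7) {k t : ℕ} (e : (Fin m ⊕ Fin m) ≃ (Fin t → Fin k))
    (h3 : 3 ≤ t) (ho : Odd t) : m = 4 ∧ k = 2 ∧ t = 3 := by
  have h : k ^ t = 2 * m := by simpa [two_mul] using (Fintype.card_congr e).symm
  have hk : k = 2 := by
    rcases Nat.lt_trichotomy k 2 with hk | hk | hk
    · interval_cases k
      · rw [zero_pow (by omega)] at h; omega
      · rw [one_pow] at h; omega
    · exact hk
    · have : 3 ^ 3 ≤ k ^ t := (Nat.pow_le_pow_left hk 3).trans (Nat.pow_le_pow_right (by omega) h3)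
      omega
  subst hk
  obtain rfl : t = 3 := by
    by_contra ht
    have : 2 ^ 4 ≤ 2 ^ t := Nat.pow_le_pow_right (by omega) (by omega)
    omega
  omega

theorem ext_num {k : ℕ} (hm : 2 ≤ m) (hm' : m ≤ 7) (h : 2 * m = 2 ^ k) :
    (m = 2 ∧ k = 2) ∨ (m = 4 ∧ k = 3) := by
  have : k < 4 := (Nat.pow_lt_pow_iff_right (a := 2) (by omega)).1 (by omega)
  interval_cases k <;> omega

/-- Over the field with two elements a decomposition into hyperbolic planes carries an invariant
quadratic form. -/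
theorem dec_two_quad [Fintype F] (hq : Fintype.card F = 2) {t : ℕ}
    {D : Fin t → Submodule F (Fin m ⊕ Fin m → F)}
    (hD : IsNondegenerateMDecomposition (sympForm m F) 2 D) :
    ∃ Q : (Fin m ⊕ Fin m → F) → F, IsNondegenerateQuadraticForm Q ∧
      (∀ u v, QuadraticMap.polar Q u v = sympForm m F u v) ∧
      decompositionStabilizer D ≤ quadSimilarityGroup Q := by
  classical
  have hf : IsSesq (RingEquiv.refl F) (-1) (sympForm m F) := isSesq_symp
  have h2 : (2 : F) = 0 := two_eq_zero_of_not_odd (by rw [hq]; decide)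
  obtain ⟨d⟩ := H27.exists_dec hD.decomp.indep hD.decomp.iSup_eq_top
  let N : (Fin m ⊕ Fin m → F) → F := fun v => if v = 0 then 0 else 1
  have hN : ∀ i, ∀ u ∈ D i, ∀ v ∈ D i, N (u + v) - N u - N v = sympForm m F u v := by
    intro i u hu v hv
    by_cases hu0 : u = 0
    · simp [N, hu0, hf.zero_left]
    by_cases hv0 : v = 0
    · simp [N, hv0, hf.zero_right]
    have hneg : -v = v := by rw [neg_eq_iff_add_eq_zero, ← two_smul F v, h2, zero_smul]
    by_cases huv : u = v
    · subst huv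
      have : u + u = 0 := by rw [← two_smul F u, h2, zero_smul]
      simp only [N, this, hu0, if_true, if_false, H27.sympForm_self]
      linear_combination -h2
    have h3 : u + v ≠ 0 := fun h => huv (by rw [← hneg]; exact eq_neg_of_add_eq_zero_left h)
    have h4 : sympForm m F u v ≠ 0 := by
      intro h
      obtain ⟨x, hx, hxv⟩ := (hD.nondegenerate i v hv hv0).1
      obtain ⟨a, b, rfl⟩ := mem_span_pair_of_two (hD.decomp.finrank_eq i) hu hv hv0 (fun c hc => by
        by_cases hc0 : c = 0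
        · exact hu0 (by rw [hc, hc0, zero_smul])
        · exact huv (by rw [hc, eq_one_of_card_two hq hc0, one_smul])) hx
      apply hxv
      rw [hf.add_left, hf.smul_left, hf.smul_left, h, H27.sympForm_self]; simp
    simp only [N, h3, hu0, hv0, if_false, eq_one_of_card_two hq h4]
    linear_combination -h2
  have hp : ∀ u v, QuadraticMap.polar (fun v => ∑ i, N (d.π i v)) u v = sympForm m F u v := by
    intro u v
    simp only [QuadraticMap.polar, map_add, ← Finset.sum_sub_distrib]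
    rw [Finset.sum_congr rfl fun i _ => hN i _ (d.mem i u) _ (d.mem i v)]
    conv_rhs => rw [← d.sum u, hf.sum_left]
    refine Finset.sum_congr rfl fun i _ => ?_
    conv_rhs => rw [← d.sum v, hf.sum_right]
    rw [Finset.sum_eq_single i (fun j _ hj => hD.orthogonal i j hj.symm _ (d.mem i u) _ (d.mem j v))
      (by simp)]
  have hp' : QuadraticMap.polar (fun v => ∑ i, N (d.π i v)) = sympForm m F :=
    funext fun u => funext fun v => hp u v
  refine ⟨fun v => ∑ i, N (d.π i v), ⟨fun c v => ?_, hp' ▸ hf.isBilinear, hp' ▸ hf.nondeg⟩, hp,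
    fun g hg => ⟨1, fun v => ?_⟩⟩
  · by_cases hc : c = 0
    · simp [hc, N]
    · simp [eq_one_of_card_two hq hc]
  · obtain ⟨σ, hσ⟩ := H99.mem_of_decStab hg
    have h := d.π_map (g := Matrix.toLinearEquiv' g.1 g.invertible) σ.injective hσ
    beta_reduce
    rw [Units.val_one, one_mul, ← Equiv.sum_comp σ]
    refine Finset.sum_congr rfl fun i _ => ?_
    have h' : d.π (σ i) ((g : Matrix _ _ F) *ᵥ v) = (g : Matrix _ _ F) *ᵥ d.π i v := h i v
    simp only [N, h', gl_mulVec_eq_zero]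

theorem dec_two_max [Fintype F] (hm : 2 ≤ m) (hq : ¬ 3 ≤ Fintype.card F) {t : ℕ}
    {D : Fin t → Submodule F (Fin m ⊕ Fin m → F)}
    (hD : IsNondegenerateMDecomposition (sympForm m F) 2 D)
    (hH : IsMaximalIn (spGL m F) (decompositionStabilizer D ⊓ spGL m F)) :
    ¬ Odd (Fintype.card F) ∧ ∃ Q : (Fin m ⊕ Fin m → F) → F, IsNondegenerateQuadraticForm Q ∧
      (∀ u v, QuadraticMap.polar Q u v = sympForm m F u v) ∧
      decompositionStabilizer D ⊓ spGL m F = quadSimilarityGroup Q ⊓ spGL m F := by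
  have hq' := eq_two_of_not_three_le hq
  have ho : ¬ Odd (Fintype.card F) := by rw [hq']; decide
  obtain ⟨Q, hQ, hp, hle⟩ := dec_two_quad hq' hD
  exact ⟨ho, Q, hQ, hp, H99.eq_inf_of_le hH (inf_le_left.trans hle)
    (not_sp_le_quad hm (two_eq_zero_of_not_odd ho) hQ hp)⟩

theorem not_tp_of_indep {α β : Type} {u u' : α → F} {v v' : β → F}
    (hu : ∀ a b : F, a • u + b • u' = 0 → a = 0 ∧ b = 0)
    (hv : ∀ a b : F, a • v + b • v' = 0 → a = 0 ∧ b = 0) (x : α → F) (y : β → F) :
    tp u v + tp u' v' ≠ tp x y := by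
  intro h
  have h1 : ∀ i j, u i * v j + u' i * v' j = x i * y j := fun i j => congrFun h (i, j)
  have h2 : ∀ i i', u i * x i' - u i' * x i = 0 ∧ u' i * x i' - u' i' * x i = 0 := fun i i' =>
    hv _ _ (funext fun j => by
      simp only [Pi.add_apply, Pi.smul_apply, smul_eq_mul, Pi.zero_apply]
      linear_combination x i' * h1 i j - x i * h1 i' j)
  have h3 : ∀ i i', u i * u' i' - u' i * u i' = 0 := by
    intro i i'
    by_cases hx : ∀ l, x l = 0
    · have h4 : ∀ l, u l = 0 ∧ u' l = 0 := fun l => hv _ _ (funext fun j => by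
        simpa [hx l] using h1 l j)
      simp [h4 i]
    · push Not at hx
      obtain ⟨l, hl⟩ := hx
      apply mul_left_cancel₀ (mul_ne_zero hl hl)
      linear_combination (u' i' * x l) * (h2 i l).1 + (u l * x i) * (h2 i' l).2 -
        (u i' * x l) * (h2 i l).2 - (u' l * x i) * (h2 i' l).1
  have h4 : ∀ i, u' i = 0 ∧ -u i = 0 := fun i => hu _ _ (funext fun j => by
    simp only [Pi.add_apply, Pi.smul_apply, smul_eq_mul, Pi.zero_apply]
    linear_combination h3 j i)
  exact one_ne_zero (hu 1 0 (funext fun j => by simpa using (h4 j).2)).1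

/-- The stabiliser of a tensor decomposition with a ternary orthogonal factor over the field with
three elements is not maximal. -/
theorem tens_three_between [Fintype F] (hq : Fintype.card F = 3) {n₁ : ℕ} (hn : 0 < n₁)
    {e : (Fin m ⊕ Fin m) ≃ Fin n₁ × Fin 3} {P : GL (Fin m ⊕ Fin m) F}
    {f₁ : (Fin n₁ → F) → (Fin n₁ → F) → F} {f₂ : (Fin 3 → F) → (Fin 3 → F) → F}
    (hf₁ : IsSymplecticForm f₁) (hf₂ : IsSymmetricForm f₂)
    (hT : IsTensorFormStructure id (sympForm m F) f₁ f₂ e P) :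
    ∃ K, tensorProductSubgroup n₁ 3 e P ⊓ spGL m F < K ∧ K < spGL m F := by
  have hf : IsSesq (RingEquiv.refl F) (-1) (sympForm m F) := isSesq_symp
  have h₁ := isSesq_of_symplectic hf₁
  have h₂ := isSesq_of_symmetric hf₂
  have h2 : (2 : F) ≠ 0 := two_ne_zero_of_odd (by rw [hq]; decide)
  have hsq := @sq_eq_one_of_card_three F _ _ hq
  have hns : ¬ IsSquare (-1 : F) := by
    rintro ⟨c, hc⟩
    have hc0 : c ≠ 0 := by rintro rfl; simp at hc
    exact h2 (by linear_combination -hc - hsq hc0)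
  obtain ⟨b, hb, hb1, hb2⟩ := H27.symm_exists_basis h2 (toBil_isSymm h₂) (toBil_sepLeft h₂) (n := 2)
    (by simp) (-1) hns
  simp only [toBil_apply] at hb hb1 hb2
  have hN : f₂ (b 2) (b 2) ≠ 0 := by
    rcases hb2 with h | h <;> (erw [h]; simp)
  have key : ∀ s, f₂ s s = f₂ (b 2) (b 2) → f₂ s (b 2) = 0 ∨ ∃ c : F, s = c • b 2 := by
    intro s hs
    rw [← b.sum_repr s, Fin.sum_univ_three] at hs ⊢
    generalize b.repr s 0 = x at hs ⊢
    generalize b.repr s 1 = y at hs ⊢
    generalize b.repr s 2 = z at hs ⊢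
    simp only [h₂.add_left, h₂.add_right, h₂.smul_left, bil_smul_right h₂, hb 0 1 (by decide),
      hb 0 2 (by decide), hb 1 0 (by decide), hb 1 2 (by decide), hb 2 0 (by decide),
      hb 2 1 (by decide), hb1 0 (by decide), hb1 1 (by decide)] at hs ⊢
    by_cases hz : z = 0
    · left; simp [hz]
    right
    have h3 : x ^ 2 + y ^ 2 = 0 := by linear_combination hs - f₂ (b 2) (b 2) * hsq hz
    have hx : x = 0 := by
      by_contra hx
      by_cases hy : y = 0
      · exact hx (by simpa [hy] using h3)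
      · exact h2 (by linear_combination h3 - hsq hx - hsq hy)
    have hy : y = 0 := by simpa [hx] using h3
    exact ⟨z, by simp [hx, hy]⟩
  obtain ⟨c, hc, hc'⟩ := tensorForm_tp h₁ h₂ hT
  let u : Fin n₁ → F := Pi.single ⟨0, hn⟩ 1
  have hu : u ≠ 0 := by simp [u]
  obtain ⟨u', hu'⟩ := (h₁.nondeg u hu).1
  have huu : ∀ a a' : F, a • u' + a' • u = 0 → a = 0 ∧ a' = 0 := by
    intro a a' h
    have h1 := congrArg (fun z => f₁ z u) h
    simp only [h₁.add_left, h₁.smul_left, hf₁.alternating, h₁.zero_left, mul_zero, add_zero,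
      mul_eq_zero, hu', or_false] at h1
    exact ⟨h1, by simpa [h1, hu] using h⟩
  let w := frmV e P (tp u (b 2))
  let X : Set (Fin m ⊕ Fin m → F) := {v | ∃ x s, f₂ s s = f₂ (b 2) (b 2) ∧ v = frmV e P (tp x s)}
  have hbb : ∀ (l : F), l ≠ 0 → ∀ a a' : F, a • (b 0 + b 2) + a' • (l • b 2) = 0 → a = 0 ∧ a' = 0 := by
    intro l hl a a' h
    have h0 := congrArg (fun z => b.repr z 0) h
    have h1 := congrArg (fun z => b.repr z 2) h
    simp at h0 h1
    exact ⟨h0, by simpa [h0, hl] using h1⟩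
  refine exists_between (M := H99.setStab X) ?_ ?_ (g := tS w 1) ?_ (tS_mem _ _) ?_
  · rintro g ⟨hg, hgS⟩
    obtain ⟨x, y, hxy⟩ := mem_tensorProductSubgroup.1 hg
    obtain ⟨-, d, hd⟩ := tensor_sim hf hn (by norm_num) h₁ h₂ hT ⟨1, by simpa using mem_spGL.1 hgS⟩ hxy
    have hd1 : (d : F) = 1 := by
      have h3 := det_sq_of_sim h₂ hd
      rw [hsq (Matrix.GeneralLinearGroup.det_ne_zero y), Fintype.card_fin, pow_succ, hsq d.ne_zero,
        one_mul] at h3
      exact h3.symm
    refine H99.mem_setStab_of_finite ?_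
    rintro _ ⟨z, s, hs, rfl⟩
    exact ⟨_, _, by rw [hd, hd1, one_mul, hs], mulVec_frmV_tp hxy z s⟩
  · refine not_sp_le_of_set X (fun g hg v hv => (H99.mem_setStab.1 hg v).1 hv) (u := w) ⟨_, _, rfl, rfl⟩
      (by simpa [w] using tp_ne_zero hu (b.ne_zero 2))
      (w := frmV e P (tp u' (b 0 + b 2) + tp u ((1 : F) • b 2))) ?_ ?_
    · rintro ⟨x, s, -, h⟩
      exact not_tp_of_indep huu (hbb 1 one_ne_zero) x s ((frmV e P).injective h)
    · rw [Ne, map_eq_zero_iff _ (frmV e P).injective]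
      intro h
      refine not_tp_of_indep huu (hbb 1 one_ne_zero) 0 0 (h.trans ?_)
      ext p; simp [tp]
  · refine H99.mem_setStab_of_finite ?_
    rintro _ ⟨z, s, hs, rfl⟩
    rw [tS_mulVec]
    rcases key s hs with h | ⟨a, rfl⟩
    · exact ⟨z, s, hs, by simp only [w, hc', h]; simp⟩
    · refine ⟨a • z + (1 * sympForm m F (frmV e P (tp z (a • b 2))) w) • u, b 2, rfl, ?_⟩
      rw [tp_add_left, tp_smul_left, tp_smul_left, map_add, map_smul, map_smul, tp_smul_right, map_smul]
  · intro hg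
    obtain ⟨x, y, hxy⟩ := mem_tensorProductSubgroup.1 hg
    have h1 := mulVec_frmV_tp hxy u' (b 0 + b 2)
    rw [tS_mulVec, ← map_smul, ← map_add, ← tp_smul_right] at h1
    refine not_tp_of_indep huu (hbb _ ?_) _ _ ((frmV e P).injective h1)
    rw [one_mul, hc', h₂.add_left, hb 0 2 (by decide), zero_add]
    exact mul_ne_zero hc (mul_ne_zero hu' hN)

end Cfsg.Agent.H9
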