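import Cfsg.Agent.H9.SpExcl

/-! Further non-maximal members of the symplectic geometric classes in dimensions four and eight. -/

set_option autoImplicit false
set_option linter.unusedSectionVars false
set_option linter.unusedVariables false
set_option linter.style.haveILetI false

namespace Cfsg.Agent.H9

open scoped MatrixGroups Matrix Kronecker
open Cfsg.Geo Cfsg.Agent.H98

variable {m : ℕ} {F : Type*} [Field F]

theorem exists_tp_of_det {s : Fin 2 × Fin 2 → F} (h : s (0, 0) * s (1, 1) = s (0, 1) * s (1, 0)) :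
    ∃ p q : Fin 2 → F, s = tp p q := by
  by_cases h0 : s (0, 0) = 0
  · by_cases h1 : s (0, 1) = 0
    · refine ⟨![0, 1], ![s (1, 0), s (1, 1)], funext fun ⟨i, j⟩ => ?_⟩
      fin_cases i <;> fin_cases j <;> simp [tp, h0, h1]
    · have h2 : s (1, 0) = 0 := by simpa [h0, h1] using h
      refine ⟨![1, s (1, 1) / s (0, 1)], ![0, s (0, 1)], funext fun ⟨i, j⟩ => ?_⟩
      fin_cases i <;> fin_cases j <;> simp [tp, h0, h1, h2]
  · refine ⟨![1, s (1, 0) / s (0, 0)], ![s (0, 0), s (0, 1)], funext fun ⟨i, j⟩ => ?_⟩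
    fin_cases i <;> fin_cases j <;> simp [tp, h0]
    field_simp
    linear_combination h

theorem surj_of_gram {ι κ : Type} [Fintype ι] [DecidableEq ι] [Fintype κ] [DecidableEq κ] {ε : F}
    {f : (ι → F) → (ι → F) → F} (hf : IsSesq (RingEquiv.refl F) ε f) {z : κ → ι → F} (τ : κ → κ)
    (h : ∀ k l, f (z k) (z (τ l)) = 0 ↔ k ≠ l) :
    LinearIndependent F z ∧
      (Fintype.card κ = Fintype.card ι → ∀ v, ∃ s : κ → F, v = ∑ k, s k • z k) := by
  have hli : LinearIndependent F z := by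
    rw [Fintype.linearIndependent_iff]
    intro s hs l
    have h1 := congrArg (fun v => f v (z (τ l))) hs
    simp only [hf.sum_left, hf.smul_left, hf.zero_left] at h1
    rw [Finset.sum_eq_single l (fun k _ hk => by rw [(h k l).2 hk, mul_zero]) (by simp)] at h1
    exact (mul_eq_zero.1 h1).resolve_right fun h2 => (h l l).1 h2 rfl
  refine ⟨hli, fun hc v => ?_⟩
  have h1 : Submodule.span F (Set.range z) = ⊤ :=
    hli.span_eq_top_of_card_eq_finrank' (by simpa using hc)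
  have hv : v ∈ Submodule.span F (Set.range z) := h1 ▸ Submodule.mem_top
  obtain ⟨s, hs⟩ := (Submodule.mem_span_range_iff_exists_fun F).1 hv
  exact ⟨s, hs.symm⟩

theorem pair_indep {V κ : Type*} [AddCommGroup V] [Module F V] {z : κ → V}
    (h : LinearIndependent F z) {k l : κ} (hkl : k ≠ l) (a b : F) (hab : a • z k + b • z l = 0) :
    a = 0 ∧ b = 0 := by
  have := h.comp ![k, l] (by
    intro i j hij
    fin_cases i <;> fin_cases j <;> simp_all [eq_comm])
  have e : z ∘ ![k, l] = ![z k, z l] := by ext1 i; fin_cases i <;> rfl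
  rw [e, LinearIndependent.pair_iff] at this
  exact this a b hab

/-- The stabiliser of a tensor decomposition of an alternating form into a binary alternating
form and a quaternary form of plus type is not maximal. -/
theorem tens_plus_between [Fintype F] (ho : Odd (Fintype.card F))
    {e : (Fin m ⊕ Fin m) ≃ Fin 2 × Fin 4} {P : GL (Fin m ⊕ Fin m) F}
    {f₁ : (Fin 2 → F) → (Fin 2 → F) → F} {f₂ : (Fin 4 → F) → (Fin 4 → F) → F}
    (hf₁ : IsSymplecticForm f₁) (hf₂ : IsSymmetricForm f₂)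
    (hp : IsPlusTypeOn (fun v : Fin 4 → F => f₂ v v) ⊤)
    (hT : IsTensorFormStructure id (sympForm m F) f₁ f₂ e P) :
    ∃ K, tensorProductSubgroup 2 4 e P ⊓ spGL m F < K ∧ K < spGL m F := by
  have hf : IsSesq (RingEquiv.refl F) (-1) (sympForm m F) := isSesq_symp
  have h₁ := isSesq_of_symplectic hf₁
  have h₂ := isSesq_of_symmetric hf₂
  have h2 : (2 : F) ≠ 0 := two_ne_zero_of_odd ho
  obtain ⟨c, hc, hc'⟩ := tensorForm_tp h₁ h₂ hT
  obtain ⟨u, hu⟩ : ∃ u : Fin 2 → Fin 2 → F, ∀ i j, f₁ (u i) (u j) = J2 F i j := by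
    obtain ⟨v, hv⟩ := (h₁.nondeg (Pi.single 0 1) (by simp)).1
    refine ⟨![(f₁ v (Pi.single 0 1))⁻¹ • v, Pi.single 0 1], fun i j => ?_⟩
    have h3 : f₁ ((f₁ v (Pi.single 0 1))⁻¹ • v) (Pi.single 0 1) = 1 := by
      rw [h₁.smul_left, inv_mul_cancel₀ hv]
    fin_cases i <;> fin_cases j <;> simp [J2, hf₁.alternating, h3, hf₁.skew (Pi.single 0 1) (_ • _)]
  obtain ⟨z, hz⟩ : ∃ z : Fin 2 × Fin 2 → Fin 4 → F, ∀ p q,
      f₂ (z p) (z q) = J2 F p.1 q.1 * J2 F p.2 q.2 := by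
    obtain ⟨U, -, hU, hd⟩ := hp
    let b := Module.finBasisOfFinrankEq F U (n := 2) (by simp at hd; omega)
    have hU' := H27.symm_eq_zero_of_self h2 (toBil_isSymm h₂) U hU
    obtain ⟨y, hy⟩ := H27.exists_hyp_extend (σ := RingHom.id F) (ε := 1) (B := toBil h₂)
      (e := fun i => (b i : Fin 4 → F)) (fun _ => rfl) (by simp) (toBil_sepLeft h₂)
      (fun x y => by simpa [toBil_apply] using hf₂.symm y x)
      (fun a => ⟨f₂ a a / 2, by simp [toBil_apply, ← two_mul, mul_div_cancel₀ _ h2]⟩)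
      (b.linearIndependent.map' U.subtype U.ker_subtype) (fun i j => hU' _ (b i).2 _ (b j).2)
    have e1 : ∀ i j, f₂ (b i) (y j) = if i = j then 1 else 0 := hy.ef
    have e2 : ∀ i j, f₂ (b i) (b j) = 0 := hy.ee
    have e3 : ∀ i j, f₂ (y i) (y j) = 0 := hy.ff
    have e4 : ∀ i j, f₂ (y j) (b i) = if i = j then 1 else 0 := fun i j => by rw [hf₂.symm, e1]
    refine ⟨fun p => ![![(b 0).1, (b 1).1], ![-y 1, y 0]] p.1 p.2, fun ⟨a, a'⟩ ⟨d, d'⟩ => ?_⟩
    fin_cases a <;> fin_cases a' <;> fin_cases d <;> fin_cases d' <;>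
      simp [J2, e1, e2, e3, e4, h₂.neg_left, h₂.neg_right]
  have hJ : ∀ i j : Fin 2, J2 F i (Fin.rev j) = 0 ↔ i ≠ j := by
    intro i j; fin_cases i <;> fin_cases j <;> simp [J2, Fin.rev]
  obtain ⟨hui, hus⟩ := surj_of_gram h₁ (z := u) Fin.rev (fun k l => by rw [hu, hJ])
  obtain ⟨hzi, hzs⟩ := surj_of_gram h₂ (z := z) (Prod.map Fin.rev Fin.rev) (fun k l => by
    rw [hz, mul_eq_zero, Prod.map_fst, Prod.map_snd, hJ, hJ, Ne, Ne, Ne, Prod.ext_iff, not_and_or])
  let U : Fin 2 × Fin 2 × Fin 2 → Fin m ⊕ Fin m → F := fun p => frmV e P (tp (u p.1) (z p.2))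
  have hU : ∀ p q, sympForm m F (U p) (U q) =
      c * (J2 F p.1 q.1 * (J2 F p.2.1 q.2.1 * J2 F p.2.2 q.2.2)) := fun p q => by rw [hc', hu, hz]
  obtain ⟨hUi, -⟩ := surj_of_gram hf (z := U) (Prod.map Fin.rev (Prod.map Fin.rev Fin.rev))
    (fun k l => by
      simp only [hU, mul_eq_zero, hc, false_or, Prod.map_fst, Prod.map_snd, hJ, Ne, Prod.ext_iff,
        not_and_or])
  let σ : Fin 2 × Fin 2 × Fin 2 → Fin 2 × Fin 2 × Fin 2 := fun p => (p.2.1, p.1, p.2.2)
  obtain ⟨A, hA⟩ := H27.sp_witt_family hUi (hUi.comp σ (fun p q h => by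
    simp only [σ, Prod.ext_iff] at h ⊢; tauto)) (fun p q => by
    simp only [Function.comp, hU, σ]; ring)
  have hA' : ∀ i j k, A.1 *ᵥ frmV e P (tp (u i) (z (j, k))) = frmV e P (tp (u j) (z (i, k))) :=
    fun i j k => hA (i, j, k)
  have hsing : ∀ s : Fin 2 × Fin 2 → F, f₂ (∑ k, s k • z k) (∑ k, s k • z k) =
      2 * (s (0, 0) * s (1, 1) - s (0, 1) * s (1, 0)) := by
    intro s
    simp only [h₂.add_left, h₂.add_right, h₂.smul_left, bil_smul_right h₂, hz, Fintype.sum_prod_type,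
      Fin.sum_univ_two, J2]
    simp; ring
  let X : Set (Fin m ⊕ Fin m → F) := {v | ∃ x s, f₂ s s = 0 ∧ v = frmV e P (tp x s)}
  have hnot := not_tp_of_indep (pair_indep hui (k := 0) (l := 1) (by decide))
    (pair_indep hzi (k := (0, 0)) (l := (0, 1)) (by decide))
  refine exists_between (M := H99.setStab X) ?_ ?_ (g := spHom m F A) ?_ (spHom_mem _) ?_
  · rintro g ⟨hg, hgS⟩
    obtain ⟨x, y, hxy⟩ := mem_tensorProductSubgroup.1 hg
    obtain ⟨-, d, hd⟩ := tensor_sim hf (by norm_num) (by norm_num) h₁ h₂ hT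
      ⟨1, by simpa using mem_spGL.1 hgS⟩ hxy
    refine H99.mem_setStab_of_finite ?_
    rintro _ ⟨z, s, hs, rfl⟩
    exact ⟨_, _, by rw [hd, hs, mul_zero], mulVec_frmV_tp hxy z s⟩
  · refine not_sp_le_of_set X (fun g hg v hv => (H99.mem_setStab.1 hg v).1 hv) (u := U (0, 0, 0))
      ⟨_, _, by simp [hz, J2], rfl⟩ (hUi.ne_zero _)
      (w := frmV e P (tp (u 0) (z (0, 0)) + tp (u 1) (z (0, 1)))) ?_ ?_
    · rintro ⟨x, s, -, h⟩
      exact hnot x s ((frmV e P).injective h)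
    · rw [Ne, map_eq_zero_iff _ (frmV e P).injective]
      intro h
      refine hnot 0 0 (h.trans ?_)
      ext p; simp [tp]
  · refine H99.mem_setStab_of_finite ?_
    rintro _ ⟨x, s, hs, rfl⟩
    obtain ⟨a, rfl⟩ := hus rfl x
    obtain ⟨s, rfl⟩ := hzs (by simp) s
    rw [hsing, mul_eq_zero, sub_eq_zero] at hs
    obtain ⟨p, q, rfl⟩ := exists_tp_of_det (hs.resolve_left h2)
    refine ⟨∑ k, p k • u k, ∑ k, tp a q k • z k, by rw [hsing]; simp only [tp]; ring, ?_⟩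
    simp only [coe_spHom, Fintype.sum_prod_type, Fin.sum_univ_two, tp_add_left, tp_add_right,
      tp_smul_left, tp_smul_right, map_add, map_smul, Matrix.mulVec_add, Matrix.mulVec_smul, hA']
    simp only [tp]
    module
  · intro hg
    obtain ⟨x, y, hxy⟩ := mem_tensorProductSubgroup.1 hg
    have h1 := mulVec_frmV_tp hxy (u 0) (z (0, 0) + z (1, 1))
    rw [tp_add_right, map_add, Matrix.mulVec_add, coe_spHom, hA', hA', ← map_add] at h1
    exact hnot _ _ ((frmV e P).injective h1)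

theorem dep_of_orth {D : Fin 2 → Submodule F (Fin 2 ⊕ Fin 2 → F)} (hD : IsMDecomposition 2 D)
    (hs : ∀ i, IsTotallySingularFor (sympForm 2 F) (D i)) {i j : Fin 2} (hij : i ≠ j)
    {u u' w : Fin 2 ⊕ Fin 2 → F} (hu : u ∈ D i) (hu' : u' ∈ D i) (hw : w ∈ D j) (hu0 : u' ≠ 0)
    (hw0 : w ≠ 0) (h : sympForm 2 F u w = 0) (h' : sympForm 2 F u' w = 0) : ∃ c : F, u = c • u' := by
  have hf : IsSesq (RingEquiv.refl F) (-1) (sympForm 2 F) := isSesq_symp
  by_contra hc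
  push Not at hc
  obtain ⟨d⟩ := H27.exists_dec hD.indep hD.iSup_eq_top
  refine hw0 (hf.eq_zero_of_right (d.induction (fun l x hx => ?_) (hf.zero_left _)
    (fun x y hx hy => by rw [hf.add_left, hx, hy, add_zero])))
  by_cases hl : l = j
  · exact hs j x (hl ▸ hx) w hw
  · obtain rfl : l = i := by omega
    obtain ⟨a, b, rfl⟩ := mem_span_pair_of_two (hD.finrank_eq l) hu hu' hu0 hc hx
    rw [hf.add_left, hf.smul_left, hf.smul_left, h, h']; simp

/-- The stabiliser in `Sp₄(3)` of a pair of complementary totally isotropic planes is not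
maximal. -/
theorem pair_three_between [Fintype F] (hq : Fintype.card F = 3)
    {D : Fin 2 → Submodule F (Fin 2 ⊕ Fin 2 → F)} (hD : IsMDecomposition 2 D)
    (hs : ∀ i, IsTotallySingularFor (sympForm 2 F) (D i)) :
    ∃ K, decompositionStabilizer D ⊓ spGL 2 F < K ∧ K < spGL 2 F := by
  have hf : IsSesq (RingEquiv.refl F) (-1) (sympForm 2 F) := isSesq_symp
  have hsq := @sq_eq_one_of_card_three F _ _ hq
  obtain ⟨u₁, hu₁, hu₁0⟩ := Submodule.exists_mem_ne_zero_of_ne_bot (H99.IsMDec.ne_bot hD 0)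
  obtain ⟨w₂, hw₂, hw₂0, h12⟩ : ∃ w ∈ D 1, w ≠ 0 ∧ sympForm 2 F u₁ w = 0 := by
    have h1 : LinearMap.ker ((toBil hf u₁).comp (D 1).subtype) ≠ ⊥ :=
      LinearMap.ker_ne_bot_of_finrank_lt (by simp [hD.finrank_eq])
    obtain ⟨w, hw, hw0⟩ := Submodule.exists_mem_ne_zero_of_ne_bot h1
    exact ⟨w, w.2, fun h => hw0 (Subtype.ext h), hw⟩
  obtain ⟨u₂, hu₂, h22⟩ : ∃ u ∈ D 0, sympForm 2 F u w₂ ≠ 0 := by
    obtain ⟨u, hu, hu'⟩ := H27.exists_not_mem_span_singleton (hD.finrank_eq 0).ge u₁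
    refine ⟨u, hu, fun h => hu' ?_⟩
    obtain ⟨c, rfl⟩ := dep_of_orth hD hs (i := 0) (j := 1) (by decide) hu hu₁ hw₂ hu₁0 hw₂0 h h12
    exact Submodule.smul_mem _ _ (Submodule.mem_span_singleton_self _)
  let X : Set (Fin 2 ⊕ Fin 2 → F) :=
    {v | ∃ u ∈ D 0, ∃ w ∈ D 1, u ≠ 0 ∧ w ≠ 0 ∧ sympForm 2 F u w = 0 ∧ v = u + w}
  have hX : ∀ v ∈ X, ∀ l, v ∉ D l := by
    rintro _ ⟨u, hu, w, hw, hu0, hw0, -, rfl⟩ l
    exact H99.IsMDec.add_not_mem hD (by decide) hu hw hu0 hw0 l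
  have key : ∀ u ∈ D 0, ∀ w ∈ D 1, sympForm 2 F (u + w) (u₁ + w₂) =
      sympForm 2 F u w₂ - sympForm 2 F u₁ w := fun u hu w hw => by
    rw [hf.add_left, hf.add_right, hf.add_right, hs 0 u hu u₁ hu₁, hs 1 w hw w₂ hw₂,
      H27.sympForm_neg_comm w]; ring
  refine exists_between (M := H99.setStab X) ?_ ?_ (g := tS (u₁ + w₂) 1) ?_ (tS_mem _ _) ?_
  · rintro g ⟨hg, hgS⟩
    obtain ⟨σ, hσ⟩ := H99.mem_of_decStab hg
    refine H99.mem_setStab_of_finite ?_
    rintro _ ⟨u, hu, w, hw, hu0, hw0, h, rfl⟩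
    have h0 := hσ 0 u hu
    have h1 := hσ 1 w hw
    have hne : σ 0 ≠ σ 1 := σ.injective.ne (by decide)
    have hu0' := mt (gl_mulVec_eq_zero g).1 hu0
    have hw0' := mt (gl_mulVec_eq_zero g).1 hw0
    have h' := (mem_spGL.1 hgS u w).trans h
    by_cases e0 : σ 0 = 0
    · have e1 : σ 1 = 1 := by omega
      exact ⟨_, e0 ▸ h0, _, e1 ▸ h1, hu0', hw0', h', Matrix.mulVec_add _ _ _⟩
    · have e0' : σ 0 = 1 := by omega
      have e1 : σ 1 = 0 := by omega
      exact ⟨_, e1 ▸ h1, _, e0' ▸ h0, hw0', hu0', hf.eq_zero_comm.1 h', by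
        rw [Matrix.mulVec_add, add_comm]⟩
  · have h1 : u₁ + w₂ ∈ X := ⟨u₁, hu₁, w₂, hw₂, hu₁0, hw₂0, h12, rfl⟩
    exact not_sp_le_of_set X (fun g hg v hv => (H99.mem_setStab.1 hg v).1 hv) h1
      (fun h => hX _ h1 0 (h ▸ (D 0).zero_mem)) (fun h => hX _ h 0 hu₁) hu₁0
  · refine H99.mem_setStab_of_finite ?_
    rintro _ ⟨u, hu, w, hw, hu0, hw0, h, rfl⟩
    have hβγ : sympForm 2 F u w₂ = 0 ↔ sympForm 2 F u₁ w = 0 := by
      constructor
      · intro hβ
        obtain ⟨c, hc⟩ := dep_of_orth hD hs (i := 0) (j := 1) (by decide) hu₁ hu hw₂ hu0 hw₂0 h12 hβ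
        rw [hc, hf.smul_left, h, mul_zero]
      · intro hγ
        obtain ⟨c, hc⟩ := dep_of_orth hD hs (i := 1) (j := 0) (by decide) hw₂ hw hu₁ hw0 hu₁0
          (hf.eq_zero_comm.1 h12) (hf.eq_zero_comm.1 hγ)
        rw [hc, bil_smul_right hf, h, mul_zero]
    rw [tS_mulVec, key u hu w hw, one_mul]
    have hsq' : sympForm 2 F u w₂ ^ 2 = sympForm 2 F u₁ w ^ 2 := by
      by_cases hβ : sympForm 2 F u w₂ = 0
      · rw [hβ, hβγ.1 hβ]
      · rw [hsq hβ, hsq (mt hβγ.2 hβ)]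
    generalize hl : sympForm 2 F u w₂ - sympForm 2 F u₁ w = l
    refine ⟨u + l • u₁, (D 0).add_mem hu ((D 0).smul_mem _ hu₁), w + l • w₂,
      (D 1).add_mem hw ((D 1).smul_mem _ hw₂), fun h0 => ?_, fun h0 => ?_, ?_, by module⟩
    · have h1 := congrArg (fun v => sympForm 2 F v w₂) h0
      simp only [hf.add_left, hf.smul_left, h12, hf.zero_left, mul_zero, add_zero] at h1
      rw [h1, hβγ.1 h1, sub_self] at hl
      exact hu0 (by simpa [← hl] using h0)
    · have h1 := congrArg (fun v => sympForm 2 F u₁ v) h0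
      simp only [hf.add_right, bil_smul_right hf, h12, hf.zero_right, mul_zero, add_zero] at h1
      rw [h1, hβγ.2 h1, sub_self] at hl
      exact hw0 (by simpa [← hl] using h0)
    · simp only [hf.add_left, hf.add_right, hf.smul_left, bil_smul_right hf, h, h12, ← hl]
      linear_combination hsq'
  · intro hg
    obtain ⟨σ, hσ⟩ := H99.mem_of_decStab hg
    have h1 := hσ 0 u₂ hu₂
    have h2 := key u₂ hu₂ 0 (D 1).zero_mem
    rw [add_zero, hf.zero_right, sub_zero] at h2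
    rw [tS_mulVec, h2, one_mul, smul_add, ← add_assoc] at h1
    refine H99.IsMDec.add_not_mem hD (i := 0) (j := 1) (by decide)
      ((D 0).add_mem hu₂ ((D 0).smul_mem _ hu₁)) ((D 1).smul_mem _ hw₂) (fun h0 => h22 ?_)
      (smul_ne_zero h22 hw₂0) _ h1
    simpa only [hf.add_left, hf.smul_left, h12, hf.zero_left, mul_zero, add_zero] using
      congrArg (fun v => sympForm 2 F v w₂) h0

end Cfsg.Agent.H9
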