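import Cfsg.Agent.H9.SpExcl2

/-! The unitary field-extension subgroup of `Sp₄(3)` is not maximal. -/

set_option autoImplicit false
set_option linter.unusedSectionVars false
set_option linter.unusedVariables false
set_option linter.style.haveILetI false

namespace Cfsg.Agent.H9

open scoped MatrixGroups Matrix
open Cfsg.Geo Cfsg.Agent.H98

/-- The coordinate form of the relation "spanning a line of the Hall spread". -/
def HallRel {R : Type*} [CommRing R] (a b c d a' b' c' d' : R) : Prop :=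
  a * b' - b * a' + c * d' - d * c' ≠ 0 ∧
    (((a * a + b * b + c * c + d * d) * a' =
        (a * a' + b * b' + c * c' + d * d') * a - (a * b' - b * a' + c * d' - d * c') * b ∧
      (a * a + b * b + c * c + d * d) * b' =
        (a * a' + b * b' + c * c' + d * d') * b + (a * b' - b * a' + c * d' - d * c') * a ∧
      (a * a + b * b + c * c + d * d) * c' =
        (a * a' + b * b' + c * c' + d * d') * c - (a * b' - b * a' + c * d' - d * c') * d ∧
      (a * a + b * b + c * c + d * d) * d' =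
        (a * a' + b * b' + c * c' + d * d') * d + (a * b' - b * a' + c * d' - d * c') * c) ∨
    (a * a + b * b + c * c + d * d = 0 ∧ a' * a' + b' * b' + c' * c' + d' * d' = 0 ∧
      a * a' + b * b' + c * c' + d * d' = 0))

theorem hallRel_map {R S : Type*} [CommRing R] [CommRing S] (φ : R →+* S)
    (hφ : Function.Injective φ) (a b c d a' b' c' d' : R) :
    HallRel (φ a) (φ b) (φ c) (φ d) (φ a') (φ b') (φ c') (φ d') ↔ HallRel a b c d a' b' c' d' := by
  simp only [HallRel, ← map_mul, ← map_add, ← map_sub, hφ.eq_iff, ne_eq, map_eq_zero_iff φ hφ]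

instance hallRelDec (a b c d a' b' c' d' : ZMod 3) : Decidable (HallRel a b c d a' b' c' d') := by
  unfold HallRel; infer_instance

theorem hallRel_zmod : ∀ a b c d a' b' c' d' : ZMod 3, HallRel a b c d a' b' c' d' ↔
    HallRel (a - b) b (c - d) d (a' - b') b' (c' - d') d' := by
  decide +kernel

theorem hallRel_three {F : Type*} [Field F] [Fintype F] (hq : Fintype.card F = 3)
    (a b c d a' b' c' d' : F) : HallRel a b c d a' b' c' d' ↔
      HallRel (a - b) b (c - d) d (a' - b') b' (c' - d') d' := by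
  let φ : ZMod 3 ≃+* F := ZMod.ringEquivOfPrime F Nat.prime_three hq
  obtain ⟨a, rfl⟩ := φ.surjective a
  obtain ⟨b, rfl⟩ := φ.surjective b
  obtain ⟨c, rfl⟩ := φ.surjective c
  obtain ⟨d, rfl⟩ := φ.surjective d
  obtain ⟨a', rfl⟩ := φ.surjective a'
  obtain ⟨b', rfl⟩ := φ.surjective b'
  obtain ⟨c', rfl⟩ := φ.surjective c'
  obtain ⟨d', rfl⟩ := φ.surjective d'
  simp only [← map_sub]
  exact (hallRel_map φ.toRingHom φ.injective ..).trans
    ((hallRel_zmod ..).trans (hallRel_map φ.toRingHom φ.injective ..).symm)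

section Rel

variable {ι : Type} [Fintype ι] [DecidableEq ι] {F : Type*} [Field F]

/-- The stabiliser of a relation between vectors. -/
def pairStab (R : (ι → F) → (ι → F) → Prop) : Subgroup (GL ι F) where
  carrier := {g | ∀ u v, R u v ↔ R ((g : Matrix ι ι F) *ᵥ u) ((g : Matrix ι ι F) *ᵥ v)}
  mul_mem' {a b} ha hb u v := by
    rw [Units.val_mul, ← Matrix.mulVec_mulVec, ← Matrix.mulVec_mulVec, ← ha, ← hb]
  one_mem' u v := by simp
  inv_mem' {a} ha u v := by rw [ha (_ *ᵥ u), mulVec_inv_mulVec, mulVec_inv_mulVec]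

theorem le_pairStab {R : (ι → F) → (ι → F) → Prop} {H : Subgroup (GL ι F)}
    (h : ∀ g ∈ H, ∀ u v, R u v → R ((g : Matrix ι ι F) *ᵥ u) ((g : Matrix ι ι F) *ᵥ v)) :
    H ≤ pairStab R := fun g hg u v => ⟨h g hg u v, fun h' => by
  simpa only [inv_mulVec_mulVec] using h _ (H.inv_mem hg) _ _ h'⟩

end Rel

variable {m : ℕ} {F : Type*} [Field F]

/-- A skew-adjoint generator of an adjoint-closed, not self-adjoint quadratic field. -/
theorem exists_skew_gen (hm : 1 ≤ m) (h2 : (2 : F) ≠ 0)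
    {K : Subalgebra F (Matrix (Fin m ⊕ Fin m) (Fin m ⊕ Fin m) F)} (hK : IsFieldSubalgebra 2 K)
    (ha : IsAdjointClosedFor (sympForm m F) K) (hs : ¬ IsSelfAdjointFor (sympForm m F) K) :
    ∃ (j : Matrix (Fin m ⊕ Fin m) (Fin m ⊕ Fin m) F) (c : F), j ∈ K ∧ j * j = c • 1 ∧ c ≠ 0 ∧ c ≠ 1 ∧
      (∀ u v, sympForm m F (j *ᵥ u) v = -sympForm m F u (j *ᵥ v)) ∧
      ∀ g ∈ subalgebraNormalizer K ⊓ spGL m F, ∃ ε : F, ε ≠ 0 ∧
        ∀ v, j *ᵥ ((g : Matrix _ _ F) *ᵥ v) = ε • ((g : Matrix _ _ F) *ᵥ (j *ᵥ v)) := by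
  haveI : Nonempty (Fin m ⊕ Fin m) := ⟨Sum.inl ⟨0, hm⟩⟩
  have hf : IsSesq (RingEquiv.refl F) (-1) (sympForm m F) := isSesq_symp
  obtain ⟨-, hsc⟩ := field_not_selfAdj hf Nat.prime_two hK ha hs
  rw [hf.adjClosed_iff] at ha
  rw [hf.selfAdj_iff] at hs
  push Not at hs
  obtain ⟨k, hk, hk'⟩ := hs
  have hj : k - adj (RingEquiv.refl F) (sympForm m F) k ∈ K := K.sub_mem hk (ha k hk)
  have hj0 : k - adj (RingEquiv.refl F) (sympForm m F) k ≠ 0 := sub_ne_zero.2 (Ne.symm hk')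
  have hadj : adj (RingEquiv.refl F) (sympForm m F) (k - adj (RingEquiv.refl F) (sympForm m F) k) =
      -(k - adj (RingEquiv.refl F) (sympForm m F) k) := by rw [hf.adj_sub, hf.adj_adj, neg_sub]
  generalize k - adj (RingEquiv.refl F) (sympForm m F) k = j at hj hj0 hadj
  have hdom : ∀ x ∈ K, ∀ y, x * y = 0 → x ≠ 0 → y = 0 := fun x hx y hxy hx0 => by
    obtain ⟨z, hz, hxz⟩ := hK.inv x hx hx0
    rw [← one_mul y, ← hxz, hK.comm x hx z hz, mul_assoc, hxy, mul_zero]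
  obtain ⟨c, hc⟩ := hsc _ (K.mul_mem hj hj) (by rw [hf.adj_mul, hadj, neg_mul_neg])
  have hc0 : c ≠ 0 := fun h => hj0 (hdom j hj j (by rw [hc, h, zero_smul]) hj0)
  have hne : ∀ d : F, j ≠ d • 1 := fun d h => by
    rw [h, hf.adj_smul, hf.adj_one, RingEquiv.refl_apply, eq_neg_iff_add_eq_zero, ← add_smul,
      ← two_mul, smul_eq_zero, mul_eq_zero] at hadj
    exact hj0 (by rw [h, (hadj.resolve_right one_ne_zero).resolve_left h2, zero_smul])
  refine ⟨j, c, hj, hc, hc0, fun h => ?_, fun u v => by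
    rw [hf.adj_spec, hadj, Matrix.neg_mulVec, hf.neg_right], ?_⟩
  · have h1 := hdom (j - 1) (K.sub_mem hj K.one_mem) (j + 1) (by
      rw [sub_mul, mul_add, hc, h]; simp [add_comm]) (sub_ne_zero.2 (by simpa using hne 1))
    exact hne (-1) (by rw [neg_smul, one_smul]; exact eq_neg_of_add_eq_zero_left h1)
  · rintro g ⟨hg, hgS⟩
    have h1 : cj g⁻¹ j ∈ K := nz_of_le_normalizer le_rfl _ (Subgroup.inv_mem _ hg) j hj
    have h3 : adj (RingEquiv.refl F) (sympForm m F) (cj g⁻¹ j) = -cj g⁻¹ j := by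
      rw [hf.adj_cj_of_sim ⟨1, by simpa using mem_spGL.1 ((spGL m F).inv_mem hgS)⟩, hadj, map_neg]
    obtain ⟨d, hd⟩ := hsc _ (K.mul_mem h1 hj) (by
      rw [hf.adj_mul, hadj, h3, neg_mul_neg, hK.comm _ hj _ h1])
    have h4 : cj g⁻¹ j = (d / c) • j := by
      have := congrArg (· * j) hd
      simp only [mul_assoc, hc, Matrix.mul_smul, mul_one, Matrix.smul_mul, one_mul] at this
      rw [div_eq_inv_mul, mul_smul, ← this, smul_smul, inv_mul_cancel₀ hc0, one_smul]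
    refine ⟨d / c, fun h => hj0 ?_, fun v => ?_⟩
    · rw [h, zero_smul] at h4
      simpa using h4
    · rw [← Matrix.mulVec_smul, ← Matrix.smul_mulVec, ← h4, ← cj_mulVec, cj_cj_inv]

/-- The normaliser in `Sp₄(3)` of a unitary quadratic field is not maximal. -/
theorem uni_three_between [Fintype F] (hq : Fintype.card F = 3)
    {K : Subalgebra F (Matrix (Fin 2 ⊕ Fin 2) (Fin 2 ⊕ Fin 2) F)} (hK : IsFieldSubalgebra 2 K)
    (ha : IsAdjointClosedFor (sympForm 2 F) K) (hs : ¬ IsSelfAdjointFor (sympForm 2 F) K) :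
    ∃ M, subalgebraNormalizer K ⊓ spGL 2 F < M ∧ M < spGL 2 F := by
  classical
  have hf : IsSesq (RingEquiv.refl F) (-1) (sympForm 2 F) := isSesq_symp
  have h2 : (2 : F) ≠ 0 := two_ne_zero_of_odd (by rw [hq]; decide)
  obtain ⟨j, c, hjK, hc, hc0, hc1, hj, hg⟩ := exists_skew_gen (by norm_num) h2 hK ha hs
  obtain rfl : c = -1 := (sq_eq_one_iff.1 (sq_eq_one_of_card_three hq hc0)).resolve_left hc1
  have hjj : ∀ v, j *ᵥ (j *ᵥ v) = -v := fun v => by
    rw [Matrix.mulVec_mulVec, hc, Matrix.smul_mulVec, Matrix.one_mulVec, neg_one_smul]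
  have hsym : ∀ u v, sympForm 2 F u (j *ᵥ v) = sympForm 2 F v (j *ᵥ u) := fun u v => by
    rw [H27.sympForm_neg_comm v, hj, neg_neg]
  have hjiso : ∀ u v, sympForm 2 F (j *ᵥ u) (j *ᵥ v) = sympForm 2 F u v := fun u v => by
    rw [hj, hjj, hf.neg_right, neg_neg]
  let B : LinearMap.BilinForm F (Fin 2 ⊕ Fin 2 → F) := (toBil hf).compl₂ (Matrix.toLin' j)
  have hB : ∀ u v, B u v = sympForm 2 F u (j *ᵥ v) := fun u v => rfl
  have hBs : B.IsSymm := ⟨fun u v => hsym u v⟩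
  obtain ⟨v₁, -, h11⟩ := H27.symm_exists_self_eq h2 hBs ⊤ (fun x _ hx => hf.eq_zero_of_left fun y => by
    have := hx (j *ᵥ y) trivial
    rwa [hB, hjj, hf.neg_right, neg_eq_zero] at this) (by simp) 1
  rw [hB] at h11
  let W : Submodule F (Fin 2 ⊕ Fin 2 → F) := Submodule.span F {v₁, j *ᵥ v₁}
  have hW : ∀ x, x ∈ perp hf W ↔ sympForm 2 F x v₁ = 0 ∧ sympForm 2 F x (j *ᵥ v₁) = 0 := by
    intro x
    rw [mem_perp]
    refine ⟨fun h => ⟨h _ (Submodule.subset_span (by simp)), h _ (Submodule.subset_span (by simp))⟩,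
      fun h w hw => ?_⟩
    obtain ⟨a, b, rfl⟩ := Submodule.mem_span_pair.1 hw
    rw [hf.add_right, bil_smul_right hf, bil_smul_right hf, h.1, h.2]; simp
  obtain ⟨v₂, hv₂, h22⟩ := H27.symm_exists_self_eq h2 hBs (perp hf W) (fun x hx hx' =>
    hf.eq_zero_of_left fun y => by
      have h1 := hx' (j *ᵥ (y - sympForm 2 F y (j *ᵥ v₁) • v₁ + sympForm 2 F y v₁ • j *ᵥ v₁)) (by
        rw [hW, hj, hjiso]
        simp only [hf.add_left, hf.sub_left, hf.smul_left, h11, hj, H27.sympForm_self, hjj,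
          hf.neg_right]
        constructor <;> ring)
      rw [hB, hjj, hf.neg_right, neg_eq_zero, hf.add_right, hf.sub_right, bil_smul_right hf,
        bil_smul_right hf, ((hW x).1 hx).1, ((hW x).1 hx).2] at h1
      simpa using h1) (by
      have h1 := finrank_add_finrank_perp hf W
      have h3 : Module.finrank F W ≤ 2 := by
        have := finrank_span_le_card (R := F) ({v₁, j *ᵥ v₁} : Set (Fin 2 ⊕ Fin 2 → F))
        refine this.trans ?_
        rw [Set.toFinset_insert, Set.toFinset_singleton]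
        exact Finset.card_le_two
      simp at h1; omega) 1
  rw [hB] at h22
  obtain ⟨h21, h21'⟩ := (hW v₂).1 hv₂
  have h12 : sympForm 2 F v₁ v₂ = 0 := hf.eq_zero_comm.1 h21
  have h12' : sympForm 2 F v₁ (j *ᵥ v₂) = 0 := by rw [hsym, h21']
  let b : Fin 4 → Fin 2 ⊕ Fin 2 → F := ![v₁, j *ᵥ v₁, v₂, j *ᵥ v₂]
  obtain ⟨hbi, hbs⟩ := surj_of_gram hf (z := b) ![1, 0, 3, 2] (fun k l => by
    fin_cases k <;> fin_cases l <;>
      simp [b, hj, hjj, hf.neg_right, h11, h22, h12, h12', h21, h21', H27.sympForm_self])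
  let Φ : F → F → F → F → Fin 2 ⊕ Fin 2 → F := fun a b c d =>
    a • v₁ + b • j *ᵥ v₁ + c • v₂ + d • j *ᵥ v₂
  have hΦ : ∀ v, ∃ a b c d, v = Φ a b c d := fun v => by
    obtain ⟨s, hs⟩ := hbs (by simp) v
    exact ⟨s 0, s 1, s 2, s 3, by rw [hs, Fin.sum_univ_four]; rfl⟩
  have hΦf : ∀ a b c d a' b' c' d', sympForm 2 F (Φ a b c d) (Φ a' b' c' d') =
      a * b' - b * a' + c * d' - d * c' := fun a b c d a' b' c' d' => by
    simp only [Φ, hf.add_left, hf.add_right, hf.smul_left, bil_smul_right hf, hj, hjj, hf.neg_right,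
      h11, h22, h12, h12', h21, h21', H27.sympForm_self]
    ring
  have hΦj : ∀ a b c d, j *ᵥ Φ a b c d = Φ (-b) a (-d) c := fun a b c d => by
    simp only [Φ, Matrix.mulVec_add, Matrix.mulVec_smul, hjj]; module
  have hΦi : ∀ a b c d a' b' c' d', Φ a b c d = Φ a' b' c' d' ↔ a = a' ∧ b = b' ∧ c = c' ∧ d = d' := by
    refine fun a b c d a' b' c' d' => ⟨fun h => ?_, by rintro ⟨rfl, rfl, rfl, rfl⟩; rfl⟩
    have e1 := congrArg (fun v => sympForm 2 F v (Φ 0 1 0 0)) h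
    have e2 := congrArg (fun v => sympForm 2 F v (Φ 1 0 0 0)) h
    have e3 := congrArg (fun v => sympForm 2 F v (Φ 0 0 0 1)) h
    have e4 := congrArg (fun v => sympForm 2 F v (Φ 0 0 1 0)) h
    simp [hΦf] at e1 e2 e3 e4
    exact ⟨e1, e2, e3, e4⟩
  have hΦa : ∀ a b c d a' b' c' d', Φ a b c d + Φ a' b' c' d' =
      Φ (a + a') (b + b') (c + c') (d + d') := fun a b c d a' b' c' d' => by
    simp only [Φ]; module
  have hΦs : ∀ t a b c d : F, t • Φ a b c d = Φ (t * a) (t * b) (t * c) (t * d) :=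
    fun t a b c d => by simp only [Φ]; module
  have e₁ : v₁ = Φ 1 0 0 0 := by simp [Φ]
  have e₂ : v₂ = Φ 0 0 1 0 := by simp [Φ]
  clear_value Φ
  let R : (Fin 2 ⊕ Fin 2 → F) → (Fin 2 ⊕ Fin 2 → F) → Prop := fun u v => sympForm 2 F u v ≠ 0 ∧
    (sympForm 2 F u (j *ᵥ u) • v = sympForm 2 F u (j *ᵥ v) • u + sympForm 2 F u v • j *ᵥ u ∨
      (sympForm 2 F u (j *ᵥ u) = 0 ∧ sympForm 2 F v (j *ᵥ v) = 0 ∧ sympForm 2 F u (j *ᵥ v) = 0))
  have hR : ∀ a b c d a' b' c' d', R (Φ a b c d) (Φ a' b' c' d') ↔ HallRel a b c d a' b' c' d' := by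
    intro a b c d a' b' c' d'
    simp only [R, HallRel, hΦj, hΦf, hΦs, hΦa, hΦi, mul_neg, sub_neg_eq_add, ← sub_eq_add_neg]
  have hy : ∀ a b c d, ((tS v₁ 1 * tS v₂ 1 : GL (Fin 2 ⊕ Fin 2) F) : Matrix _ _ F) *ᵥ Φ a b c d =
      Φ (a - b) b (c - d) d := by
    intro a b c d
    rw [Units.val_mul, ← Matrix.mulVec_mulVec, tS_mulVec, tS_mulVec, e₁, e₂]
    simp only [hΦf, hΦs, hΦa, hΦi]
    refine ⟨?_, ?_, ?_, ?_⟩ <;> ring
  refine exists_between (M := pairStab R) (le_pairStab ?_) ?_ (g := tS v₁ 1 * tS v₂ 1) ?_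
    ((spGL 2 F).mul_mem (tS_mem _ _) (tS_mem _ _)) ?_
  · rintro g hg' u v ⟨h1, h3⟩
    obtain ⟨ε, hε, hε'⟩ := hg g hg'
    have hiso := mem_spGL.1 hg'.2
    simp only [R, hε', bil_smul_right hf, hiso]
    refine ⟨h1, h3.imp (fun h => ?_) (fun h => by simp [h.1, h.2.1, h.2.2])⟩
    have := congrArg (fun x => ε • (g.1 *ᵥ x)) h
    simp only [Matrix.mulVec_add, Matrix.mulVec_smul, smul_add, smul_smul] at this ⊢
    rw [this, mul_comm ε (sympForm 2 F u v)]
  · intro h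
    have h1 := (h (tS_mem (Φ 1 0 1 0) 1) (Φ 1 0 0 0) (Φ 0 1 0 0)).1 (by simp [hR, HallRel])
    simp only [tS_mulVec, hΦf, hΦs, hΦa, hR] at h1
    simp [HallRel] at h1
  · intro u v
    obtain ⟨a, b, c, d, rfl⟩ := hΦ u
    obtain ⟨a', b', c', d', rfl⟩ := hΦ v
    rw [hy, hy, hR, hR]
    exact hallRel_three hq ..
  · intro h
    obtain ⟨ε, hε, hε'⟩ := hg _ ⟨h, (spGL 2 F).mul_mem (tS_mem _ _) (tS_mem _ _)⟩
    have h1 := hε' (Φ 1 0 0 0)
    simp only [hy, hΦj, hΦs, hΦi] at h1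
    simp [hε] at h1

end Cfsg.Agent.H9
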