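import Cfsg.Agent.H9.SpAschE
import Cfsg.Agent.H10.SpSimple

/-! No member of a geometric class contains the symplectic group. -/

set_option autoImplicit false
set_option linter.unusedSectionVars false
set_option linter.unusedVariables false
set_option linter.style.haveILetI false

namespace Cfsg.Agent.H9

open scoped MatrixGroups Matrix Kronecker
open Cfsg.Geo Cfsg.Agent.H98

variable {m : ℕ} {F : Type*} [Field F]

/-- The symplectic group as a subgroup of `GL`. -/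
noncomputable def spHom (m : ℕ) (F : Type*) [Field F] :
    Matrix.symplecticGroup (Fin m) F →* GL (Fin m ⊕ Fin m) F :=
  (Matrix.symplecticGroup (Fin m) F).subtype.toHomUnits

theorem coe_spHom (A : Matrix.symplecticGroup (Fin m) F) :
    ((spHom m F A : GL (Fin m ⊕ Fin m) F) : Matrix _ _ F) = A.1 := rfl

theorem spHom_mem (A : Matrix.symplecticGroup (Fin m) F) : spHom m F A ∈ spGL m F :=
  fun u v => H27.sp_sympForm A u v

theorem spHom_injective : Function.Injective (spHom m F) := fun A B h =>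
  Subtype.ext (congrArg Units.val h)

theorem exists_spHom_eq {g : GL (Fin m ⊕ Fin m) F} (hg : g ∈ spGL m F) : ∃ A, spHom m F A = g :=
  ⟨⟨g, H27.mem_sp_iff.2 hg⟩, Units.ext rfl⟩

theorem sp_trans {u v : Fin m ⊕ Fin m → F} (hu : u ≠ 0) (hv : v ≠ 0) :
    ∃ g ∈ spGL m F, (g : Matrix _ _ F) *ᵥ u = v := by
  obtain ⟨A, hA⟩ := H27.sp_exists_mulVec_eq hu hv
  exact ⟨spHom m F A, spHom_mem A, hA⟩

/-- The symplectic transvection as an element of `GL`. -/
noncomputable def tS (w : Fin m ⊕ Fin m → F) (c : F) : GL (Fin m ⊕ Fin m) F := spHom m F (H27.spT w c)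

theorem tS_mem (w : Fin m ⊕ Fin m → F) (c : F) : tS w c ∈ spGL m F := spHom_mem _

theorem tS_mulVec (w : Fin m ⊕ Fin m → F) (c : F) (x : Fin m ⊕ Fin m → F) :
    ((tS w c : GL (Fin m ⊕ Fin m) F) : Matrix _ _ F) *ᵥ x = x + (c * sympForm m F x w) • w :=
  H27.spT_mulVec w c x

theorem tS_mul (w : Fin m ⊕ Fin m → F) (c d : F) : tS w c * tS w d = tS w (c + d) := by
  rw [tS, tS, tS, ← map_mul, H27.spT_mul]

theorem tS_zero (w : Fin m ⊕ Fin m → F) : tS w (0 : F) = 1 := by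
  rw [tS, H27.spT_zero, map_one]

theorem tS_pow (w : Fin m ⊕ Fin m → F) (c : F) (k : ℕ) : tS w c ^ k = tS w (k * c) := by
  induction k with
  | zero => simp [tS_zero]
  | succ k ih => rw [pow_succ, ih, tS_mul]; congr 1; push_cast; ring

theorem tS_eq_tv (w : Fin m ⊕ Fin m → F) (c : F) :
    ∃ φ h, tS w c = H99.tv w φ h := by
  refine ⟨c • (Matrix.J (Fin m) F *ᵥ w), ?_, Units.ext (matrix_ext_mulVec fun v => ?_)⟩
  · rw [smul_dotProduct, dotProduct_comm]
    change c • sympForm m F w w = 0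
    rw [H27.sympForm_self, smul_zero]
  · rw [tS_mulVec, H99.tv_mulVec, smul_dotProduct, dotProduct_comm]
    rfl

theorem exists_symp_eq_one {w : Fin m ⊕ Fin m → F} (hw : w ≠ 0) : ∃ x, sympForm m F x w = 1 := by
  obtain ⟨x, hx⟩ := (isSesq_symp.nondeg w hw).1
  exact ⟨(sympForm m F x w)⁻¹ • x, by rw [H27.sympForm_smul_left, inv_mul_cancel₀ hx]⟩

theorem tS_eq_one {w : Fin m ⊕ Fin m → F} (hw : w ≠ 0) {c : F} (h : tS w c = 1) : c = 0 := by
  obtain ⟨x, hx⟩ := exists_symp_eq_one hw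
  have := tS_mulVec w c x
  rw [h, hx, Units.val_one, Matrix.one_mulVec, mul_one, left_eq_add, smul_eq_zero] at this
  exact this.resolve_right hw

theorem not_sp_le_of_set {X : Subgroup (GL (Fin m ⊕ Fin m) F)} (S : Set (Fin m ⊕ Fin m → F))
    (hS : ∀ g ∈ X, ∀ v ∈ S, (g : Matrix _ _ F) *ᵥ v ∈ S) {u w : Fin m ⊕ Fin m → F} (hu : u ∈ S)
    (hu0 : u ≠ 0) (hw : w ∉ S) (hw0 : w ≠ 0) : ¬ spGL m F ≤ X := by
  intro h
  obtain ⟨g, hg, rfl⟩ := sp_trans hu0 hw0
  exact hw (hS g (h hg) u hu)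

theorem not_sp_le_stab {W : Submodule F (Fin m ⊕ Fin m → F)} (h0 : W ≠ ⊥) (h1 : W ≠ ⊤) :
    ¬ spGL m F ≤ subspaceStabilizer W := by
  obtain ⟨u, hu, hu0⟩ := Submodule.exists_mem_ne_zero_of_ne_bot h0
  obtain ⟨w, -, hw⟩ := SetLike.exists_of_lt (lt_top_iff_ne_top.2 h1)
  exact not_sp_le_of_set (W : Set _) (fun g hg v hv => (mem_subspaceStabilizer.1 hg v).1 hv) hu hu0 hw
    (fun h => hw (h ▸ W.zero_mem))

theorem not_sp_le_decStab {t k : ℕ} {D : Fin t → Submodule F (Fin m ⊕ Fin m → F)}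
    (hD : IsMDecomposition k D) : ¬ spGL m F ≤ decompositionStabilizer D := by
  have h2 := hD.two_le
  let i : Fin t := ⟨0, by omega⟩
  let j : Fin t := ⟨1, by omega⟩
  have hij : i ≠ j := by simp [i, j, Fin.ext_iff]
  obtain ⟨u, hu, hu0⟩ := Submodule.exists_mem_ne_zero_of_ne_bot (H99.IsMDec.ne_bot hD i)
  obtain ⟨w, hw, hw0⟩ := Submodule.exists_mem_ne_zero_of_ne_bot (H99.IsMDec.ne_bot hD j)
  have h := H99.IsMDec.add_not_mem hD hij hu hw hu0 hw0
  refine not_sp_le_of_set {v | ∃ i, v ∈ D i} ?_ ⟨i, hu⟩ hu0 (w := u + w) (fun ⟨l, hl⟩ => h l hl)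
    (fun h0 => h i (h0 ▸ (D i).zero_mem))
  rintro g hg v ⟨l, hl⟩
  obtain ⟨σ, hσ⟩ := H99.mem_of_decStab hg
  exact ⟨_, hσ l v hl⟩

theorem not_sp_le_fieldNorm (hm : 2 ≤ m) {r : ℕ} (hr : 2 ≤ r)
    {K : Subalgebra F (Matrix (Fin m ⊕ Fin m) (Fin m ⊕ Fin m) F)} (hK : IsFieldSubalgebra r K) :
    ¬ spGL m F ≤ subalgebraNormalizer K := by
  intro h
  have := H99.finrank_le_one_of_scalar (K := K) (fun k hk => by
    let w : Fin m ⊕ Fin m → F := Pi.single (Sum.inl ⟨0, by omega⟩) 1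
    have hw : w ≠ 0 := by simp [w]
    obtain ⟨x, hx⟩ := exists_symp_eq_one hw
    obtain ⟨φ, hφ, e⟩ := tS_eq_tv w (1 : F)
    have h1 := H99.tv_comm_of_normalizes (by simp; omega) hK hφ (e ▸ h (tS_mem w 1)) hk
    rw [← e] at h1
    have h2 := congrArg (fun y => y *ᵥ x) h1
    simp only [← Matrix.mulVec_mulVec, tS_mulVec, hx, Matrix.mulVec_add, mul_one, one_smul, one_mul,
      add_right_inj] at h2
    refine ⟨sympForm m F (k *ᵥ x) w, sub_eq_zero.1 (H99.field_elt_eq_zero hK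
      (K.sub_mem hk (K.smul_mem K.one_mem _)) hw ?_)⟩
    rw [Matrix.sub_mulVec, Matrix.smul_mulVec, Matrix.one_mulVec, h2, sub_self])
  rw [hK.finrank_eq] at this
  omega

theorem not_tp_single_add {α β : Type} [DecidableEq α] [DecidableEq β] {i i' : α} {j j' : β}
    (hi : i ≠ i') (hj : j ≠ j') (u : α → F) (v : β → F) :
    (Pi.single (i, j) 1 + Pi.single (i', j') 1 : α × β → F) ≠ tp u v := by
  intro h
  have e1 := congrFun h (i, j)
  have e2 := congrFun h (i', j')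
  have e3 := congrFun h (i, j')
  simp [tp, hi, hj, hi.symm, hj.symm] at e1 e2 e3
  rcases e3 with e3 | e3
  · simp [e3] at e1
  · simp [e3] at e2

theorem not_sp_le_tensor {a b : ℕ} (ha : 2 ≤ a) (hb : 2 ≤ b) (e : (Fin m ⊕ Fin m) ≃ Fin a × Fin b)
    (P : GL (Fin m ⊕ Fin m) F) : ¬ spGL m F ≤ tensorProductSubgroup a b e P := by
  let i : Fin a := ⟨0, by omega⟩
  let i' : Fin a := ⟨1, by omega⟩
  let j : Fin b := ⟨0, by omega⟩
  let j' : Fin b := ⟨1, by omega⟩
  have hi : i ≠ i' := by simp [i, i', Fin.ext_iff]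
  have hj : j ≠ j' := by simp [j, j', Fin.ext_iff]
  refine not_sp_le_of_set {x | ∃ u v, x = frmV e P (tp u v)} ?_
    (u := frmV e P (Pi.single (i, j) 1)) ⟨_, _, by rw [single_eq_tp]⟩ (by simp)
    (w := frmV e P (Pi.single (i, j) 1 + Pi.single (i', j') 1)) ?_ ?_
  · rintro g hg _ ⟨u, v, rfl⟩
    obtain ⟨x, y, hxy⟩ := mem_tensorProductSubgroup.1 hg
    exact ⟨_, _, mulVec_frmV_tp hxy u v⟩
  · rintro ⟨u, v, h⟩
    exact not_tp_single_add hi hj u v ((frmV e P).injective h)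
  · rw [Ne, map_eq_zero_iff _ (frmV e P).injective]
    intro h
    refine not_tp_single_add hi hj (0 : Fin a → F) (0 : Fin b → F) (h.trans ?_)
    ext p; simp [tp]

theorem not_sp_le_subfield (hm : 1 ≤ m) {F₀ : Subfield F} (h0 : F₀ ≠ ⊤) (P : GL (Fin m ⊕ Fin m) F) :
    ¬ spGL m F ≤ subfieldSubgroup F₀ P := by
  obtain ⟨x, -, hx⟩ := SetLike.exists_of_lt (lt_top_iff_ne_top.2 h0)
  let i : Fin m ⊕ Fin m := Sum.inl ⟨0, hm⟩
  let j : Fin m ⊕ Fin m := Sum.inr ⟨0, hm⟩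
  have hij : i ≠ j := by simp [i, j]
  refine not_sp_le_of_set {v | ∃ c : F, c ≠ 0 ∧ ∀ l, c * (((P⁻¹ : GL (Fin m ⊕ Fin m) F) : Matrix (Fin m ⊕ Fin m) (Fin m ⊕ Fin m) F) *ᵥ v) l ∈ F₀} ?_
    (u := (P : Matrix _ _ F) *ᵥ Pi.single i 1) ⟨1, one_ne_zero, fun l => ?_⟩ ?_
    (w := (P : Matrix _ _ F) *ᵥ (Pi.single i 1 + Pi.single j x)) ?_ ?_
  · rintro g hg v ⟨c, hc, hv⟩
    obtain ⟨d, hd, hg⟩ := H99.mem_subfieldSubgroup.1 hg
    refine ⟨d * c, mul_ne_zero hd hc, fun l => ?_⟩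
    have : ((P⁻¹ : GL (Fin m ⊕ Fin m) F) : Matrix (Fin m ⊕ Fin m) (Fin m ⊕ Fin m) F) *ᵥ ((g : Matrix _ _ F) *ᵥ v) =
        ((P⁻¹ * g * P : GL (Fin m ⊕ Fin m) F) : Matrix (Fin m ⊕ Fin m) (Fin m ⊕ Fin m) F) *ᵥ (((P⁻¹ : GL (Fin m ⊕ Fin m) F) : Matrix (Fin m ⊕ Fin m) (Fin m ⊕ Fin m) F) *ᵥ v) := by
      simp only [Units.val_mul, ← Matrix.mulVec_mulVec, mulVec_inv_mulVec]
    rw [this]
    generalize ((P⁻¹ : GL (Fin m ⊕ Fin m) F) : Matrix (Fin m ⊕ Fin m) (Fin m ⊕ Fin m) F) *ᵥ v = y at hv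
    simp only [Matrix.mulVec, dotProduct, Finset.mul_sum]
    refine F₀.sum_mem fun s _ => ?_
    convert F₀.mul_mem (hg l s) (hv s) using 1
    ring
  · rw [inv_mulVec_mulVec, one_mul]
    by_cases h : l = i <;> simp [h]
  · rw [Ne, gl_mulVec_eq_zero]; simp
  · rintro ⟨c, hc, h⟩
    rw [inv_mulVec_mulVec] at h
    have h1 := h i
    have h2 := h j
    simp [hij, hij.symm] at h1 h2
    exact hx (by simpa [hc] using F₀.mul_mem (F₀.inv_mem h1) h2)
  · rw [Ne, gl_mulVec_eq_zero]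
    intro h
    simpa [hij] using congrFun h i

theorem not_sp_le_wreath {k t : ℕ} (hk : 2 ≤ k) (ht : 2 ≤ t) (e : (Fin m ⊕ Fin m) ≃ (Fin t → Fin k))
    (P : GL (Fin m ⊕ Fin m) F) : ¬ spGL m F ≤ tensorWreathSubgroup k t e P := by
  let a0 : Fin k := ⟨0, by omega⟩
  let a1 : Fin k := ⟨1, by omega⟩
  let i0 : Fin t := ⟨0, by omega⟩
  let i1 : Fin t := ⟨1, by omega⟩
  have ha : a0 ≠ a1 := by simp [a0, a1, Fin.ext_iff]
  have hi : i0 ≠ i1 := by simp [i0, i1, Fin.ext_iff]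
  let x : Fin t → Fin k := fun _ => a0
  let y : Fin t → Fin k := fun _ => a1
  have hxy : y ≠ x := fun h => ha (congrFun h i0).symm
  have n1 : Function.update x i0 (y i0) ≠ x := fun h => ha (by simpa [x, y] using (congrFun h i0).symm)
  have n2 : Function.update x i0 (y i0) ≠ y := fun h => ha (by
    simpa [x, y, Function.update_of_ne hi.symm] using (congrFun h i1))
  refine not_sp_le_of_set {v | (frmV e P).symm v ∈ H99.pureVecs k t F} ?_
    (u := frmV e P (Pi.single x 1)) (by simpa using H99.single_mem_pureVecs x) (by simp)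
    (w := frmV e P (Pi.single x 1 + Pi.single y 1)) ?_ ?_
  · intro g hg v hv
    obtain ⟨z, rfl⟩ := (frmV e P).surjective v
    simp only [Set.mem_ofPred_eq, mulVec_frmV_of_frmG, LinearEquiv.symm_apply_apply] at hv ⊢
    exact H99.mulVec_mem_pureVecs (mem_tensorWreathSubgroup.1 hg) _ hv
  · intro h
    simp only [Set.mem_ofPred_eq, LinearEquiv.symm_apply_apply] at h
    have h2 := H99.pureVecs_rel h x y i0
    simp [n1, n2, hxy, hxy.symm] at h2
  · rw [Ne, map_eq_zero_iff _ (frmV e P).injective]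
    intro h
    simpa [hxy.symm] using congrFun h x

theorem not_sp_le_quad [Finite F] (hm : 2 ≤ m) (h2 : (2 : F) = 0) {Q : (Fin m ⊕ Fin m → F) → F}
    (hQ : IsNondegenerateQuadraticForm Q) (hp : ∀ u v, QuadraticMap.polar Q u v = sympForm m F u v) :
    ¬ spGL m F ≤ quadSimilarityGroup Q := by
  let a : Fin m ⊕ Fin m → F := Pi.single (Sum.inl ⟨0, by omega⟩) 1
  let b : Fin m ⊕ Fin m → F := Pi.single (Sum.inl ⟨1, by omega⟩) 1
  obtain ⟨u, hu0, hu⟩ : ∃ u : Fin m ⊕ Fin m → F, u ≠ 0 ∧ Q u = 0 := by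
    by_cases ha : Q a = 0
    · exact ⟨a, by simp [a], ha⟩
    · obtain ⟨x, hx⟩ := FiniteField.isSquare_of_char_two
        (CharP.ringChar_of_prime_eq_zero Nat.prime_two (by exact_mod_cast h2)) (Q b / Q a)
      refine ⟨x • a + b, fun h => ?_, ?_⟩
      · simpa [a, b, Pi.single_apply, Fin.ext_iff] using congrFun h (Sum.inl ⟨1, by omega⟩)
      · have := hp (x • a) b
        rw [H27.sympForm_smul_left, H27.sympForm_single_inl_right] at this
        simp only [QuadraticMap.polar, hQ.smul] at this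
        have h3 : x ^ 2 * Q a = Q b := by rw [sq, ← hx, div_mul_cancel₀ _ ha]
        simp only [a, Pi.single_apply, reduceCtorEq, if_false, mul_zero] at this h3
        linear_combination this + h3 + Q b * h2
  obtain ⟨w, hw⟩ : ∃ w, Q w ≠ 0 := by
    by_contra hc
    push Not at hc
    obtain ⟨x, hx⟩ := exists_symp_eq_one hu0
    rw [← hp] at hx
    simp [QuadraticMap.polar, hc] at hx
  refine not_sp_le_of_set {v | Q v = 0} ?_ hu hu0 hw (fun h => hw (by simpa [h] using hQ.smul 0 0))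
  rintro g ⟨c, hc⟩ v hv
  change Q _ = 0
  rw [hc, hv, mul_zero]

theorem conj_mem_spGL_of_sim {x g : GL (Fin m ⊕ Fin m) F} (hx : x ∈ similarityGroup (sympForm m F))
    (hg : g ∈ spGL m F) : x * g * x⁻¹ ∈ spGL m F := by
  obtain ⟨c, hc⟩ := hx
  rw [mem_spGL]
  intro u v
  rw [← mulVec_inv_mulVec x u, ← mulVec_inv_mulVec x v, conj_mulVec_mulVec, conj_mulVec_mulVec, hc, hc,
    mem_spGL.1 hg]

theorem not_sp_le_normalizer [Finite F] (hm : 2 ≤ m) (h2 : (2 : F) ≠ 0)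
    {R : Subgroup (GL (Fin m ⊕ Fin m) F)} (hR : IsPGroup 2 R)
    (hirr : ActsAbsolutelyIrreducibly (matrixSet R)) (hs : R ≤ similarityGroup (sympForm m F)) :
    ¬ spGL m F ≤ subgroupNormalizer R := by
  intro h
  have hz : NzG (spGL m F) R := nzG_of_le_normalizer h
  let w : Fin m ⊕ Fin m → F := Pi.single (Sum.inl ⟨0, by omega⟩) 1
  have hw : w ≠ 0 := by simp [w]
  haveI := Fintype.ofFinite F
  obtain ⟨p, hp, -⟩ := FiniteField.card' F
  have hpp := CharP.char_is_prime F p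
  have hp2 : p ≠ 2 := by rintro rfl; exact h2 (by exact_mod_cast CharP.cast_eq_zero F 2)
  have htp : ∀ c : F, tS w c ^ p = 1 := fun c => by rw [tS_pow, CharP.cast_eq_zero, zero_mul, tS_zero]
  have hone : ∀ z ∈ R, z ^ p = 1 → z = 1 := by
    intro z hz hzp
    obtain ⟨k, hk⟩ := hR ⟨z, hz⟩
    have hk' : z ^ 2 ^ k = 1 := congrArg Subtype.val hk
    rw [← orderOf_eq_one_iff]
    exact Nat.eq_one_of_dvd_coprimes (((Nat.coprime_primes hpp Nat.prime_two).2 hp2).pow_right k)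
      (orderOf_dvd_of_pow_eq_one hzp) (orderOf_dvd_of_pow_eq_one hk')
  rcases H10.sp_normal_le_center_or_eq_top (H10.commutator_sp_eq_top_of_two_ne_zero h2 hm)
    (R.comap (spHom m F)) ⟨fun x hx g => by
      rw [Subgroup.mem_comap, map_mul, map_mul, map_inv]; exact hz _ (spHom_mem g) _ hx⟩ with h1 | h1
  · obtain ⟨c, hc⟩ := hirr.2 (tS w (1 : F) : GL _ F) (by
      rintro _ ⟨x, hx, rfl⟩
      have hs' := conj_mem_spGL_of_sim (hs hx) ((spGL m F).inv_mem (tS_mem w 1))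
      obtain ⟨z, hz'⟩ := exists_spHom_eq ((spGL m F).mul_mem (tS_mem w 1) hs')
      have hzR : spHom m F z ∈ R := by
        rw [hz']
        simpa [mul_assoc] using R.mul_mem (hz _ (tS_mem w 1) x hx) (R.inv_mem hx)
      have hc := congrArg (spHom m F) (Subgroup.mem_center_iff.1 (h1 hzR) (H27.spT w 1))
      rw [map_mul, map_mul, hz'] at hc
      have hcomm : Commute (tS w (1 : F)) (x * (tS w 1)⁻¹ * x⁻¹) := by
        change tS w 1 * _ = _ * tS w 1 at hc
        rw [mul_assoc (tS w 1), mul_left_cancel_iff] at hc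
        exact hc
      have := hone _ hzR (by rw [hz', hcomm.mul_pow, htp, conj_pow, inv_pow, htp]; simp)
      rw [hz'] at this
      change Units.val (tS w 1 * x) = Units.val (x * tS w 1)
      congr 1
      calc tS w 1 * x = (tS w 1 * (x * (tS w 1)⁻¹ * x⁻¹)) * (x * tS w 1) := by group
        _ = x * tS w 1 := by rw [this, one_mul])
    have h3 := tS_mulVec w (1 : F) w
    rw [hc, H27.sympForm_self, mul_zero, zero_smul, add_zero, Matrix.smul_mulVec,
      Matrix.one_mulVec] at h3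
    have h4 : c = 1 := by
      have : (c - 1) • w = 0 := by rw [sub_smul, h3, one_smul, sub_self]
      exact sub_eq_zero.1 ((smul_eq_zero.1 this).resolve_right hw)
    exact one_ne_zero (tS_eq_one hw (c := 1) (Units.ext (by rw [hc, h4, one_smul, Units.val_one])))
  · have : H27.spT w (1 : F) ∈ R.comap (spHom m F) := h1 ▸ Subgroup.mem_top _
    exact one_ne_zero (tS_eq_one hw (hone _ this (htp 1)))

theorem two_le_of_symplectic {k : ℕ} {f : (Fin k → F) → (Fin k → F) → F} (hf : IsSymplecticForm f)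
    (hk : 0 < k) : 2 ≤ k := by
  by_contra h
  obtain rfl : k = 1 := by omega
  obtain ⟨x, hx⟩ := (hf.nondegenerate (fun _ => 1) (fun h => one_ne_zero (congrFun h 0))).1
  apply hx
  have : x = x 0 • fun _ => 1 := by ext i; simp [Subsingleton.elim i 0]
  rw [this, hf.bilinear.smul_left, hf.alternating, mul_zero]

theorem SpClass.not_le [Fintype F] (hm : 2 ≤ m) {X : Subgroup (GL (Fin m ⊕ Fin m) F)}
    (h : SpClass m F X) : ¬ spGL m F ≤ X := by
  cases h with
  | ts W h0 h =>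
    refine not_sp_le_stab h0 ?_
    rintro rfl
    obtain ⟨u, -, hu0⟩ := Submodule.exists_mem_ne_zero_of_ne_bot h0
    exact hu0 (H27.eq_zero_of_sympForm_left fun v => h u trivial v trivial)
  | nd W h0 h hd =>
    refine not_sp_le_stab h0 ?_
    rintro rfl
    simp at hd
  | dec t k D h => exact not_sp_le_decStab h.decomp
  | pair D ho h hs => exact not_sp_le_decStab h
  | sub F₀ r P ζ hr hc hζ h => exact not_sp_le_subfield (by omega) (subfield_ne_top_of_prime hr hc) P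
  | ext R p k h ha hs hp ho hc hR hZ hm' hk =>
    exact not_sp_le_normalizer hm (two_ne_zero_of_odd (hc ▸ ho)) h.pGroup ha hs
  | quad Q he h hp => exact not_sp_le_quad hm (two_eq_zero_of_not_odd he) h hp
  | fld r K hr h hs ha => exact not_sp_le_fieldNorm hm hr.two_le h
  | uni K ho h ha hs => exact not_sp_le_fieldNorm hm le_rfl h
  | tens n₁ n₂ e P f₁ f₂ ho h3 h₁ h₂ h =>
    exact not_sp_le_tensor (two_le_of_symplectic h₁ (e (Sum.inl ⟨0, by omega⟩)).1.pos) (by omega) e P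
  | wr k t e P f₁ ho ht h3 hx h₁ h =>
    exact not_sp_le_wreath (two_le_of_symplectic h₁ (e (Sum.inl ⟨0, by omega⟩) ⟨0, by omega⟩).pos)
      (by omega) e P

/-- A maximal subgroup of the symplectic group is a class member or residual. -/
theorem sp_max_cases [Fintype F] (hm : 2 ≤ m) {H : Subgroup (GL (Fin m ⊕ Fin m) F)}
    (hH : IsMaximalIn (spGL m F) H) :
    (∃ X, SpClass m F X ∧ H = X ⊓ spGL m F) ∨ InSymplecticResidualClass H := by
  rcases sp_aschbacher hm hH.1.le with ⟨X, hX, hle⟩ | h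
  · exact Or.inl ⟨X, hX, H99.eq_inf_of_le hH hle (hX.not_le hm)⟩
  · exact Or.inr h

end Cfsg.Agent.H9
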