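import Cfsg.Agent.H9.TForm

/-! Geometry of isotropic vectors for a group containing the Eichler transformations. -/

set_option autoImplicit false
set_option linter.unusedSectionVars false
set_option linter.unusedVariables false
set_option linter.unusedSimpArgs false

namespace Cfsg.Agent.H9

open scoped MatrixGroups Matrix
open Matrix Cfsg.Geo Cfsg.Agent.H98

variable {β : Type} [Fintype β] [DecidableEq β] {F : Type*} [Field F]

/-- A hyperbolic pair. -/
structure HP (f : (β → F) → (β → F) → F) (x y : β → F) : Prop where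
  xx : f x x = 0
  yy : f y y = 0
  xy : f x y = 1

/-- The parameters of an Eichler transformation. -/
def Vd (σ : F ≃+* F) (ε : F) (f : (β → F) → (β → F) → F) (v : β → F) (θ : F) : Prop :=
  θ + ε * σ θ + ε * f v v = 0

/-- Every hyperbolic pair in `U` is joined by a third isotropic point of `U`. -/
def Th (σ : F ≃+* F) (ε : F) (f : (β → F) → (β → F) → F) (U : Submodule F (β → F)) : Prop :=
  ∀ x ∈ U, ∀ y ∈ U, HP f x y → ∃ v ∈ U, ∃ θ, f v x = 0 ∧ f v y = 0 ∧ Vd σ ε f v θ ∧ θ ≠ 0 ∧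
    (v = 0 ∨ (2 : F) ≠ 0 ∧ f v v ≠ 0)

/-- A trace-valued form and a group of isometries containing the Eichler transformations. -/
structure Cl (σ : F ≃+* F) (ε : F) (f : (β → F) → (β → F) → F) (G : Subgroup (GL β F)) : Prop where
  ses : IsSesq σ ε f
  le : G ≤ Isom σ f
  tv : ∀ v, ∃ θ, Vd σ ε f v θ
  el : ∀ x v θ, f x x = 0 → f v x = 0 → Vd σ ε f v θ → elm f ε x v θ ∈ matrixSet G
  th : Th σ ε f ⊤
  ex : ∃ x, x ≠ 0 ∧ f x x = 0

variable {σ : F ≃+* F} {ε : F} {f : (β → F) → (β → F) → F}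

theorem HP.ne {x y : β → F} (hf : IsSesq σ ε f) (h : HP f x y) : x ≠ 0 := by
  rintro rfl; exact zero_ne_one ((hf.zero_left y).symm.trans h.xy)
theorem HP.ne' {x y : β → F} (hf : IsSesq σ ε f) (h : HP f x y) : y ≠ 0 := by
  rintro rfl; exact zero_ne_one ((hf.zero_right x).symm.trans h.xy)
theorem HP.yx {x y : β → F} (hf : IsSesq σ ε f) (h : HP f x y) : f y x = ε := by
  rw [hf.herm, h.xy, map_one, mul_one]
theorem HP.symm {x y : β → F} (hf : IsSesq σ ε f) (h : HP f x y) : HP f y (ε • x) :=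
  ⟨h.yy, by rw [hf.smul_left, hf.smul_right, h.xx, mul_zero, mul_zero],
    by rw [hf.smul_right, hf.map_eps, h.yx hf, hf.eps_mul_self]⟩
theorem Vd.neg {v : β → F} {θ : F} (hf : IsSesq σ ε f) (h : Vd σ ε f v θ) : Vd σ ε f (-v) θ := by
  rwa [Vd, hf.neg_left, hf.neg_right, neg_neg]

theorem f_isom (hf : IsSesq σ ε f) {g : Matrix β β F} (hg : g * adj σ f g = 1) (u v : β → F) :
    f (g *ᵥ u) (g *ᵥ v) = f u v := by
  rw [hf.adj_spec, mulVec_mulVec, mul_eq_one_comm.1 hg, one_mulVec]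

theorem exists_ne_two (hf : IsSesq σ ε f) {w w' : β → F} (h : w ≠ 0) (h' : w' ≠ 0) :
    ∃ z, f z w ≠ 0 ∧ f z w' ≠ 0 := by
  obtain ⟨a, ha⟩ := exists_f_one' hf h
  obtain ⟨b, hb⟩ := exists_f_one' hf h'
  by_cases h1 : f a w' = 0
  · by_cases h2 : f b w = 0
    · exact ⟨a + b, by simp [hf.add_left, ha, h2], by simp [hf.add_left, hb, h1]⟩
    · exact ⟨b, h2, by simp [hb]⟩
  · exact ⟨a, by simp [ha], h1⟩

/-- Connectedness of the non-orthogonality graph. -/
theorem conn (hf : IsSesq σ ε f) {Sg P : (β → F) → Prop} (hS : ∀ v, Sg v → f v v = 0)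
    (part : ∀ v w, Sg v → f w v ≠ 0 → ∃ c : F, Sg (w + c • v))
    (hP : ∀ u v v', Sg u → Sg v → Sg v' → P u → P v → f v u ≠ 0 → f v' u ≠ 0 → P v')
    {x y : β → F} (hx : Sg x) (hy : Sg y) (px : P x) (py : P y) (hxy : f x y ≠ 0) {v : β → F}
    (hv : Sg v) (h0 : v ≠ 0) : P v := by
  have hyx : f y x ≠ 0 := mt hf.eq_zero_comm.1 hxy
  by_cases h1 : f v x = 0
  swap; · exact hP x y v hx hy hv px py hyx h1
  obtain ⟨w, h2, h3⟩ := exists_ne_two hf h0 (w' := x) (by rintro rfl; exact hxy (hf.zero_left y))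
  obtain ⟨c, hc⟩ := part v w hv h2
  have h4 : f (w + c • v) x ≠ 0 := by rwa [hf.add_left, hf.smul_left, h1, mul_zero, add_zero]
  exact hP _ x v hc hx hv (hP x y _ hx hy hc px py hyx h4) px (mt hf.eq_zero_comm.1 h4)
    (mt hf.eq_zero_comm.1 (by rwa [hf.add_left, hf.smul_left, hS v hv, mul_zero, add_zero]))

theorem exists_iso_add (hf : IsSesq σ ε f) (tv : ∀ v, ∃ θ, Vd σ ε f v θ) {v w : β → F}
    (hv : f v v = 0) (hw : f w v ≠ 0) : ∃ c : F, f (w + c • v) (w + c • v) = 0 := by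
  obtain ⟨θ, hθ⟩ := tv w
  have h1 : f v w ≠ 0 := mt hf.eq_zero_comm.1 hw
  refine ⟨ε * θ / f v w, ?_⟩
  have h2 : σ (f v w) ≠ 0 := (map_ne_zero σ).2 h1
  simp only [hf.add_left, hf.add_right, hf.smul_left, hf.smul_right, hv, map_div₀, map_mul,
    hf.map_eps]
  rw [hf.herm w v]
  field_simp
  have := hf.eps_mul_self
  rw [Vd] at hθ
  linear_combination σ (f v w) * f v w * (ε * hθ - f w w * this)

theorem exists_partner_in (hf : IsSesq σ ε f) (tv : ∀ v, ∃ θ, Vd σ ε f v θ)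
    {U : Submodule F (β → F)} {x w : β → F} (hxU : x ∈ U) (hwU : w ∈ U) (hx : f x x = 0)
    (hw : f x w ≠ 0) : ∃ y ∈ U, HP f x y := by
  obtain ⟨c, hc⟩ := exists_iso_add hf tv hx (mt hf.eq_zero_comm.1 hw)
  refine ⟨(σ (f x w))⁻¹ • (w + c • x), U.smul_mem _ (U.add_mem hwU (U.smul_mem _ hxU)), hx, ?_, ?_⟩
  · rw [hf.smul_left, hf.smul_right, hc, mul_zero, mul_zero]
  · rw [hf.smul_right, hf.add_right, hf.smul_right, hx, mul_zero, add_zero, map_inv₀, hf.invol,
      inv_mul_cancel₀ hw]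

theorem hp_of_ne (hf : IsSesq σ ε f) {x y : β → F} (hx : f x x = 0) (hy : f y y = 0)
    (h : f x y ≠ 0) : HP f x ((σ (f x y))⁻¹ • y) :=
  ⟨hx, by rw [hf.smul_left, hf.smul_right, hy, mul_zero, mul_zero],
    by rw [hf.smul_right, map_inv₀, hf.invol, inv_mul_cancel₀ h]⟩

theorem elm_partner (hf : IsSesq σ ε f) {x y v : β → F} (h : HP f x y) (hv : f v y = 0) (θ : F) :
    elm f ε x v θ *ᵥ y = y + (θ * ε) • x - v := by
  rw [elm_mulVec hf, hf.eq_zero_comm.1 hv, h.yx hf, hf.eps_mul_self, zero_add, one_smul]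

theorem iso_third (hf : IsSesq σ ε f) {x y v : β → F} (h : HP f x y) (hx : f v x = 0)
    (hv : f v y = 0) {θ : F} (hθ : Vd σ ε f v θ) :
    f (y + (θ * ε) • x - v) (y + (θ * ε) • x - v) = 0 := by
  rw [← elm_partner hf h hv, f_isom hf (elm_isom hf h.xx hx hθ), h.yy]

/-- An Eichler transformation moving one isotropic vector to another. -/
theorem exists_elm_move (hf : IsSesq σ ε f) {u v v' : β → F} (hu : f u u = 0) (hv : f v v = 0)
    (hv' : f v' v' = 0) (h : f v u ≠ 0) (e : f v' u = f v u) :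
    ∃ z θ, f z u = 0 ∧ Vd σ ε f z θ ∧ elm f ε u z θ *ᵥ v = v' := by
  have he := hf.eps_ne_zero
  have h' : σ (f v u) ≠ 0 := (map_ne_zero σ).2 h
  have hee := hf.eps_mul_self
  refine ⟨(ε * f v u)⁻¹ • (v - v'), ε * f v v' / (f v u * σ (f v u)), ?_, ?_, ?_⟩
  · rw [hf.smul_left, hf.sub_left, e, sub_self, mul_zero]
  · simp only [Vd, hf.smul_left, hf.smul_right, hf.sub_left, hf.sub_right, hv, hv', map_inv₀,
      map_mul, map_div₀, hf.map_eps, hf.invol, sigma_f hf v v']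
    rcases hf.eps with rfl | rfl <;> field_simp <;> ring
  · rw [elm_mulVec hf, smul_smul, mul_inv_cancel₀ (mul_ne_zero he h), hf.smul_right, hf.sub_right,
      hv, map_inv₀, map_mul, hf.map_eps]
    have : (ε * σ (f v u))⁻¹ * (0 - f v v') + ε * f v v' / (f v u * σ (f v u)) * f v u = 0 := by
      field_simp
      linear_combination f v v' * hee
    rw [this]; simp

/-- An isotropic vector of `U` not orthogonal to two given ones. -/
theorem two_in (hf : IsSesq σ ε f) (tv : ∀ v, ∃ θ, Vd σ ε f v θ) {U : Submodule F (β → F)}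
    (hU : ∀ z, ∃ z' ∈ U, ∀ w ∈ U, f z' w = f z w) (th : Th σ ε f U) {w w' : β → F} (hwU : w ∈ U)
    (hwU' : w' ∈ U) (hw : f w w = 0) (hw' : f w' w' = 0) (h0 : w ≠ 0) (h0' : w' ≠ 0) :
    ∃ z ∈ U, f z z = 0 ∧ f z w ≠ 0 ∧ f z w' ≠ 0 := by
  by_cases h : f w w' = 0
  · obtain ⟨z, h1, h2⟩ := exists_ne_two hf h0 h0'
    obtain ⟨z', hz', e⟩ := hU z
    obtain ⟨c, hc⟩ := exists_iso_add hf tv hw (w := z') (by rwa [e w hwU])
    exact ⟨_, U.add_mem hz' (U.smul_mem c hwU), hc,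
      by rwa [hf.add_left, hf.smul_left, hw, mul_zero, add_zero, e w hwU],
      by rwa [hf.add_left, hf.smul_left, h, mul_zero, add_zero, e w' hwU']⟩
  · have H := hp_of_ne hf hw hw' h
    obtain ⟨v, hv, θ, h1, h2, h3, h4, -⟩ := th w hwU _ (U.smul_mem _ hwU') H
    refine ⟨_, U.sub_mem (U.add_mem (U.smul_mem _ hwU') (U.smul_mem _ hwU)) hv,
      iso_third hf H h1 h2 h3, ?_, ?_⟩
    · rw [hf.sub_left, hf.add_left, H.yx hf, hf.smul_left, hw, h1]
      simpa using hf.eps_ne_zero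
    · have : f v w' = 0 := by
        rw [hf.smul_right, map_inv₀, hf.invol, mul_eq_zero] at h2
        exact h2.resolve_left (inv_ne_zero h)
      rw [hf.sub_left, hf.add_left, hf.smul_left, hf.smul_left, hw', this]
      simp [h4, h, hf.eps_ne_zero]

theorem perp_part (hf : IsSesq σ ε f) {x y : β → F} (h : HP f x y) (v : β → F) :
    f (v - f v y • x - (ε * f v x) • y) x = 0 ∧ f (v - f v y • x - (ε * f v x) • y) y = 0 := by
  simp only [hf.sub_left, hf.smul_left, h.xx, h.yy, h.xy, h.yx hf]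
  exact ⟨by linear_combination (-f v x) * hf.eps_mul_self, by ring⟩

theorem mem_span_iso (hf : IsSesq σ ε f) (tv : ∀ v, ∃ θ, Vd σ ε f v θ) {U : Submodule F (β → F)}
    {x y : β → F} (hx : x ∈ U) (hy : y ∈ U) (h : HP f x y) {v : β → F} (hv : v ∈ U) :
    v ∈ Submodule.span F {w | w ∈ U ∧ f w w = 0} := by
  obtain ⟨h1, h2⟩ := perp_part hf h v
  obtain ⟨θ, hθ⟩ := tv (v - f v y • x - (ε * f v x) • y)
  have m1 : x ∈ Submodule.span F {w | w ∈ U ∧ f w w = 0} := Submodule.subset_span ⟨hx, h.xx⟩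
  have m2 : y ∈ Submodule.span F {w | w ∈ U ∧ f w w = 0} := Submodule.subset_span ⟨hy, h.yy⟩
  have m3 : _ ∈ Submodule.span F {w | w ∈ U ∧ f w w = 0} := Submodule.subset_span
    ⟨U.sub_mem (U.add_mem hy (U.smul_mem _ hx))
      (U.sub_mem (U.sub_mem hv (U.smul_mem _ hx)) (U.smul_mem _ hy)), iso_third hf h h1 h2 hθ⟩
  have := Submodule.sub_mem _ (Submodule.add_mem _ (Submodule.smul_mem _ (θ * ε + f v y) m1)
    (Submodule.smul_mem _ (1 + ε * f v x) m2)) m3
  convert this using 1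
  module

variable {G : Subgroup (GL β F)} (C : Cl σ ε f G)
include C

theorem Cl.partner {x : β → F} (h0 : x ≠ 0) (hx : f x x = 0) : ∃ y, HP f x y := by
  obtain ⟨w, hw⟩ := exists_f_one C.ses h0
  obtain ⟨y, -, hy⟩ := exists_partner_in C.ses C.tv (U := ⊤) trivial (w := w) trivial hx
    (by simp [hw])
  exact ⟨y, hy⟩

theorem Cl.exists_hp : ∃ x y, HP f x y := by
  obtain ⟨x, h0, hx⟩ := C.ex
  exact ⟨x, C.partner h0 hx⟩

theorem Cl.two {w w' : β → F} (hw : f w w = 0) (hw' : f w' w' = 0) (h0 : w ≠ 0) (h0' : w' ≠ 0) :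
    ∃ z, f z z = 0 ∧ f z w ≠ 0 ∧ f z w' ≠ 0 := by
  obtain ⟨z, -, hz⟩ := two_in C.ses C.tv (U := ⊤) (fun z => ⟨z, trivial, fun _ _ => rfl⟩) C.th
    trivial trivial hw hw' h0 h0'
  exact ⟨z, hz⟩

theorem Cl.span_iso (v : β → F) : v ∈ Submodule.span F {w | f w w = 0} := by
  obtain ⟨x, y, h⟩ := C.exists_hp
  simpa using mem_span_iso C.ses C.tv (U := ⊤) trivial trivial h (v := v) trivial

theorem Cl.move {u v v' : β → F} (hu : f u u = 0) (hv : f v v = 0) (hv' : f v' v' = 0)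
    (h : f v u ≠ 0) (h' : f v' u ≠ 0) : ∃ g ∈ G, ∃ a : F, a ≠ 0 ∧
      (g : Matrix β β F) *ᵥ v = a • v' ∧ (g : Matrix β β F) *ᵥ u = u := by
  obtain ⟨z, θ, h1, h2, h3⟩ := exists_elm_move C.ses hu hv (v' := (f v u / f v' u) • v')
    (by rw [C.ses.smul_left, C.ses.smul_right, hv', mul_zero, mul_zero]) h
    (by rw [C.ses.smul_left, div_mul_cancel₀ _ h'])
  obtain ⟨g, hg, e⟩ := mem_matrixSet.1 (C.el u z θ hu h1 h2)
  exact ⟨g, hg, _, div_ne_zero h h', e ▸ h3, by
    rw [e, elm_mulVec C.ses, hu, C.ses.eq_zero_comm.1 h1]; simp⟩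

theorem Cl.trans {x x' : β → F} (hx : f x x = 0) (hx' : f x' x' = 0) (h0 : x ≠ 0) (h0' : x' ≠ 0) :
    ∃ g ∈ G, ∃ a : F, a ≠ 0 ∧ (g : Matrix β β F) *ᵥ x = a • x' := by
  obtain ⟨z, h1, h2, h3⟩ := C.two hx hx' h0 h0'
  obtain ⟨g, hg, a, ha, e, -⟩ := C.move h1 hx hx' (mt C.ses.eq_zero_comm.1 h2)
    (mt C.ses.eq_zero_comm.1 h3)
  exact ⟨g, hg, a, ha, e⟩

/-- The matrices `c [w, w]`, `w` isotropic, generate the matrix ring. -/
theorem Cl.big {D : NonUnitalSubring (Matrix β β F)}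
    (h : ∀ w, f w w = 0 → ∀ c : F, c • br f w w ∈ D) (b : Matrix β β F) : b ∈ D :=
  mem_of_br C.ses (D := D.toAddSubgroup) (fun u v => br_mem_of_two C.ses (S := {w | f w w = 0}) h
    (fun w hw w' hw' h0 h0' => by
      obtain ⟨z, h1, h2, h3⟩ := C.two hw hw' h0 h0'
      exact ⟨z, h1, h2, mt C.ses.eq_zero_comm.1 h3⟩) (C.span_iso u) (C.span_iso v)) b

theorem Cl.scalar_of_eigen {s : Matrix β β F} (h : ∀ w, f w w = 0 → ∃ a : F, s *ᵥ w = a • w) :
    ∃ a : F, s = a • (1 : Matrix β β F) := by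
  have hf := C.ses
  have key : ∀ x y (a b : F), HP f x y → s *ᵥ x = a • x → s *ᵥ y = b • y → a = b := by
    intro x y a b H ha hb
    obtain ⟨v, -, θ, h1, h2, h3, h4, h5⟩ := C.th x trivial y trivial H
    obtain ⟨c, hc⟩ := h _ (iso_third hf H h1 h2 h3)
    have fin : s *ᵥ (y + (θ * ε) • x) = c • (y + (θ * ε) • x) → a = b := fun e => by
      have e1 := congrArg (fun z => f z x) e
      have e2 := congrArg (fun z => f z y) e
      simp only [mulVec_add, mulVec_smul, ha, hb, hf.add_left, hf.smul_left, H.xx, H.yy, H.xy,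
        H.yx hf, mul_zero, add_zero, zero_add, mul_one] at e1 e2
      rw [mul_right_cancel₀ hf.eps_ne_zero e1]
      exact mul_left_cancel₀ (mul_ne_zero h4 hf.eps_ne_zero) (e2.trans (mul_comm _ _))
    rcases h5 with rfl | ⟨h5, h6⟩
    · exact fin (by simpa using hc)
    obtain ⟨d, hd⟩ := h _ (iso_third hf H (v := -v) (by rw [hf.neg_left, h1, neg_zero])
      (by rw [hf.neg_left, h2, neg_zero]) (h3.neg hf))
    have e : s *ᵥ ((2 : F) • (y + (θ * ε) • x)) =
        c • (y + (θ * ε) • x - v) + d • (y + (θ * ε) • x - -v) := by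
      rw [← hc, ← hd, ← mulVec_add]; congr 1; module
    have e1 := congrArg (fun z => f z v) e
    simp only [mulVec_add, mulVec_smul, ha, hb, hf.add_left, hf.smul_left, hf.sub_left,
      hf.neg_left, hf.eq_zero_comm.1 h1, hf.eq_zero_comm.1 h2, mul_zero, add_zero] at e1
    have hcd : d = c := mul_right_cancel₀ h6 (by linear_combination -e1)
    refine fin (smul_right_injective _ h5 ?_)
    simp only
    rw [← mulVec_smul, e, hcd]; module
  have key2 : ∀ x y (a b : F), f x x = 0 → f y y = 0 → f x y ≠ 0 → s *ᵥ x = a • x →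
      s *ᵥ y = b • y → a = b := fun x y a b hx hy hxy ha hb =>
    key x _ a b (hp_of_ne hf hx hy hxy) ha (by rw [mulVec_smul, hb, smul_comm])
  obtain ⟨x, h0, hx⟩ := C.ex
  obtain ⟨a, ha⟩ := h x hx
  refine ⟨a, matrix_ext_mulVec fun v => ?_⟩
  rw [smul_mulVec, one_mulVec]
  induction C.span_iso v using Submodule.span_induction with
  | mem w hw =>
    by_cases h0' : w = 0
    · simp [h0']
    obtain ⟨z, h1, h2, h3⟩ := C.two hx hw h0 h0'
    obtain ⟨b, hb⟩ := h w hw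
    obtain ⟨c, hc⟩ := h z h1
    rw [hb, ← key2 z x c a h1 hx h2 hc ha, key2 z w c b h1 hw h3 hc hb]
  | zero => simp
  | add u v _ _ hu hv => rw [mulVec_add, hu, hv, smul_add]
  | smul c u _ hu => rw [mulVec_smul, hu, smul_comm]

theorem Cl.scalar_of_perp {s : Matrix β β F}
    (h : ∀ w v, f w w = 0 → f w v = 0 → f (s *ᵥ w) v = 0) : ∃ a : F, s = a • (1 : Matrix β β F) :=
  C.scalar_of_eigen fun w hw => by
    by_contra hc
    obtain ⟨χ, h1, h2⟩ := exists_dot_of_not_smul (u := w) (v := s *ᵥ w) fun a ha => hc ⟨a, ha⟩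
    obtain ⟨v, rfl⟩ := exists_dl C.ses χ
    rw [dl_dot C.ses] at h1 h2
    exact zero_ne_one ((h w v hw h1).symm.trans h2)

omit C in
theorem mem_of_ann {Z : Submodule F (Matrix β β F)}
    (h : ∀ s : Matrix β β F, (∀ z ∈ Z, (s * z).trace = 0) → ∃ a : F, s = a • (1 : Matrix β β F))
    {s : Matrix β β F} (hs : s.trace = 0) : s ∈ Z := by
  by_contra hc
  obtain ⟨l, hl1, hl2⟩ := Submodule.exists_dual_map_eq_bot_of_notMem hc inferInstance
  have key : ∀ z, (Matrix.of (fun i j => l (Matrix.single j i 1)) * z).trace = l z := fun z => by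
    conv_rhs => rw [Matrix.matrix_eq_sum_single z]
    simp only [trace, diag_apply, Matrix.mul_apply, of_apply, map_sum]
    rw [Finset.sum_comm]
    refine Finset.sum_congr rfl fun i _ => Finset.sum_congr rfl fun j _ => ?_
    rw [mul_comm, ← smul_eq_mul, ← map_smul, smul_single, smul_eq_mul, mul_one]
  obtain ⟨a, ha⟩ := h _ fun z hz => by
    rw [key]
    have : l z ∈ Z.map l := ⟨z, hz, rfl⟩
    rwa [hl2, Submodule.mem_bot] at this
  exact hl1 (by rw [← key, ha]; simp [hs])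

theorem Cl.mem_of_traceless {Z : Submodule F (Matrix β β F)}
    (h : ∀ w v, f w w = 0 → f w v = 0 → br f w v ∈ Z) {s : Matrix β β F} (hs : s.trace = 0) :
    s ∈ Z :=
  mem_of_ann (fun s' hs' => C.scalar_of_perp fun w v hw hv => by
    rw [← trace_mul_br C.ses]; exact hs' _ (h w v hw hv)) hs

end Cfsg.Agent.H9
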