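import Cfsg.Agent.H9.TPar
import Cfsg.Agent.H9.TGeo

/-! An active tensor factor carrying a form. -/

set_option autoImplicit false
set_option linter.unusedSectionVars false
set_option linter.unusedVariables false
set_option linter.unusedSimpArgs false

namespace Cfsg.Agent.H9

open scoped MatrixGroups Matrix
open Matrix Cfsg.Geo Cfsg.Agent.H98

variable {ι β : Type} [Fintype ι] [DecidableEq ι] [Fintype β] [DecidableEq β] {F : Type*} [Field F]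

/-- The projection onto `x^⊥` along `y`. -/
def pr (f : (β → F) → (β → F) → F) (ε : F) (x y : β → F) : Matrix β β F := 1 - ε • br f y x

/-- Scalar matrices. -/
def Sc (c : Matrix ι ι F) : Prop := ∃ a : F, c = a • (1 : Matrix ι ι F)

theorem Sc.smul {c : Matrix ι ι F} (h : Sc c) (a : F) : Sc (a • c) := by
  obtain ⟨b, rfl⟩ := h; exact ⟨a * b, smul_smul _ _ _⟩
theorem Sc.add {c d : Matrix ι ι F} (h : Sc c) (h' : Sc d) : Sc (c + d) := by
  obtain ⟨a, rfl⟩ := h; obtain ⟨b, rfl⟩ := h'; exact ⟨a + b, (add_smul _ _ _).symm⟩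
theorem Sc.sub {c d : Matrix ι ι F} (h : Sc c) (h' : Sc d) : Sc (c - d) := by
  obtain ⟨a, rfl⟩ := h; obtain ⟨b, rfl⟩ := h'; exact ⟨a - b, (sub_smul _ _ _).symm⟩
theorem Sc.of_smul {c : Matrix ι ι F} {a : F} (ha : a ≠ 0) (h : Sc (a • c)) : Sc c := by
  simpa [ha] using h.smul a⁻¹
theorem Sc.one : Sc (1 : Matrix ι ι F) := ⟨1, by simp⟩
theorem Sc.zero : Sc (0 : Matrix ι ι F) := ⟨0, by simp⟩
theorem Sc.eq_zero [Nonempty ι] {c : Matrix ι ι F} (h : Sc c) (h0 : c * c = 0) : c = 0 := by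
  obtain ⟨a, rfl⟩ := h
  rw [smul_mul_assoc, one_mul, smul_smul, smul_eq_zero, mul_self_eq_zero] at h0
  rw [h0.resolve_right one_ne_zero, zero_smul]
theorem Sc.mem_range {c : Matrix ι ι F} (h : Sc c) (φ : Matrix β β F →ₐ[F] Matrix ι ι F) :
    c ∈ φ.range := by obtain ⟨a, rfl⟩ := h; exact Subalgebra.smul_mem _ (one_mem _) _
theorem Sc.cm {c : Matrix ι ι F} (h : Sc c) (φ : Matrix β β F →ₐ[F] Matrix ι ι F) : Cm φ c := by
  obtain ⟨a, rfl⟩ := h; exact Cm.one.smul a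

section

variable {σ : F ≃+* F} {ε : F} {f : (β → F) → (β → F) → F} (hf : IsSesq σ ε f) {x y : β → F}
include hf

theorem pr_mulVec (w : β → F) : pr f ε x y *ᵥ w = w - (ε * f w x) • y := by
  rw [pr, sub_mulVec, one_mulVec, smul_mulVec, br_mulVec hf, smul_smul]

theorem pr_fix {w : β → F} (h : f w x = 0) : pr f ε x y *ᵥ w = w := by
  rw [pr_mulVec hf, h, mul_zero, zero_smul, sub_zero]

theorem HP.pr_perp (H : HP f x y) (w : β → F) : f (pr f ε x y *ᵥ w) x = 0 := by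
  rw [pr_mulVec hf, hf.sub_left, hf.smul_left, H.yx hf]
  linear_combination (-f w x) * hf.eps_mul_self

theorem HP.pr_y (H : HP f x y) : pr f ε x y *ᵥ y = 0 := by
  rw [pr_mulVec hf, H.yx hf, hf.eps_mul_self, one_smul, sub_self]

theorem dl_pr {v : β → F} (h : f y v = 0) : dl f v ᵥ* pr f ε x y = dl f v := by
  rw [pr, vecMul_sub, vecMul_one, vecMul_smul, br, vecMul_vmv, dl_dot hf, h]; simp

theorem HP.perp_of_pr (H : HP f x y) {v : β → F} (h : dl f v ᵥ* pr f ε x y = dl f v) :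
    f y v = 0 := by rw [← dl_dot hf, ← h, ← dotProduct_mulVec, H.pr_y hf, dotProduct_zero]

theorem HP.ad (H : HP f x y) : AD x (dl f y) (pr f ε x y) :=
  ⟨by rw [dl_dot hf, H.xy], matrix_ext_mulVec fun w => by
    rw [← mulVec_mulVec, pr_fix hf (H.pr_perp hf w)], pr_fix hf H.xx, dl_pr hf H.yy⟩

theorem br_pr {u v : β → F} (h : f y v = 0) : br f u v * pr f ε x y = br f u v := by
  rw [br, vmv_mul, dl_pr hf h]

theorem HP.br_pr (H : HP f x y) (u : β → F) : br f u x * pr f ε x y = 0 := by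
  rw [pr, mul_sub, mul_one, mul_smul_comm, br_mul_br hf, H.yx hf, smul_smul, hf.eps_mul_self,
    one_smul, sub_self]

theorem HP.elm_pr (H : HP f x y) {v : β → F} (h : f y v = 0) (θ : F) :
    (elm f ε x v θ - 1) * pr f ε x y = br f x v := by
  rw [show elm f ε x v θ - 1 = br f x v - ε • br f v x + θ • br f x x by rw [elm]; abel, add_mul,
    sub_mul, smul_mul_assoc, smul_mul_assoc, H.br_pr hf, H.br_pr hf, H9.br_pr hf h]; simp

theorem HP.inQ_elm (H : HP f x y) {v : β → F} (h1 : f x v = 0) (h : f y v = 0) (θ : F) :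
    InQ (br f x y) (pr f ε x y) (elm f ε x v θ) :=
  ⟨by rw [sub_mul, mul_br, elm_mulVec hf, h1, H.xx]; simp,
    by rw [H.elm_pr hf h, br_mul_br hf, H.xy, one_smul]⟩

theorem pr_stab {h : GL β F} (hh : h ∈ Isom σ f) {c : F} (hc : c ≠ 0) (H : HP f x y)
    (e : (h : Matrix β β F) *ᵥ x = c • x) : pr f ε x y * (h * pr f ε x y) = h * pr f ε x y :=
  matrix_ext_mulVec fun w => by
    rw [← mulVec_mulVec, ← mulVec_mulVec]
    refine pr_fix hf ?_
    have := hh (pr f ε x y *ᵥ w) x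
    rw [e, hf.smul_right, H.pr_perp hf, mul_eq_zero] at this
    exact this.resolve_left ((map_ne_zero σ).2 hc)

end

/-- The standing hypotheses on an active factor. -/
structure Amb (φ : Matrix β β F →ₐ[F] Matrix ι ι F) (M : Subgroup (GL ι F))
    (G2 : Subgroup (GL β F)) (σ : F ≃+* F) (ε : F) (f : (ι → F) → (ι → F) → F) (ε₂ : F)
    (f₂ : (β → F) → (β → F) → F) : Prop where
  hf : IsSesq σ ε f
  C : Cl σ ε₂ f₂ G2
  adjφ : ∀ b, adj σ f (φ b) = φ (adj σ f₂ b)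
  iso : M ≤ Isom σ f
  sub : ∀ h ∈ G2, gφ φ h ∈ M
  full : ∀ l ∈ φ.range, ∀ q, q * adj σ f q = 1 → (q - 1) ^ 3 = 0 → q * l ∈ matrixSet M →
    l ∈ matrixSet M

/-- The central level at `x`. -/
def JJ (φ : Matrix β β F →ₐ[F] Matrix ι ι F) (M : Subgroup (GL ι F))
    (f₂ : (β → F) → (β → F) → F) (x : β → F) (j : Matrix ι ι F) : Prop :=
  Cm φ j ∧ 1 + j * φ (br f₂ x x) ∈ matrixSet M

/-- The local statement at `x`. -/
def Loc (φ : Matrix β β F →ₐ[F] Matrix ι ι F) (M : Subgroup (GL ι F)) (x : β → F) : Prop :=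
  ∀ s ∈ M, (∀ ψ, s * φ (vecMulVec x ψ) = φ (vecMulVec x ψ)) → (s : Matrix ι ι F) ∈ φ.range

variable {φ : Matrix β β F →ₐ[F] Matrix ι ι F} {M : Subgroup (GL ι F)} {G2 : Subgroup (GL β F)}
  {σ : F ≃+* F} {ε ε₂ : F} {f : (ι → F) → (ι → F) → F} {f₂ : (β → F) → (β → F) → F}
  (A : Amb φ M G2 σ ε f ε₂ f₂) {x y : β → F}

local notation:max z "†" => adj σ f z
local notation "RR" x:max y:max => Rho M (φ (br f₂ x y)) (φ (pr f₂ ε₂ x y))
local notation "LL" x:max y:max s:max => Lev M (φ (br f₂ x y)) (φ (pr f₂ ε₂ x y)) φ s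

namespace Amb
include A

theorem ms {b : Matrix β β F} (h : b ∈ matrixSet G2) : φ b ∈ matrixSet M := by
  obtain ⟨g, hg, rfl⟩ := mem_matrixSet.1 h
  exact coe_mem_matrixSet (A.sub g hg)

theorem adj_br (u v : β → F) : (φ (br f₂ u v))† = ε₂ • φ (br f₂ v u) := by
  rw [A.adjφ, H9.adj_br A.C.ses, map_smul]

theorem cm_adj {c : Matrix ι ι F} (h : Cm φ c) : Cm φ c† := fun b => by
  rw [← A.C.ses.adj_adj b, ← A.adjφ, ← A.hf.adj_mul, ← h, A.hf.adj_mul]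

theorem sc_adj {c : Matrix ι ι F} (h : Sc c) : Sc c† := by
  obtain ⟨a, rfl⟩ := h; exact ⟨σ a, by rw [A.hf.adj_smul, A.hf.adj_one]⟩

theorem pd (H : HP f₂ x y) : PD σ f (φ (br f₂ x y)) :=
  ⟨(H.ad A.C.ses).aa, by rw [A.adj_br, mul_smul_comm, ← map_mul, br_mul_br A.C.ses, H.yy]; simp,
    by rw [A.adj_br, smul_mul_assoc, ← map_mul, br_mul_br A.C.ses, H.xx]; simp⟩

theorem hp (x y : β → F) : φ (pr f₂ ε₂ x y) = 1 - (φ (br f₂ x y))† := by
  rw [A.adj_br, pr, map_sub, map_one, map_smul]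

theorem h0 (H : HP f₂ x y) {v : β → F} (h1 : f₂ x v = 0) (h2 : f₂ y v = 0) :
    φ (br f₂ x v) ∈ RR x y := by
  obtain ⟨θ, hθ⟩ := A.C.tv v
  exact ⟨_, A.ms (A.C.el x v θ H.xx (A.C.ses.eq_zero_comm.1 h1) hθ),
    (H.inQ_elm A.C.ses h1 h2 θ).map, by rw [← H.elm_pr A.C.ses h2 θ, map_mul, map_sub, map_one]⟩

theorem h0' (H : HP f₂ x y) (χ : β → F) (h1 : χ ⬝ᵥ x = 0) (h2 : χ ᵥ* pr f₂ ε₂ x y = χ) :
    φ (vecMulVec x χ) ∈ RR x y := by
  obtain ⟨v, rfl⟩ := exists_dl A.C.ses χ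
  exact A.h0 H (by rwa [dl_dot A.C.ses] at h1) (H.perp_of_pr A.C.ses h2)

theorem zed_eq (H : HP f₂ x y) {θ : Matrix ι ι F} (h1 : φ (br f₂ x y) * θ = θ)
    (h2 : θ * (φ (br f₂ x y))† = θ) : θ = (ε₂ • cf φ (dl f₂ y) θ y) * φ (br f₂ x x) := by
  rw [smul_mul_assoc, br, ← sandwich, ← mul_smul_comm, ← br, ← br, ← A.adj_br, h1, h2]

theorem jj_of_zed (H : HP f₂ x y) {j : Matrix ι ι F} (hj : Cm φ j)
    (h : j * φ (br f₂ x x) ∈ Zed M _ _ (A.pd H).ba) : JJ φ M f₂ x j := ⟨hj, h.2.2⟩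

theorem zed_of_jj (H : HP f₂ x y) {j : Matrix ι ι F} (h : JJ φ M f₂ x j) :
    j * φ (br f₂ x x) ∈ Zed M _ _ (A.pd H).ba :=
  ⟨by rw [h.1.left, ← map_mul, br_mul_br A.C.ses, H.xy, one_smul], by
    rw [A.adj_br, mul_assoc, mul_smul_comm, ← map_mul, br_mul_br A.C.ses, H.yx A.C.ses, map_smul,
      smul_smul, A.C.ses.eps_mul_self, one_smul], h.2⟩

theorem jj_add (hx : f₂ x x = 0) {j j' : Matrix ι ι F} (h : JJ φ M f₂ x j) (h' : JJ φ M f₂ x j') :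
    JJ φ M f₂ x (j + j') := by
  refine ⟨h.1.add h'.1, ?_⟩
  have := ms_mul h.2 h'.2
  rwa [mul_add, mul_one, add_mul, one_mul, mul_assoc, h'.1.left, ← map_mul, br_mul_br A.C.ses, hx,
    zero_smul, map_zero, mul_zero, mul_zero, add_zero, add_assoc, ← add_mul] at this

theorem jj_neg (hx : f₂ x x = 0) {j : Matrix ι ι F} (h : JJ φ M f₂ x j) : JJ φ M f₂ x (-j) := by
  refine ⟨h.1.neg, ms_inv h.2 ?_⟩
  rw [mul_add, mul_one, add_mul, one_mul, mul_assoc, h.1.neg.left, ← map_mul, br_mul_br A.C.ses, hx]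
  simp

theorem jj_zero : JJ φ M f₂ x 0 := ⟨Cm.zero, by simpa using ms_one⟩

theorem jj_smul_one (hx : f₂ x x = 0) {κ : F} (h : κ + ε₂ * σ κ = 0) : JJ φ M f₂ x (κ • 1) := by
  refine ⟨Cm.one.smul κ, ?_⟩
  have := A.ms (A.C.el x 0 κ hx (A.C.ses.zero_left x) (by
    rw [Vd, A.C.ses.zero_left, mul_zero, add_zero, h]))
  rwa [elm_zero A.C.ses, map_add, map_one, map_smul, ← one_mul (φ _), ← smul_mul_assoc] at this

theorem jj_adj [Nonempty ι] (hx : f₂ x x = 0) (h0 : x ≠ 0) {j : Matrix ι ι F}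
    (h : JJ φ M f₂ x j) : j† = -(ε₂ • j) := by
  have e := ms_isom A.hf A.iso h.2
  have hc := A.cm_adj h.1
  rw [A.hf.adj_add, A.hf.adj_one, A.hf.adj_mul, A.adj_br, smul_mul_assoc, hc, mul_add, mul_one,
    add_mul, one_mul, mul_smul_comm, mul_assoc, hc.left, ← map_mul, br_mul_br A.C.ses, hx] at e
  have := (h.1.add (hc.smul ε₂)).eq_zero_of_mul (br_ne_zero A.C.ses h0 h0) (by
    simpa [add_mul, add_assoc] using e)
  rw [← smul_neg, ← eq_neg_of_add_eq_zero_right this, smul_smul, A.C.ses.eps_mul_self, one_smul]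

theorem jj_cj {g : GL ι F} (hg : g ∈ M) {φ' : Matrix β β F →ₐ[F] Matrix ι ι F} {x' : β → F} {c : F}
    (e : cj g (φ (br f₂ x x)) = c • φ' (br f₂ x' x')) {j : Matrix ι ι F} (h : JJ φ M f₂ x j)
    (hj : Cm φ' (cj g j)) : JJ φ' M f₂ x' (c • cj g j) := by
  refine ⟨hj.smul c, ?_⟩
  have := ms_cj h.2 hg
  rwa [map_add, map_one, map_mul, e, mul_smul_comm, ← smul_mul_assoc] at this

theorem jj_move {h : GL β F} (hh : h ∈ G2) {x' : β → F} {c : F}
    (e : (h : Matrix β β F) *ᵥ x = c • x') {j : Matrix ι ι F} (hj : JJ φ M f₂ x j) :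
    JJ φ M f₂ x' ((c * σ c) • j) := by
  have := A.jj_cj (A.sub h hh) (φ' := φ) (x' := x') (c := c * σ c) (by
    rw [cj_gφ, cj_br A.C.ses (A.C.le hh), e, br_smul_left, br_smul_right A.C.ses, smul_smul,
      map_smul]) hj (by rw [hj.1.cj_gφ]; exact hj.1)
  rwa [hj.1.cj_gφ] at this

theorem jj_comm (H : HP f₂ x y) {c d : Matrix ι ι F} (hc : Cm φ c) (hd : Cm φ d) {v w : β → F}
    (h1 : c * φ (br f₂ x v) ∈ RR x y) (h2 : d * φ (br f₂ x w) ∈ RR x y) :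
    JJ φ M f₂ x ((ε₂ * f₂ v w) • (d * c†) - (ε₂ * f₂ w v) • (c * d†)) := by
  refine A.jj_of_zed H (((hd.mul (A.cm_adj hc)).smul _).sub ((hc.mul (A.cm_adj hd)).smul _)) ?_
  rw [A.hp] at h1 h2
  convert (A.pd H).comm_mem A.hf A.iso h1 h2 using 1
  simp only [A.hf.adj_mul, A.adj_br, sub_mul, smul_mul_assoc, mul_smul_comm, mul_assoc,
    ← (A.cm_adj hc) _, ← (A.cm_adj hd) _]
  simp only [← mul_assoc (φ _), ← map_mul, br_mul_br A.C.ses, map_smul, smul_mul_assoc,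
    mul_smul_comm, smul_smul]

/-- Failure of the local statement produces a non-scalar level element. -/
theorem nc [Nonempty ι] (H : HP f₂ x y) (h : ¬ Loc φ M x) :
    (∃ ρ ∈ RR x y, ∃ w, f₂ w x = 0 ∧ ¬ Sc (cf φ (dl f₂ y) ρ w)) ∨ ∃ j, JJ φ M f₂ x j ∧ ¬ Sc j := by
  by_contra hc
  push Not at hc
  refine h fun s hs h1 => loc_of_levels A.hf A.iso (H.ad A.C.ses) (A.pd H) (A.hp x y) ?_ ?_ A.full
    (fun ρ hρ => (H.ad A.C.ses).mem_range hρ fun w hw => hc.1 ρ hρ w (hw ▸ H.pr_perp A.C.ses w))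
    (fun θ hθ => ?_) (coe_mem_matrixSet hs) (h1 _)
  · rintro _ ⟨b, rfl⟩
    exact ⟨_, (A.adjφ b).symm⟩
  · intro χ h1 h2
    obtain ⟨v, rfl⟩ := exists_dl A.C.ses χ
    rw [dl_dot A.C.ses] at h1
    have h3 := H.perp_of_pr A.C.ses h2
    obtain ⟨θ, hθ⟩ := A.C.tv v
    exact ⟨_, A.ms (A.C.el x v θ H.xx (A.C.ses.eq_zero_comm.1 h1) hθ),
      H.inQ_elm A.C.ses h1 h3 θ, H.elm_pr A.C.ses h3 θ⟩
  · have e := A.zed_eq H hθ.1 hθ.2.1
    rw [e]
    exact mul_mem ((hc.2 _ (A.jj_of_zed H ((cf_cm _ _ _).smul _) (e ▸ hθ))).mem_range φ)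
      (φ.mem_range_self _)

theorem cf_mem_Lev (H : HP f₂ x y) (R : FR M φ x (dl f₂ y) (pr f₂ ε₂ x y)) {l : Matrix ι ι F}
    (hl : l ∈ matrixSet M) (h : l * φ (br f₂ x y) = φ (br f₂ x y)) {w v : β → F} (hw : f₂ w x = 0)
    (h1 : f₂ x v = 0) (h2 : f₂ y v = 0) : cf φ (dl f₂ v) l w ∈ LL x y false := by
  have i1 := ms_isom A.hf A.iso hl
  obtain ⟨g, hg, rfl⟩ := mem_matrixSet.1 hl
  have k2 := mem_RM_of_fix (E := φ (pr f₂ ε₂ x y)) hg one_ne_zero (by rw [h, one_smul])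
    (A.pd H).aa (by
      rw [A.hp, sub_mul, one_mul, ← mul_assoc, fix_adj A.hf i1 h, mul_sub (φ (br f₂ x y))†,
        (A.pd H).bb A.hf]; simp)
  rw [inv_one, one_smul] at k2
  have := R.cf_mem_Lev (H.ad A.C.ses) k2 (pr_fix A.C.ses hw) (by rw [dl_dot A.C.ses, h1])
    (dl_pr A.C.ses h2)
  rwa [cf_mul_phi, pr_fix A.C.ses hw] at this

/-- The central level at an orthogonal point consists of multipliers. -/
theorem lev_of_jj (H : HP f₂ x y) (R : FR M φ x (dl f₂ y) (pr f₂ ε₂ x y)) {u u' : β → F}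
    (H' : HP f₂ u u') (h1 : f₂ x u = 0) (h2 : f₂ x u' = 0) (h4 : f₂ y u' = 0)
    {j : Matrix ι ι F} (hj : JJ φ M f₂ u j) : j ∈ LL x y false := by
  have := A.cf_mem_Lev H R hj.2 (by
    rw [add_mul, one_mul, mul_assoc, ← map_mul, br_mul_br A.C.ses, h1]; simp)
    (w := ε₂ • u') (by rw [A.C.ses.smul_left, A.C.ses.eq_zero_comm.1 h2, mul_zero]) h2 h4
  rwa [cf_add, cf_one, hj.1.cf_mul_phi, br_mulVec A.C.ses, dotProduct_smul, dotProduct_smul,
    dl_dot A.C.ses, dl_dot A.C.ses, H'.yy, H'.xy, A.C.ses.smul_left, H'.yx A.C.ses,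
    A.C.ses.eps_mul_self, smul_zero, zero_smul, zero_add, smul_eq_mul, mul_one, one_smul] at this

/-- The level at an orthogonal point consists of multipliers. -/
theorem lev_of_rho (H : HP f₂ x y) (R : FR M φ x (dl f₂ y) (pr f₂ ε₂ x y)) {u u' : β → F}
    (H' : HP f₂ u u') (h1 : f₂ x u = 0) (h2 : f₂ x u' = 0) (h4 : f₂ y u' = 0) {v w : β → F}
    (h5 : f₂ x v = 0) (h6 : f₂ w x = 0) (h7 : f₂ w u = 0) (h8 : f₂ w u' = 0) (h9 : f₂ w v = 1)
    {d : Matrix ι ι F} (hd : Cm φ d) (h : d * φ (br f₂ u v) ∈ RR u u') : d ∈ LL x y false := by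
  obtain ⟨s, hs, -, e⟩ := h
  have := A.cf_mem_Lev H R hs (by
    rw [← sub_eq_zero, ← sub_one_mul, br, ← pr_fix A.C.ses (y := u') h1, ← mul_vmv, map_mul,
      ← mul_assoc, e, mul_assoc, ← map_mul, br_mul_vmv A.C.ses, h5]; simp) h6 h2 h4
  rwa [← sub_add_cancel s 1, cf_add, cf_one, dl_dot A.C.ses, h8, zero_smul, add_zero,
    ← pr_fix A.C.ses (y := u') h7, ← cf_mul_phi, e, hd.cf_mul_phi, br_mulVec A.C.ses,
    dotProduct_smul, dl_dot A.C.ses, H'.xy, h9, one_smul, one_smul] at this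

theorem actL [Nonempty ι] (h : ∀ x, x ≠ 0 → f₂ x x = 0 → Loc φ M x) :
    ActL φ M G2 fun x => x ≠ 0 ∧ f₂ x x = 0 where
  sub := A.sub
  ne := fun x hx => hx.1
  loc := fun x hx => h x hx.1 hx.2
  trans := fun x x' hx hx' => by
    obtain ⟨g, hg, a, -, e⟩ := A.C.trans hx.2 hx'.2 hx.1 hx'.1
    exact ⟨g, hg, a, e⟩
  iso := fun g hg x x' hx hx' hm => by
    refine ⟨hx', ?_⟩
    obtain ⟨c, hc, e⟩ := hm.inv hx.1
    have e1 : (φ (br f₂ x x'))† * φ (br f₂ x x') = 0 := by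
      rw [A.adj_br, smul_mul_assoc, ← map_mul, br_mul_br A.C.ses, hx.2]; simp
    have e2 : (g * φ (br f₂ x x'))† * (g * φ (br f₂ x x')) = 0 := by
      rw [A.hf.adj_mul, mul_assoc, (mem_Isom A.hf).1 (A.iso hg), Units.inv_mul_cancel_left, e1]
    rw [br, e, ← br, A.hf.adj_mul, A.adj_br, mul_assoc, ← mul_assoc _ c.val,
      smul_mul_assoc, ((A.cm_adj hc).mul hc).left, ← map_mul, br_mul_br A.C.ses, map_smul,
      mul_smul_comm, smul_smul, smul_eq_zero] at e2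
    rcases e2 with e2 | e2
    · exact (mul_eq_zero.1 e2).resolve_left A.C.ses.eps_ne_zero
    have e3 := ((A.cm_adj hc).mul hc).eq_zero_of_mul (br_ne_zero A.C.ses hx' hx') e2
    have e4 := congrArg (fun z => ((c⁻¹ : GL ι F) : Matrix ι ι F)† * z * (c⁻¹ : GL ι F)) e3
    simp only [mul_assoc, Units.mul_inv, mul_one, ← A.hf.adj_mul, A.hf.adj_one, mul_zero,
      zero_mul] at e4
    exact (one_ne_zero e4).elim

end Amb

end Cfsg.Agent.H9
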