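import Cfsg.Agent.H9.TCl
import Cfsg.Agent.H11.OOdd

/-! Membership in the commutator subgroup of an orthogonal group. -/

set_option autoImplicit false
set_option linter.unusedSectionVars false
set_option linter.unusedVariables false

namespace Cfsg.Agent.H9

open scoped MatrixGroups Matrix commutatorElement
open Matrix Cfsg.Geo Cfsg.Agent.H98

universe u

variable {ι β : Type} [Fintype ι] [DecidableEq ι] [Fintype β] [DecidableEq β] {F : Type u} [Field F]

variable {Q : (ι → F) → F} (hQ : IsNondegenerateQuadraticForm Q)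
include hQ

theorem isom_of_Q : isometryGroup F Q ≤ Isom (RingEquiv.refl F) (QuadraticMap.polar Q) := by
  obtain ⟨Q, rfl, h⟩ := H11.exists_qf hQ
  exact fun g hg u v => H11.polar_of_mem hg u v

theorem Q_of_isom (h2 : (2 : F) ≠ 0) :
    Isom (RingEquiv.refl F) (QuadraticMap.polar Q) ≤ isometryGroup F Q := by
  obtain ⟨Q, rfl, h⟩ := H11.exists_qf hQ
  intro g hg
  refine H11.mem_isometryGroup.2 fun v => mul_left_cancel₀ h2 ?_
  rw [← H11.polar_self', ← H11.polar_self']
  exact hg v v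

omit hQ in
theorem omega_le_O : omegaGL Q ≤ isometryGroup F Q := H11.omegaGL_le Q

omit hQ in
theorem comm_mem_omega {g h : GL ι F} (hg : g ∈ isometryGroup F Q) (hh : h ∈ isometryGroup F Q) :
    g * h * g⁻¹ * h⁻¹ ∈ omegaGL Q :=
  ⟨⁅(⟨g, hg⟩ : isometryGroup F Q), (⟨h, hh⟩ : isometryGroup F Q)⁆,
    Subgroup.commutator_mem_commutator (Subgroup.mem_top _) (Subgroup.mem_top _), rfl⟩

theorem sq_mem_omega (h2 : (2 : F) ≠ 0) {g : GL ι F} (hg : g ∈ isometryGroup F Q) :
    g * g ∈ omegaGL Q := by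
  obtain ⟨Q, rfl, h⟩ := H11.exists_qf hQ
  obtain ⟨g, rfl⟩ := H11.exists_toGL hg
  rw [← map_mul, H11.toGL_mem_omega]
  have key := h.eq_top_of_refl (H11.eichOK_of_two_ne_zero h2)
    (K := (powMonoidHom 2 : Abelianization (H11.OG Q) →* _).ker.comap Abelianization.of)
    fun v hv => by
      rw [Subgroup.mem_comap, MonoidHom.mem_ker, powMonoidHom_apply, sq, ← map_mul,
        H11.refl_mul_self, map_one]
  have hg : g ∈ (powMonoidHom 2 : Abelianization (H11.OG Q) →* _).ker.comap Abelianization.of :=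
    key ▸ Subgroup.mem_top g
  rw [Subgroup.mem_comap, MonoidHom.mem_ker, powMonoidHom_apply, sq, ← map_mul] at hg
  rw [← Abelianization.ker_of]
  exact hg

theorem unip_mem_omega [Finite F] (h2 : (2 : F) ≠ 0) {g : GL ι F} (hg : g ∈ isometryGroup F Q)
    {m : ℕ} (h : ((g : Matrix ι ι F) - 1) ^ m = 0) : g ∈ omegaGL Q := by
  rcases isEmpty_or_nonempty ι with hι | hι
  · rw [Subsingleton.elim g 1]; exact one_mem _
  obtain ⟨p, hp⟩ := CharP.exists F
  have hpp : p.Prime := CharP.char_is_prime F p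
  have := Fact.mk hpp
  have hp2 : p ≠ 2 := by
    rintro rfl
    exact h2 (by exact_mod_cast CharP.cast_eq_zero F 2)
  have h1 : (g : Matrix ι ι F) ^ p ^ m = 1 := by
    have e := sub_pow_char_pow_of_commute (p := p) (n := m) (Commute.one_right (g : Matrix ι ι F))
    rw [one_pow, pow_eq_zero_of_le (Nat.lt_pow_self hpp.one_lt).le h] at e
    exact sub_eq_zero.1 e.symm
  obtain ⟨j, hj⟩ := (hpp.odd_of_ne_two hp2).pow (n := m)
  have h3 : (g * g) ^ j * g = 1 := Units.ext (by
    rw [← sq, ← pow_mul, ← pow_succ, ← hj, Units.val_pow_eq_pow_val, h1, Units.val_one])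
  rw [eq_inv_of_mul_eq_one_right h3]
  exact inv_mem (pow_mem (sq_mem_omega hQ h2 hg) j)

theorem omega_of_alt [Finite F] (hn : 5 ≤ Fintype.card ι) {N : Matrix ι ι F}
    (h1 : ∀ v, Q (N *ᵥ v) = 0) (h2 : ∀ v, QuadraticMap.polar Q (N *ᵥ v) v = 0) :
    1 + N ∈ matrixSet (omegaGL Q) := by
  obtain ⟨Q, rfl, h⟩ := H11.exists_qf hQ
  have hf := h.sesq
  induction hK : LinearMap.ker N.mulVecLin using WellFoundedGT.induction generalizing N with
  | ind K ih =>
  by_cases hN : N = 0
  · rw [hN, add_zero]; exact ms_one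
  have sk : ∀ v w, QuadraticMap.polar Q (N *ᵥ v) w = -QuadraticMap.polar Q (N *ᵥ w) v := fun v w => by
    have := h2 (v + w)
    rw [mulVec_add, hf.add_left, hf.add_right, hf.add_right, h2, h2] at this
    linear_combination this
  have ts : ∀ v w, QuadraticMap.polar Q (N *ᵥ v) (N *ᵥ w) = 0 := fun v w => by
    rw [QuadraticMap.polar, ← mulVec_add, h1, h1, h1]; simp
  have nn : ∀ v, N *ᵥ (N *ᵥ v) = 0 := fun v => hf.eq_zero_of_left fun w => by
    rw [sk, ts, neg_zero]
  obtain ⟨w, hw⟩ : ∃ w, N *ᵥ w ≠ 0 := by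
    by_contra hc
    push Not at hc
    exact hN (matrix_ext_mulVec fun v => by rw [hc, zero_mulVec])
  obtain ⟨w', hw'⟩ := exists_f_one hf hw
  have e1 : QuadraticMap.polar Q w (N *ᵥ w) = 0 := by rw [QuadraticMap.polar_comm, h2]
  have e2 : QuadraticMap.polar Q w (N *ᵥ w') = -1 := by rw [QuadraticMap.polar_comm, sk, hw']
  let E : Matrix ι ι F := br (QuadraticMap.polar Q) (N *ᵥ w') (N *ᵥ w) -
    br (QuadraticMap.polar Q) (N *ᵥ w) (N *ᵥ w')
  have hE : ∀ x, E *ᵥ x = QuadraticMap.polar Q x (N *ᵥ w) • (N *ᵥ w') -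
      QuadraticMap.polar Q x (N *ᵥ w') • (N *ᵥ w) := fun x => by
    rw [sub_mulVec, br_mulVec hf, br_mulVec hf]
  have hE' : 1 + E ∈ matrixSet (omegaGL Q) :=
    ⟨_, h.eich_mem_omega hn (h1 w) (ts w w'), matrix_ext_mulVec fun x => by
      simp only [H11.toGL_mulVec, H11.ap_eich, add_mulVec, one_mulVec, hE, h1, zero_mul, zero_smul,
        sub_zero, add_sub_assoc]⟩
  have hN' := ih (LinearMap.ker (N - E).mulVecLin) ?_ (N := N - E) (fun v => ?_) (fun v => ?_) rfl
  · have := ms_mul hN' hE'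
    convert this using 1
    refine matrix_ext_mulVec fun x => ?_
    simp only [← mulVec_mulVec, add_mulVec, sub_mulVec, one_mulVec, mulVec_add, hE, mulVec_sub,
      mulVec_smul, nn, ts]
    module
  · rw [← hK]
    refine lt_of_le_of_ne (fun x hx => ?_) fun e => hw ?_
    · have hx : N *ᵥ x = 0 := hx
      show (N - E) *ᵥ x = 0
      rw [sub_mulVec, hE, hx, QuadraticMap.polar_comm _ x, QuadraticMap.polar_comm _ x, sk w, sk w',
        hx, hf.zero_left, hf.zero_left]
      simp
    · have : w ∈ LinearMap.ker (N - E).mulVecLin := by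
        show (N - E) *ᵥ w = 0
        rw [sub_mulVec, hE, e1, e2]; simp
      rw [← e] at this
      exact this
  · rw [sub_mulVec, hE, ← mulVec_smul, ← mulVec_smul, ← mulVec_sub, ← mulVec_sub, h1]
  · rw [sub_mulVec, hE, hf.sub_left, hf.sub_left, hf.smul_left, hf.smul_left, h2,
      QuadraticMap.polar_comm _ v, QuadraticMap.polar_comm _ v]
    ring

theorem not_omega_le_wreath_sp [Finite F] (hn : 5 ≤ Fintype.card ι) {k t : ℕ} (ht : 2 ≤ t)
    {e : ι ≃ (Fin t → Fin k)} {P : GL ι F} {f₁ : (Fin k → F) → (Fin k → F) → F}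
    (hf₁ : IsSymplecticForm f₁) (hT : IsTensorPowerFormStructure id (QuadraticMap.polar Q) f₁ e P)
    (hpure : ∀ xs : Fin t → (Fin k → F), Q (Matrix.mulVec (P : Matrix ι ι F)
      ((fun a : Fin t → Fin k => ∏ i, xs i (a i)) ∘ e)) = 0) :
    ¬ omegaGL Q ≤ tensorWreathSubgroup k t e P := by
  obtain ⟨Q, rfl, h⟩ := H11.exists_qf hQ
  have h₁ := isSesq_of_symplectic hf₁
  obtain ⟨c, hc, hcf⟩ := tensorPowerForm_pure h₁ hT
  have hn' := hn
  rw [Fintype.card_congr e, Fintype.card_fun, Fintype.card_fin, Fintype.card_fin] at hn'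
  have hk : 2 ≤ k := by
    by_contra hk
    have : k ^ t ≤ 1 ^ t := Nat.pow_le_pow_left (by omega) t
    rw [one_pow] at this
    omega
  let a0 : Fin k := ⟨0, by omega⟩
  let a1 : Fin k := ⟨1, by omega⟩
  let i0 : Fin t := ⟨0, by omega⟩
  let i1 : Fin t := ⟨1, by omega⟩
  have ha : a0 ≠ a1 := by simp [a0, a1, Fin.ext_iff]
  have hi : i0 ≠ i1 := by simp [i0, i1, Fin.ext_iff]
  let U : Fin t → Fin k → F := fun _ => bv F a0
  let U' : (Fin k → F) → Fin t → Fin k → F := fun v =>
    Function.update (Function.update U i0 (bv F a1)) i1 v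
  obtain ⟨v, j, hj, hv, h0⟩ : ∃ v j, j ≠ a0 ∧ v j ≠ 0 ∧ ∏ i, f₁ (U i) (U' v i) = 0 := by
    by_cases h3 : 3 ≤ t
    · refine ⟨bv F a1, a1, ha.symm, by simp [bv], Finset.prod_eq_zero (Finset.mem_univ ⟨2, h3⟩) ?_⟩
      have b0 : (⟨2, h3⟩ : Fin t) ≠ i0 := by simp [i0, Fin.ext_iff]
      have b1 : (⟨2, h3⟩ : Fin t) ≠ i1 := by simp [i1, Fin.ext_iff]
      simp only [U', Function.update_of_ne b0, Function.update_of_ne b1, U]
      exact hf₁.alternating _
    · have hk3 : 2 < k := by
        by_contra hk3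
        have : k ^ t ≤ 2 ^ 2 :=
          (Nat.pow_le_pow_left (by omega) t).trans (Nat.pow_le_pow_right (by omega) (by omega))
        omega
      obtain ⟨z, hz⟩ := exists_dl h₁ (bv F a0)
      obtain ⟨v, hv0, hv⟩ := exists_perp h₁ (m := 2) (by simpa using hk3) ![bv F a0, z]
      obtain ⟨j, hj⟩ := Function.ne_iff.1 hv0
      have b1 : v a0 = 0 := by
        have := hv 1
        rw [← dl_dot h₁] at this
        simpa [hz] using this
      refine ⟨v, j, by rintro rfl; exact hj b1, hj, Finset.prod_eq_zero (Finset.mem_univ i1) ?_⟩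
      simp only [U', Function.update_self, U]
      exact h₁.eq_zero_comm.1 (hv 0)
  let x : Fin t → Fin k := fun _ => a0
  let y : Fin t → Fin k := Function.update (Function.update x i0 a1) i1 j
  have p1 : ∏ i, U i (x i) ≠ 0 := Finset.prod_ne_zero_iff.2 fun i _ => by simp [U, x, bv]
  have p2 : ∏ i, U' v i (x i) = 0 := Finset.prod_eq_zero (Finset.mem_univ i0) (by
    simp [U', x, bv, Function.update_of_ne hi, ha])
  have p3 : ∏ i, U i (y i) = 0 := Finset.prod_eq_zero (Finset.mem_univ i1) (by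
    simp [U, y, bv, hj])
  have p4 : ∏ i, U' v i (y i) ≠ 0 := Finset.prod_ne_zero_iff.2 fun i _ => by
    by_cases b1 : i = i1
    · simpa [U', y, b1] using hv
    by_cases b0 : i = i0
    · simp [U', y, b0, Function.update_of_ne hi, bv]
    · simp [U', y, U, x, Function.update_of_ne b0, Function.update_of_ne b1, bv]
  have p5 : ∏ i, U i (Function.update y i0 (x i0) i) = 0 :=
    Finset.prod_eq_zero (Finset.mem_univ i1) (by simp [U, y, bv, hj, Function.update_of_ne hi.symm])
  have p6 : ∏ i, U' v i (Function.update y i0 (x i0) i) = 0 :=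
    Finset.prod_eq_zero (Finset.mem_univ i0) (by simp [U', x, bv, Function.update_of_ne hi, ha])
  refine h.not_le_of_set hn {v | (frmV e P).symm v ∈ H99.pureVecs k t F} ?_
    (u := frmV e P fun z => ∏ i, U i (z i)) ⟨U, by simp⟩ ?_
    (w := frmV e P ((fun z => ∏ i, U i (z i)) + fun z => ∏ i, U' v i (z i))) ?_ ?_ ?_
  · intro g hg v hv
    simp only [Set.mem_ofPred_eq, H99.frmV_symm_mulVec] at hv ⊢
    exact H99.mulVec_mem_pureVecs (mem_tensorWreathSubgroup.1 hg) _ hv
  · rw [Ne, map_eq_zero_iff _ (frmV e P).injective]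
    exact fun h => p1 (congrFun h x)
  · intro h
    simp only [Set.mem_ofPred_eq, LinearEquiv.symm_apply_apply] at h
    have h2 := H99.pureVecs_rel h x y i0
    simp only [Pi.add_apply, p2, p3, p5, p6, add_zero, zero_add, mul_zero] at h2
    exact mul_ne_zero p1 p4 h2
  · rw [Ne, map_eq_zero_iff _ (frmV e P).injective]
    intro h
    have := congrFun h x
    simp only [Pi.add_apply, p2, add_zero] at this
    exact p1 this
  · rw [map_add, H11.Q_add, hcf, h0, frmV_apply, frmV_apply, hpure, hpure]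
    simp

end Cfsg.Agent.H9
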