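import Cfsg.Agent.H9.TGlue

/-! The local analysis for an active factor of Witt index at least two; full levels. -/

set_option autoImplicit false
set_option linter.unusedSectionVars false
set_option linter.unusedVariables false
set_option linter.unusedSimpArgs false

namespace Cfsg.Agent.H9

open scoped MatrixGroups Matrix
open Matrix Cfsg.Geo Cfsg.Agent.H98

universe u

variable {ι α β : Type} [Fintype ι] [DecidableEq ι] [Fintype α] [DecidableEq α] [Fintype β]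
  [DecidableEq β] {F : Type u} [Field F]

/-- The coefficients of the level at a hyperbolic pair. -/
def AA (φ : Matrix β β F →ₐ[F] Matrix ι ι F) (M : Subgroup (GL ι F)) (f₂ : (β → F) → (β → F) → F)
    (ε₂ : F) (x y : β → F) (c : Matrix ι ι F) : Prop :=
  Cm φ c ∧ ∀ v, f₂ x v = 0 → f₂ y v = 0 →
    c * φ (br f₂ x v) ∈ Rho M (φ (br f₂ x y)) (φ (pr f₂ ε₂ x y))

variable {φ : Matrix β β F →ₐ[F] Matrix ι ι F} {M : Subgroup (GL ι F)} {G2 : Subgroup (GL β F)}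
  {σ : F ≃+* F} {ε ε₂ : F} {f : (ι → F) → (ι → F) → F} {f₂ : (β → F) → (β → F) → F}
  (A : Amb φ M G2 σ ε f ε₂ f₂) {x y : β → F}

local notation:max z "†" => adj σ f z
local notation "RR" x:max y:max => Rho M (φ (br f₂ x y)) (φ (pr f₂ ε₂ x y))
local notation "LL" x:max y:max s:max => Lev M (φ (br f₂ x y)) (φ (pr f₂ ε₂ x y)) φ s

theorem not_sc_skew (hf : IsSesq σ ε₂ f₂) (H : HP f₂ x y) {v : β → F} (h0 : v ≠ 0) (h1 : f₂ x v = 0)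
    (h2 : f₂ y v = 0) : ¬ Sc (br f₂ x v - br f₂ v x) := by
  rintro ⟨a, ha⟩
  have := congrArg (· *ᵥ y) ha
  simp only [sub_mulVec, br_mulVec hf, h2, H.yx hf, zero_smul, zero_sub, smul_mulVec,
    one_mulVec] at this
  have h3 := congrArg (fun w => f₂ w x) this
  simp only [hf.neg_left, hf.smul_left, hf.eq_zero_comm.1 h1, H.yx hf, mul_zero, neg_zero] at h3
  rw [(mul_eq_zero.1 h3.symm).resolve_right hf.eps_ne_zero, zero_smul, neg_eq_zero] at this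
  exact h0 ((smul_eq_zero.1 this).resolve_left hf.eps_ne_zero)

namespace Amb
include A

theorem fr (H : HP f₂ x y) (h : FRG G2 x (dl f₂ y) (pr f₂ ε₂ x y)) :
    FR M φ x (dl f₂ y) (pr f₂ ε₂ x y) := (H.ad A.C.ses).fr A.sub h

theorem aa_move (H : HP f₂ x y) {u u' : β → F} (H' : HP f₂ u u') {c : Matrix ι ι F}
    (h : AA φ M f₂ ε₂ x y c) : AA φ M f₂ ε₂ u u' c := by
  have hf := A.C.ses
  obtain ⟨g, hg, e1, e2, a, ha, e3, e4⟩ := A.C.cj_hp H H'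
  have ha' := (map_ne_zero σ).2 ha
  refine ⟨h.1, fun v h1 h2 => ?_⟩
  have k : ∀ w, f₂ w (((g⁻¹ : GL β F) : Matrix β β F) *ᵥ ((σ a)⁻¹ • v)) =
      f₂ ((g : Matrix β β F) *ᵥ w) ((σ a)⁻¹ • v) := fun w => by
    rw [← A.C.le hg, mulVec_inv_mulVec]
  have := Rho.cj (A.sub g hg) (h.2 (((g⁻¹ : GL β F) : Matrix β β F) *ᵥ ((σ a)⁻¹ • v))
    (by rw [k, e3, hf.smul_left, hf.smul_right, h1]; simp)
    (by rw [k, e4, hf.smul_left, hf.smul_right, h2]; simp))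
  rwa [h.1.cj_gφ_mul, cj_gφ, cj_gφ, e1, e2, cj_br hf (A.C.le hg), e3, mulVec_inv_mulVec,
    br_smul_left, br_smul_right hf, map_inv₀, hf.invol, smul_inv_smul₀ ha] at this

theorem aa_of_cf (H : HP f₂ x y) (R : FR M φ x (dl f₂ y) (pr f₂ ε₂ x y)) {ρ : Matrix ι ι F}
    (hρ : ρ ∈ RR x y) {w : β → F} (hw : f₂ w x = 0) : AA φ M f₂ ε₂ x y (cf φ (dl f₂ y) ρ w) :=
  ⟨cf_cm _ _ _, fun v h1 h2 => R.cf_mem hρ (pr_fix A.C.ses hw) (by rw [dl_dot A.C.ses, h1])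
    (dl_pr A.C.ses h2)⟩

theorem aa_of_lev (H : HP f₂ x y) {sd : Bool} {c : Matrix ι ι F} (h : c ∈ LL x y sd) :
    AA φ M f₂ ε₂ x y c := ⟨h.1, fun v h1 h2 => Lev.mul_mem h (A.h0 H h1 h2)⟩

theorem aa_one (H : HP f₂ x y) : AA φ M f₂ ε₂ x y 1 :=
  ⟨Cm.one, fun v h1 h2 => by rw [one_mul]; exact A.h0 H h1 h2⟩

theorem jj_trans (hx : IsoPt f₂ x) {u : β → F} (hu : IsoPt f₂ u) {j : Matrix ι ι F}
    (h : JJ φ M f₂ x j) : ∃ a : F, a ≠ 0 ∧ JJ φ M f₂ u ((a * σ a) • j) := by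
  obtain ⟨g, hg, a, ha, e⟩ := A.C.trans hx.2 hu.2 hx.1 hu.1
  exact ⟨a, ha, A.jj_move hg e h⟩

theorem lev_of_jj' (hW : W2 f₂) (H : HP f₂ x y) (R : FR M φ x (dl f₂ y) (pr f₂ ε₂ x y))
    {j : Matrix ι ι F} (h : JJ φ M f₂ x j) : j ∈ LL x y false := by
  obtain ⟨u, u', H', h1, h2, h3, h4⟩ := hW x y H
  obtain ⟨a, ha, h5⟩ := A.jj_trans ⟨H.ne A.C.ses, H.xx⟩ ⟨H'.ne A.C.ses, H'.xx⟩ h
  have := (LL x y false).smul_mem (a * σ a)⁻¹ (A.lev_of_jj H R H' h1 h3 h4 h5)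
  rwa [inv_smul_smul₀ (mul_ne_zero ha ((map_ne_zero σ).2 ha))] at this

theorem lev_of_aa (hW : W2 f₂) (hk : 5 ≤ Fintype.card β) (H : HP f₂ x y)
    (R : FR M φ x (dl f₂ y) (pr f₂ ε₂ x y)) {c : Matrix ι ι F} (h : AA φ M f₂ ε₂ x y c) :
    c ∈ LL x y false := by
  obtain ⟨u, u', H', h1, h2, h3, h4⟩ := hW x y H
  obtain ⟨v, w, ⟨a1, a2, a3, a4⟩, ⟨b1, b2, b3, b4⟩, e⟩ := exists_pair_perp4 A.C.ses hk H H' h1 h2 h3 h4
  exact A.lev_of_rho H R H' h1 h3 h4 a1 b1 b3 b4 e h.1 ((A.aa_move H H' h).2 v a3 a4)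

theorem nc' [Nonempty ι] (H : HP f₂ x y) (R : FR M φ x (dl f₂ y) (pr f₂ ε₂ x y))
    (h : ¬ Loc φ M x) : (∃ c, AA φ M f₂ ε₂ x y c ∧ ¬ Sc c) ∨ ∃ j, JJ φ M f₂ x j ∧ ¬ Sc j :=
  (A.nc H h).imp_left fun ⟨ρ, hρ, w, hw, hn⟩ => ⟨_, A.aa_of_cf H R hρ hw, hn⟩

theorem lev_big [Nonempty ι] (hW : W2 f₂) (hk : 5 ≤ Fintype.card β) (H : HP f₂ x y)
    (R : FR M φ x (dl f₂ y) (pr f₂ ε₂ x y)) (h : ¬ Loc φ M x) : ∃ c ∈ LL x y false, ¬ Sc c := by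
  rcases A.nc' H R h with ⟨c, h1, h2⟩ | ⟨c, h1, h2⟩
  · exact ⟨c, A.lev_of_aa hW hk H R h1, h2⟩
  · exact ⟨c, A.lev_of_jj' hW H R h1, h2⟩

theorem jj_of_aa (hk : 3 ≤ Fintype.card β) (H : HP f₂ x y) {c d : Matrix ι ι F}
    (hc : AA φ M f₂ ε₂ x y c) (hd : AA φ M f₂ ε₂ x y d) (l : F) :
    JJ φ M f₂ x (l • (d * c†) - (ε₂ * σ l) • (c * d†)) := by
  have hf := A.C.ses
  obtain ⟨v, w, h1, h2, h3, h4, e⟩ := exists_pair_perp hf hk H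
  have := A.jj_comm H hc.1 hd.1 (v := (ε₂ * l) • w) (w := v) (hc.2 _
    (by rw [hf.smul_right, hf.eq_zero_comm.1 h3, mul_zero])
    (by rw [hf.smul_right, hf.eq_zero_comm.1 h4, mul_zero])) (hd.2 v h1 h2)
  rwa [hf.smul_left, e, mul_one, ← mul_assoc, hf.eps_mul_self, one_mul, hf.smul_right, hf.herm v w,
    e, map_one, mul_one, map_mul, hf.map_eps, mul_comm (ε₂ * σ l), ← mul_assoc, hf.eps_mul_self,
    one_mul] at this

theorem jj_of_aa' (hk : 3 ≤ Fintype.card β) (H : HP f₂ x y) {c : Matrix ι ι F}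
    (hc : AA φ M f₂ ε₂ x y c) : JJ φ M f₂ x (c - ε₂ • c†) := by
  simpa [A.hf.adj_one] using A.jj_of_aa hk H (A.aa_one H) hc 1

/-- The unitary case: a non-scalar central level element. -/
theorem jj_unitary [Nonempty ι] (hk : 3 ≤ Fintype.card β) {ω : F} (hω : σ ω ≠ ω) (H : HP f₂ x y)
    (R : FR M φ x (dl f₂ y) (pr f₂ ε₂ x y)) (h : ¬ Loc φ M x) : ∃ j, JJ φ M f₂ x j ∧ ¬ Sc j := by
  rcases A.nc' H R h with ⟨c, h1, h2⟩ | h
  swap; · exact h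
  by_contra hc
  push Not at hc
  have k1 := hc _ (A.jj_of_aa hk H (A.aa_one H) h1 1)
  have k2 := hc _ (A.jj_of_aa hk H (A.aa_one H) h1 ω)
  refine h2 (Sc.of_smul (sub_ne_zero.2 hω) ?_)
  convert (k1.smul (σ ω)).sub k2 using 1
  simp only [A.hf.adj_one, map_one, mul_one, one_mul]
  module

theorem fullQ_of (H : HP f₂ x y) (h1 : ∀ c, Cm φ c → AA φ M f₂ ε₂ x y c)
    (h2 : ∀ c, Cm φ c → JJ φ M f₂ x (c - ε₂ • c†)) : FullQ σ f M (φ (br f₂ x y)) := by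
  have D := H.ad A.C.ses
  refine ⟨fun ρ r1 r2 => ?_, fun c c1 c2 => ?_⟩
  · rw [← A.hp] at r2 ⊢
    rw [← map_sub] at r2
    rw [D.expand r1 r2]
    refine sum_mem fun k _ => ?_
    obtain ⟨v, hv⟩ := exists_dl A.C.ses (bv F k ᵥ* (pr f₂ ε₂ x y - vecMulVec x (dl f₂ y)))
    rw [← hv]
    exact (h1 _ (cf_cm _ _ _)).2 v (by rw [← dl_dot A.C.ses, hv, D.row_dot])
      (H.perp_of_pr A.C.ses (by rw [hv, D.row_p]))
  · have hc := (cf_cm (φ := φ) (dl f₂ y) c y).smul ε₂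
    have := (h2 _ hc).2
    rwa [sub_mul, ← A.zed_eq H c1 c2, smul_mul_assoc, ← A.cm_adj hc, ← smul_mul_assoc, ← A.adj_br,
      ← A.hf.adj_mul, ← A.zed_eq H c1 c2] at this

theorem adj_eq (x y : β → F) : (φ (br f₂ x y))† = φ (br f₂ y (ε₂ • x)) := by
  rw [A.adj_br, br_smul_right A.C.ses, A.C.ses.map_eps, map_smul]

theorem fullQ_of_aa (hk : 3 ≤ Fintype.card β) (H : HP f₂ x y)
    (h : ∀ c, Cm φ c → AA φ M f₂ ε₂ x y c) :
    FullQ σ f M (φ (br f₂ x y)) ∧ FullQ σ f M (φ (br f₂ x y))† :=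
  ⟨A.fullQ_of H h fun c hc => A.jj_of_aa' hk H (h c hc), by
    have H' := H.symm A.C.ses
    rw [A.adj_eq]
    exact A.fullQ_of H' (fun c hc => A.aa_move H H' (h c hc)) fun c hc =>
      A.jj_of_aa' hk H' (A.aa_move H H' (h c hc))⟩

theorem add_adj_ne [Nonempty ι] (hk : 3 ≤ Fintype.card β) (H : HP f₂ x y) :
    φ (br f₂ x y) + (φ (br f₂ x y))† ≠ 1 := fun h => by
  obtain ⟨v, w, h1, h2, h3, h4, e⟩ := exists_pair_perp A.C.ses hk H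
  rw [A.adj_br, ← map_smul, ← map_add, ← map_one φ] at h
  have := congrArg (fun z => f₂ (z *ᵥ w) v) (phi_injective h)
  simp [add_mulVec, smul_mulVec, br_mulVec A.C.ses, h3, h4, e, A.C.ses.zero_left] at this

theorem two_le_rank (H : HP f₂ x y) {m : ℕ} (h : m * Fintype.card β ≤ Fintype.card ι) :
    m ≤ (φ (br f₂ x y)).rank :=
  have := A.C.nonempty
  le_rank_of_card (H.ne A.C.ses) (dl_ne_zero A.C.ses (H.ne' A.C.ses)) h

theorem dich [Finite F] [Nonempty ι] {Root : Set (GL β F)} (hG : GeoL G2 (IsoPt f₂))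
    (hR : ActL φ M G2 (IsoPt f₂) → Roots φ M G2 Root) (hD : GeoD G2 Root)
    (hk : (2 : F) ≠ 0 ∨ 3 ≤ Fintype.card β) (h : ∀ x, x ≠ 0 → f₂ x x = 0 → Loc φ M x) {g : GL ι F}
    (hg : g ∈ M) : g ∈ KB φ ∨ ∀ b, Cm φ (cj g (φ b)) := by
  have := A.C.nonempty
  obtain ⟨u, h0, hu⟩ := A.C.ex
  have L : ActL φ M G2 (IsoPt f₂) := A.actL h
  exact (hR L).dich hD hk h0 (dl_ne_zero A.C.ses h0) (by rw [dl_dot A.C.ses, hu])
    (L.det_pt hG ⟨h0, hu⟩ (dl_ne_zero A.C.ses h0)) hg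

/-- The alternative for two factors. -/
theorem c4 {ψ : Matrix α α F →ₐ[F] Matrix ι ι F} (P : Pair φ ψ) {G1 : Subgroup (GL α F)}
    (hS : Simp G1) (hG : ∀ g ∈ G1, gφ ψ g ∈ M) (hk : 3 ≤ Fintype.card β)
    (h : ∀ x y, HP f₂ x y → ¬ Loc φ M x → ∃ sd, ∃ c ∈ LL x y sd, ¬ Sc c) :
    (∀ x, x ≠ 0 → f₂ x x = 0 → Loc φ M x) ∨ ∃ x y, HP f₂ x y ∧ FullQ σ f M (φ (br f₂ x y)) ∧
      FullQ σ f M (φ (br f₂ x y))† := by
  refine (em _).imp_right fun hL => ?_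
  push Not at hL
  obtain ⟨x, h0, hx, hL⟩ := hL
  obtain ⟨y, H⟩ := A.C.partner h0 hx
  obtain ⟨sd, c, hc, hn⟩ := h x y H hL
  exact ⟨x, y, H, A.fullQ_of_aa hk H fun z hz => A.aa_of_lev H (P.lev_all hS hG hc hn z hz)⟩

end Amb

variable {τ : Type} [Fintype τ] [DecidableEq τ] {φ : τ → Matrix β β F →ₐ[F] Matrix ι ι F}

/-- From a non-scalar multiplier to full levels in a system of factors. -/
theorem Sys.full_of_lev (S : Sys φ) (hC : Cyc φ M) {i : τ} (A : Amb (φ i) M G2 σ ε f ε₂ f₂)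
    (hadj : ∀ j b, (φ j b)† = φ j (adj σ f₂ b)) (hk : 3 ≤ Fintype.card β)
    {G : τ → Subgroup (GL β F)} (hP : ∀ j, j ≠ i → Pas (G j)) (H : HP f₂ x y) {sd : Bool}
    (hI : ∀ j, j ≠ i → ∀ g ∈ G j, ∀ z ∈ Lev M (φ i (br f₂ x y)) (φ i (pr f₂ ε₂ x y)) (φ i) sd,
      cj (gφ (φ j) g) z ∈ Lev M (φ i (br f₂ x y)) (φ i (pr f₂ ε₂ x y)) (φ i) sd)
    {c : Matrix ι ι F} (hc : c ∈ Lev M (φ i (br f₂ x y)) (φ i (pr f₂ ε₂ x y)) (φ i) sd) (hn : ¬ Sc c) :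
    FullQ σ f M (φ i (br f₂ x y)) ∧ FullQ σ f M (φ i (br f₂ x y))† := by
  have hf := A.C.ses
  obtain ⟨j, hj, h1⟩ := S.inv' hP (fun z hz => And.left hz) hI hc hn
  obtain ⟨v, w, a1, a2, -, -, e⟩ := exists_pair_perp hf hk H
  have h2 := (A.jj_of_aa' hk H (A.aa_of_lev H (h1 (br f₂ x v)))).2
  rw [hadj, adj_br hf, map_smul, smul_smul, hf.eps_mul_self, one_smul, ← map_sub] at h2
  exact A.fullQ_of_aa hk H fun z hz => A.aa_of_lev H (S.all_of_lnk hC (fun j hj => (hP j hj).simp) hI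
    (fun g hg hc z hz => Lev.cj_cm hg hc hz) hj h1 ⟨_, not_sc_skew hf H (by
      rintro rfl; simp [hf.zero_right] at e) a1 a2, x, _, H.ne hf, dl_ne_zero hf (H.ne hf),
      by rw [dl_dot hf, H.xx], h2⟩ hz)

end Cfsg.Agent.H9
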