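import Cfsg.Agent.H9.TFac
import Cfsg.Agent.H9.SpProper
import Cfsg.Agent.H10.UProper
import Cfsg.Agent.H99.OProper
import Cfsg.Agent.H99.OTens

/-! Maximality of the stabilisers of tensor products of two factors. -/

set_option autoImplicit false
set_option linter.unusedSectionVars false
set_option linter.unusedVariables false
set_option linter.unusedSimpArgs false

namespace Cfsg.Agent.H9

open scoped MatrixGroups Matrix Kronecker
open Matrix Cfsg.Geo Cfsg.Agent.H98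

universe u

variable {ι α β τ : Type} [Fintype ι] [DecidableEq ι] [Fintype α] [DecidableEq α] [Fintype β]
  [DecidableEq β] [Fintype τ] [DecidableEq τ] {F : Type u} [Field F]

/-- Failure of the local statement gives a non-scalar multiplier. -/
def HasLev (φ : Matrix β β F →ₐ[F] Matrix ι ι F) (M : Subgroup (GL ι F)) (ε₂ : F)
    (f₂ : (β → F) → (β → F) → F) : Prop :=
  ∀ x y, HP f₂ x y → ¬ Loc φ M x →
    ∃ sd, ∃ c ∈ Lev M (φ (br f₂ x y)) (φ (pr f₂ ε₂ x y)) φ sd, ¬ Sc c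

/-- The local statement gives the dichotomy. -/
def HasDich (φ : Matrix β β F →ₐ[F] Matrix ι ι F) (M : Subgroup (GL ι F))
    (f₂ : (β → F) → (β → F) → F) : Prop :=
  (∀ x, x ≠ 0 → f₂ x x = 0 → Loc φ M x) → ∀ g ∈ M, g ∈ KB φ ∨ ∀ b, Cm φ (cj g (φ b))

/-- Full levels force `K ≤ M`. -/
def HasGen (φ : Matrix β β F →ₐ[F] Matrix ι ι F) (M K : Subgroup (GL ι F)) (σ : F ≃+* F)
    (f : (ι → F) → (ι → F) → F) (f₂ : (β → F) → (β → F) → F) : Prop :=
  ∀ x y, HP f₂ x y → FullQ σ f M (φ (br f₂ x y)) → FullQ σ f M (adj σ f (φ (br f₂ x y))) → K ≤ M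

/-- The pure tensors are singular. -/
def Sing (Q : (ι → F) → F) (φ : Matrix β β F →ₐ[F] Matrix ι ι F) : Prop :=
  ∀ z χ v, Q (φ (vecMulVec z χ) *ᵥ v) = 0

variable {φ : Matrix β β F →ₐ[F] Matrix ι ι F} {ψ : Matrix α α F →ₐ[F] Matrix ι ι F}
  {M K : Subgroup (GL ι F)} {σ : F ≃+* F} {ε ε₂ : F} {f : (ι → F) → (ι → F) → F}
  {f₂ : (β → F) → (β → F) → F} {G2 : Subgroup (GL β F)} [Nonempty ι]

theorem Amb.rank_hyp (A : Amb φ M G2 σ ε f ε₂ f₂) {x y : β → F} (H : HP f₂ x y)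
    (h : 3 * Fintype.card β ≤ Fintype.card ι ∨
      3 ≤ Fintype.card β ∧ 2 * Fintype.card β ≤ Fintype.card ι) : 2 ≤ (φ (br f₂ x y)).rank ∧
      (φ (br f₂ x y) + adj σ f (φ (br f₂ x y)) ≠ 1 ∨ 3 ≤ (φ (br f₂ x y)).rank) :=
  ⟨A.two_le_rank H (by omega), h.symm.imp (fun h => A.add_adj_ne h.1 H) (A.two_le_rank H)⟩

theorem AmG.hasGen (B : AmG σ ε f K) (A : Amb φ M G2 σ ε f ε₂ f₂) (hM : M ≤ K)
    (h : 3 * Fintype.card β ≤ Fintype.card ι ∨
      3 ≤ Fintype.card β ∧ 2 * Fintype.card β ≤ Fintype.card ι) : HasGen φ M K σ f f₂ :=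
  fun x y H h1 h2 => B.gen M hM _ (A.pd H) h1 h2 (A.rank_hyp H h).1 (A.rank_hyp H h).2

theorem Amb.c4_fin (A : Amb φ M G2 σ ε f ε₂ f₂) (P : Pair φ ψ) {G1 : Subgroup (GL α F)}
    (hS : Simp G1) (hG : ∀ g ∈ G1, gφ ψ g ∈ M) (hk : 3 ≤ Fintype.card β) (h1 : HasLev φ M ε₂ f₂)
    (h2 : HasDich φ M f₂) (h3 : HasGen φ M K σ f f₂) (hc : ∀ g ∈ M, ¬ ∀ b, Cm φ (cj g (φ b))) :
    M ≤ KB φ ∨ K ≤ M :=
  (A.c4 P hS hG hk h1).imp (fun h g hg => (h2 h g hg).resolve_right (hc g hg))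
    fun ⟨x, y, H, h4, h5⟩ => h3 x y H h4 h5

theorem Pair.not_cm [Nonempty β] (P : Pair φ ψ) (h : ¬ Fintype.card β ∣ Fintype.card α)
    (g : GL ι F) : ¬ ∀ b, Cm φ (cj g (φ b)) := fun h' =>
  h (dvd_of_hom (P.exists_hom h').choose)

section
variable [Fintype F] {q : ℕ} [Fact (Fintype.card F = q ^ 2)]
  (A : Amb φ M (Isom (H10.sig F q) f₂ ⊓ specialLinear β F) (H10.sig F q) 1 f 1 f₂)
include A

theorem Amb.dich_su (hk : 3 ≤ Fintype.card β) (hex : ¬ (Fintype.card β = 3 ∧ q = 2)) :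
    HasDich φ M f₂ := fun h g hg => by
  have := A.C.nonempty
  obtain ⟨κ, h0, h1⟩ := GeoSU.exists_kappa (F := F) (q := q)
  have hG := geoL_su A.C.ses hk hex
  exact A.dich hG (fun L => roots_T A.C h0 (by rw [h1]; ring) L hG (Or.inr hk))
    (geoD_su A.C.ses hk hex) (Or.inr hk) h hg

theorem Amb.lev_su (hk : 4 ≤ Fintype.card β) : HasLev φ M 1 f₂ := fun x y H h => by
  obtain ⟨ω, hω⟩ := H10.exists_cj_ne F q
  have R := A.fr H (frg_su A.C.ses (by omega) H)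
  obtain ⟨j, h1, h2⟩ := A.jj_unitary (by omega) hω H R h
  exact ⟨_, j, A.lev_of_jj' (w2_su A.C.ses hk) H R h1, h2⟩

end

section
variable [Finite F] (A : Amb φ M G2 (RingEquiv.refl F) ε f (-1) f₂) (alt : ∀ v, f₂ v v = 0)
include A alt

theorem Amb.dich_sp
    (h : 4 ≤ Nat.card F ∨ (Nat.card F = 3 ∧ 3 ≤ Fintype.card β) ∨ 5 ≤ Fintype.card β)
    (hk : (2 : F) ≠ 0 ∨ 3 ≤ Fintype.card β) : HasDich φ M f₂ := fun hL g hg => by
  have := A.C.nonempty
  have hG := geoL_sp A.C alt (by omega)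
  exact A.dich hG (fun L => roots_T A.C one_ne_zero (by simp) L hG hk) (geoD_sp A.C alt h) hk hL hg

theorem Amb.lev_sp (hk : 5 ≤ Fintype.card β) : HasLev φ M (-1) f₂ := fun x y H h =>
  ⟨_, A.lev_big (w2_sp A.C.ses alt (by omega)) hk H (A.fr H (frg_sp A.C alt H)) h⟩

end

section
variable [Finite F] (A : Amb φ M G2 (RingEquiv.refl F) ε f 1 f₂) (h2 : (2 : F) ≠ 0)
  (hk : 5 ≤ Fintype.card β)
include A h2 hk

theorem Amb.dich_o : HasDich φ M f₂ := fun hL g hg =>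
  have := A.C.nonempty
  have hG := geoL_o A.C h2 (Or.inl hk)
  A.dich hG (fun L => roots_L A h2 hk L hG) (geoD_o A.C h2 hk) (Or.inl h2) hL hg

theorem Amb.lev_o : HasLev φ M 1 f₂ := fun x y H h =>
  ⟨_, A.lev_big (w2_o A.C.ses h2 hk) hk H (A.fr H (frg_o A.C h2 (by omega) (by omega) H)) h⟩

end

section
variable [Finite F] {Q : (ι → F) → F} (hQ : IsNondegenerateQuadraticForm Q)
  (hn : 5 ≤ Fintype.card ι) (hs : Sing Q φ)
include hQ hn hs

theorem amb_sp_om [Nonempty β] (hf₂ : IsSesq (RingEquiv.refl F) (-1) f₂) (alt : ∀ v, f₂ v v = 0)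
    (hadj : ∀ b, adj (RingEquiv.refl F) (QuadraticMap.polar Q) (φ b) =
      φ (adj (RingEquiv.refl F) f₂ b)) (hM : M ≤ omegaGL Q)
    (hH : ∀ x, gφ φ x ∈ omegaGL Q → gφ φ x ∈ M) :
    Amb φ M (Isom (RingEquiv.refl F) f₂) (RingEquiv.refl F) 1 (QuadraticMap.polar Q) (-1) f₂ := by
  have hf := isSesq_polar hQ
  refine amb_full hf hf₂ hadj (hM.trans (omega_le_O.trans (isom_of_Q hQ))) (cl_sp hf₂ alt)
    fun h hh => hH h (isom_le_of_tv (G := (omegaGL Q).comap (gφ φ)) hf₂ alt (fun w θ => ?_) hh)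
  have k : ∀ v, QuadraticMap.polar Q (φ (br f₂ w w) *ᵥ v) v = 0 := fun v => by
    by_cases hw : w = 0
    · simp [hw, br_zero_left, hf.zero_left]
    obtain ⟨y, hy⟩ := exists_f_one hf₂ hw
    have h1 : QuadraticMap.polar Q (φ (br f₂ w w) *ᵥ v) (φ (br f₂ y w) *ᵥ v) = 0 := by
      rw [QuadraticMap.polar, ← add_mulVec, ← map_add, ← br_add_left, br, br, br, hs, hs, hs]; simp
    rwa [← hf.adj_spec', hadj, adj_br hf₂, mulVec_mulVec, ← map_mul, smul_mul_assoc, br_mul_br hf₂,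
      hy, one_smul, map_smul, smul_mulVec, hf.smul_left, neg_one_mul, neg_eq_zero] at h1
  obtain ⟨g, hg, e⟩ := omega_of_alt hQ hn (N := θ • φ (br f₂ w w))
    (fun v => by rw [smul_mulVec, hQ.smul, br, hs, mul_zero])
    (fun v => by rw [smul_mulVec, hf.smul_left, k, mul_zero])
  obtain ⟨x, hx, e'⟩ := (cl_sp hf₂ alt).tv_sp alt w θ
  exact ⟨x, show gφ φ x ∈ omegaGL Q from mem_of_ms ⟨g, hg, by
    rw [coe_gφ, show (x : Matrix β β F) = _ from e', map_add, map_one, map_smul]; exact e⟩, e'⟩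

theorem Amb.hasGen_om (A : Amb φ M G2 (RingEquiv.refl F) 1 (QuadraticMap.polar Q) ε₂ f₂)
    (hM : M ≤ omegaGL Q) (h : 3 * Fintype.card β ≤ Fintype.card ι ∨
      3 ≤ Fintype.card β ∧ 2 * Fintype.card β ≤ Fintype.card ι) :
    HasGen φ M (omegaGL Q) (RingEquiv.refl F) (QuadraticMap.polar Q) f₂ :=
  fun x y H h1 h2 => gen_om hQ hn (hM.trans omega_le_O) (A.pd H) (hs _ _)
    (fun v => by rw [A.adj_eq]; exact hs _ _ _) h1 h2 (A.rank_hyp H h).1 (A.rank_hyp H h).2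

end

section
omit [Nonempty ι]
variable {a b : ℕ} {e : ι ≃ Fin a × Fin b} {P : GL ι F}

theorem card_of_tensor (e : ι ≃ Fin a × Fin b) : Fintype.card ι = a * b := by
  simpa using Fintype.card_congr e

theorem sing_R {Q : (ι → F) → F} (h : ∀ (x₁ : Fin a → F) (x₂ : Fin b → F),
    Q ((P : Matrix ι ι F) *ᵥ ((fun p : Fin a × Fin b => x₁ p.1 * x₂ p.2) ∘ e)) = 0) :
    Sing Q (φR e P) := fun z χ v => by
  obtain ⟨X, rfl⟩ := (frmV e P).surjective v
  rw [φR_apply, frm_mulVec, frmV_apply, ← h (fun i => ∑ j, χ j * X (i, j)) z]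
  congr 3
  ext p
  simp [mulVec, dotProduct, Fintype.sum_prod_type, Matrix.one_apply, vecMulVec_apply,
    Finset.mul_sum, mul_comm, mul_left_comm]

theorem sing_L {Q : (ι → F) → F} (h : ∀ (x₁ : Fin a → F) (x₂ : Fin b → F),
    Q ((P : Matrix ι ι F) *ᵥ ((fun p : Fin a × Fin b => x₁ p.1 * x₂ p.2) ∘ e)) = 0) :
    Sing Q (φL e P) := by
  rw [← φR_swap]
  refine sing_R fun x₁ x₂ => ?_
  rw [← h x₂ x₁]
  congr 2
  exact funext fun i => mul_comm _ _

variable {f₁ : (Fin a → F) → (Fin a → F) → F} {f₂ : (Fin b → F) → (Fin b → F) → F}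

/-- The unitary case, given the levels. -/
theorem isMaximalIn_su_tensor_of [Fintype F] {q n : ℕ} [Fact (Fintype.card F = q ^ 2)] (h1 : 2 ≤ a)
    (h12 : a < b) (hex : ¬ (a = 2 ∧ q = 2)) {e : Fin n ≃ Fin a × Fin b} {P : GL (Fin n) F}
    (hf₁ : IsUnitaryFormPow q f₁) (hf₂ : IsUnitaryFormPow q f₂)
    (hT : IsTensorFormStructure (fun x : F => x ^ q) (hermForm n F q) f₁ f₂ e P)
    (hL : ∀ M, Amb (φR e P) M (Isom (H10.sig F q) f₂ ⊓ specialLinear (Fin b) F) (H10.sig F q) 1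
      (hermForm n F q) 1 f₂ → (∀ g ∈ Isom (H10.sig F q) f₁ ⊓ specialLinear (Fin a) F,
        gφ (φL e P) g ∈ M) → HasLev (φR e P) M 1 f₂) :
    IsMaximalIn (GU n F q ⊓ specialLinear (Fin n) F)
      (tensorProductSubgroup a b e P ⊓ (GU n F q ⊓ specialLinear (Fin n) F)) := by
  refine isMaximalIn_inf (H10.not_SUG_le_tensor h1 (by omega) e P) fun M hH hM => ?_
  have hn : n = a * b := by simpa using card_of_tensor e
  have hn' : 2 * b ≤ n := hn ▸ Nat.mul_le_mul_right b h1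
  have : Nonempty (Fin n) := ⟨⟨0, by omega⟩⟩
  have : Nonempty (Fin b) := ⟨⟨0, by omega⟩⟩
  have B := amG_su (F := F) (q := q) (n := n) (by omega)
  have s1 := H10.isSesq_of_pow hf₁
  have s2 := H10.isSesq_of_pow hf₂
  have A := B.amb (adj_φR B.hf s1 s2 hT) hM (fun x hx => hH ⟨gφR_mem x, hx⟩)
    (cl_su s2 (by simp; omega)) fun h hh =>
      hH ⟨gφR_mem h, gφ_isom B.hf s2 (adj_φR B.hf s1 s2 hT) hh.1, gφ_mem_sl hh.2⟩
  have hG : ∀ g ∈ Isom (H10.sig F q) f₁ ⊓ specialLinear (Fin a) F, gφ (φL e P) g ∈ M := fun h hh =>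
    hH ⟨gφL_mem h, gφ_isom B.hf s1 (adj_φL B.hf s1 s2 hT) hh.1, gφ_mem_sl hh.2⟩
  have PR := pair_R e P (show 0 < b by omega)
  exact (A.c4_fin PR (pas_su (cl_su s1 (by simpa using h1)) (by simpa using hex)).simp hG
    (by simp; omega) (hL M A hG) (A.dich_su (by simp; omega) (by simp; omega))
    (B.hasGen A hM (Or.inr (by simp; omega))) fun g _ =>
      PR.not_cm (by simpa using Nat.not_dvd_of_pos_of_lt (by omega) h12) g).imp_left
    (le_tensor_R (by omega) (by omega))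

/-- Two symplectic factors in an orthogonal group. -/
theorem isMaximalIn_om_tensor_sp [Fintype F] {Q : (ι → F) → F} (hQ : IsNondegenerateQuadraticForm Q)
    (h1 : 0 < a) (h12 : a < b) (h5 : 5 ≤ b) (hex : ¬ (Fintype.card F = 2 ∧ a = 2))
    (hf₁ : IsSymplecticForm f₁) (hf₂ : IsSymplecticForm f₂)
    (hT : IsTensorFormStructure id (QuadraticMap.polar Q) f₁ f₂ e P)
    (hpure : ∀ (x₁ : Fin a → F) (x₂ : Fin b → F),
      Q ((P : Matrix ι ι F) *ᵥ ((fun p : Fin a × Fin b => x₁ p.1 * x₂ p.2) ∘ e)) = 0) :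
    IsMaximalIn (omegaGL Q) (tensorProductSubgroup a b e P ⊓ omegaGL Q) := by
  have h2 : 2 ≤ a := two_le_of_symplectic hf₁ h1
  have hn := card_of_tensor e
  have hn' : 2 * b ≤ Fintype.card ι := hn ▸ Nat.mul_le_mul_right b h2
  refine isMaximalIn_inf (by
    obtain ⟨Q, rfl, -⟩ := H11.exists_qf hQ
    exact H99.not_omega_le_tensor hQ (by omega) (by
      calc 4 ≤ 1 * (b - 1) := by omega
        _ ≤ _ := Nat.mul_le_mul_right _ (by omega)) e P) fun M hH hM => ?_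
  have : Nonempty ι := Fintype.card_pos_iff.1 (by omega)
  have : Nonempty (Fin a) := ⟨⟨0, by omega⟩⟩
  have : Nonempty (Fin b) := ⟨⟨0, by omega⟩⟩
  have s := isSesq_polar hQ
  have s1 := isSesq_of_symplectic hf₁
  have s2 := isSesq_of_symplectic hf₂
  have A := amb_sp_om hQ (by omega) (sing_R hpure) s2 hf₂.alternating (adj_φR s s1 s2 hT) hM
    fun x hx => hH ⟨gφR_mem x, hx⟩
  have A' := amb_sp_om hQ (by omega) (sing_L hpure) s1 hf₁.alternating (adj_φL s s1 s2 hT) hM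
    fun x hx => hH ⟨gφL_mem x, hx⟩
  have PR := pair_R e P (show 0 < b by omega)
  exact (A.c4_fin PR (pas_sp A'.C hf₁.alternating (by simpa [and_comm] using hex)).simp A'.sub
    (by simp; omega) (A.lev_sp hf₂.alternating (by simpa using h5))
    (A.dich_sp hf₂.alternating (by simp; omega) (by simp; omega))
    (A.hasGen_om hQ (by omega) (sing_R hpure) hM (Or.inr (by simp; omega))) fun g _ =>
      PR.not_cm (by simpa using Nat.not_dvd_of_pos_of_lt (by omega) h12) g).imp_left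
    (le_tensor_R (by omega) (by omega))

theorem h4_of_minus (hf : IsSesq (RingEquiv.refl F) 1 f₁)
    (h : a = 4 → ¬ IsPlusTypeOn (fun v => f₁ v v) ⊤) (h2 : (2 : F) ≠ 0) [Finite F]
    (h4 : Fintype.card (Fin a) = 4) (x y : Fin a → F) (H : HP f₁ x y) (z : Fin a → F)
    (h1 : f₁ z x = 0) (h3 : f₁ z y = 0) (hz : f₁ z z = 0) : z = 0 := by
  by_contra h0
  refine h (by simpa using h4) ⟨Submodule.span F (Set.range ![x, z]), le_top, fun w hw => ?_, ?_⟩
  · rw [Matrix.range_cons, Matrix.range_cons, Matrix.range_empty, Set.union_empty,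
      Set.singleton_union, Submodule.mem_span_pair] at hw
    obtain ⟨s, t, rfl⟩ := hw
    simp [hf.add_left, hf.add_right, hf.smul_left, hf.smul_right, H.xx, h1, hz,
      hf.eq_zero_comm.1 h1]
  · rw [finrank_span_eq_card (LinearIndependent.pair_iff.2 fun s t hst => ?_)]
    · simpa using h4.symm
    have := congrArg (fun w => f₁ w y) hst
    simp only [hf.add_left, hf.smul_left, H.xy, h3, hf.zero_left, mul_one, mul_zero,
      add_zero] at this
    rw [this, zero_smul, zero_add] at hst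
    exact ⟨this, (smul_eq_zero.1 hst).resolve_right h0⟩

/-- Two orthogonal factors, the second one of dimension at least five. -/
theorem isMaximalIn_om_tensor_o [Fintype F] {Q : (ι → F) → F} (hQ : IsNondegenerateQuadraticForm Q)
    (h2 : (2 : F) ≠ 0) (h3 : 3 ≤ a) (h5 : 5 ≤ b) (hd : ¬ b ∣ a)
    (hex : ¬ (Fintype.card F = 3 ∧ a = 3)) (hf₁ : IsSymmetricForm f₁) (hf₂ : IsSymmetricForm f₂)
    (h4 : a = 4 → ¬ IsPlusTypeOn (fun v => f₁ v v) ⊤)
    (hT : IsTensorFormStructure id (QuadraticMap.polar Q) f₁ f₂ e P) :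
    IsMaximalIn (omegaGL Q) (tensorProductSubgroup a b e P ⊓ omegaGL Q) := by
  have hn := card_of_tensor e
  have hn' : 3 * b ≤ Fintype.card ι := hn ▸ Nat.mul_le_mul_right b h3
  refine isMaximalIn_inf (by
    obtain ⟨Q, rfl, h⟩ := H11.exists_qf hQ
    exact h.not_le_tensor h2 h3 (by omega) hf₁ hf₂ hT) fun M hH hM => ?_
  have : Nonempty ι := Fintype.card_pos_iff.1 (by omega)
  have : Nonempty (Fin b) := ⟨⟨0, by omega⟩⟩
  have B := amG_om hQ h2 (by omega)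
  have s1 := isSesq_of_symmetric hf₁
  have s2 := isSesq_of_symmetric hf₂
  have hR : ∀ x, gφ (φR e P) x ∈ omegaGL Q → gφ (φR e P) x ∈ M := fun x hx => hH ⟨gφR_mem x, hx⟩
  have A := B.amb (adj_φR B.hf s1 s2 hT) hM hR
    (B.cl_o s2 h2 (by simp; omega) (adj_φR B.hf s1 s2 hT) hR) fun h hh => hh.2
  have PR := pair_R e P (show 0 < b by omega)
  exact (A.c4_fin PR (simp_o (B.cl_o s1 h2 (by simpa using h3) (adj_φL B.hf s1 s2 hT)
    fun x hx => hH ⟨gφL_mem x, hx⟩) h2 (by simpa [and_comm] using hex) (h4_of_minus s1 h4 h2))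
    (fun h hh => hh.2) (by simp; omega) (A.lev_o h2 (by simpa using h5))
    (A.dich_o h2 (by simpa using h5)) (B.hasGen A hM (Or.inl (by simpa using hn'))) fun g _ =>
      PR.not_cm (by simpa using hd) g).imp_left (le_tensor_R (by omega) (by omega))

end

end Cfsg.Agent.H9
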