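import Cfsg.Agent.H9.TFac

/-! A unitary active factor of dimension three. Sketch: notes/TENS.md, section TSU3. -/

set_option autoImplicit false
set_option linter.unusedSectionVars false
set_option linter.unusedVariables false
set_option linter.unusedSimpArgs false

namespace Cfsg.Agent.H9

open scoped MatrixGroups Matrix
open Matrix Cfsg.Geo Cfsg.Agent.H98

universe u

variable {ι α β τ : Type} [Fintype ι] [DecidableEq ι] [Fintype α] [DecidableEq α] [Fintype β]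
  [DecidableEq β] [Fintype τ] [DecidableEq τ] {F : Type u} [Field F]

variable [Fintype F] {q : ℕ} [Fact (Fintype.card F = q ^ 2)] [Nonempty ι] {M : Subgroup (GL ι F)}
  {f : (ι → F) → (ι → F) → F} {f₂ : (β → F) → (β → F) → F}

namespace SU3

theorem sand {G : Subgroup (GL β F)} (C : Cl (H10.sig F q) 1 f₂ G) (hq : q ≠ 2) {u : β → F}
    (hu : f₂ u u = 0) : ∃ T ∈ Op G, ∀ b, T b = br f₂ u u * b * br f₂ u u := by
  obtain ⟨κ, hκ, hκ'⟩ := GeoSU.exists_kappa (F := F) (q := q)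
  obtain ⟨t, ht, ht0, ht1⟩ := H10.exists_fixed_ne (F := F) hq
  rw [← H10.sig_apply] at ht
  exact PasA.op_sand (by rw [br_mul_br C.ses, hu, zero_smul]) hκ (mul_ne_zero ht0 hκ)
    (fun h => ht1 (mul_right_cancel₀ hκ (by rw [one_mul]; exact h.symm)))
    (PasA.tv_mem C hu (by rw [hκ']; ring)) (PasA.tv_mem C hu (by rw [map_mul, ht, hκ']; ring))

theorem pt {G : Subgroup (GL β F)} (C : Cl (H10.sig F q) 1 f₂ G) {s : Matrix β β F} (hs : ¬ Sc s) :
    ∃ u, f₂ u u = 0 ∧ u ≠ 0 ∧ f₂ (s *ᵥ u) u ≠ 0 := by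
  obtain ⟨κ, hκ, hκ'⟩ := GeoSU.exists_kappa (F := F) (q := q)
  obtain ⟨ω, hω⟩ := H10.exists_cj_ne (F := F) (q := q)
  by_contra! hc
  refine hs (PasA.su_scalar C hκ hκ' hω fun z hz => ?_)
  by_cases h0 : z = 0
  · rw [h0, C.ses.zero_right]
  · exact hc z hz h0

theorem exists_ns (hf : IsSesq (H10.sig F q) 1 f₂) (hk : 3 ≤ Fintype.card β) {x y : β → F}
    (H : HP f₂ x y) : ∃ v, f₂ v x = 0 ∧ f₂ v y = 0 ∧ f₂ v v ≠ 0 := by
  obtain ⟨v, w, h1, h2, h3, h4, e⟩ := exists_pair_perp hf hk H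
  rw [hf.eq_zero_comm] at h1 h2
  obtain ⟨a, ha⟩ := H10.exists_trace_eq (F := F) (q := q) (t := 1) (by simp)
  by_contra! hc
  have := hc (v + a • w) (by simp [hf.add_left, hf.smul_left, h1, h3])
    (by simp [hf.add_left, hf.smul_left, h2, h4])
  rw [hf.add_left, hf.add_right, hf.add_right, hf.smul_left, hf.smul_left, hf.smul_right,
    hf.smul_right, hc v h1 h2, hc w h3 h4, hf.herm v w, e, H10.sig_apply, H10.sig_apply] at this
  simp only [map_one] at this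
  exact one_ne_zero (α := F) (by linear_combination this - ha)

theorem jj_all {φ : Matrix β β F →ₐ[F] Matrix ι ι F}
    (A : Amb φ M (Isom (H10.sig F q) f₂ ⊓ specialLinear β F) (H10.sig F q) 1 f 1 f₂)
    (hk : 3 ≤ Fintype.card β) {x z : β → F} (hx : IsoPt f₂ x) (hz : IsoPt f₂ z) {j : Matrix ι ι F}
    (h : JJ φ M f₂ x j) {a : F} (ha : H10.sig F q a = a) : JJ φ M f₂ z (a • j) := by
  have hf := A.C.ses
  obtain ⟨b, hb, h1⟩ := A.jj_trans hx hz h
  have hb' := mul_ne_zero hb ((map_ne_zero (H10.sig F q)).2 hb)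
  by_cases h0 : a = 0
  · rw [h0, zero_smul]; exact A.jj_zero
  obtain ⟨y, H⟩ := A.C.partner hz.1 hz.2
  obtain ⟨v, h2, h3, h4⟩ := exists_ns hf hk H
  obtain ⟨l, hl⟩ := H10.exists_norm_eq (F := F) (q := q) (t := a / (b * H10.sig F q b)) (by
    rw [← H10.sig_apply, map_div₀, map_mul, ha, hf.invol, mul_comm])
  obtain ⟨g, hg, e, -⟩ := GeoSU.exists_tor3 hf H h2 h3 h4 (l := l) (by
    rintro rfl; exact div_ne_zero h0 hb' (by simpa using hl.symm))
  have := A.jj_move hg e h1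
  rwa [H10.sig_apply (q := q) l, hl, smul_smul, div_mul_cancel₀ _ hb'] at this

end SU3

theorem lev_su3 {φ : Matrix β β F →ₐ[F] Matrix ι ι F}
    (A : Amb φ M (Isom (H10.sig F q) f₂ ⊓ specialLinear β F) (H10.sig F q) 1 f 1 f₂)
    (hk : Fintype.card β = 3) (hq : q ≠ 2) (hN : NilD φ M (H10.sig F q) f) {x y : β → F}
    (H : HP f₂ x y) (h : ¬ Loc φ M x) :
    ∃ c ∈ Lev M (φ (br f₂ x y)) (φ (pr f₂ 1 x y)) φ true, ¬ Sc c := by
  have hf := A.C.ses
  obtain ⟨κ, hκ, hκ'⟩ := GeoSU.exists_kappa (F := F) (q := q)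
  obtain ⟨ω, hω⟩ := H10.exists_cj_ne (F := F) (q := q)
  rw [← H10.sig_apply] at hω
  have R := A.fr H (frg_su hf (fun h => hq h.2) H)
  have hx : IsoPt f₂ x := ⟨H.ne hf, H.xx⟩
  obtain ⟨j, hj, hn⟩ := A.jj_unitary hk.ge hω H R h
  let D : Submodule F (Matrix ι ι F) :=
    { carrier := {c | Cm φ c ∧ ∀ a : F, JJ φ M f₂ x (a • c - adj (H10.sig F q) f (a • c))}
      add_mem' := fun h h' => ⟨h.1.add h'.1, fun a => by
        convert A.jj_add H.xx (h.2 a) (h'.2 a) using 1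
        rw [smul_add, A.hf.adj_add]; abel⟩
      zero_mem' := ⟨Cm.zero, fun a => by simpa [A.hf.adj_zero] using A.jj_zero⟩
      smul_mem' := fun b c h => ⟨h.1.smul b, fun a => by rw [smul_smul]; exact h.2 _⟩ }
  obtain ⟨w, hw, h0, h1, h2, h3⟩ := hN D (fun z hz => hz.1) (fun g hg hc z hz =>
    ⟨hz.1.cj (mem_KB_of_cm hc), fun a => by
      have := A.jj_cj hg (φ' := φ) (x' := x) (c := 1) (by rw [cj_eq_iff, one_smul, hc]) (hz.2 a)
        ((hz.2 a).1.cj (mem_KB_of_cm hc))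
      rwa [one_smul, map_sub, ← adj_cj A.hf (A.iso hg), map_smul] at this⟩) j ⟨hj.1, fun a => by
    convert SU3.jj_all A hk.ge hx hx hj (a := a + H10.sig F q a) (by
      rw [map_add, hf.invol, add_comm]) using 1
    rw [A.hf.adj_smul, A.jj_adj H.xx hx.1 hj]; module⟩ hn
  obtain ⟨γ, hγ, h4, h5⟩ : ∃ γ, JJ φ M f₂ x γ ∧ γ ≠ 0 ∧ γ * γ = 0 := by
    have h4 : adj (H10.sig F q) f w * adj (H10.sig F q) f w = 0 := by
      rw [← A.hf.adj_mul, h1, A.hf.adj_zero]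
    by_contra! hc
    have k : ∀ a : F, a • w - adj (H10.sig F q) f (a • w) = 0 := fun a => by
      by_contra h5
      exact hc _ (hw.2 a) h5 (by simp [A.hf.adj_smul, mul_sub, sub_mul, h1, h2, h3, h4])
    have k1 := k 1
    have k2 := k ω
    rw [one_smul, sub_eq_zero] at k1
    rw [A.hf.adj_smul, ← k1, ← sub_smul, smul_eq_zero] at k2
    exact k2.elim (fun h => hω (sub_eq_zero.1 h).symm) h0
  have P := A.pd H
  obtain ⟨a, ha⟩ : ∃ a, a = φ (br f₂ x y) := ⟨_, rfl⟩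
  obtain ⟨δ, hδ⟩ : ∃ δ, δ = κ • γ := ⟨_, rfl⟩
  have hc : Cm φ δ := hδ ▸ hγ.1.smul κ
  have h6 : δ * δ = 0 := by simp [hδ, h5]
  have h7 : 1 + δ * (a - adj (H10.sig F q) f a) ∈ matrixSet M := by
    have e1 := (SU3.jj_all A hk.ge hx ⟨H.ne' hf, H.yy⟩ hγ (a := -(κ * κ)) (by simp [hκ'])).2
    have e2 := (SU3.jj_all A hk.ge hx (z := x + κ • y) ⟨fun h => by
      simpa [hf.add_left, hf.smul_left, H.xy, H.yy, hf.zero_left] using congrArg (f₂ · y) h, by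
        simp [hf.add_left, hf.smul_left, hf.add_right, hf.smul_right, H.xy, H.yy, H.xx, H.yx hf, hκ']⟩
      hγ (a := -1) (by simp)).2
    convert ms_mul (ms_mul hγ.2 e1) e2 using 1
    have k : ∀ b z, γ * (φ b * (γ * z)) = 0 := fun b z => by rw [hγ.1.left, ← mul_assoc, h5, zero_mul]
    simp only [ha, hδ, A.adj_br, br_add_left, br_add_right hf, br_smul_left, br_smul_right hf, hκ',
      map_add, map_smul, mul_add, add_mul, mul_sub, smul_mul_assoc, mul_smul_comm, mul_assoc, k,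
      one_mul, mul_one, smul_zero, add_zero]
    module
  obtain ⟨l, hl, e⟩ := mem_matrixSet.1 h7
  have h8 : a * δ = δ * a := ha ▸ hc _
  have h9 : adj (H10.sig F q) f a * δ = δ * adj (H10.sig F q) f a := by rw [ha, A.adjφ, hc]
  have h10 : (l⁻¹ : GL ι F) = 1 - δ * (a - adj (H10.sig F q) f a) :=
    Units.inv_eq_of_mul_eq_one_right (e ▸ PasA.one_add_mul_one_sub (by
      rw [mul_assoc, ← mul_assoc _ δ, sub_mul, h8, h9, ← mul_sub, ← mul_assoc, ← mul_assoc, h6]; simp))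
  refine ⟨1 - δ, mem_Lev_left (fun c ρ => R.smul_mem (H.ad hf) c) (Cm.one.sub hc) ?_, fun hs => ?_⟩
  · rw [← ha] at P
    change _ ∈ LM M (φ (br f₂ x y)) _
    rw [A.hp, ← ha]
    refine mem_LM_of hl (u' := 1 + δ) (by simp [mul_sub, sub_mul, h8]) (by simp [mul_add, add_mul, h8])
      P.aa (P.EE A.hf) (P.Ea A.hf) (by simp [mul_sub, sub_mul, mul_add, add_mul, h9]; abel) ?_ ?_
    · simp [e, add_mul, mul_assoc, mul_sub, sub_mul, P.ab, P.bb A.hf]; abel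
    · simp [h10, mul_assoc, sub_mul, P.aa, P.ba]
  · exact smul_ne_zero hκ h4 (hδ ▸ Sc.eq_zero (by simpa using Sc.one.sub hs) h6)

theorem nilD_pair {φ : Matrix β β F →ₐ[F] Matrix ι ι F} {ψ : Matrix α α F →ₐ[F] Matrix ι ι F}
    (P : Pair φ ψ) {f₁ : (α → F) → (α → F) → F} {G1 : Subgroup (GL α F)}
    (C : Cl (H10.sig F q) 1 f₁ G1)
    (hadj : ∀ b, adj (H10.sig F q) f (ψ b) = ψ (adj (H10.sig F q) f₁ b)) (hq : q ≠ 2)
    (hG : ∀ h ∈ G1, gφ ψ h ∈ M) : NilD φ M (H10.sig F q) f := by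
  intro D hD hI c hc hn
  obtain ⟨s, rfl⟩ := P.rg c (hD c hc)
  obtain ⟨u, hu, h0, hs⟩ := SU3.pt C (s := s) fun h => hn h.phi
  obtain ⟨T, hT, e⟩ := SU3.sand C hq hu
  have := tens_pure hT (φ := ψ) (fun g hg => hI _ (hG g hg) (P.cm g)) Cm.one (a := s)
    (by rwa [one_mul])
  rw [one_mul, e, PasA.sand_br C.ses] at this
  refine ⟨_, this, fun h => smul_ne_zero hs (br_ne_zero C.ses h0 h0)
    (phi_injective (h.trans (map_zero ψ).symm)), ?_, ?_, ?_⟩ <;>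
  simp only [hadj, ← map_mul, C.ses.adj_smul, adj_br C.ses, smul_mul_assoc, mul_smul_comm,
    br_mul_br C.ses, hu, zero_smul, smul_zero, map_zero]

theorem nilD_sys {φ : τ → Matrix β β F →ₐ[F] Matrix ι ι F} (S : Sys φ) {G2 : Subgroup (GL β F)}
    (A : ∀ j, Amb (φ j) M G2 (H10.sig F q) 1 f 1 f₂) (hq : q ≠ 2) (i : τ) :
    NilD (φ i) M (H10.sig F q) f := by
  intro D hD hI c hc hn
  obtain ⟨j, hj⟩ : ∃ j, ¬ Cm (φ j) c := not_forall.1 fun h => hn (S.sc h)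
  have hij : i ≠ j := fun h => hj (h ▸ hD c hc)
  obtain ⟨ℓ, hℓ⟩ : ∃ ℓ, ¬ Sc (cp (φ j) ℓ c) := not_forall.1 fun h => hj (cm_of_cp h)
  have hf := (A j).C.ses
  obtain ⟨u, hu, h0, hs⟩ := SU3.pt (A j).C hℓ
  obtain ⟨T, hT, e⟩ := SU3.sand (A j).C hq hu
  obtain ⟨w, hw, e'⟩ := exists_tens hT (φ := φ j)
    (fun g hg => hI _ ((A j).sub g hg) (S.cm i j hij g)) hc
  have h1 : w = φ j (br f₂ u u) * c * φ j (br f₂ u u) := ext_cp (φ := φ j) fun ℓ => by
    rw [e', e, cp_mul_phi, cp_phi_mul]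
  have h2 : ∀ z, φ j (br f₂ u u) * (φ j (br f₂ u u) * z) = 0 := fun z => by
    rw [← mul_assoc, ← map_mul, br_mul_br hf, hu]; simp
  refine ⟨w, hw, fun h => smul_ne_zero hs (br_ne_zero hf h0 h0) (by
    rw [← PasA.sand_br hf, ← e, ← e', h, map_zero]), ?_, ?_, ?_⟩ <;>
  simp only [h1, (A j).hf.adj_mul, (A j).adj_br, one_smul, mul_assoc, h2, mul_zero]

end Cfsg.Agent.H9
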