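import Cfsg.Agent.H9.TFac
import Cfsg.Agent.H89.Sp2b

/-! A symplectic active factor of dimension two. Sketch: notes/TENS.md, section TSp2. -/

set_option autoImplicit false
set_option linter.unusedSectionVars false
set_option linter.unusedVariables false
set_option linter.unusedSimpArgs false

namespace Cfsg.Agent.H9

open scoped MatrixGroups Matrix
open Matrix Cfsg.Geo Cfsg.Agent.H98

universe u

variable {ι α β τ : Type} [Fintype ι] [DecidableEq ι] [Fintype α] [DecidableEq α] [Fintype β]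
  [DecidableEq β] [Fintype τ] [DecidableEq τ] {F : Type u} [Field F]

variable [Finite F] [Nonempty ι] {M : Subgroup (GL ι F)} {ε : F} {f : (ι → F) → (ι → F) → F}
  {f₂ : (β → F) → (β → F) → F}

theorem full_sp2 {φ : τ → Matrix β β F →ₐ[F] Matrix ι ι F} (S : Sys φ) (hA : Alt φ M)
    (A : ∀ j, Amb (φ j) M (Isom (RingEquiv.refl F) f₂) (RingEquiv.refl F) ε f (-1) f₂)
    (alt : ∀ v, f₂ v v = 0) (h2 : (2 : F) ≠ 0) (hk : Fintype.card β = 2) {i : τ} {x y : β → F}
    (H : HP f₂ x y) (h : ¬ Loc (φ i) M x) :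
    FullQ (RingEquiv.refl F) f M (φ i (br f₂ x y)) ∧
      FullQ (RingEquiv.refl F) f M (adj (RingEquiv.refl F) f (φ i (br f₂ x y))) := by
  obtain ⟨j, hj, hn⟩ := H89.Sp2.JS.nonsc (A i) alt h2 hk H h
  have out : ∀ {z}, Cm (φ i) z → ∀ l ∉ Finset.univ.erase i, Cm (φ l) z := fun hz l hl => by
    rwa [show l = i by simpa using hl]
  obtain ⟨p, l, h1, h3, h4, h5⟩ := H89.Sp2.exists_two S A alt h2 hk H i (Finset.univ.erase i)
    (by simp) j hj (out (H89.Sp2.JS.cm hj)) hn
  refine H89.Sp2.JS.full (A := A i) (alt := alt) (h2 := h2) hk H fun c hc =>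
    (H89.Sp2.all_J S A alt h2 hk H i (fun c d hcd hc hd =>
      H89.Sp2.all_two S A alt h2 i hA (H.ne (A i).C.ses) h1 h3 h4 h5 hcd hc hd)
      (Finset.univ.erase i) (by simp)).1 _ (out (hc.add ((A i).cm_adj hc))) ?_
  rw [(A i).hf.adj_add, (A i).hf.adj_adj, add_comm]

theorem full_sp2_pair {φ : Matrix β β F →ₐ[F] Matrix ι ι F} {ψ : Matrix α α F →ₐ[F] Matrix ι ι F}
    (A : Amb φ M (Isom (RingEquiv.refl F) f₂) (RingEquiv.refl F) ε f (-1) f₂)
    (alt : ∀ v, f₂ v v = 0) (h2 : (2 : F) ≠ 0) (hk : Fintype.card β = 2) (P : Pair φ ψ)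
    {f₁ : (α → F) → (α → F) → F} {G1 : Subgroup (GL α F)} (C : Cl (RingEquiv.refl F) 1 f₁ G1)
    (hadj : ∀ b, adj (RingEquiv.refl F) f (ψ b) = ψ (adj (RingEquiv.refl F) f₁ b))
    (hex : ¬ (Fintype.card α = 3 ∧ Nat.card F = 3)) (hG : ∀ h ∈ G1, gφ ψ h ∈ M) {x y : β → F}
    (H : HP f₂ x y) (h : ¬ Loc φ M x) :
    FullQ (RingEquiv.refl F) f M (φ (br f₂ x y)) ∧
      FullQ (RingEquiv.refl F) f M (adj (RingEquiv.refl F) f (φ (br f₂ x y))) := by
  have hf := C.ses
  let J : Submodule F (Matrix α α F) := (H89.Sp2.JS A alt h2).comap ψ.toLinearMap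
  have mem : ∀ b, b ∈ J ↔ ψ b ∈ H89.Sp2.JS A alt h2 := fun b => Iff.rfl
  have inv : InvS G1 J := fun g hg z hz => (mem _).2 (by
    rw [← cj_gφ]; exact H89.Sp2.JS.cj (hG g hg) (P.cm _) hz)
  have uu : ∀ γ ∈ J, ∀ j ∈ J, γ * γ = 0 → γ * j + j * γ ∈ J := fun γ hγ j hj e => (mem _).2 (by
    rw [map_add, map_mul, map_mul]
    exact H89.Sp2.JS.uu ((mem _).1 hγ) (by rw [← map_mul, e, map_zero]) ((mem _).1 hj))
  obtain ⟨j, hj, hn⟩ := H89.Sp2.JS.nonsc A alt h2 hk H h
  obtain ⟨s, rfl⟩ := P.rg j (H89.Sp2.JS.cm hj)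
  have hs : adj (RingEquiv.refl F) f₁ s = s :=
    phi_injective (φ := ψ) (by rw [← hadj]; exact H89.Sp2.JS.adj hj)
  obtain ⟨z, hz, hz'⟩ : ∃ z, f₁ z z = 0 ∧ f₁ (s *ᵥ z) z ≠ 0 := by
    by_contra hc
    push Not at hc
    obtain ⟨c, e⟩ := PasO.adj_eq C h2 hex hc
    rw [hs, eq_sub_iff_add_eq, ← two_smul F] at e
    exact hn (Sc.phi (Sc.of_smul h2 ⟨c, e⟩))
  have z0 : z ≠ 0 := by rintro rfl; exact hz' (hf.zero_right _)
  have k0 : br f₁ z z ∈ J := by
    obtain ⟨T, hT, e⟩ := PasO.opE1 C h2 hex hz z0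
    have := Op.mem hT inv (z := s) hj
    rwa [e, J.smul_mem_iff hz'] at this
  have k1 : ∀ u, f₁ u u = 0 → br f₁ u u ∈ J := fun u hu => by
    by_cases h0 : u = 0
    · rw [h0, br_zero_left]; exact J.zero_mem
    obtain ⟨g, hg, a, ha, e⟩ := C.trans hz hu z0 h0
    have := inv g hg _ k0
    rwa [cj_br hf (C.le hg), e, br_smul_left, br_smul_right hf, SetLike.mem_coe, J.smul_mem_iff ha,
      J.smul_mem_iff (by simpa using ha)] at this
  have sq : ∀ u, f₁ u u = 0 → br f₁ u u * br f₁ u u = 0 := fun u hu => by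
    rw [br_mul_br hf, hu, zero_smul]
  have k2 : ∀ u v, f₁ u u = 0 → f₁ v v = 0 → f₁ u v ≠ 0 → br f₁ u v + br f₁ v u ∈ J :=
    fun u v hu hv huv => by
      have := uu _ (k1 u hu) _ (k1 v hv) (sq u hu)
      rwa [br_mul_br hf, br_mul_br hf, PasO.sym hf v u, ← smul_add, J.smul_mem_iff huv] at this
  have k3 : ∀ u v, f₁ u u = 0 → f₁ v v = 0 → br f₁ u v + br f₁ v u ∈ J := fun u v hu hv => by
    by_cases h0 : u = 0
    · rw [h0, br_zero_left, br_zero_right hf, add_zero]; exact J.zero_mem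
    by_cases h0' : v = 0
    · rw [h0', br_zero_left, br_zero_right hf, add_zero]; exact J.zero_mem
    obtain ⟨w, hw, h1, h3⟩ := C.two hu hv h0 h0'
    have := sub_mem (uu _ (k1 u hu) _ (k2 w v hw hv h3) (sq u hu))
      (J.smul_mem (f₁ u v) (k2 w u hw hu h1))
    rw [← J.smul_mem_iff h1]
    convert this using 1
    simp only [mul_add, add_mul, br_mul_br hf, PasO.sym hf u w, PasO.sym hf v u]
    module
  have k4 : ∀ u v, f₁ v v = 0 → br f₁ u v + br f₁ v u ∈ J := fun u v hv => by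
    induction C.span_iso u using Submodule.span_induction with
    | mem w hw => exact k3 w v hw hv
    | zero => rw [br_zero_left, br_zero_right hf, add_zero]; exact J.zero_mem
    | add a b _ _ ha hb =>
      rw [br_add_left, br_add_right hf, add_add_add_comm]; exact J.add_mem ha hb
    | smul c a _ ha =>
      rw [br_smul_left, br_smul_right hf, RingEquiv.refl_apply, ← smul_add]; exact J.smul_mem c ha
  have k5 : ∀ u v, br f₁ u v + br f₁ v u ∈ J := fun u v => by
    induction C.span_iso v using Submodule.span_induction with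
    | mem w hw => exact k4 u w hw
    | zero => rw [br_zero_left, br_zero_right hf, add_zero]; exact J.zero_mem
    | add a b _ _ ha hb =>
      rw [br_add_left, br_add_right hf, add_add_add_comm]; exact J.add_mem ha hb
    | smul c a _ ha =>
      rw [br_smul_left, br_smul_right hf, RingEquiv.refl_apply, ← smul_add]; exact J.smul_mem c ha
  let D : AddSubgroup (Matrix α α F) :=
    { carrier := {b | b + adj (RingEquiv.refl F) f₁ b ∈ J}
      add_mem' := fun h h' => by
        rw [Set.mem_ofPred_eq, hf.adj_add, add_add_add_comm]; exact J.add_mem h h'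
      zero_mem' := by rw [Set.mem_ofPred_eq, hf.adj_zero, add_zero]; exact J.zero_mem
      neg_mem' := fun h => by rw [Set.mem_ofPred_eq, hf.adj_neg, ← neg_add]; exact J.neg_mem h }
  refine H89.Sp2.JS.full (A := A) (alt := alt) (h2 := h2) hk H fun c hc => ?_
  obtain ⟨b, rfl⟩ := P.rg c hc
  have := (mem _).1 (mem_of_br hf (D := D) (fun u v => by
    show _ + _ ∈ J
    rw [adj_br hf, one_smul]; exact k5 u v) b)
  rwa [map_add, ← hadj] at this

end Cfsg.Agent.H9
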