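import Cfsg.Agent.H9.TFac

/-! A symplectic active factor of dimension four. Sketch: notes/TENS.md, section TSp4. -/

set_option autoImplicit false
set_option linter.unusedSectionVars false
set_option linter.unusedVariables false
set_option linter.unusedSimpArgs false

namespace Cfsg.Agent.H9

open scoped MatrixGroups Matrix
open Matrix Cfsg.Geo Cfsg.Agent.H98

universe u

variable {ι α β τ : Type} [Fintype ι] [DecidableEq ι] [Fintype α] [DecidableEq α] [Fintype β]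
  [DecidableEq β] [Fintype τ] [DecidableEq τ] {F : Type u} [Field F]

variable [Finite F] [Nonempty ι] {M : Subgroup (GL ι F)} {ε : F} {f : (ι → F) → (ι → F) → F}
  {f₂ : (β → F) → (β → F) → F}

theorem lev_sp4 {φ : Matrix β β F →ₐ[F] Matrix ι ι F}
    (A : Amb φ M (Isom (RingEquiv.refl F) f₂) (RingEquiv.refl F) ε f (-1) f₂) (alt : ∀ v, f₂ v v = 0)
    (hk : 3 ≤ Fintype.card β) (hC : Cliff φ M (RingEquiv.refl F) f) {x y : β → F} (H : HP f₂ x y)
    (h : ¬ Loc φ M x) :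
    ∃ c ∈ Lev M (φ (br f₂ x y)) (φ (pr f₂ (-1) x y)) φ false, ¬ Sc c := by
  have R := A.fr H (frg_sp A.C alt H)
  by_cases hJ : ∃ j, JJ φ M f₂ x j ∧ ¬ Sc j
  · obtain ⟨j, h1, h2⟩ := hJ
    exact ⟨j, A.lev_of_jj' (w2_sp A.C.ses alt hk) H R h1, h2⟩
  obtain ⟨c, h1, h2⟩ := (A.nc' H R h).resolve_right hJ
  push Not at hJ
  let D : Submodule F (Matrix ι ι F) :=
    { carrier := {c | AA φ M f₂ (-1) x y c}
      add_mem' := fun h h' => ⟨h.1.add h'.1, fun v a b => by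
        rw [add_mul]; exact add_mem (h.2 v a b) (h'.2 v a b)⟩
      zero_mem' := ⟨Cm.zero, fun v _ _ => by rw [zero_mul]; exact zero_mem _⟩
      smul_mem' := fun a c h => ⟨h.1.smul a, fun v h1 h2 => by
        have := h.2 (a • v) (by rw [A.C.ses.smul_right, h1, mul_zero]) (by rw [A.C.ses.smul_right, h2, mul_zero])
        rwa [br_smul_right A.C.ses, map_smul, mul_smul_comm, ← smul_mul_assoc] at this⟩ }
  refine (h2 (hC D (fun z hz => hz.1) (A.aa_one H) (fun g hg hc z hz => ⟨hz.1.cj (mem_KB_of_cm hc), fun v a b => ?_⟩)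
    (fun c hc d hd => ?_) c h1)).elim
  · have e : ∀ b, H98.cj g (φ b) = φ b := fun b => by rw [cj_eq_iff, hc]
    have := Rho.cj hg (hz.2 v a b)
    rwa [map_mul, e, e, e] at this
  · simpa using hJ _ (A.jj_of_aa hk H hc hd 1)

omit [Finite F] [Nonempty ι] in
/-- The skew part of a matrix with scalar symmetrisation. -/
theorem TSp4.skew {f : (ι → F) → (ι → F) → F} (hf : IsSesq (RingEquiv.refl F) ε f) (h2 : (2 : F) ≠ 0)
    {D : Submodule F (Matrix ι ι F)} (h1 : 1 ∈ D) {c : Matrix ι ι F} (hc : c ∈ D) (hn : ¬ Sc c)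
    (h : Sc (adj (RingEquiv.refl F) f c + c)) :
    ∃ s ∈ D, s ≠ 0 ∧ adj (RingEquiv.refl F) f s = -s := by
  obtain ⟨t, ht⟩ := h
  refine ⟨c - (t / 2) • 1, D.sub_mem hc (D.smul_mem _ h1), fun h => hn ⟨t / 2, sub_eq_zero.1 h⟩, ?_⟩
  rw [hf.adj_sub, hf.adj_smul, hf.adj_one, eq_sub_of_add_eq ht, RingEquiv.refl_apply]
  conv_lhs => rw [show t = t / 2 + t / 2 by field_simp; ring]
  rw [show (t / 2 + t / 2) / 2 = t / 2 by field_simp; ring]
  module

theorem cliff_pair_o {φ : Matrix β β F →ₐ[F] Matrix ι ι F} {ψ : Matrix α α F →ₐ[F] Matrix ι ι F}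
    (P : Pair φ ψ) {f₁ : (α → F) → (α → F) → F} (h₁ : IsSesq (RingEquiv.refl F) 1 f₁)
    (hadj : ∀ b, adj (RingEquiv.refl F) f (ψ b) = ψ (adj (RingEquiv.refl F) f₁ b))
    (h2 : (2 : F) ≠ 0) (hk : 3 ≤ Fintype.card α)
    (hG : ∀ h ∈ Isom (RingEquiv.refl F) f₁, gφ ψ h ∈ M) : Cliff φ M (RingEquiv.refl F) f := by
  intro D hD h1 hI hS c hc
  by_contra hn
  obtain ⟨b, rfl⟩ := P.rg c (hD c hc)
  change ψ b ∈ D at hc
  change ¬ Sc (ψ b) at hn
  have hS' : ∀ c, ψ c ∈ D → ∀ d, ψ d ∈ D →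
      Sc (d * adj (RingEquiv.refl F) f₁ c + c * adj (RingEquiv.refl F) f₁ d) := fun c hc d hd =>
    sc_phi (φ := ψ) (by rw [map_add, map_mul, map_mul, ← hadj, ← hadj]; exact hS _ hc _ hd)
  have h1' : ψ 1 ∈ D := by rwa [map_one]
  obtain ⟨s, hs, s0, hs'⟩ := TSp4.skew h₁ h2 (D := D.comap ψ.toLinearMap) h1' (c := b) hc (fun h => hn h.phi)
    (by simpa [h₁.adj_one] using hS' b hc 1 h1')
  change ψ s ∈ D at hs
  have sym := PasO.sym h₁
  obtain ⟨z, hz, hw⟩ : ∃ z, f₁ z z ≠ 0 ∧ s *ᵥ z ≠ 0 := by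
    by_contra hh
    push Not at hh
    refine s0 (Matrix.ext_iff_mulVec.2 fun v => ?_)
    rw [zero_mulVec]
    by_cases hv : f₁ v v = 0
    swap; · exact hh v hv
    by_cases hv0 : v = 0
    · rw [hv0, mulVec_zero]
    obtain ⟨y, hy⟩ := exists_f_one h₁ hv0
    have k : ∀ a : F, f₁ (y + a • v) (y + a • v) = f₁ y y + 2 * a := fun a => by
      simp only [h₁.add_left, h₁.add_right, h₁.smul_left, h₁.smul_right, hv, hy, sym y v, RingEquiv.refl_apply]
      ring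
    have k1 := hh (y + ((1 - f₁ y y) / 2) • v) (by rw [k]; field_simp; simp)
    have k2 := hh (y + ((1 - f₁ y y) / 2 - 1) • v) (by
      rw [k, show f₁ y y + 2 * ((1 - f₁ y y) / 2 - 1) = -1 by field_simp; ring]; simp)
    rw [sub_smul, one_smul, ← add_sub_assoc, mulVec_sub, k1, zero_sub, neg_eq_zero] at k2
    exact k2
  have hwz : f₁ (s *ᵥ z) z = 0 := by
    have := h₁.adj_spec s z z
    rw [hs', neg_mulVec, h₁.neg_right, sym z] at this
    exact (mul_eq_zero.1 (show 2 * f₁ (s *ᵥ z) z = 0 by linear_combination this)).resolve_left h2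
  obtain ⟨g, hg, e⟩ := rfz_mem h₁ hz
  replace e : (g : Matrix α α F) = rfz f₁ z := e
  have e' : ((g⁻¹ : GL α F) : Matrix α α F) = rfz f₁ z := by
    rw [← (mem_Isom h₁).1 hg, e, adj_rfz h₁]
  have k1 := hI _ (hG g hg) (P.cm _) _ hs
  rw [cj_gφ] at k1
  have k2 : br f₁ (s *ᵥ z) z - br f₁ z (s *ᵥ z) = (-(f₁ z z / 2)) • (cj g s - s) := by
    have a1 : br f₁ z z * s = -br f₁ z (s *ᵥ z) := by rw [br_mul h₁, hs', neg_mulVec, br_neg_right h₁]
    rw [cj_apply, e, e', rfz]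
    simp only [sub_mul, mul_sub, one_mul, mul_one, smul_mul_assoc, mul_smul_comm, a1, mul_br, neg_mulVec,
      br_mulVec h₁, sym z (s *ᵥ z), hwz, zero_smul, neg_zero, br_zero_left, smul_zero]
    match_scalars <;> field_simp <;> ring
  have k3 : ψ (br f₁ (s *ᵥ z) z - br f₁ z (s *ᵥ z)) ∈ D := by
    rw [k2, map_smul, map_sub]; exact D.smul_mem _ (D.sub_mem k1 hs)
  generalize s *ᵥ z = w at hw hwz k3
  obtain ⟨a, ha⟩ := hS' _ k3 _ k3
  have hzw : f₁ z w = 0 := by rw [sym, hwz]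
  have k4 : (2 : F) • (f₁ z z • br f₁ w w + f₁ w w • br f₁ z z) = a • 1 := by
    rw [← ha]
    simp only [h₁.adj_sub, adj_br h₁, one_smul, mul_sub, sub_mul, br_mul_br h₁, hwz, hzw, zero_smul]
    module
  obtain ⟨v, v0, hv⟩ := exists_perp h₁ (m := 2) hk ![w, z]
  have k5 := congrArg (· *ᵥ v) k4
  have hv1 : f₁ v w = 0 := hv 0
  have hv2 : f₁ v z = 0 := hv 1
  simp only [smul_mulVec, add_mulVec, br_mulVec h₁, hv1, hv2, zero_smul, smul_zero, add_zero, one_mulVec] at k5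
  rw [(smul_eq_zero.1 k5.symm).resolve_right v0, zero_smul] at k4
  have k6 := (smul_eq_zero.1 k4).resolve_left h2
  have k7 := congrArg (fun m => f₁ (m *ᵥ z) z) k6
  simp only [smul_mulVec, add_mulVec, br_mulVec h₁, hzw, zero_smul, smul_zero, zero_add, h₁.smul_left,
    zero_mulVec, h₁.zero_left] at k7
  rw [(mul_eq_zero.1 k7).resolve_right (mul_ne_zero hz hz), zero_smul, add_zero] at k6
  exact br_ne_zero h₁ hw hw ((smul_eq_zero.1 k6).resolve_left hz)

theorem TSp4.adj_eq {φ : τ → Matrix β β F →ₐ[F] Matrix ι ι F} (S : Sys φ)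
    (A : ∀ j, Amb (φ j) M (Isom (RingEquiv.refl F) f₂) (RingEquiv.refl F) ε f (-1) f₂) (i : τ) (T : Finset τ)
    {z : Matrix ι ι F} (h1 : ∀ l ∉ T, Cm (φ l) z) (h2 : ∀ j ∈ T, ∀ u, φ j (br f₂ u u) * z * φ j (br f₂ u u) = 0) :
    adj (RingEquiv.refl F) f z = z := by
  have hf := (A i).hf
  have h₂ := (A i).C.ses
  induction T using Finset.induction_on generalizing z with
  | empty =>
    obtain ⟨a, rfl⟩ := S.sc fun l => h1 l (by simp)
    rw [hf.adj_smul, hf.adj_one, RingEquiv.refl_apply]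
  | insert j T hj ih =>
    have k1 : ∀ χ u, adj (RingEquiv.refl F) f (cf (φ j) χ z u) = cf (φ j) χ z u := fun χ u =>
      ih (fun l hl => by
        by_cases e : l = j
        · rw [e]; exact cf_cm _ _ _
        · exact (h1 l (by simp [e, hl])).cm_cf (S.cm l j e) _ _) fun l hl v => by
        have e : j ≠ l := fun e => hj (e ▸ hl)
        rw [← (S.cm j l e _).cf_mul, ← (S.cm j l e _).mul_cf, h2 l (Finset.mem_insert_of_mem hl)]
        exact map_zero (cfL (φ j) χ u)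
    have k2 : ∀ u, cf (φ j) (dl f₂ u) z u = 0 := fun u => by
      by_cases hu : u = 0
      · rw [hu, cf_zero_right]
      · refine (cf_cm _ _ _).eq_zero_of_mul (br_ne_zero h₂ hu hu) ?_
        rw [← h2 j (Finset.mem_insert_self _ _) u]
        exact (sandwich _ _ _ _ _).symm
    have k3 : ∀ u v, cf (φ j) (dl f₂ u) z v = -cf (φ j) (dl f₂ v) z u := fun u v => by
      have := k2 (u + v)
      rw [dl_add h₂, cf_add_left, cf_add_right, cf_add_right, k2, k2, zero_add, add_zero] at this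
      exact eq_neg_of_add_eq_zero_left this
    refine ext_cf (φ := φ j) fun χ u => ?_
    obtain ⟨v, rfl⟩ := exists_dl h₂ χ
    obtain ⟨a, a0, -⟩ := (A j).C.ex
    have e1 : φ j (br f₂ a v) * adj (RingEquiv.refl F) f z * φ j (br f₂ u a) =
        cf (φ j) (dl f₂ v) (adj (RingEquiv.refl F) f z) u * φ j (br f₂ a a) := sandwich _ _ _ _ _
    have e2 : φ j (br f₂ a u) * z * φ j (br f₂ v a) = cf (φ j) (dl f₂ u) z v * φ j (br f₂ a a) :=
      sandwich _ _ _ _ _
    have e3 := congrArg (adj (RingEquiv.refl F) f) e2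
    rw [hf.adj_mul, hf.adj_mul, hf.adj_mul, (A j).adj_br, (A j).adj_br, (A j).adj_br, k1, k3 u v] at e3
    simp only [neg_smul, one_smul, neg_mul, mul_neg, neg_neg] at e3
    rw [← mul_assoc, e1, cf_cm, ← sub_eq_zero, ← sub_mul] at e3
    exact sub_eq_zero.1 (((cf_cm _ _ _).sub (cf_cm _ _ _)).eq_zero_of_mul (br_ne_zero h₂ a0 a0) e3)

theorem cliff_sys_sp {φ : τ → Matrix β β F →ₐ[F] Matrix ι ι F} (S : Sys φ)
    (A : ∀ j, Amb (φ j) M (Isom (RingEquiv.refl F) f₂) (RingEquiv.refl F) ε f (-1) f₂)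
    (alt : ∀ v, f₂ v v = 0) (h2 : (2 : F) ≠ 0) (hk : 3 ≤ Fintype.card β) (i : τ) :
    Cliff (φ i) M (RingEquiv.refl F) f := by
  intro D hD h1 hI hS c hc
  by_contra hn
  have hf := (A i).hf
  have C := (A i).C
  have h₂ := C.ses
  obtain ⟨s, hs, s0, hs'⟩ := TSp4.skew hf h2 h1 hc hn (by simpa [hf.adj_one] using hS c hc 1 h1)
  let D0 : Submodule F (Matrix ι ι F) :=
    { carrier := {z | z ∈ D ∧ adj (RingEquiv.refl F) f z = -z}
      add_mem' := fun h h' => ⟨D.add_mem h.1 h'.1, by rw [hf.adj_add, h.2, h'.2, neg_add]⟩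
      zero_mem' := ⟨D.zero_mem, by rw [hf.adj_zero, neg_zero]⟩
      smul_mem' := fun a _ h => ⟨D.smul_mem a h.1, by rw [hf.adj_smul, h.2, smul_neg, RingEquiv.refl_apply]⟩ }
  have I0 : ∀ j, j ≠ i → ∀ g ∈ Isom (RingEquiv.refl F) f₂, ∀ z ∈ D0, cj (gφ (φ j) g) z ∈ D0 :=
    fun j hj g hg z hz => ⟨hI _ ((A j).sub g hg) (S.cm i j hj.symm _) z hz.1, by
      rw [adj_cj hf ((A j).iso ((A j).sub g hg)), hz.2, map_neg]⟩
  have S0 : ∀ c ∈ D0, ∀ d ∈ D0, Sc (c * d + d * c) := fun c hc d hd => by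
    have := (hS d hd.1 c hc.1).smul (-1)
    rwa [hc.2, hd.2, mul_neg, mul_neg, ← neg_add, neg_smul, one_smul, neg_neg] at this
  have nn : ∀ u, br f₂ u u * br f₂ u u = 0 := fun u => by rw [br_mul_br h₂, alt, zero_smul]
  have N0 : ∀ j, j ≠ i → ∀ u, ∀ z ∈ D0, φ j (br f₂ u u) * z * φ j (br f₂ u u) ∈ D0 := fun j hj u z hz => by
    obtain ⟨T, hT, e⟩ := PasA.op_sand (nn u) one_ne_zero (neg_ne_zero.2 one_ne_zero)
      (fun h => h2 (by linear_combination h)) (C.tv_sp alt u 1) (C.tv_sp alt u (-1))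
    obtain ⟨w, hw, e'⟩ := exists_tens hT (I0 j hj) hz
    rwa [ext_cp (φ := φ j) (z := w) (w := φ j (br f₂ u u) * z * φ j (br f₂ u u)) fun ℓ => by
      rw [e', e, cp_mul_phi, cp_phi_mul]] at hw
  have key : ∀ j, j ≠ i → ∀ γ, Cm (φ i) γ → Cm (φ j) γ → (∀ u, γ * φ j (br f₂ u u) ∈ D0) → γ = 0 := by
    intro j hj γ g1 g2 g3
    by_contra g0
    obtain ⟨u, u', H⟩ := C.exists_hp
    obtain ⟨v, w, -, -, a3, a4, e⟩ := exists_pair_perp h₂ hk H
    obtain ⟨γ', ⟨-, k2, k3⟩, k4⟩ := S.mul_ne (G := fun _ => Isom (RingEquiv.refl F) f₂)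
      (T := Finset.univ \ {i, j}) (fun _ _ => C.irr)
      (D := {γ | Cm (φ i) γ ∧ Cm (φ j) γ ∧ ∀ u, γ * φ j (br f₂ u u) ∈ D0})
      (fun z hz l hl => by
        simp only [Finset.mem_sdiff, Finset.mem_univ, true_and, not_not, Finset.mem_insert,
          Finset.mem_singleton] at hl
        rcases hl with rfl | rfl
        exacts [hz.1, hz.2.1])
      (fun l hl g hg z hz => by
        simp only [Finset.mem_sdiff, Finset.mem_univ, true_and, Finset.mem_insert, Finset.mem_singleton,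
          not_or] at hl
        refine ⟨hz.1.cj (mem_KB_of_cm (S.cm i l (Ne.symm hl.1) _)),
          hz.2.1.cj (mem_KB_of_cm (S.cm j l (Ne.symm hl.2) _)), fun u => ?_⟩
        rw [← (S.cm l j hl.2 (br f₂ u u)).cj_gφ g, ← map_mul]
        exact I0 l hl.1 g hg _ (hz.2.2 u)) ⟨g1, g2, g3⟩ g0 g0
    obtain ⟨a, ha⟩ := S0 _ (g3 u) _ (k3 u')
    rw [mul_assoc, k2.left, mul_assoc γ', g2.left, ← map_mul, ← map_mul, br_mul_br h₂, br_mul_br h₂, H.xy, H.yx h₂,
      ← mul_assoc, ← mul_assoc] at ha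
    have b1 := congrArg (fun z => cf (φ j) (dl f₂ v) z w) ha
    have b2 := congrArg (fun z => cf (φ j) (dl f₂ u') z u) ha
    simp only [cf_add, (g2.mul k2).cf_mul_phi, (k2.mul g2).cf_mul_phi, (Cm.one.smul a).cf_eq, smul_mulVec,
      br_mulVec h₂, a3, a4, zero_smul, smul_zero, dotProduct_zero, add_zero, dl_dot h₂, e, one_smul, H.xy, H.xx,
      dotProduct_smul, smul_eq_mul, mul_one, neg_smul, neg_mulVec, neg_zero, h₂.zero_left, h₂.neg_left] at b1 b2
    rw [← b1, neg_eq_zero] at b2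
    exact k4 b2
  have fin := TSp4.adj_eq S A i (Finset.univ.erase i) (z := s) (fun l hl => by
    obtain rfl : l = i := by simpa using hl
    exact hD s hs) fun j hj u => by
    have hj := Finset.ne_of_mem_erase hj
    by_cases hu : u = 0
    · rw [hu, br_zero_left, map_zero, mul_zero]
    have e : φ j (br f₂ u u) * s * φ j (br f₂ u u) = cf (φ j) (dl f₂ u) s u * φ j (br f₂ u u) := sandwich _ _ _ _ _
    have k := N0 j hj u s ⟨hs, hs'⟩
    rw [e] at k ⊢
    rw [key j hj _ ((hD s hs).cm_cf (S.cm i j hj.symm) _ _) (cf_cm _ _ _) fun u' => ?_, zero_mul]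
    by_cases hu' : u' = 0
    · rw [hu', br_zero_left, map_zero, mul_zero]; exact D0.zero_mem
    obtain ⟨g, hg, a, ha, e'⟩ := C.trans (alt u) (alt u') hu hu'
    have := D0.smul_mem (a * a)⁻¹ (I0 j hj g hg _ k)
    rwa [(cf_cm _ _ _).cj_gφ_mul, cj_br h₂ hg, e', br_smul_left, br_smul_right h₂, smul_smul, map_smul,
      mul_smul_comm, RingEquiv.refl_apply, inv_smul_smul₀ (mul_ne_zero ha ha)] at this
  rw [hs', neg_eq_iff_add_eq_zero, ← two_smul F s] at fin
  exact s0 ((smul_eq_zero.1 fin).resolve_left h2)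

end Cfsg.Agent.H9
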