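import Cfsg.Agent.H9.TC4
import Cfsg.Agent.H9.TSp4
import Cfsg.Agent.H9.TSp2
import Cfsg.Agent.H9.TSU3

/-! Tensor products of two factors in unitary and symplectic groups. -/

set_option autoImplicit false
set_option linter.unusedSectionVars false
set_option linter.unusedVariables false
set_option linter.unusedSimpArgs false

namespace Cfsg.Agent.H9

open scoped MatrixGroups Matrix
open Matrix Cfsg.Geo Cfsg.Agent.H98

universe u

variable {ι α β : Type} [Fintype ι] [DecidableEq ι] [Fintype α] [DecidableEq α] [Fintype β]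
  [DecidableEq β] {F : Type u} [Field F]

section
variable {φ : Matrix β β F →ₐ[F] Matrix ι ι F} {ψ : Matrix α α F →ₐ[F] Matrix ι ι F}
  {M K : Subgroup (GL ι F)} {σ : F ≃+* F} {ε ε₂ : F} {f : (ι → F) → (ι → F) → F}
  {f₁ : (α → F) → (α → F) → F} {f₂ : (β → F) → (β → F) → F} {G2 : Subgroup (GL β F)} [Nonempty ι]

theorem Cl.loc_or (C : Cl σ ε₂ f₂ G2) {p : Prop} (h : ∀ x y, HP f₂ x y → ¬ Loc φ M x → p) :
    (∀ x, x ≠ 0 → f₂ x x = 0 → Loc φ M x) ∨ p :=
  or_iff_not_imp_right.2 fun hp x h0 hx => by_contra fun hL =>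
    (C.partner h0 hx).elim fun y H => hp (h x y H hL)

theorem br_eq_zero_of_skew (h₁ : IsSesq (RingEquiv.refl F) 1 f₁) (h2 : (2 : F) ≠ 0) {u v : α → F}
    (h : adj (RingEquiv.refl F) f₁ (br f₁ u v) = -br f₁ u v) : br f₁ u v = 0 := by
  by_cases hu : u = 0
  · rw [hu, br_zero_left]
  obtain ⟨w, hw⟩ := exists_f_one' h₁ hu
  have := congrArg (· *ᵥ w) h
  simp only [adj_br h₁, one_smul, br_mulVec h₁, neg_mulVec, hw] at this
  have h3 := congrArg (f₁ w) this
  rw [h₁.neg_right, h₁.smul_right, hw, mul_one] at h3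
  have h4 : f₁ w v = 0 := (mul_eq_zero.1 (show 2 * f₁ w v = 0 by
    simp only [RingEquiv.refl_apply] at h3; linear_combination h3)).resolve_left h2
  rw [this, h4, zero_smul, neg_zero, br_zero_right h₁]

theorem Pair.not_cm_sp_o [Nonempty β] (P : Pair φ ψ) (hf : IsSesq (RingEquiv.refl F) ε f)
    (h₂ : IsSesq (RingEquiv.refl F) (-1) f₂) (h₁ : IsSesq (RingEquiv.refl F) 1 f₁)
    (a₂ : ∀ b, adj (RingEquiv.refl F) f (φ b) = φ (adj (RingEquiv.refl F) f₂ b))
    (a₁ : ∀ b, adj (RingEquiv.refl F) f (ψ b) = ψ (adj (RingEquiv.refl F) f₁ b)) (h2 : (2 : F) ≠ 0)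
    (hc : Fintype.card α = Fintype.card β) {g : GL ι F} (hg : g ∈ Isom (RingEquiv.refl F) f) :
    ¬ ∀ b, Cm φ (cj g (φ b)) := fun h => by
  have : Nonempty α := Fintype.card_pos_iff.1 (hc ▸ Fintype.card_pos)
  obtain ⟨θ, hθ⟩ := P.exists_hom h
  have hd : dd φ = dd ψ := Nat.eq_of_mul_eq_mul_right (Fintype.card_pos (α := β))
    (by rw [dd_mul, ← hc, dd_mul])
  have hu : bv F (oo β) ≠ 0 := by simp
  obtain ⟨u, χ, e⟩ := rank_one_of_rank_phi (φ := ψ) (b := θ (br f₂ (bv F (oo β)) (bv F (oo β))))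
    (by rw [hθ, ← hd]; exact (rank_cj_le _ _).trans (rank_phi_vmv_le _ _))
  obtain ⟨v, rfl⟩ := exists_dl h₁ χ
  have h0 := br_eq_zero_of_skew h₁ h2 (u := u) (v := v) (phi_injective (φ := ψ) (by
    rw [← a₁, br, ← e, map_neg, hθ, adj_cj hf hg, a₂, adj_br h₂, neg_one_smul, map_neg, map_neg]))
  rw [br, ← e] at h0
  exact br_ne_zero h₂ hu hu (phi_injective (φ := θ) (h0.trans (map_zero θ).symm))

end

variable {a b : ℕ} {f₁ : (Fin a → F) → (Fin a → F) → F} {f₂ : (Fin b → F) → (Fin b → F) → F}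

/-- Two unitary factors. -/
theorem isMaximalIn_su_tensor [Fintype F] {q n : ℕ} (hF : Fintype.card F = q ^ 2) (h1 : 2 ≤ a)
    (h12 : a < b) (hex : ¬ (a = 2 ∧ q = 2)) {e : Fin n ≃ Fin a × Fin b} {P : GL (Fin n) F}
    (hf₁ : IsUnitaryFormPow q f₁) (hf₂ : IsUnitaryFormPow q f₂)
    (hT : IsTensorFormStructure (fun x : F => x ^ q) (hermForm n F q) f₁ f₂ e P) :
    IsMaximalIn (GU n F q ⊓ specialLinear (Fin n) F)
      (tensorProductSubgroup a b e P ⊓ (GU n F q ⊓ specialLinear (Fin n) F)) := by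
  have : Fact (Fintype.card F = q ^ 2) := ⟨hF⟩
  have : Nonempty (Fin n) := ⟨e.symm ⟨⟨0, by omega⟩, ⟨0, by omega⟩⟩⟩
  refine isMaximalIn_su_tensor_of h1 h12 hex hf₁ hf₂ hT fun M A hG => ?_
  by_cases h4 : 4 ≤ b
  · exact A.lev_su (by simpa using h4)
  have s1 := H10.isSesq_of_pow hf₁
  exact fun x y H h => ⟨_, lev_su3 A (by simp; omega) (by omega) (nilD_pair
    (pair_R e P (by omega)) (cl_su s1 (by simpa using h1)) (adj_φL A.hf s1 A.C.ses hT) (by omega) hG)
    H h⟩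

theorem spGL_eq (m : ℕ) : spGL m F = Isom (RingEquiv.refl F) (sympForm m F) :=
  Subgroup.ext fun _ => mem_spGL

theorem three_le_of_odd [Fintype F] (h : Odd (Fintype.card F)) : 3 ≤ Nat.card F := by
  have := Fintype.one_lt_card (α := F)
  obtain ⟨c, hc⟩ := h
  rw [Nat.card_eq_fintype_card]; omega

/-- A symplectic and an orthogonal factor. -/
theorem isMaximalIn_sp_tensor [Fintype F] {m : ℕ} (hodd : Odd (Fintype.card F)) (h1 : 0 < a)
    (h3 : 3 ≤ b) (hex : ¬ (Fintype.card F = 3 ∧ b = 3)) (hex' : ¬ (a = 2 ∧ b = 4))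
    {e : (Fin m ⊕ Fin m) ≃ Fin a × Fin b} {P : GL (Fin m ⊕ Fin m) F} (hf₁ : IsSymplecticForm f₁)
    (hf₂ : IsSymmetricForm f₂) (hT : IsTensorFormStructure id (sympForm m F) f₁ f₂ e P) :
    IsMaximalIn (spGL m F) (tensorProductSubgroup a b e P ⊓ spGL m F) := by
  have ha := two_le_of_symplectic hf₁ h1
  refine isMaximalIn_inf (not_sp_le_tensor ha (by omega) e P) fun M hH hM => ?_
  rw [spGL_eq] at hH hM ⊢
  have h2 := two_ne_zero_of_odd hodd
  have hq := three_le_of_odd hodd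
  have hn := card_of_tensor e
  have : Nonempty (Fin a) := ⟨⟨0, by omega⟩⟩
  have : Nonempty (Fin b) := ⟨⟨0, by omega⟩⟩
  have : Nonempty (Fin m ⊕ Fin m) := ⟨e.symm ⟨⟨0, by omega⟩, ⟨0, by omega⟩⟩⟩
  have B := amG_sp (isSesq_symp (m := m)) h2
  have s1 := isSesq_of_symplectic hf₁
  have s2 := isSesq_of_symmetric hf₂
  have aL := adj_φL B.hf s1 s2 hT
  have aR := adj_φR B.hf s1 s2 hT
  have A := amb_full B.hf s1 aL hM (cl_sp s1 hf₁.alternating)
    fun h hh => hH ⟨gφL_mem h, gφ_isom B.hf s1 aL hh⟩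
  have A' := amb_full B.hf s2 aR hM (cl_o_full s2 h2 (by simpa using h3))
    fun h hh => hH ⟨gφR_mem h, gφ_isom B.hf s2 aR hh⟩
  by_cases hb : 5 ≤ b ∧ a < b
  · have PR := pair_R e P (show 0 < b by omega)
    exact (A'.c4_fin PR (pas_sp A.C hf₁.alternating (by omega)).simp A.sub (by simpa using h3)
      (A'.lev_o h2 (by simpa using hb.1)) (A'.dich_o h2 (by simpa using hb.1))
      (B.hasGen A' hM (Or.inr ⟨by simpa using h3, by
        rw [hn, Fintype.card_fin]; exact Nat.mul_le_mul_right b ha⟩)) fun g _ =>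
        PR.not_cm (by simpa using Nat.not_dvd_of_pos_of_lt h1 hb.2) g).imp_left
      (le_tensor_R h1 (by omega))
  have PL := pair_L e P h1
  have hex2 : ¬ (Fintype.card (Fin b) = 3 ∧ Nat.card F = 3) := by simpa [and_comm] using hex
  have hG := B.hasGen A hM (Or.inl (by
    rw [hn, Fintype.card_fin, mul_comm]; exact Nat.mul_le_mul_left a h3))
  have hc : ∀ g ∈ M, ¬ ∀ b, Cm (φL e P) (cj g (φL e P b)) := fun g hg => by
    by_cases hab : b = a
    · exact PL.not_cm_sp_o B.hf s1 s2 aL aR h2 (by simpa using hab) (hM hg)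
    · refine PL.not_cm (fun hd => ?_) g
      simp only [Fintype.card_fin] at hd
      have := Nat.le_of_dvd (by omega) hd
      have h4 : b = 3 ∨ b = 4 := by omega
      have h5 : a = 2 ∨ a = 3 := by omega
      rcases h4 with h4 | h4 <;> rcases h5 with h5 | h5 <;> rw [h4, h5] at hd <;> omega
  have hD := A.dich_sp hf₁.alternating (by simp only [Fintype.card_fin] at hex2 ⊢; omega) (Or.inl h2)
  refine Or.imp_left (le_tensor_L h1 (by omega)) ?_
  by_cases h4 : a = 2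
  · exact (A.C.loc_or fun x y H h => (full_sp2_pair A hf₁.alternating h2 (by simpa using h4) PL A'.C
      aR hex2 A'.sub H h).elim (hG x y H)).imp_left fun h g hg => (hD h g hg).resolve_right (hc g hg)
  · exact A.c4_fin PL (pas_o A'.C h2 hex2 fun _ z hz => rfz_mem s2 hz).simp A'.sub (by simp; omega)
      (fun x y H h => ⟨_, lev_sp4 A hf₁.alternating (by simp; omega)
        (cliff_pair_o PL s2 aR h2 (by simpa using h3) A'.sub) H h⟩) hD hG hc

end Cfsg.Agent.H9
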