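import Cfsg.Agent.H9.TFac

/-! Small orthogonal factors: definitions. -/

set_option autoImplicit false
set_option linter.unusedSectionVars false
set_option linter.unusedVariables false
set_option linter.unusedSimpArgs false

namespace Cfsg.Agent.H9

open scoped MatrixGroups Matrix
open Matrix Cfsg.Geo Cfsg.Agent.H98

universe u

variable {ι β τ : Type} [Fintype ι] [DecidableEq ι] [Fintype β] [DecidableEq β] [Fintype τ]
  [DecidableEq τ] {F : Type u} [Field F]

/-- The complement of a hyperbolic plane is anisotropic. -/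
def An (f : (β → F) → (β → F) → F) : Prop :=
  ∀ x y, HP f x y → ∀ z, f z x = 0 → f z y = 0 → f z z = 0 → z = 0

/-- The Eichler matrix of an orthogonal space. -/
def eo (f : (β → F) → (β → F) → F) (x v : β → F) : Matrix β β F := elm f 1 x v (-f v v / 2)

/-- An orthogonal space of dimension three or four and Witt index one. -/
structure OS (f : (β → F) → (β → F) → F) (G : Subgroup (GL β F)) : Prop where
  C : Cl (RingEquiv.refl F) 1 f G
  two : (2 : F) ≠ 0
  k : Fintype.card β = 3 ∨ Fintype.card β = 4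
  an : An f
  hex : ¬ (Fintype.card β = 3 ∧ Nat.card F = 3)
  un : ∀ b, b * adj (RingEquiv.refl F) f b = 1 → (b - 1) ^ 3 = 0 → b ∈ matrixSet G

/-- The local statement at all singular points. -/
def LocA (φ : Matrix β β F →ₐ[F] Matrix ι ι F) (M : Subgroup (GL ι F))
    (f₂ : (β → F) → (β → F) → F) : Prop := ∀ x, x ≠ 0 → f₂ x x = 0 → Loc φ M x

/-- A system of small orthogonal factors. -/
structure OSys (φ : τ → Matrix β β F →ₐ[F] Matrix ι ι F) (M : Subgroup (GL ι F))
    (G : τ → Subgroup (GL β F)) (ε : F) (f : (ι → F) → (ι → F) → F)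
    (f₂ : (β → F) → (β → F) → F) : Prop where
  S : Sys φ
  A : ∀ i, Amb (φ i) M (G i) (RingEquiv.refl F) ε f 1 f₂
  O : ∀ i, OS f₂ (G i)
  tw : ∀ i j, ∀ h ∈ Isom (RingEquiv.refl F) f₂, gφ (φ j) h * (gφ (φ i) h)⁻¹ ∈ M
  rf : Fintype.card β = 4 → Fintype.card τ = 2 ∨ ∀ i z, f₂ z z ≠ 0 → rfz f₂ z ∈ matrixSet (G i)
  tr : ∀ i j, ∃ g ∈ M, ∃ x ∈ Isom (RingEquiv.refl F) f₂, ∀ b, cj g (φ i b) = φ j (cj x b)

theorem eo_eq {f : (β → F) → (β → F) → F} (x v : β → F) :
    eo f x v = 1 + PasO.Nv f x v - (f v v / 2) • br f x x := by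
  rw [eo, elm, PasO.Nv, neg_div]; module

theorem OS.eo_mem [Finite F] {f : (β → F) → (β → F) → F} {G : Subgroup (GL β F)} (O : OS f G)
    {x v : β → F} (hx : f x x = 0) (hv : f v x = 0) : eo f x v ∈ matrixSet G :=
  O.C.el x v _ hx hv (GO.vd O.C.ses O.two v)

end Cfsg.Agent.H9
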