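import Cfsg.Agent.H9.TC4b
import Cfsg.Agent.H9.TODef
import Cfsg.Agent.H10.UCases2

/-! Maximality of the stabilisers of tensor powers. -/

set_option autoImplicit false
set_option linter.unusedSectionVars false
set_option linter.unusedVariables false
set_option linter.unusedSimpArgs false

namespace Cfsg.Agent.H9

open scoped MatrixGroups Matrix
open Matrix Cfsg.Geo Cfsg.Agent.H98

universe u

variable {ι β τ : Type} [Fintype ι] [DecidableEq ι] [Fintype β] [DecidableEq β] [Fintype τ]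
  [DecidableEq τ] {F : Type u} [Field F]

variable {M K : Subgroup (GL ι F)} {σ : F ≃+* F} {ε ε₂ : F} {f : (ι → F) → (ι → F) → F}

section
variable {f₂ : (β → F) → (β → F) → F} {G2 : Subgroup (GL β F)} {x y : β → F}

theorem Amb.lev_tw {φ : Matrix β β F →ₐ[F] Matrix ι ι F} (A : Amb φ M G2 σ ε f ε₂ f₂)
    (H : HP f₂ x y) {c : GL ι F} (hc : Cm φ c) {h : GL β F} (hh : h ∈ Isom σ f₂)
    (hM : c * (gφ φ h)⁻¹ ∈ M) {sd : Bool} {z : Matrix ι ι F}
    (hz : z ∈ Lev M (φ (br f₂ x y)) (φ (pr f₂ ε₂ x y)) φ sd) :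
    cj c z ∈ Lev M (φ (br f₂ x y)) (φ (pr f₂ ε₂ x y)) φ sd := by
  obtain ⟨g, hg, e1, e2, -⟩ := A.C.cj_hp H (u := (h : Matrix β β F) *ᵥ x)
    (u' := (h : Matrix β β F) *ᵥ y) ⟨by rw [hh, H.xx], by rw [hh, H.yy], by rw [hh, H.xy]⟩
  have e : ∀ b, cj c (φ b) = φ b := fun b => by rw [cj_eq_iff, hc]
  have k : ∀ b, cj g b = cj h b → cj (c * (gφ φ h)⁻¹ * gφ φ g) (φ b) = φ b := fun b hb => by
    rw [cj_mul, cj_mul, cj_gφ, hb, ← cj_gφ, cj_inv_cj, e]
  have k' : cj (c * (gφ φ h)⁻¹ * gφ φ g) z = cj c z := by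
    rw [cj_mul, cj_mul, hz.1.cj_gφ, ← map_inv, hz.1.cj_gφ]
  have := Lev.cj (φ' := φ) (M.mul_mem hM (A.sub g hg)) hz (k' ▸ hz.1.cj (mem_KB_of_cm hc))
  rwa [k _ (by rw [e1, cj_br A.C.ses hh]), k _ (by
    rw [e2, pr, pr, map_sub, map_one, map_smul, cj_br A.C.ses hh]), k'] at this

variable {φ : τ → Matrix β β F →ₐ[F] Matrix ι ι F} {G : τ → Subgroup (GL β F)}

theorem Sys.gen_of_lev (S : Sys φ) (hC : Cyc φ M) (A : ∀ i, Amb (φ i) M (G i) σ ε f ε₂ f₂)
    (hk : 3 ≤ Fintype.card β) (hP : Pas G2) {i : τ}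
    (hT : ∀ j, j ≠ i → ∀ g ∈ G2, ∃ h ∈ Isom σ f₂, gφ (φ j) g * (gφ (φ i) h)⁻¹ ∈ M)
    (hG : HasGen (φ i) M K σ f f₂) (H : HP f₂ x y) {sd : Bool} {c : Matrix ι ι F}
    (hc : c ∈ Lev M (φ i (br f₂ x y)) (φ i (pr f₂ ε₂ x y)) (φ i) sd) (hn : ¬ Sc c) : K ≤ M :=
  (S.full_of_lev hC (A i) (fun j => (A j).adjφ) hk (G := fun _ => G2) (fun _ _ => hP) H
    (fun j hj g hg z hz => (hT j hj g hg).elim fun h hh =>
      (A i).lev_tw H (S.cm i j hj.symm _) hh.1 hh.2 hz) hc hn).elim (hG x y H)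

theorem Sys.gen_of_hasLev (S : Sys φ) (hC : Cyc φ M) (A : ∀ i, Amb (φ i) M G2 σ ε f ε₂ f₂)
    (hk : 3 ≤ Fintype.card β) (hP : Pas G2) {i : τ} (hG : HasGen (φ i) M K σ f f₂) (H : HP f₂ x y)
    {sd : Bool} (h : ∃ c ∈ Lev M (φ i (br f₂ x y)) (φ i (pr f₂ ε₂ x y)) (φ i) sd, ¬ Sc c) : K ≤ M :=
  h.elim fun c hc => S.gen_of_lev hC A hk hP (fun j _ g hg => ⟨1, one_mem _, by
    simpa using (A j).sub g hg⟩) hG H hc.1 hc.2

end

variable {k t : ℕ} {e : ι ≃ (Fin t → Fin k)} {P : GL ι F} {f₁ : (Fin k → F) → (Fin k → F) → F}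

theorem card_of_pow (e : ι ≃ (Fin t → Fin k)) : Fintype.card ι = k ^ t := by
  simpa using Fintype.card_congr e

theorem three_mul_le_pow (h : 3 ≤ k ∧ 2 ≤ t ∨ 2 ≤ k ∧ 3 ≤ t) : 3 * k ≤ k ^ t := by
  rcases h with h | h
  · calc 3 * k ≤ k ^ 2 := by nlinarith
      _ ≤ _ := Nat.pow_le_pow_right (by omega) h.2
  · calc 3 * k ≤ k ^ 3 := by nlinarith [Nat.mul_le_mul h.1 h.1]
      _ ≤ _ := Nat.pow_le_pow_right (by omega) h.2

theorem wreath_fin [Nonempty ι] (hk : 2 ≤ k) (ht : 0 < t) (hC : Cyc (φP e P) M)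
    {G : Subgroup (GL (Fin k) F)} (C : Cl σ ε₂ f₁ G)
    (h1 : ∀ i x y, HP f₁ x y → ¬ Loc (φP e P i) M x → K ≤ M)
    (h2 : (∀ i, LocA (φP e P i) M f₁) → ∀ i, ∀ g ∈ M,
      g ∈ KB (φP e P i) ∨ ∀ b, Cm (φP e P i) (cj g (φP e P i b))) :
    M ≤ tensorWreathSubgroup k t e P ∨ K ≤ M :=
  or_iff_not_imp_right.2 fun h => le_wreath hk ht hC (h2 fun i =>
    (C.loc_or (h1 i)).resolve_right h)

/-- Unitary factors. -/
theorem isMaximalIn_su_wreath [Fintype F] {q n : ℕ} (hF : Fintype.card F = q ^ 2) (hk : 3 ≤ k)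
    (ht : 2 ≤ t) (hex : ¬ (q = 2 ∧ k = 3)) {e : Fin n ≃ (Fin t → Fin k)} {P : GL (Fin n) F}
    (hf₁ : IsUnitaryFormPow q f₁)
    (hT : IsTensorPowerFormStructure (fun x : F => x ^ q) (hermForm n F q) f₁ e P) :
    IsMaximalIn (GU n F q ⊓ specialLinear (Fin n) F)
      (tensorWreathSubgroup k t e P ⊓ (GU n F q ⊓ specialLinear (Fin n) F)) := by
  have : Fact (Fintype.card F = q ^ 2) := ⟨hF⟩
  refine isMaximalIn_inf (H10.not_SUG_le_wreath hk ht e P) fun M hH hM => ?_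
  have hn : 3 * k ≤ n := by simpa using (three_mul_le_pow (Or.inl ⟨hk, ht⟩)).trans (card_of_pow e).ge
  have : Nonempty (Fin n) := ⟨⟨0, by omega⟩⟩
  have B := amG_su (F := F) (q := q) (n := n) (by omega)
  have s1 := H10.isSesq_of_pow hf₁
  have C := cl_su s1 (by simp; omega)
  have A := fun i => B.amb (adj_φP B.hf s1 hT i) hM (fun x hx => hH ⟨gφP_mem e P i x, hx⟩) C
    fun h hh => hH ⟨gφP_mem e P i h, gφ_isom B.hf s1 (adj_φP B.hf s1 hT i) hh.1, gφ_mem_sl hh.2⟩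
  have hC := (alt_P B.hf s1 hT (perm_isom B.hf s1 hT) B.cm hH).cyc
  refine wreath_fin (by omega) (by omega) hC C (fun i x y H h => ?_)
    fun h i => (A i).dich_su (by simpa using hk) (by simp; omega) (h i)
  have := fun sd => (sys_P e P).gen_of_hasLev hC A (by simpa using hk) (pas_su C (by simp; omega))
    (B.hasGen (A i) hM (Or.inl (by simpa using hn))) H (sd := sd)
  by_cases h4 : 4 ≤ k
  · exact ((A i).lev_su (by simpa using h4) x y H h).elim this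
  · exact this _ (lev_su3 (A i) (by simp; omega) (by omega) (nilD_sys (sys_P e P) A (by omega) i) H h)

/-- Symplectic factors, given the ambient data. -/
theorem wreath_sp [Fintype F] [Nonempty ι] (hk : 2 ≤ k) (ht : 0 < t) (hf₁ : IsSymplecticForm f₁)
    (hex : ¬ (Fintype.card F = 3 ∧ k = 2)) (hex' : ¬ Odd (Fintype.card F) → 5 ≤ k)
    (hA : Alt (φP e P) M) (A : ∀ i, Amb (φP e P i) M (Isom (RingEquiv.refl F) f₁) (RingEquiv.refl F)
      ε f (-1) f₁) (hG : ∀ i, HasGen (φP e P i) M K (RingEquiv.refl F) f f₁) :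
    M ≤ tensorWreathSubgroup k t e P ∨ K ≤ M := by
  have alt := hf₁.alternating
  have C := (A ⟨0, ht⟩).C
  by_cases hodd : Odd (Fintype.card F)
  · have h2 := two_ne_zero_of_odd hodd
    have hq := three_le_of_odd hodd
    refine wreath_fin hk ht hA.cyc C (fun i x y H h => ?_) fun h i => (A i).dich_sp alt
      (by rw [← Nat.card_eq_fintype_card] at hex; simp only [Fintype.card_fin]; omega) (Or.inl h2) (h i)
    by_cases h3 : k = 2
    · exact (full_sp2 (sys_P e P) hA A alt h2 (by simpa using h3) H h).elim (hG i x y H)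
    have h4 : 3 ≤ Fintype.card (Fin k) := by simp; omega
    exact (sys_P e P).gen_of_hasLev hA.cyc A h4 (pas_sp C alt (by omega)) (hG i) H
      (lev_sp4 (A i) alt h4 (cliff_sys_sp (sys_P e P) A alt h2 h4 i) H h)
  have h5 : 5 ≤ Fintype.card (Fin k) := by simpa using hex' hodd
  exact wreath_fin hk ht hA.cyc C (fun i x y H h => ((A i).lev_sp alt h5 x y H h).elim fun _ =>
    (sys_P e P).gen_of_hasLev hA.cyc A (by omega) (pas_sp C alt (by omega)) (hG i) H)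
    fun h i => (A i).dich_sp alt (by omega) (by omega) (h i)

/-- Symplectic factors in a symplectic group. -/
theorem isMaximalIn_sp_wreath [Fintype F] {m : ℕ} (hm : 0 < m) (hodd : Odd (Fintype.card F))
    (ht : 3 ≤ t) (hex : ¬ (Fintype.card F = 3 ∧ k = 2)) {e : (Fin m ⊕ Fin m) ≃ (Fin t → Fin k)}
    {P : GL (Fin m ⊕ Fin m) F} (hf₁ : IsSymplecticForm f₁)
    (hT : IsTensorPowerFormStructure id (sympForm m F) f₁ e P) :
    IsMaximalIn (spGL m F) (tensorWreathSubgroup k t e P ⊓ spGL m F) := by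
  have : Nonempty (Fin m ⊕ Fin m) := ⟨Sum.inl ⟨0, hm⟩⟩
  have : Nonempty (Fin k) := ⟨e (Sum.inl ⟨0, hm⟩) ⟨0, by omega⟩⟩
  have hk := two_le_of_symplectic hf₁ (Fin.pos_iff_nonempty.2 this)
  refine isMaximalIn_inf (not_sp_le_wreath hk (by omega) e P) fun M hH hM => ?_
  rw [spGL_eq] at hH hM ⊢
  have B := amG_sp (isSesq_symp (m := m)) (two_ne_zero_of_odd hodd)
  have s1 := isSesq_of_symplectic hf₁
  have A := fun i => amb_full B.hf s1 (adj_φP B.hf s1 hT i) hM (cl_sp s1 hf₁.alternating)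
    fun h hh => hH ⟨gφP_mem e P i h, gφ_isom B.hf s1 (adj_φP B.hf s1 hT i) hh⟩
  exact wreath_sp hk (by omega) hf₁ hex (fun h => absurd hodd h)
    (alt_P B.hf s1 hT (perm_isom B.hf s1 hT) B.cm hH) A fun i => B.hasGen (A i) hM (Or.inl (by
      rw [card_of_pow e, Fintype.card_fin]; exact three_mul_le_pow (Or.inr ⟨hk, ht⟩)))

section
variable {Q : (ι → F) → F} (hQ : IsNondegenerateQuadraticForm Q) (hf₁ : IsSymplecticForm f₁)
  (hT : IsTensorPowerFormStructure id (QuadraticMap.polar Q) f₁ e P)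
  (hpure : ∀ xs : Fin t → (Fin k → F),
    Q ((P : Matrix ι ι F) *ᵥ ((fun a : Fin t → Fin k => ∏ i, xs i (a i)) ∘ e)) = 0)
include hQ hf₁ hT hpure

theorem perm_mem_O (s : Equiv.Perm (Fin t)) :
    frmG e P (permG (Fin k) F s) ∈ isometryGroup F Q := by
  have hz : ∀ x ∈ H99.pureVecs k t F, Q (frmV e P x) = 0 := by
    rintro x ⟨u, hu⟩
    obtain rfl : x = fun x => ∏ i, u i (x i) := funext hu
    exact hpure u
  have := quad_fix_of_basis hQ (perm_isom (isSesq_polar hQ) (isSesq_of_symplectic hf₁) hT s)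
    (frmV e P) fun x => by
      rw [coe_frmG, frm_mulVec, hz _ (H99.single_mem_pureVecs x),
        hz _ (H99.mulVec_mem_pureVecs (permG_mem s) _ (H99.single_mem_pureVecs x))]
  obtain ⟨Q, rfl, -⟩ := H11.exists_qf hQ
  exact H11.mem_isometryGroup.2 this

theorem sing_P (i : Fin t) : Sing Q (φP e P i) := fun z χ v => by
  obtain ⟨Q, rfl, -⟩ := H11.exists_qf hQ
  obtain ⟨c, -, hc⟩ := tensorPowerForm_pure (isSesq_of_symplectic hf₁) hT
  refine H99.ts_span (T := {w | ∃ u : Fin t → Fin k → F, (∃ a : F, u i = a • z) ∧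
    w = frmV e P fun x => ∏ i, u i (x i)}) ?_ ?_ _ ?_
  · rintro _ ⟨u, -, rfl⟩
    exact hpure u
  · rintro _ ⟨u, ⟨a, ha⟩, rfl⟩ _ ⟨u', ⟨a', ha'⟩, rfl⟩
    rw [hc, Finset.prod_eq_zero (Finset.mem_univ i), mul_zero]
    rw [ha, ha', hf₁.bilinear.smul_left, hf₁.bilinear.smul_right, hf₁.alternating]
    simp
  obtain ⟨X, rfl⟩ := (frmV e P).surjective v
  rw [pi_eq_sum_univ' X, map_sum, mulVec_sum]
  refine Submodule.sum_mem _ fun x _ => ?_
  rw [map_smul, mulVec_smul]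
  obtain ⟨u, hu⟩ := H99.single_mem_pureVecs (F := F) x
  refine Submodule.smul_mem _ _ (Submodule.subset_span ⟨_, ?_, by
    rw [show Pi.single x 1 = _ from funext hu, φP_apply, frm_mulVec, powEmb_apply, pureT_mulVec]⟩)
  exact ⟨_, by rw [Function.update_self, vmv_mulVec]⟩

/-- Symplectic factors in an orthogonal group. -/
theorem isMaximalIn_om_wreath_sp [Fintype F] (hn : 5 ≤ Fintype.card ι) (ht : 2 ≤ t)
    (hex : ¬ (Fintype.card F = 3 ∧ k = 2)) (hex' : ¬ Odd (Fintype.card F) → 5 ≤ k) :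
    IsMaximalIn (omegaGL Q) (tensorWreathSubgroup k t e P ⊓ omegaGL Q) := by
  refine isMaximalIn_inf (not_omega_le_wreath_sp hQ hn ht hf₁ hT hpure) fun M hH hM => ?_
  have : Nonempty ι := Fintype.card_pos_iff.1 (by omega)
  have : Nonempty (Fin k) := ⟨e (Classical.arbitrary ι) ⟨0, by omega⟩⟩
  have hk := two_le_of_symplectic hf₁ (Fin.pos_iff_nonempty.2 this)
  have s := isSesq_polar hQ
  have s1 := isSesq_of_symplectic hf₁
  have hs := sing_P hQ hf₁ hT hpure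
  have A := fun i => amb_sp_om hQ hn (hs i) s1 hf₁.alternating (adj_φP s s1 hT i) hM
    fun x hx => hH ⟨gφP_mem e P i x, hx⟩
  refine wreath_sp hk (by omega) hf₁ hex hex' (alt_P s s1 hT (perm_mem_O hQ hf₁ hT hpure)
    (fun g hg h hh => comm_mem_omega hg hh) hH) A fun i => (A i).hasGen_om hQ hn (hs i) hM (Or.inl ?_)
  rw [card_of_pow e] at hn ⊢
  rw [Fintype.card_fin]
  refine three_mul_le_pow (by_contra fun h => ?_)
  obtain ⟨rfl, rfl⟩ : k = 2 ∧ t = 2 := by omega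
  omega

end

end Cfsg.Agent.H9
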