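import Cfsg.Agent.H9.TSLMax
import Cfsg.Agent.H9.SpAschT
import Cfsg.Agent.H10.UFrame

/-! Factors of dimension three over the field with two elements: the invariant trilinear form. -/

set_option autoImplicit false
set_option linter.unusedSectionVars false
set_option linter.unusedVariables false
set_option linter.unusedSimpArgs false

namespace Cfsg.Agent.H9

open scoped MatrixGroups Matrix
open Matrix Cfsg.Geo Cfsg.Agent.H98

universe u

variable {ι β τ : Type} [Fintype ι] [DecidableEq ι] [Fintype β] [DecidableEq β] [Fintype τ]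
  [DecidableEq τ] {F : Type u} [Field F]

variable [Fintype F] [Nonempty ι] {M : Subgroup (GL ι F)}

namespace S32

theorem sum_eq_fix {G Ω A U : Type*} [Group G] [MulAction G Ω] [Fintype Ω] [AddCommGroup A]
    [Fintype A] [AddCommGroup U] (e : τ → A → G) (he : ∀ i a b, e i (a + b) = e i a * e i b)
    (hc : ∀ i j a b, e i a * e j b = e j b * e i a) (f : Ω → U)
    (hfree : ∀ i (B : Ω) a, a ≠ 0 → e i a • B = B → ∀ a', e i a' • B = B)
    (hN : ∀ i B, ∑ a, f (e i a • B) = 0) {B₀ : Ω} (h0 : ∀ B, (∀ i a, e i a • B = B) ↔ B = B₀) :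
    ∑ B, f B = f B₀ := by
  classical
  have key : ∀ T : Finset τ, ∑ B, f B = ∑ B with ∀ i ∈ T, ∀ a, e i a • B = B, f B := fun T => by
    induction T using Finset.induction_on with
    | empty => simp
    | insert i T hi ih =>
      have mv : ∀ j a (B : Ω), (∀ a', e j a' • e i a • B = e i a • B) ↔ ∀ a', e j a' • B = B :=
        fun j a B => forall_congr' fun a' => by
          rw [← mul_smul, ← hc, mul_smul, smul_left_cancel_iff]
      have h1 : ∑ B ∈ (Finset.univ.filter fun B => ∀ i ∈ T, ∀ a, e i a • B = B).filter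
          fun B => ¬ ∀ a, e i a • B = B, f B = 0 :=
        AddSubgroup.mem_bot.1 (sum_mem_of_free (fun a (B : Ω) => e i a • B)
          (fun B => by rw [left_eq_mul.1 ((add_zero (0 : A) ▸ he i 0 0 :)), one_smul])
          (fun a b B => by rw [he, mul_smul]) f ⊥ _ (fun a B hB => by simpa only [Finset.mem_filter, mv, Finset.mem_univ] using hB)
          (fun a B hB h => by_contra fun ha => (Finset.mem_filter.1 hB).2 (hfree i B a ha h))
          fun B _ => hN i B)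
      rw [ih, ← Finset.sum_filter_add_sum_filter_not _ fun B => ∀ a, e i a • B = B, h1, add_zero,
        Finset.filter_filter]
      exact Finset.sum_congr (Finset.filter_congr fun B _ => by simp [and_comm]) fun _ _ => rfl
  rw [key Finset.univ, Finset.sum_eq_single_of_mem B₀ (by simpa using (h0 B₀).2 rfl)]
  exact fun B hB h => (h ((h0 B).1 (by simpa using hB))).elim

section
variable [Nonempty β] {φ : τ → Matrix β β F →ₐ[F] Matrix ι ι F} {G : Subgroup (GL β F)}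
  {Root : Set (GL β F)} (S : Sys φ) (R : ∀ i, Roots (φ i) M G Root)
  (hp : ∀ i j, ∃ p ∈ M, ∀ b, cj p (φ i b) = φ j b) {g : GL ι F} (hg : g ∈ M) {e : GL β F}
  (he : e ∈ Root) {i j : τ}
include R hp hg he

theorem cross (h : g⁻¹ * gφ (φ i) e * g ∈ KB (φ j)) :
    (∀ b, cj g⁻¹ (φ i b) ∈ (φ j).range) ∨ ∀ b, Cm (φ j) (cj g⁻¹ (φ i b)) := by
  obtain ⟨p, hp, ep⟩ := hp j i
  have e1 : ∀ b, cj (p⁻¹ * g)⁻¹ (φ j b) = cj g⁻¹ (φ i b) := fun b => by
    rw [_root_.mul_inv_rev, inv_inv, cj_mul, ep]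
  refine ((R j).of_conj he (M.mul_mem (M.inv_mem hp) hg) ?_).imp (fun h b => ?_) fun h b => e1 b ▸ h b
  · have := e1 e
    rw [← coe_gφ, ← coe_gφ, cj_coe, cj_coe, inv_inv, inv_inv] at this
    rwa [Units.ext this]
  · exact e1 b ▸ cj_mem_range (inv_mem h) ((φ j).mem_range_self b)

include S in
theorem noswap (hk : 2 ≤ Fintype.card β) (h2 : ∀ e ∈ Root, e * e = 1) {h₁ h₂ : GL β F}
    (r1 : h₁ ∈ Root) (r2 : h₂ ∈ Root) (r3 : h₁ * h₂ ∈ Root) {l : τ} {x : GL β F}
    (h : ∀ X, cj (g⁻¹ * gφ (φ i) e * g) (φ j X) = φ l (cj x X)) : l = j := by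
  by_contra hl
  obtain ⟨k, hk'⟩ : ∃ k, k = g⁻¹ * gφ (φ i) e * g := ⟨_, rfl⟩
  have kM : k ∈ M := hk' ▸ M.mul_mem (M.mul_mem (M.inv_mem hg) ((R i).mem e ((R i).sub e he))) hg
  have ek : gφ (φ i) e = g * k * g⁻¹ := by rw [hk']; group
  have kk : k * k = 1 := by
    rw [hk', show ∀ z, g⁻¹ * z * g * (g⁻¹ * z * g) = g⁻¹ * (z * z) * g from fun z => by group,
      ← map_mul, h2 e he, map_one]; group
  rw [← hk'] at h
  have e1 : ∀ r, k * gφ (φ j) r * k⁻¹ = gφ (φ l) (x * r * x⁻¹) := fun r => Units.ext (by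
    rw [← cj_coe, coe_gφ, h, cj_coe, coe_gφ])
  have e2 : ∀ r r', gφ (φ j) r * (k * gφ (φ j) r' * k⁻¹) = k * gφ (φ j) r' * k⁻¹ * gφ (φ j) r :=
    fun r r' => by rw [e1]; exact Units.ext (S.cm j l (Ne.symm hl) _ _)
  have nr : ¬ ∀ X, cj k (φ j X) ∈ (φ j).range := fun h' => by
    obtain ⟨b, hb⟩ := not_comm_all (F := F) hk
    obtain ⟨Y, hY⟩ := h' (cj x⁻¹ b)
    rw [h, cj_cj_inv] at hY
    have := S.cm j l (Ne.symm hl) b
    rw [← hY] at this
    exact hb (sc_phi (φ := φ l) (hY ▸ Sc.phi (scalar_of_cm_phi this)))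
  have e3 : ∀ r, k * (gφ (φ j) r * (k * gφ (φ j) r * k⁻¹)) = gφ (φ j) r * (k * gφ (φ j) r * k⁻¹) * k :=
    fun r => by
      conv_lhs => rw [e2, ← mul_assoc, ← mul_assoc, ← mul_assoc, kk, one_mul,
        inv_eq_of_mul_eq_one_right kk]
      group
  have key : ∀ r ∈ Root, Cm (φ i)
      (g * (gφ (φ j) r * (k * gφ (φ j) r * k⁻¹) * k) * g⁻¹ : GL ι F) := fun r hr => by
    have rM := (R j).mem r ((R j).sub r hr)
    have cj' := fun {a} (ha : a ∈ M) => M.mul_mem (M.mul_mem hg ha) (M.inv_mem hg)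
    have ri : (gφ (φ j) r)⁻¹ = gφ (φ j) r :=
      inv_eq_of_mul_eq_one_right (by rw [← map_mul, h2 r hr, map_one])
    have e4 : g * gφ (φ j) r * g⁻¹ * gφ (φ i) e * (g * gφ (φ j) r * g⁻¹)⁻¹ =
        g * (gφ (φ j) r * (k * gφ (φ j) r * k⁻¹) * k) * g⁻¹ := by
      rw [ek]; nth_rewrite 4 [← ri]; group
    have h3 := (R i).det e he _ (cj' (M.mul_mem rM (M.mul_mem (M.mul_mem kM rM) (M.inv_mem kM)))) (by
      rw [← coe_gφ, cj_coe, ek, show ∀ c, g * c * g⁻¹ * (g * k * g⁻¹) * (g * c * g⁻¹)⁻¹ =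
        g * (c * k * c⁻¹) * g⁻¹ from fun c => by group, ← e3, mul_inv_cancel_right, ← ek]
      exact (φ i).mem_range_self _)
    have h4 := (R i).tri e he _ (cj' rM) (by
      have := mul_mem h3 (gφ_mem_KB (φ := φ i) e)
      rw [ek] at this
      rw [e4]; convert this using 1; group)
    refine (h4.resolve_left fun h5 => nr ?_) |> fun h5 => by rwa [← coe_gφ, cj_coe, e4] at h5
    rcases cross R hp (M.inv_mem hg) hr (by rw [inv_inv]; exact (R i).det e he _ (cj' rM) h5)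
      with h6 | h6 <;> rw [inv_inv] at h6 <;> intro X
    · obtain ⟨y, hy⟩ := exists_cj_of_mapsTo (φ j) (φ i) phi_injective g h6
      rw [hk', cj_mul, cj_mul, hy, cj_gφ, ← cj_cj_inv y (cj e _), ← hy, cj_inv_cj]
      exact (φ j).mem_range_self _
    · rw [hk', cj_mul, cj_mul, (h6 X).cj_gφ, cj_inv_cj]
      exact (φ j).mem_range_self _
  have h5 := (key _ r1).mul (key _ r2)
  rw [← Units.val_mul] at h5
  have h6 := (h5.inv (Units.mul_inv _) (Units.inv_mul _)).mul (key _ r3)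
  rw [← Units.val_mul] at h6
  refine (R i).nsc e he (by
    convert h6 using 1
    rw [← coe_gφ, ek, eq_comm, Units.val_inj, inv_mul_eq_iff_eq_mul, ← e3 h₂, map_mul]
    have := e2 h₂ h₁
    calc _ = g * gφ (φ j) h₁ * (gφ (φ j) h₂ * (k * gφ (φ j) h₁ * k⁻¹)) * k * gφ (φ j) h₂ * g⁻¹ := by
          group
      _ = g * gφ (φ j) h₁ * (k * gφ (φ j) h₁ * k⁻¹) * (k * k) * gφ (φ j) h₂ * k * gφ (φ j) h₂ * g⁻¹ := by
          rw [this, kk]; group
      _ = _ := by group)

end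

/-- Pure vectors. -/
def pv (u : τ → β → F) : (τ → β) → F := fun x => ∏ i, u i (x i)

/-- Pull-back of a trilinear form. -/
def act {V V' : Type*} [AddCommGroup V] [Module F V] [AddCommGroup V'] [Module F V'] (L : V →ₗ[F] V')
    (δ : V' →ₗ[F] V' →ₗ[F] V' →ₗ[F] F) : V →ₗ[F] V →ₗ[F] V →ₗ[F] F :=
  (δ.compl₁₂ L L).compr₂ (LinearMap.lcomp F F L)

theorem act_apply {V V' : Type*} [AddCommGroup V] [Module F V] [AddCommGroup V'] [Module F V']
    (L : V →ₗ[F] V') (δ : V' →ₗ[F] V' →ₗ[F] V' →ₗ[F] F) (u v w : V) :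
    act L δ u v w = δ (L u) (L v) (L w) := rfl

theorem exists_delta : ∃ δ : ((τ → Fin 3) → F) →ₗ[F] ((τ → Fin 3) → F) →ₗ[F] ((τ → Fin 3) → F) →ₗ[F] F,
    ∀ u v w, δ (pv u) (pv v) (pv w) = ∏ j, (Matrix.of ![u j, v j, w j]).det := by
  refine ⟨∑ a : τ → Fin 3 × Fin 3 × Fin 3,
    (∏ j, (Matrix.of ![bv F (a j).1, bv F (a j).2.1, bv F (a j).2.2]).det) •
      (LinearMap.proj fun j => (a j).1).smulRight ((LinearMap.proj fun j => (a j).2.1).smulRight
        (LinearMap.proj fun j => (a j).2.2)), fun u v w => ?_⟩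
  simp only [LinearMap.sum_apply, LinearMap.smul_apply, LinearMap.smulRight_apply,
    LinearMap.proj_apply, pv, smul_eq_mul, ← Finset.prod_mul_distrib]
  rw [← Fintype.prod_sum fun j (a : Fin 3 × Fin 3 × Fin 3) =>
    (Matrix.of ![bv F a.1, bv F a.2.1, bv F a.2.2]).det * (u j a.1 * (v j a.2.1 * w j a.2.2))]
  refine Finset.prod_congr rfl fun j _ => ?_
  simp [Fintype.sum_prod_type, Fin.sum_univ_three, det_fin_three, bv]
  ring

theorem delta_inv {t : ℕ} (hq : Fintype.card F = 2)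
    {δ : ((Fin t → Fin 3) → F) →ₗ[F] ((Fin t → Fin 3) → F) →ₗ[F] ((Fin t → Fin 3) → F) →ₗ[F] F}
    (hδ : ∀ u v w, δ (pv u) (pv v) (pv w) = ∏ j, (Matrix.of ![u j, v j, w j]).det)
    {g : GL (Fin t → Fin 3) F} (hg : g ∈ tensorWreathStandard 3 t F) (u v w : (Fin t → Fin 3) → F) :
    δ ((g : Matrix _ _ F) *ᵥ u) ((g : Matrix _ _ F) *ᵥ v) ((g : Matrix _ _ F) *ᵥ w) = δ u v w := by
  let S : Subgroup (GL (Fin t → Fin 3) F) :=
    { carrier := {g | ∀ u v w, δ ((g : Matrix _ _ F) *ᵥ u) ((g : Matrix _ _ F) *ᵥ v)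
        ((g : Matrix _ _ F) *ᵥ w) = δ u v w}
      mul_mem' := fun {a b} ha hb u v w => by
        simp only [Units.val_mul, ← mulVec_mulVec]; rw [ha, hb]
      one_mem' := fun u v w => by simp
      inv_mem' := fun {a} ha u v w => by rw [← ha]; simp only [mulVec_inv_mulVec] }
  have k : ∀ g : GL (Fin t → Fin 3) F, (∀ u v w, δ ((g : Matrix _ _ F) *ᵥ pv u)
      ((g : Matrix _ _ F) *ᵥ pv v) ((g : Matrix _ _ F) *ᵥ pv w) = δ (pv u) (pv v) (pv w)) → g ∈ S :=
    fun g h u v w => by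
      have b := Pi.basisFun F (Fin t → Fin 3)
      have : act (g : Matrix _ _ F).mulVecLin δ = δ := (Pi.basisFun F _).ext fun a =>
        (Pi.basisFun F _).ext fun b => (Pi.basisFun F _).ext fun c => by
          obtain ⟨u, hu⟩ := H99.single_mem_pureVecs (F := F) a
          obtain ⟨v, hv⟩ := H99.single_mem_pureVecs (F := F) b
          obtain ⟨w, hw⟩ := H99.single_mem_pureVecs (F := F) c
          simp only [Pi.basisFun_apply, funext hu, funext hv, funext hw]
          exact h u v w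
      exact (congrArg (fun δ => δ u v w) this :)
  have hu : Subsingleton Fˣ := by
    classical exact Fintype.card_le_one_iff_subsingleton.1 (by rw [Fintype.card_units, hq])
  refine wreath_le (S := S) (fun x => k _ fun u v w => ?_) (fun s => k _ fun u v w => ?_) hg u v w
  · have e : ∀ u, (pureG x).1 *ᵥ pv u = pv fun j => (x j).1 *ᵥ u j := fun u => pureT_mulVec _ u
    rw [e, e, e, hδ, hδ]
    refine Finset.prod_congr rfl fun j _ => ?_
    rw [show Matrix.of ![(x j).1 *ᵥ u j, (x j).1 *ᵥ v j, (x j).1 *ᵥ w j] =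
      Matrix.of ![u j, v j, w j] * (x j).1ᵀ from by
        ext a b; fin_cases a <;> simp [mul_apply, mulVec, dotProduct, mul_comm], det_mul,
      det_transpose, H99.mem_sl.1 (Subsingleton.elim _ _), mul_one]
  · have e : ∀ u : Fin t → Fin 3 → F, (permG (Fin 3) F s).1 *ᵥ pv u = pv (u ∘ s.symm) := fun u => by
      ext a
      simp only [coe_permG, permM, mulVec, dotProduct, of_apply, ite_mul, one_mul, zero_mul,
        Finset.sum_ite_eq', Finset.mem_univ, if_true, pv]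
      exact Fintype.prod_equiv s _ _ fun i => by simp
    rw [e, e, e, hδ, hδ]
    exact Equiv.prod_comp s.symm fun j => (Matrix.of ![u j, v j, w j]).det

theorem exists_E : ∃ E : F × F → GL (Fin 3) F, (∀ a b, E (a + b) = E a * E b) ∧
    (∀ a, a ≠ 0 → E a ∈ RootS (Fin 3) F) ∧ ∃ u : F × F → Fin 3 → F, ∑ a, u a = 0 ∧
      ∀ a, ((E a)⁻¹).1 = 1 - vecMulVec (u a) (bv F 2) := by
  refine ⟨fun a => H99.tv ![a.1, a.2, 0] (bv F 2) (by simp [bv]), fun a b => Units.ext ?_,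
    fun a ha => ⟨H99.tv_mem_sl _ _ _, _, _, fun h => ha (Prod.ext (congrFun h 0) (congrFun h 1)),
      by simp [bv], by simp [bv], rfl⟩, _, funext fun i => ?_, fun a => rfl⟩
  · simp only [Units.val_mul, H99.coe_tv, add_mul, mul_add, one_mul, mul_one, vmv_mul_vmv]
    rw [show (![(a + b).1, (a + b).2, 0] : Fin 3 → F) = ![a.1, a.2, 0] + ![b.1, b.2, 0] by simp,
      vmv_add_left, bv_dot]
    simp only [Matrix.cons_val, zero_smul, add_zero]; abel
  rw [Finset.sum_apply]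
  fin_cases i
  · simp [Fintype.sum_prod_type]
  · simp [Fintype.sum_prod_type_right]
  · simp

variable {t : ℕ} {e : ι ≃ (Fin t → Fin 3)} {P : GL ι F}

theorem fix (hq : Fintype.card F = 2) (hH : tensorWreathSubgroup 3 t e P ≤ M)
    (A : ∀ i, AmbL (φP e P i) M) (hL : ∀ i x, x ≠ 0 → Loc (φP e P i) M x) {g : GL ι F} (hg : g ∈ M)
    {i : Fin t} {r : GL (Fin 3) F} (hr : r ∈ RootS (Fin 3) F)
    (h : g⁻¹ * gφ (φP e P i) r * g ∈ tensorWreathSubgroup 3 t e P) :
    ∃ j, ∀ b, cj g⁻¹ (φP e P i b) ∈ (φP e P j).range := by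
  have S := sys_P e P
  have R : ∀ i, Roots (φP e P i) M _ (RootS (Fin 3) F) := fun i => roots_tv ((A i).actL (hL i))
    (geoL_sl (A i).hk) (Or.inr (A i).hk) (fun e he => he) (gen_rootS (by simp))
  have hp : ∀ i j, ∃ p ∈ M, ∀ b, cj p (φP e P i b) = φP e P j b := fun i j =>
    ⟨_, hH (perm_mem_wreath e P (Equiv.swap i j)), fun b => by rw [cj_perm_φP, Equiv.swap_apply_left]⟩
  have h2 : (2 : F) = 0 := by exact_mod_cast hq ▸ FiniteField.cast_card_eq_zero F
  obtain ⟨E, hE, rE, -⟩ := exists_E (F := F)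
  obtain ⟨s, x, -, hs⟩ := H10.wreath_cj' h
  by_contra hc
  push Not at hc
  have h3 := S.sc fun j => (cross R hp hg hr ⟨x (s j), fun b => by
    have := noswap S R hp hg hr (by simp) ?_ (rE (1, 0) (by simp)) (rE (0, 1) (by simp))
      (hE _ _ ▸ rE _ (by simp)) (hs j)
    · exact (hs j b).trans (congrArg (fun l => φP e P l _) this)
    rintro r ⟨-, u, ψ, -, -, h0, hr⟩
    refine Units.ext ?_
    rw [Units.val_mul, hr, add_mul, mul_add, mul_add, vmv_mul_vmv, h0]
    simp [add_assoc, ← two_smul F, h2]⟩).resolve_left (not_forall.2 (hc j)) r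
  have h4 := h3.cj g
  rw [cj_cj_inv] at h4
  exact (R i).nsc _ hr (h4 ▸ h3.cm _)

theorem mem_of_range (ht : 0 < t) {g : GL ι F}
    (h : ∀ i, ∃ j, ∀ b, cj g (φP e P i b) ∈ (φP e P j).range) : g ∈ tensorWreathSubgroup 3 t e P := by
  choose s hs using h
  choose x hx using fun i => exists_cj_of_mapsTo _ (φP e P (s i)) phi_injective _ (hs i)
  obtain ⟨b₀, hb₀⟩ := not_comm_all (α := Fin 3) (F := F) (by simp)
  have inj : Function.Injective s := fun i i' h => by
    by_contra hne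
    refine hb₀ (scalar_of_comm_all fun b => ?_)
    have := congrArg (cj g) ((sys_P e P).cm i i' hne (cj (x i')⁻¹ (cj (x i) b)) b₀)
    rw [map_mul, map_mul, hx, hx, cj_cj_inv, ← h, ← map_mul, ← map_mul, ← map_mul, ← map_mul] at this
    exact (cj (x i)).injective (phi_injective this)
  refine mem_tensorWreathSubgroup.2 (mem_wreath_of_cj (by omega) ht (Equiv.ofBijective s
    (Finite.injective_iff_bijective.1 inj)) x fun i X => (frm e P).injective ?_)
  rw [← cj_frmG, MulEquiv.apply_symm_apply]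
  exact hx i X

end S32

open S32

theorem exists_tri {t : ℕ} (ht : 0 < t) (hq : Fintype.card F = 2) (e : ι ≃ (Fin t → Fin 3))
    (P : GL ι F) (hH : tensorWreathSubgroup 3 t e P ≤ M) (A : ∀ i, AmbL (φP e P i) M)
    (hL : ∀ i x, x ≠ 0 → Loc (φP e P i) M x) :
    ∃ Δ : (ι → F) →ₗ[F] (ι → F) →ₗ[F] (ι → F) →ₗ[F] F, Δ ≠ 0 ∧
      ∀ g ∈ M, ∀ u v w, Δ ((g : Matrix ι ι F) *ᵥ u) ((g : Matrix ι ι F) *ᵥ v)
        ((g : Matrix ι ι F) *ᵥ w) = Δ u v w := by
  classical
  obtain ⟨E, hE, rE, u, hu, iE⟩ := exists_E (F := F)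
  obtain ⟨δ, hδ⟩ := exists_delta (F := F) (τ := Fin t)
  let K : Subgroup M := (tensorWreathSubgroup 3 t e P).subgroupOf M
  have : Fintype (M ⧸ K) := Fintype.ofFinite _
  obtain ⟨D, hD⟩ : ∃ D : M ⧸ K → (ι → F) →ₗ[F] (ι → F) →ₗ[F] (ι → F) →ₗ[F] F, ∀ g : M, D g =
      act ((frmV e P).symm.toLinearMap ∘ₗ ((g : GL ι F)⁻¹).1.mulVecLin) δ :=
    ⟨Quotient.lift _ fun a b hab => LinearMap.ext₂ fun u v => LinearMap.ext fun w => by
      have h1 := delta_inv hq hδ (mem_tensorWreathSubgroup.1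
        (Subgroup.mem_subgroupOf.1 (QuotientGroup.leftRel_apply.1 hab)))
      simp only [act_apply, LinearMap.comp_apply, mulVecLin_apply, LinearEquiv.coe_coe]
      rw [← h1 ((frmV e P).symm (((b : GL ι F)⁻¹).1 *ᵥ u))]
      simp only [← H99.frmV_symm_mulVec, mulVec_mulVec, ← Units.val_mul]
      simp, fun g => rfl⟩
  have ind : ∀ B : M ⧸ K, ∃ g : M, B = g := fun B => (QuotientGroup.mk_surjective B).imp
    fun g hg => hg.symm
  have hf : ∀ (g : M) (B : M ⧸ K) u v w, D (g • B) u v w = D B (((g : GL ι F)⁻¹).1 *ᵥ u)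
      (((g : GL ι F)⁻¹).1 *ᵥ v) (((g : GL ι F)⁻¹).1 *ᵥ w) := fun g B u v w => by
    obtain ⟨b, rfl⟩ := ind B
    rw [show g • (b : M ⧸ K) = ((g * b : M) : M ⧸ K) from rfl, hD, hD]
    simp [act_apply]
  have hfix : ∀ (k g : M), k • (g : M ⧸ K) = g ↔
      (g : GL ι F)⁻¹ * k * g ∈ tensorWreathSubgroup 3 t e P := fun k g => by
    rw [show k • (g : M ⧸ K) = ((k * g : M) : M ⧸ K) from rfl, eq_comm, QuotientGroup.eq,
      Subgroup.mem_subgroupOf]
    simp [mul_assoc]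
  refine ⟨∑ B, D B, fun h0 => ?_, fun g hg u v w => ?_⟩
  swap
  · simp only [LinearMap.sum_apply]
    refine (Fintype.sum_equiv (MulAction.toPerm (⟨g, hg⟩ : M)) _ _ fun B => ?_).symm
    simp only [MulAction.toPerm_apply, hf, inv_mulVec_mulVec]
  let v : Fin 3 → ι → F := fun r => frmV e P (pv fun _ => bv F r)
  have hv : ∀ i u r, r ≠ 2 → φP e P i (vecMulVec u (bv F 2)) *ᵥ v r = 0 := fun i u r hr => by
    rw [φP_apply, frm_mulVec, powEmb_apply, map_eq_zero_iff _ (frmV e P).injective]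
    refine (pureT_mulVec _ _).trans (funext fun x => Finset.prod_eq_zero (Finset.mem_univ i) ?_)
    rw [Function.update_self, vmv_mulVec, bv_dot]
    simp [bv, hr.symm]
  obtain ⟨ε, hε⟩ : ∃ ε : Fin t → F × F → M, ∀ i a, (ε i a : GL ι F) = gφ (φP e P i) (E a) :=
    ⟨fun i a => ⟨_, hH (gφP_mem e P i _)⟩, fun _ _ => rfl⟩
  have := sum_eq_fix ε (fun i a b => Subtype.ext (by simp [hE, hε])) (fun i j a b => Subtype.ext ?_)
    (fun B => D B (v 0) (v 1) (v 2)) (fun i B a ha h a' => ?_) (fun i B => ?_)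
    (B₀ := ((1 : M) : M ⧸ K)) fun B => ?_
  · have h1 := congrArg (fun Δ => Δ (v 0) (v 1) (v 2)) h0
    simp only [LinearMap.sum_apply, this, hD, act_apply] at h1
    simp [v, hδ, det_fin_three, bv] at h1
  · rw [Subgroup.coe_mul, Subgroup.coe_mul, hε, hε]
    by_cases hij : i = j
    · rw [hij, ← map_mul, ← map_mul, ← hE, ← hE, add_comm]
    · exact Units.ext ((sys_P e P).cm i j hij _ _)
  · obtain ⟨g, rfl⟩ := ind B
    rw [hfix, hε] at h ⊢
    obtain ⟨j, hj⟩ := fix hq hH A hL g.2 (rE a ha) h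
    have := hj (E a')
    rw [← coe_gφ, cj_coe, inv_inv] at this
    exact (exists_gφ this).elim fun x hx => hx ▸ gφP_mem e P j x
  · simp only [hf, hε, coe_gφ_inv, iE, map_sub, map_one, sub_mulVec, one_mulVec,
      hv i _ 0 (by decide), hv i _ 1 (by decide), sub_zero]
    rw [Finset.sum_sub_distrib, Finset.sum_const, ← map_sum, ← sum_mulVec, ← map_sum,
      ← Nat.cast_smul_eq_nsmul F, show ∑ a, vecMulVec (u a) (bv F (2 : Fin 3)) =
        vecMulVec (∑ a, u a) (bv F 2) by ext; simp [Matrix.sum_apply, vecMulVec_apply, Finset.sum_mul], hu]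
    simp
  obtain ⟨g, rfl⟩ := ind B
  refine ⟨fun h => QuotientGroup.eq.2 (Subgroup.mem_subgroupOf.2 ?_), fun h i a => ?_⟩
  · simp only [hfix, hε] at h
    simpa using mem_of_range ht fun i => fix hq hH A hL g.2 (rE (1, 0) (by simp)) (h i _)
  · rw [h, hfix, hε]; simpa using gφP_mem e P i _

end Cfsg.Agent.H9
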