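import Cfsg.Agent.H9.TSL32a
import Cfsg.Agent.H9.TSL32b

/-! Maximality of the stabilisers of tensor powers in the special linear group. -/

set_option autoImplicit false
set_option linter.unusedSectionVars false
set_option linter.unusedVariables false

namespace Cfsg.Agent.H9

open scoped MatrixGroups Matrix
open Matrix Cfsg.Geo Cfsg.Agent.H98

universe u

variable {ι : Type} [Fintype ι] [DecidableEq ι] {F : Type u} [Field F]

theorem isMaximalIn_sl_wreath' [Fintype F] {k t : ℕ} (hk : 3 ≤ k) (ht : 2 ≤ t)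
    (e : ι ≃ (Fin t → Fin k)) (P : GL ι F) :
    IsMaximalIn (specialLinear ι F) (tensorWreathSubgroup k t e P ⊓ specialLinear ι F) := by
  by_cases hex : k = 3 ∧ Fintype.card F = 2
  swap
  · exact isMaximalIn_sl_wreath hk ht hex e P
  obtain ⟨rfl, hq⟩ := hex
  refine isMaximalIn_sl_wreath_of hk ht e P fun M hH hM hL i g hg => ?_
  have : Nonempty ι := ⟨e.symm fun _ => 0⟩
  have A : ∀ i, AmbL (φP e P i) M := fun i =>
    ambL_of (by simp) hM fun x hx => hH ⟨gφP_mem e P i x, hx⟩
  have hu : Subsingleton Fˣ := by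
    classical exact Fintype.card_le_one_iff_subsingleton.1 (by rw [Fintype.card_units, hq])
  obtain ⟨Δ, h0, hΔ⟩ := exists_tri (by omega) hq e P
    (fun g hg => hH ⟨hg, Subsingleton.elim _ _⟩) A hL
  exact dich_of_tri (sys_P e P) A hq hL h0 hΔ i hg

end Cfsg.Agent.H9
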