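import Cfsg.Agent.H9.TOp

/-! Generic facts on groups containing the Eichler transformations; root elements. -/

set_option autoImplicit false
set_option linter.unusedSectionVars false
set_option linter.unusedVariables false
set_option linter.unusedSimpArgs false

namespace Cfsg.Agent.H9

open scoped MatrixGroups Matrix
open Matrix Cfsg.Geo Cfsg.Agent.H98 Module

variable {ι β : Type} [Fintype ι] [DecidableEq ι] [Fintype β] [DecidableEq β] {F : Type*} [Field F]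

/-- The isotropic points. -/
def IsoPt (f : (β → F) → (β → F) → F) (x : β → F) : Prop := x ≠ 0 ∧ f x x = 0

/-- Witt index at least two. -/
def W2 (f : (β → F) → (β → F) → F) : Prop :=
  ∀ x y, HP f x y → ∃ u u', HP f u u' ∧ f x u = 0 ∧ f y u = 0 ∧ f x u' = 0 ∧ f y u' = 0

/-- The transvections of a unitary or symplectic group. -/
def RootT (f : (β → F) → (β → F) → F) (G : Subgroup (GL β F)) : Set (GL β F) :=
  {e | e ∈ G ∧ ∃ (u : β → F) (θ : F), u ≠ 0 ∧ f u u = 0 ∧ θ ≠ 0 ∧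
    (e : Matrix β β F) = 1 + θ • br f u u}

/-- The long root elements of an orthogonal group. -/
def RootL (f : (β → F) → (β → F) → F) (G : Subgroup (GL β F)) : Set (GL β F) :=
  {e | e ∈ G ∧ ∃ u v : β → F, f u u = 0 ∧ f v v = 0 ∧ f v u = 0 ∧ u ≠ 0 ∧ (∀ a : F, v ≠ a • u) ∧
    (e : Matrix β β F) = 1 + (br f u v - br f v u)}

/-- The reflection in a non-isotropic vector. -/
def rfz (f : (β → F) → (β → F) → F) (z : β → F) : Matrix β β F := 1 - (2 / f z z) • br f z z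

/-- The matrices of `G` fixing the point `x`. -/
def StabS (G : Subgroup (GL β F)) (x : β → F) : Set (Matrix β β F) :=
  {h | h ∈ matrixSet G ∧ ∃ a : F, h *ᵥ x = a • x}

/-- `M` contains the unipotent radical attached to the idempotent `a`. -/
def FullQ (σ : F ≃+* F) (f : (ι → F) → (ι → F) → F) (M : Subgroup (GL ι F)) (a : Matrix ι ι F) :
    Prop :=
  (∀ ρ, a * ρ = ρ → ρ * (1 - adj σ f a - a) = ρ → ρ ∈ Rho M a (1 - adj σ f a)) ∧
    ∀ c, a * c = c → c * adj σ f a = c → 1 + (c - adj σ f c) ∈ matrixSet M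

variable {σ : F ≃+* F} {ε : F} {f : (β → F) → (β → F) → F}

theorem exists_perp (hf : IsSesq σ ε f) {m : ℕ} (hm : m < Fintype.card β) (s : Fin m → β → F) :
    ∃ v, v ≠ 0 ∧ ∀ i, f v (s i) = 0 := by
  let L : (β → F) →ₗ[F] (Fin m → F) := (Matrix.of fun i => dl f (s i)).mulVecLin
  have := LinearMap.ker_ne_bot_of_finrank_lt (f := L) (by simpa using hm)
  obtain ⟨v, hv, h0⟩ := Submodule.exists_mem_ne_zero_of_ne_bot this
  exact ⟨v, h0, fun i => by rw [← dl_dot hf]; exact congrFun hv i⟩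

/-- The projection onto the complement of a hyperbolic plane. -/
theorem HP.exists_part (hf : IsSesq σ ε f) {x y : β → F} (H : HP f x y) (w : β → F) :
    ∃ w', f w' x = 0 ∧ f w' y = 0 ∧ ∀ v, f x v = 0 → f y v = 0 → f w' v = f w v :=
  ⟨_, (perp_part hf H w).1, (perp_part hf H w).2, fun v h1 h2 => by
    simp [hf.sub_left, hf.smul_left, h1, h2]⟩

theorem exists_pair_perp (hf : IsSesq σ ε f) (hk : 3 ≤ Fintype.card β) {x y : β → F}
    (H : HP f x y) : ∃ v w, f x v = 0 ∧ f y v = 0 ∧ f w x = 0 ∧ f w y = 0 ∧ f w v = 1 := by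
  obtain ⟨v, h0, hv⟩ := exists_perp hf (m := 2) hk ![x, y]
  obtain ⟨w, hw⟩ := exists_f_one' hf h0
  obtain ⟨w', h1, h2, h3⟩ := H.exists_part hf w
  have a1 := hf.eq_zero_comm.1 (hv 0)
  have a2 := hf.eq_zero_comm.1 (hv 1)
  exact ⟨v, w', a1, a2, h1, h2, by rw [h3 v a1 a2, hw]⟩

theorem exists_pair_perp4 (hf : IsSesq σ ε f) (hk : 5 ≤ Fintype.card β) {x y u u' : β → F}
    (H : HP f x y) (H' : HP f u u') (h1 : f x u = 0) (h2 : f y u = 0) (h3 : f x u' = 0)
    (h4 : f y u' = 0) : ∃ v w, (f x v = 0 ∧ f y v = 0 ∧ f u v = 0 ∧ f u' v = 0) ∧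
      (f w x = 0 ∧ f w y = 0 ∧ f w u = 0 ∧ f w u' = 0) ∧ f w v = 1 := by
  obtain ⟨v, h0, hv⟩ := exists_perp hf (m := 4) hk ![x, y, u, u']
  obtain ⟨w, hw⟩ := exists_f_one' hf h0
  obtain ⟨w', b1, b2, b3⟩ := H.exists_part hf w
  have a1 := hf.eq_zero_comm.1 (hv 0)
  have a2 := hf.eq_zero_comm.1 (hv 1)
  have a3 := hf.eq_zero_comm.1 (hv 2)
  have a4 := hf.eq_zero_comm.1 (hv 3)
  refine ⟨v, w' - f w' u' • u - (ε * f w' u) • u', ⟨a1, a2, a3, a4⟩,
    ⟨?_, ?_, (perp_part hf H' w').1, (perp_part hf H' w').2⟩, ?_⟩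
  · simp [hf.sub_left, hf.smul_left, b1, hf.eq_zero_comm.1 h1, hf.eq_zero_comm.1 h3]
  · simp [hf.sub_left, hf.smul_left, b2, hf.eq_zero_comm.1 h2, hf.eq_zero_comm.1 h4]
  · simp only [Matrix.cons_val] at a1 a2 a3 a4
    simp [hf.sub_left, hf.smul_left, a3, a4, b3 v a1 a2, hw]

variable {G : Subgroup (GL β F)} (C : Cl σ ε f G)
include C

theorem Cl.nonempty : Nonempty β := by
  obtain ⟨x, h0, -⟩ := C.ex
  obtain ⟨i, -⟩ := Function.ne_iff.1 h0
  exact ⟨i⟩

theorem Cl.mono {G' : Subgroup (GL β F)} (h : G ≤ G') (h' : G' ≤ Isom σ f) : Cl σ ε f G' :=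
  ⟨C.ses, h', C.tv, fun x v θ h1 h2 h3 => ms_mono h (C.el x v θ h1 h2 h3), C.th, C.ex⟩

theorem Cl.trans_hp {x y u u' : β → F} (H : HP f x y) (H' : HP f u u') :
    ∃ g ∈ G, ∃ a : F, a ≠ 0 ∧ (g : Matrix β β F) *ᵥ x = a • u ∧
      (g : Matrix β β F) *ᵥ y = (σ a)⁻¹ • u' := by
  have hf := C.ses
  obtain ⟨g, hg, a, ha, e⟩ := C.trans H.xx H'.xx (H.ne hf) (H'.ne hf)
  have h1 : f ((g : Matrix β β F) *ᵥ y) u = ε * (σ a)⁻¹ := by
    have := C.le hg y x
    rw [e, hf.smul_right, H.yx hf] at this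
    rw [← this]; field_simp [(map_ne_zero σ).2 ha]
  obtain ⟨z, θ, h2, h3, h4⟩ := exists_elm_move hf H'.xx (v := (g : Matrix β β F) *ᵥ y)
    (v' := (σ a)⁻¹ • u') (by rw [C.le hg, H.yy])
    (by rw [hf.smul_left, hf.smul_right, H'.yy, mul_zero, mul_zero])
    (by rw [h1]; exact mul_ne_zero hf.eps_ne_zero (inv_ne_zero ((map_ne_zero σ).2 ha)))
    (by rw [hf.smul_left, H'.yx hf, h1, mul_comm])
  obtain ⟨k, hk, e'⟩ := mem_matrixSet.1 (C.el u z θ H'.xx h2 h3)
  refine ⟨k * g, G.mul_mem hk hg, a, ha, ?_, ?_⟩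
  · rw [Units.val_mul, ← mulVec_mulVec, e, mulVec_smul, e', elm_mulVec hf, H'.xx,
      hf.eq_zero_comm.1 h2]; simp
  · rw [Units.val_mul, ← mulVec_mulVec, e', h4]

theorem Cl.cj_hp {x y u u' : β → F} (H : HP f x y) (H' : HP f u u') :
    ∃ g ∈ G, cj g (br f x y) = br f u u' ∧ cj g (pr f ε x y) = pr f ε u u' ∧ ∃ a : F, a ≠ 0 ∧
      (g : Matrix β β F) *ᵥ x = a • u ∧ (g : Matrix β β F) *ᵥ y = (σ a)⁻¹ • u' := by
  obtain ⟨g, hg, a, ha, e, e'⟩ := C.trans_hp H H'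
  have ha' := (map_ne_zero σ).2 ha
  refine ⟨g, hg, ?_, ?_, a, ha, e, e'⟩
  · rw [cj_br C.ses (C.le hg), e, e', br_smul_left, br_smul_right C.ses, map_inv₀, C.ses.invol,
      smul_smul, mul_inv_cancel₀ ha, one_smul]
  · rw [pr, pr, map_sub, map_one, map_smul, cj_br C.ses (C.le hg), e, e', br_smul_left,
      br_smul_right C.ses, smul_smul (σ a)⁻¹, inv_mul_cancel₀ ha', one_smul]

theorem Cl.br_mem {x y : β → F} (H : HP f x y) {S : Subalgebra F (Matrix β β F)}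
    (h : ∀ v θ, f v x = 0 → f v y = 0 → Vd σ ε f v θ → elm f ε x v θ ∈ S) : br f x x ∈ S := by
  obtain ⟨v, -, θ, h1, h2, h3, h4, h5⟩ := C.th x trivial y trivial H
  have k := sub_mem (h v θ h1 h2 h3) (one_mem S)
  rcases h5 with rfl | ⟨-, h6⟩
  · rw [elm_zero C.ses, add_sub_cancel_left] at k
    simpa [h4] using S.smul_mem k θ⁻¹
  · have k2 := mul_mem k k
    rw [elm_sub_one_sq C.ses H.xx h1] at k2
    have : -(ε * f v v) ≠ 0 := neg_ne_zero.2 (mul_ne_zero C.ses.eps_ne_zero h6)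
    simpa only [inv_smul_smul₀ this] using S.smul_mem k2 (-(ε * f v v))⁻¹

theorem Cl.top_of_br {S : Subalgebra F (Matrix β β F)} (h : ∀ w, w ≠ 0 → f w w = 0 → br f w w ∈ S) :
    S = ⊤ := by
  refine eq_top_iff.2 fun b _ => C.big (D := S.toSubring.toNonUnitalSubring) (fun w hw c => ?_) b
  by_cases h0 : w = 0
  · rw [h0, br_zero_left, smul_zero]; exact zero_mem _
  · exact S.smul_mem (h w h0 hw) c

theorem Cl.irr : Algebra.adjoin F (matrixSet G) = ⊤ :=
  C.top_of_br fun w h0 hw => by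
    obtain ⟨y, H⟩ := C.partner h0 hw
    exact C.br_mem H fun v θ h1 h2 h3 => Algebra.subset_adjoin (C.el w v θ hw h1 h3)

theorem Cl.br_mem_stab {x : β → F} (h0 : x ≠ 0) (hx : f x x = 0) :
    br f x x ∈ Algebra.adjoin F (StabS G x) := by
  obtain ⟨y, H⟩ := C.partner h0 hx
  exact C.br_mem H fun v θ h1 h2 h3 => Algebra.subset_adjoin ⟨C.el x v θ hx h1 h3, 1, by
    rw [elm_mulVec C.ses, hx, C.ses.eq_zero_comm.1 h1]; simp⟩

theorem Cl.big_br {u : β → F} (h0 : u ≠ 0) (hu : f u u = 0) : Big G (br f u u) := fun D hD h =>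
  C.big (D := D.toNonUnitalSubring) fun w hw c => by
    by_cases h0' : w = 0
    · rw [h0', br_zero_left, smul_zero]; exact zero_mem _
    obtain ⟨g, hg, a, ha, e⟩ := C.trans hu hw h0 h0'
    have := hD g hg _ h
    rw [cj_br C.ses (C.le hg), e, br_smul_left, br_smul_right C.ses, smul_smul] at this
    have h2 : a * σ a ≠ 0 := mul_ne_zero ha ((map_ne_zero σ).2 ha)
    have := D.smul_mem (c * (a * σ a)⁻¹) this
    rwa [smul_smul, inv_mul_cancel_right₀ h2] at this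

theorem Cl.big_hp {x y : β → F} (H : HP f x y) : Big G (br f x y) := fun D hD h => by
  have hf := C.ses
  obtain ⟨v, -, θ, h1, h2, h3, h4, h5⟩ := C.th x trivial y trivial H
  have key : ∀ v, f v x = 0 → f v y = 0 → Vd σ ε f v θ →
      σ (θ * ε) • br f x x - br f x v ∈ D := fun v h1 h2 h3 => by
    obtain ⟨g, hg, e⟩ := mem_matrixSet.1 (C.el x v θ H.xx h1 h3)
    have := D.sub_mem (hD g hg _ h) h
    rw [cj_br hf (C.le hg), e, elm_partner hf H h2, elm_mulVec hf, H.xx,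
      hf.eq_zero_comm.1 h1] at this
    simp only [mul_zero, add_zero, zero_smul, sub_zero, br_sub_right hf, br_add_right hf,
      br_smul_right hf] at this
    rwa [show ∀ a b c : Matrix β β F, a + b - c - a = b - c from fun a b c => by abel] at this
  have h6 : σ (θ * ε) ≠ 0 := (map_ne_zero σ).2 (mul_ne_zero h4 hf.eps_ne_zero)
  refine C.big_br (H.ne hf) H.xx D hD ?_
  rcases h5 with rfl | ⟨h5, -⟩
  · have := D.smul_mem (σ (θ * ε))⁻¹ (key 0 h1 h2 h3)
    rwa [br_zero_right hf, sub_zero, inv_smul_smul₀ h6] at this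
  · have := D.smul_mem (2 * σ (θ * ε))⁻¹ (D.add_mem (key v h1 h2 h3) (key (-v)
      (by rw [hf.neg_left, h1, neg_zero]) (by rw [hf.neg_left, h2, neg_zero]) (h3.neg hf)))
    rwa [br_neg_right hf, sub_neg_eq_add, sub_add_add_cancel, ← two_smul F, smul_smul 2,
      inv_smul_smul₀ (mul_ne_zero h5 h6)] at this

theorem Cl.good_hp {x y : β → F} (H : HP f x y) : Good G (br f x y) :=
  good_of_idem (by rw [br_mul_br C.ses, H.xy, one_smul]) (C.big_hp H)

theorem Cl.good_br {u : β → F} (h0 : u ≠ 0) (hu : f u u = 0) : Good G (br f u u) := by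
  obtain ⟨y, H⟩ := C.partner h0 hu
  obtain ⟨g, hg, a, ha, e⟩ := C.trans hu H.yy h0 (H.ne' C.ses)
  refine Good.of_mul_cj hg ?_
  rw [cj_br C.ses (C.le hg), e, br_smul_left, br_smul_right C.ses, mul_smul_comm, mul_smul_comm,
    br_mul_br C.ses, H.yx C.ses]
  exact (((C.good_hp H).smul C.ses.eps_ne_zero).smul ((map_ne_zero σ).2 ha)).smul ha

/-- The stabiliser argument, given two non-orthogonal points reached from the stabiliser. -/
theorem Cl.geoL_of (h : ∀ x, IsoPt f x → ∃ u u' ψ ψ', IsoPt f u ∧ IsoPt f u' ∧ f u u' ≠ 0 ∧ ψ ≠ 0 ∧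
    ψ' ≠ 0 ∧ vecMulVec u ψ ∈ Algebra.adjoin F (StabS G x) ∧
      vecMulVec u' ψ' ∈ Algebra.adjoin F (StabS G x)) : GeoL G (IsoPt f) := by
  intro A hA x hx h1
  have hf := C.ses
  let P : (β → F) → Prop := fun u => u ≠ 0 ∧ Algebra.adjoin F (StabS G u) ≤ A
  have k : ∀ u ψ, IsoPt f u → ψ ≠ 0 → vecMulVec u ψ ∈ A → P u := fun u ψ hu hψ h => ⟨hu.1,
    Algebra.adjoin_le (by rintro _ ⟨⟨g, hg, rfl⟩, a, ha⟩; exact hA u ψ hu hψ h g hg a ha)⟩
  have kx : Algebra.adjoin F (StabS G x) ≤ A :=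
    Algebra.adjoin_le (by rintro _ ⟨⟨g, hg, rfl⟩, a, ha⟩; exact h1 g hg a ha)
  obtain ⟨u, u', ψ, ψ', hu, hu', huu, hψ, hψ', m, m'⟩ := h x hx
  refine C.top_of_br fun w h0 hw => (conn hf (Sg := fun v => f v v = 0) (P := P) (fun v h => h)
    (fun v w hv h => exists_iso_add hf C.tv hv h) ?_ hu.2 hu'.2 (k u ψ hu hψ (kx m))
    (k u' ψ' hu' hψ' (kx m')) huu hw h0).2 (C.br_mem_stab h0 hw)
  intro u v v' hu hv hv' pu pv h2 h3
  obtain ⟨g, hg, a, ha, e, e'⟩ := C.move hu hv hv' h2 h3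
  have h4 : v' ≠ 0 := by rintro rfl; exact h3 (hf.zero_left u)
  have := mul_mem (pu.2 (Algebra.subset_adjoin ⟨coe_mem_matrixSet hg, 1, by rw [e', one_smul]⟩))
    (pv.2 (C.br_mem_stab pv.1 hv))
  rw [mul_br, e, br, vmv_smul_left, ← vmv_smul_right] at this
  exact k v' _ ⟨h4, hv'⟩ (smul_ne_zero ha (dl_ne_zero hf pv.1)) this

omit C

variable {φ : Matrix β β F →ₐ[F] Matrix ι ι F} {M : Subgroup (GL ι F)} [Nonempty ι] [Nonempty β]

/-- Transvections are root elements. -/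
theorem roots_tv [Finite F] {Pt : (β → F) → Prop} (L : ActL φ M G Pt) (hG : GeoL G Pt)
    (hk : (2 : F) ≠ 0 ∨ 3 ≤ Fintype.card β) {Root : Set (GL β F)}
    (h1 : ∀ e ∈ Root, e ∈ G ∧ ∃ u ψ, Pt u ∧ ψ ≠ 0 ∧ ψ ⬝ᵥ u = 0 ∧
      (e : Matrix β β F) = 1 + vecMulVec u ψ)
    (gen : Algebra.adjoin F (Units.val '' Root) = ⊤) : Roots φ M G Root where
  mem := L.sub
  sub := fun e he => (h1 e he).1
  nsc := fun e he h => by
    obtain ⟨-, u, ψ, hu, hψ, h0, h2⟩ := h1 e he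
    refine not_cm_vmv (φ := φ) (L.ne u hu) hψ h0 ?_
    have := h.sub Cm.one
    rwa [h2, map_add, map_one, add_sub_cancel_left] at this
  det := fun e he => by
    obtain ⟨-, u, ψ, hu, hψ, h0, h2⟩ := h1 e he
    refine (L.det_pt hG hu hψ).of_adjoin ?_
    rw [← add_sub_cancel_left 1 (vecMulVec u ψ), ← h2]
    exact sub_mem (Algebra.self_mem_adjoin_singleton F _) (one_mem _)
  gen := gen
  tri := fun e he g hg h => by
    obtain ⟨-, u, ψ, hu, hψ, h0, h2⟩ := h1 e he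
    obtain ⟨c, x, hc, e1⟩ := exists_of_mem_KB h
    have e2 : cj g (φ e) = c * φ x := by rw [← coe_gφ, cj_coe, e1]; rfl
    have e3 : (c : Matrix ι ι F) * φ x - 1 = cj g (φ (vecMulVec u ψ)) := by
      rw [← e2, h2, map_add, map_add, map_one, map_one, add_sub_cancel_left]
    rw [e2]
    exact rank_pure hc c.mul_inv c.inv_mul x.mul_inv x.inv_mul hk (by
      rw [e3, ← map_mul, ← map_mul, vmv_mul_vmv, h0, zero_smul, map_zero, map_zero])
      (e3 ▸ (rank_cj_le _ _).trans (rank_phi_vmv_le u ψ))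

/-- A quadratic unipotent pure tensor in odd characteristic lies in one of the factors. -/
theorem pure_odd {c c' : Matrix ι ι F} (hc : Cm φ c) (hcc : c * c' = 1)
    (hcc' : c' * c = 1) {u u' : Matrix β β F} (huu : u * u' = 1) (h2 : (2 : F) ≠ 0)
    (h0 : (c * φ u - 1) * (c * φ u - 1) = 0) : c * φ u ∈ φ.range ∨ Cm φ (c * φ u) := by
  have hc' := hc.inv hcc hcc'
  have e : c * c * φ (u * u) + 1 = (2 : F) • (c * φ u) := by
    rw [← sub_eq_zero, ← h0, map_mul, two_smul]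
    simp only [mul_sub, sub_mul, mul_one, one_mul, mul_assoc, hc.left]; abel
  by_cases hu : ∃ a : F, u = a • (1 : Matrix β β F)
  · obtain ⟨a, rfl⟩ := hu
    right
    rw [map_smul, map_one, mul_smul_comm, mul_one]; exact hc.smul a
  push Not at hu
  have e1 : c * φ u + c' * φ u' = (2 : F) • 1 := by
    have := congrArg (· * (c' * φ u')) e
    simp only [add_mul, one_mul, smul_mul_assoc, mul_assoc, hc'.left, ← map_mul, huu, mul_one,
      map_one, hcc] at this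
    rwa [← mul_assoc c c', hcc, one_mul] at this
  obtain ⟨χ, v, h3, h4⟩ := exists_dot_of_not_scalar hu
  have e2 := congrArg (fun z => cf φ χ z v) e1
  simp only [cf_add, cf_smul, hc.cf_mul_phi, hc'.cf_mul_phi, cf_one, h3, h4, zero_smul,
    one_smul, smul_zero] at e2
  set l := χ ⬝ᵥ u' *ᵥ v
  have e3 : c = (-l) • c' := by rw [neg_smul]; exact eq_neg_of_add_eq_zero_left e2
  have e4 : φ ((-l) • u + u') = (2 : F) • c := by
    have := congrArg (c * ·) e1
    simp only [mul_add, ← mul_assoc, hcc, one_mul, mul_smul_comm, mul_one] at this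
    rw [← this, map_add, map_smul]
    congr 1
    conv_rhs => rw [mul_assoc, e3, smul_mul_assoc, ← mul_assoc c', ← e3, hcc', one_mul]
  left
  have : c ∈ φ.range := by
    rw [← one_smul F c, ← inv_mul_cancel₀ h2, mul_smul, ← e4]
    exact Subalgebra.smul_mem _ (φ.mem_range_self _) _
  exact mul_mem this (φ.mem_range_self _)

/-- Transvections of a unitary or symplectic active factor are root elements. -/
theorem roots_T [Finite F] (C : Cl σ ε f G) {κ : F} (hκ : κ ≠ 0) (hκ' : κ + ε * σ κ = 0)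
    (L : ActL φ M G (IsoPt f)) (hG : GeoL G (IsoPt f)) (hk : (2 : F) ≠ 0 ∨ 3 ≤ Fintype.card β) :
    Roots φ M G (RootT f G) := by
  refine roots_tv L hG hk ?_ (C.top_of_br fun w h0 hw => ?_)
  · rintro e ⟨he, u, θ, h0, hu, hθ, h⟩
    exact ⟨he, u, θ • dl f u, ⟨h0, hu⟩, smul_ne_zero hθ (dl_ne_zero C.ses h0), by
      rw [smul_dotProduct, dl_dot C.ses, hu, smul_zero], by rw [h, vmv_smul_right]; rfl⟩
  · obtain ⟨g, hg, e⟩ := mem_matrixSet.1 (C.el w 0 κ hw (C.ses.zero_left w) (by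
      rw [Vd, C.ses.zero_left, mul_zero, add_zero, hκ']))
    rw [elm_zero C.ses] at e
    have := sub_mem (Algebra.subset_adjoin (R := F) (s := Units.val '' RootT f G)
      ⟨g, ⟨hg, w, κ, h0, hw, hκ, e⟩, e⟩) (one_mem _)
    rw [add_sub_cancel_left] at this
    simpa [hκ] using Subalgebra.smul_mem _ this κ⁻¹

end Cfsg.Agent.H9
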