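import Cfsg.Agent.H9.TC7

/-! Tensor powers of small symplectic spaces in characteristic two normalise a Clifford space. -/

set_option autoImplicit false
set_option linter.unusedSectionVars false
set_option linter.unusedVariables false
set_option linter.unusedSimpArgs false

namespace Cfsg.Agent.H9

open scoped MatrixGroups Matrix
open Matrix Cfsg.Geo Cfsg.Agent.H98

universe u

variable {ι β τ : Type} [Fintype ι] [DecidableEq ι] [Fintype β] [DecidableEq β] [Fintype τ]
  [DecidableEq τ] {F : Type u} [Field F]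

/-- The matrices whose anticommutator with `d` is a scalar. -/
def acS (d : Matrix ι ι F) : Submodule F (Matrix ι ι F) where
  carrier := {z | Sc (z * d + d * z)}
  add_mem' := fun h h' => by
    rw [Set.mem_ofPred_eq, add_mul, mul_add, add_add_add_comm]; exact Sc.add h h'
  zero_mem' := by simpa using Sc.zero
  smul_mem' := fun c z h => by
    rw [Set.mem_ofPred_eq, smul_mul_assoc, mul_smul_comm, ← smul_add]; exact Sc.smul h c

/-- The normaliser of a subspace of matrices. -/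
def nmS (D : Submodule F (Matrix ι ι F)) : Subgroup (GL ι F) where
  carrier := {g | ∀ z, cj g z ∈ D ↔ z ∈ D}
  mul_mem' := fun h h' z => by rw [cj_mul, h, h']
  one_mem' := fun z => by rw [cj_one]
  inv_mem' := fun {g} h z => by rw [← h, cj_cj_inv]

theorem mem_nmS {D : Submodule F (Matrix ι ι F)} {g : GL ι F} (h : ∀ z ∈ D, cj g z ∈ D)
    (h' : ∀ z ∈ D, cj g⁻¹ z ∈ D) : g ∈ nmS D := fun z =>
  ⟨fun hz => by simpa only [cj_inv_cj] using h' _ hz, h z⟩

theorem clif_not_max [Finite F] {Q : (ι → F) → F} (hQ : IsNondegenerateQuadraticForm Q)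
    (hn : 9 ≤ Fintype.card ι) (h2 : (2 : F) = 0) {φ : τ → Matrix β β F →ₐ[F] Matrix ι ι F}
    (S : Sys φ) {D₁ : Submodule F (Matrix β β F)} (hb : ∀ s ∈ D₁, ∀ s' ∈ D₁, Sc (s * s' + s' * s))
    (hc : Algebra.adjoin F (D₁ : Set (Matrix β β F)) = ⊤) {i j : τ} (hij : i ≠ j) (hs : Sing Q (φ i))
    {n : Matrix β β F} (n1 : n ∈ D₁) (n0 : n ≠ 0) (nn : n * n = 0)
    (hd : 1 + (φ i n + φ j n) ∈ matrixSet (omegaGL Q)) {T : Subgroup (GL ι F)}
    (hT : ∀ g ∈ T, ∃ (s : τ → τ) (x : τ → GL β F), ∀ l X, cj g (φ l X) = φ (s l) (cj (x l) X))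
    (hD : ∀ g ∈ omegaGL Q, ∀ l l' x, (∀ X, cj g (φ l X) = φ l' (cj x X)) → ∀ s ∈ D₁, cj x s ∈ D₁) :
    ∃ K, T ⊓ omegaGL Q < K ∧ K < omegaGL Q := by
  have : Nonempty ι := Fintype.card_pos_iff.1 (by omega)
  have hf := isSesq_polar hQ
  have cc : ∀ z : Matrix ι ι F, z + z = 0 := fun z => by rw [← two_smul F, h2, zero_smul]
  have ns : ¬ Sc n := fun h => n0 (by
    have : Nonempty β := ⟨(Function.ne_iff.1 n0).choose⟩
    exact h.eq_zero nn)
  obtain ⟨D, hDD⟩ : ∃ D, D = Submodule.span F (insert 1 {z | ∃ l, ∃ s ∈ D₁, z = φ l s}) := ⟨_, rfl⟩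
  have d1 : 1 ∈ D := hDD ▸ Submodule.subset_span (Or.inl rfl)
  have d2 : ∀ l, ∀ s ∈ D₁, φ l s ∈ D := fun l s hs =>
    hDD ▸ Submodule.subset_span (Or.inr ⟨l, s, hs, rfl⟩)
  have le : ∀ Z : Submodule F (Matrix ι ι F), 1 ∈ Z → (∀ l, ∀ s ∈ D₁, φ l s ∈ Z) → D ≤ Z :=
    fun Z h1 h3 => hDD ▸ Submodule.span_le.2 (by
      rintro _ (rfl | ⟨l, s, hs, rfl⟩); exacts [h1, h3 l s hs])
  have a1 : ∀ d : Matrix ι ι F, 1 ∈ acS d := fun d => by
    show Sc _
    rw [one_mul, mul_one, cc]; exact Sc.zero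
  have ac : ∀ d ∈ D, ∀ z ∈ D, Sc (z * d + d * z) := fun d hd => le (acS d) (a1 d) fun l s hs => by
    show Sc _
    rw [add_comm]
    refine le (acS _) (a1 _) (fun l' s' hs' => ?_) hd
    show Sc _
    by_cases h : l' = l
    · rw [h, ← map_mul, ← map_mul, ← map_add]; exact (hb _ hs' _ hs).phi
    · rw [S.cm l' l h, cc]; exact Sc.zero
  have inv : ∀ g ∈ T ⊓ omegaGL Q, ∀ z ∈ D, cj g z ∈ D := fun g hg => by
    obtain ⟨s, x, h⟩ := hT g hg.1
    exact le (D.comap (cj g).toLinearMap) (show cj g 1 ∈ D by rwa [map_one]) fun l t ht =>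
      show cj g _ ∈ D from h l t ▸ d2 _ _ (hD g hg.2 _ _ _ (h l) t ht)
  have c1 := S.cm i j hij n
  have m1 : ∀ l, φ l n * φ l n = 0 := fun l => by rw [← map_mul, nn, map_zero]
  refine ⟨nmS D ⊓ omegaGL Q, lt_of_le_of_ne (fun g hg => ⟨mem_nmS (inv g hg) (inv _ (inv_mem hg)),
    hg.2⟩) fun h => ?_, lt_of_le_of_ne inf_le_right fun h => ?_⟩
  · obtain ⟨d, hd, e⟩ := mem_matrixSet.1 hd
    have dd : (d : Matrix ι ι F) * d = 1 := by
      simp only [e, mul_add, add_mul, one_mul, mul_one, m1, c1 n]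
      linear_combination (norm := abel) cc (φ i n) + cc (φ j n) + cc (φ j n * φ i n)
    have di : d⁻¹ = d := inv_eq_of_mul_eq_one_right (Units.ext dd)
    have d3 : (d : Matrix ι ι F) ∈ D := e ▸ add_mem d1 (add_mem (d2 _ _ n1) (d2 _ _ n1))
    have k : ∀ z ∈ D, cj d z ∈ D := fun z hz => by
      obtain ⟨a, ha⟩ := ac z hz d d3
      rw [cj_apply, di, eq_sub_of_add_eq ha, sub_mul, mul_assoc, dd, mul_one, smul_mul_assoc, one_mul]
      exact sub_mem (D.smul_mem _ d3) hz
    obtain ⟨s, x, hx⟩ := hT d (h.ge ⟨mem_nmS k (by rwa [di]), hd⟩).1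
    have e1 : ∀ X, cj d (φ i X) = φ i ((1 + n) * X * (1 + n)) + φ j n * φ i (X * n + n * X) :=
      fun X => by
        simp only [cj_apply, di, e, map_mul, map_add, map_one, mul_add, add_mul, one_mul, mul_one,
          mul_assoc, c1 X, c1.left, ← mul_assoc (φ j n) (φ j n), m1, zero_mul]
        linear_combination (norm := abel) cc (φ j n * φ i X)
    have e2 : s i = i := by
      by_contra hi
      have := S.cm i (s i) (Ne.symm hi) (cj (x i) n)
      rw [← hx, e1, nn, add_mul, one_mul, nn, add_zero, mul_add, nn] at this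
      simp only [add_zero, mul_one, map_zero, mul_zero] at this
      exact ns (scalar_of_cm_phi this)
    refine ns (scalar_of_comm_all fun X => by_contra fun hX => ns (sc_phi (φ := φ j)
      (scalar_of_mul_mem_range c1 (b := X * n + n * X) (fun h0 => hX ?_) ?_)))
    · rw [eq_neg_of_add_eq_zero_left h0, eq_neg_iff_add_eq_zero, ← two_smul F, h2, zero_smul]
    · rw [eq_sub_of_add_eq' (e1 X).symm, hx, e2]
      exact sub_mem ((φ i).mem_range_self _) ((φ i).mem_range_self _)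
  · obtain ⟨χ, u, u1, u2⟩ := exists_dot_of_not_scalar (b := n) fun a ha => ns ⟨a, ha⟩
    have u0 : u ≠ 0 := by rintro rfl; simp at u2
    obtain ⟨η, hη⟩ := exists_dot_one u0
    obtain ⟨p, hp⟩ : ∃ p, p = φ i (vecMulVec u η) := ⟨_, rfl⟩
    have cp : p * φ j n = φ j n * p := hp ▸ c1 _
    obtain ⟨v, hv⟩ : ∃ v, (φ j n * p) *ᵥ v ≠ 0 := by
      by_contra hc
      push Not at hc
      exact n0 (phi_injective (φ := φ j) ((c1.eq_zero_of_mul (vmv_ne_zero (ψ := η) u0 (by
        rintro rfl; simp at hη)) (matrix_ext_mulVec fun v => by rw [← hp, hc, zero_mulVec])).trans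
        (map_zero _).symm))
    obtain ⟨a, ha⟩ : ∃ a, a = p *ᵥ v := ⟨_, rfl⟩
    obtain ⟨b, hb⟩ : ∃ b, b = p *ᵥ (φ j n *ᵥ v) := ⟨_, rfl⟩
    have hb' : b = φ j n *ᵥ a := by rw [hb, ha, mulVec_mulVec, mulVec_mulVec, cp]
    have b0 : b ≠ 0 := by rwa [hb, mulVec_mulVec, cp]
    have q : ∀ s t : F, Q (s • a - t • b) = 0 := fun s t => by
      rw [ha, hb, ← mulVec_smul, ← mulVec_smul, ← mulVec_sub, hp, hs]
    have q1 : ∀ w w', QuadraticMap.polar Q (p *ᵥ w) (p *ᵥ w') = 0 := fun w w' => by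
      rw [QuadraticMap.polar, ← mulVec_add, hp, hs, hs, hs]; simp
    obtain ⟨E, hE⟩ : ∃ E, E = br (QuadraticMap.polar Q) a b - br (QuadraticMap.polar Q) b a :=
      ⟨_, rfl⟩
    have Ev : ∀ w, E *ᵥ w = QuadraticMap.polar Q w b • a - QuadraticMap.polar Q w a • b := fun w => by
      rw [hE, sub_mulVec, br_mulVec hf, br_mulVec hf]
    obtain ⟨g, hg, e⟩ := mem_matrixSet.1 (omega_of_alt hQ (by omega) (N := E)
      (fun w => by rw [Ev, q]) fun w => by
        rw [Ev, hf.sub_left, hf.smul_left, hf.smul_left, QuadraticMap.polar_comm _ a,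
          QuadraticMap.polar_comm _ b, mul_comm, sub_self])
    have pp : p * p = p := by rw [hp, ← map_mul, vmv_mul_vmv, hη, one_smul]
    have pE : p * E = E := matrix_ext_mulVec fun w => by
      rw [← mulVec_mulVec, Ev, mulVec_sub, mulVec_smul, mulVec_smul, ha, hb, mulVec_mulVec _ p p,
        mulVec_mulVec _ p p, pp]
    have gi : ((g⁻¹ : GL ι F) : Matrix ι ι F) = 1 - E := Units.inv_eq_of_mul_eq_one_right
      (e ▸ PasA.one_add_mul_one_sub (matrix_ext_mulVec fun w => by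
        rw [← mulVec_mulVec, Ev, ← pE, ← mulVec_mulVec, ha, hb, q1, q1]; simp))
    obtain ⟨z, hz⟩ : ∃ z, z = cj g (φ i n) - φ i n := ⟨_, rfl⟩
    have z1 : z ∈ D := hz ▸ sub_mem (((h.ge hg).1 _).2 (d2 _ _ n1)) (d2 _ _ n1)
    let r : Fin 4 → ι → F := ![a, b, adj (RingEquiv.refl F) (QuadraticMap.polar Q) (φ i n) *ᵥ a,
      adj (RingEquiv.refl F) (QuadraticMap.polar Q) (φ i n) *ᵥ b]
    have z2 : ∀ w, (∀ l, QuadraticMap.polar Q w (r l) = 0) → z *ᵥ w = 0 := fun w hw => by
      have r0 : QuadraticMap.polar Q w a = 0 := hw 0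
      have r1 : QuadraticMap.polar Q w b = 0 := hw 1
      have r2 : QuadraticMap.polar Q (φ i n *ᵥ w) a = 0 := by rw [hf.adj_spec]; exact hw 2
      have r3 : QuadraticMap.polar Q (φ i n *ᵥ w) b = 0 := by rw [hf.adj_spec]; exact hw 3
      simp [hz, cj_apply, gi, e, ← mulVec_mulVec, sub_mulVec, add_mulVec, Ev, r0, r1, r2, r3]
    have z3 : ∀ d ∈ D, z * d + d * z = 0 := fun d hd => by
      obtain ⟨c, hc⟩ := ac d hd z z1
      obtain ⟨w, w0, hw⟩ := exists_perp hf (m := 4 + 4) hn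
        (Fin.append r fun l => adj (RingEquiv.refl F) (QuadraticMap.polar Q) d *ᵥ r l)
      have := congrArg (· *ᵥ w) hc
      simp only [add_mulVec, ← mulVec_mulVec, smul_mulVec, one_mulVec,
        z2 w fun l => by simpa only [Fin.append_left] using hw (Fin.castAdd 4 l),
        z2 (d *ᵥ w) fun l => by
          rw [hf.adj_spec]; simpa only [Fin.append_right] using hw (Fin.natAdd 4 l)] at this
      rw [hc, (smul_eq_zero.1 (show c • w = 0 by simpa using this.symm)).resolve_right w0, zero_smul]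
    obtain ⟨c, hc⟩ := S.sc fun l => cm_of_gen hc (z := z) fun s hs => by
      rw [← neg_eq_of_add_eq_zero_left (cc (φ l s * z)), eq_neg_of_add_eq_zero_left (z3 _ (d2 l s hs))]
    obtain ⟨w, w0, hw⟩ := exists_perp hf (m := 4) (by omega) r
    have := z2 w hw
    rw [hc, smul_mulVec, one_mulVec, smul_eq_zero, or_iff_left w0] at this
    rw [this, zero_smul, hz, sub_eq_zero, cj_eq_iff, e, add_mul, mul_add, one_mul, mul_one,
      add_right_inj] at hc
    have E0 : E = 0 := by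
      have k1 : φ i (vecMulVec u χ) * φ i n * p = p := by
        rw [hp, ← map_mul, ← map_mul, mul_assoc, mul_vmv, vmv_mul_vmv, u2, one_smul]
      have k2 : φ i (vecMulVec u χ) * p = 0 := by
        rw [hp, ← map_mul, vmv_mul_vmv, u1, zero_smul, map_zero]
      rw [← pE, ← k1, mul_assoc, pE, mul_assoc, ← hc, ← pE, ← mul_assoc, ← mul_assoc, k2, zero_mul,
        zero_mul]
    obtain ⟨w, hw⟩ := exists_f_one' hf (u := a) (by rintro rfl; exact b0 (by rw [hb', mulVec_zero]))
    have k3 := Ev w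
    rw [E0, zero_mulVec, hw, one_smul, eq_comm, sub_eq_zero] at k3
    have k4 := congrArg (φ j n *ᵥ ·) k3
    simp only [mulVec_smul, ← hb'] at k4
    rw [show φ j n *ᵥ b = 0 by rw [hb', mulVec_mulVec, m1, zero_mulVec], smul_eq_zero,
      or_iff_left b0] at k4
    exact b0 (by rw [← k3, k4, zero_smul])

theorem five_vec {f : (Fin 4 → F) → (Fin 4 → F) → F} (hf : IsSesq (RingEquiv.refl F) (-1) f)
    (alt : ∀ v, f v v = 0) (z u w u' w' : Fin 4 → F) :
    (f u w * f u' w' - f u u' * f w w' + f u w' * f w u') • z -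
      (f z w * f u' w' - f z u' * f w w' + f z w' * f w u') • u +
      (f z u * f u' w' - f z u' * f u w' + f z w' * f u u') • w -
      (f z u * f w w' - f z w * f u w' + f z w' * f u w) • u' +
      (f z u * f w u' - f z w * f u u' + f z u' * f u w) • w' = 0 := by
  have k : ∀ i j, gramMatrix f j i = -gramMatrix f i j := fun i j => by
    simpa [gramMatrix] using hf.herm _ _
  have k0 : ∀ i, gramMatrix f i i = 0 := fun i => alt _
  simp only [hf.eq_dot, dotProduct, mulVec, Fin.sum_univ_four, RingEquiv.refl_apply, k0, k 0 1,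
    k 0 2, k 0 3, k 1 2, k 1 3, k 2 3]
  ext i
  fin_cases i <;> simp only [Pi.add_apply, Pi.sub_apply, Pi.smul_apply, smul_eq_mul, Pi.zero_apply,
    Fin.reduceFinMk] <;> ring

theorem three_vec {f : (Fin 2 → F) → (Fin 2 → F) → F} (hf : IsSesq (RingEquiv.refl F) (-1) f)
    (alt : ∀ v, f v v = 0) (z u w : Fin 2 → F) : f z w • u - f z u • w = f u w • z := by
  have k : ∀ i j, gramMatrix f j i = -gramMatrix f i j := fun i j => by
    simpa [gramMatrix] using hf.herm _ _
  have k0 : ∀ i, gramMatrix f i i = 0 := fun i => alt _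
  simp only [hf.eq_dot, dotProduct, mulVec, Fin.sum_univ_two, RingEquiv.refl_apply, k0, k 0 1]
  ext i
  fin_cases i <;> simp only [Pi.sub_apply, Pi.smul_apply, smul_eq_mul, Fin.reduceFinMk] <;> ring

theorem clif_wreath [Fintype F] {Q : (ι → F) → F} (hQ : IsNondegenerateQuadraticForm Q)
    (hn : 9 ≤ Fintype.card ι) (h2 : (2 : F) = 0) {k t : ℕ} (ht : 2 ≤ t) (hk : k = 2 ∨ k = 4)
    {e : ι ≃ (Fin t → Fin k)} {P : GL ι F} {f₁ : (Fin k → F) → (Fin k → F) → F}
    (hf₁ : IsSymplecticForm f₁) (hT : IsTensorPowerFormStructure id (QuadraticMap.polar Q) f₁ e P)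
    (hpure : ∀ xs : Fin t → (Fin k → F),
      Q ((P : Matrix ι ι F) *ᵥ ((fun a : Fin t → Fin k => ∏ i, xs i (a i)) ∘ e)) = 0) :
    ∃ K, tensorWreathSubgroup k t e P ⊓ omegaGL Q < K ∧ K < omegaGL Q := by
  have : Nonempty ι := Fintype.card_pos_iff.1 (by omega)
  have : Nonempty (Fin k) := ⟨⟨0, by omega⟩⟩
  have hf := isSesq_polar hQ
  have s := isSesq_of_symplectic hf₁
  have alt := hf₁.alternating
  have C := cl_sp s alt
  have S := sys_P e P
  have ad := adj_φP hf s hT
  have hs := sing_P hQ hf₁ hT hpure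
  have ng : ∀ z : Matrix (Fin k) (Fin k) F, (-1 : F) • z = z := fun z => by
    rw [neg_one_smul, neg_eq_iff_add_eq_zero, ← two_smul F, h2, zero_smul]
  have al : ∀ X v, QuadraticMap.polar Q ((X + adj (RingEquiv.refl F) (QuadraticMap.polar Q) X) *ᵥ v) v
      = 0 := fun X v => by
    rw [add_mulVec, hf.add_left, hf.adj_spec', QuadraticMap.polar_comm _ v, ← two_mul, h2, zero_mul]
  have qa : ∀ v w, Q (v + w) = Q v + Q w + QuadraticMap.polar Q v w := fun v w => by
    rw [QuadraticMap.polar]; ring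
  let i : Fin t := ⟨0, by omega⟩
  let j : Fin t := ⟨1, by omega⟩
  have hij : i ≠ j := by simp [i, j, Fin.ext_iff]
  have key := fun D₁ hb hc n n1 n0 nn h1 h3 => clif_not_max hQ hn h2 S (D₁ := D₁) hb hc hij (hs i)
    (n := n) n1 n0 nn (omega_of_alt hQ (by omega) h1 h3) (T := tensorWreathSubgroup k t e P)
    fun g hg => (H10.wreath_cj' hg).elim fun s h => h.elim fun x h => ⟨s, _, h.2⟩
  obtain ⟨x, y, H⟩ := C.exists_hp
  rcases hk with rfl | rfl
  · have h3 : 3 ≤ t := by
      rw [card_of_pow e] at hn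
      by_contra h
      obtain rfl : t = 2 := by omega
      omega
    have al' : ∀ z, adj (RingEquiv.refl F) (QuadraticMap.polar Q) z = z → Cm (φP e P ⟨2, h3⟩) z →
        ∀ v, QuadraticMap.polar Q (z *ᵥ v) v = 0 := fun z h1 h4 v => by
      have := al (z * φP e P ⟨2, h3⟩ (br f₁ x y)) v
      rwa [hf.adj_mul, h1, ad, h4 (adj _ _ _), ← mul_add, ← map_add, show br f₁ x y + _ = 1 from
        matrix_ext_mulVec fun w => by
          rw [adj_br s, neg_one_smul, ← sub_eq_add_neg, sub_mulVec, br_mulVec s, br_mulVec s,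
            three_vec s alt, H.xy, one_smul, one_mulVec], map_one, mul_one] at this
    have a1 : ∀ l, adj (RingEquiv.refl F) (QuadraticMap.polar Q) (φP e P l (br f₁ x x)) =
        φP e P l (br f₁ x x) := fun l => by rw [ad, adj_br s, ng]
    have c1 := S.cm ⟨2, h3⟩ i (by simp [i, Fin.ext_iff]) (br f₁ x x)
    have c2 := S.cm ⟨2, h3⟩ j (by simp [j, Fin.ext_iff]) (br f₁ x x)
    refine key (LinearMap.ker (traceLinearMap (Fin 2) F F)) (fun a ha b hb => ?_)
      (C.top_of_br fun w _ hw => Algebra.subset_adjoin (by simpa [trace_br s] using hw)) (br f₁ x x)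
      (by simpa [trace_br s] using H.xx) (br_ne_zero s (H.ne s) (H.ne s))
      (by rw [br_mul_br s, H.xx, zero_smul]) (fun v => ?_) (fun v => ?_) fun g _ l l' x _ a ha => by
        simpa [trace_cj] using ha
    · simp only [LinearMap.mem_ker, traceLinearMap_apply, trace_fin_two] at ha hb
      refine ⟨2 * a 0 0 * b 0 0 + a 0 1 * b 1 0 + a 1 0 * b 0 1, ?_⟩
      ext p q
      fin_cases p <;> fin_cases q <;> simp [Matrix.mul_apply, eq_neg_of_add_eq_zero_right ha,
        eq_neg_of_add_eq_zero_right hb] <;> ring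
    · rw [add_mulVec, qa, ← hf.adj_spec', a1, mulVec_mulVec, al' _ (by
        rw [hf.adj_mul, a1, a1, S.cm i j hij]) (c2.mul c1), br, hs, hs]
      simp
    · rw [add_mulVec, hf.add_left, al' _ (a1 i) c1, al' _ (a1 j) c2, add_zero]
  obtain ⟨v, w, v1, v2, w1, w2, wv⟩ := exists_pair_perp s (by simp) H
  let D : Submodule F (Matrix (Fin 4) (Fin 4) F) :=
    { carrier := {z | ∃ X, X.trace = 0 ∧ z = X + adj (RingEquiv.refl F) f₁ X}
      add_mem' := by
        rintro _ _ ⟨X, h, rfl⟩ ⟨Y, h', rfl⟩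
        exact ⟨X + Y, by rw [trace_add, h, h', add_zero], by rw [s.adj_add, add_add_add_comm]⟩
      zero_mem' := ⟨0, by simp, by simp [s.adj_zero]⟩
      smul_mem' := by
        rintro c _ ⟨X, h, rfl⟩
        exact ⟨c • X, by rw [trace_smul, h, smul_zero], by rw [s.adj_smul, smul_add]; rfl⟩ }
  let L : Matrix (Fin 4) (Fin 4) F →ₗ[F] Matrix (Fin 4) (Fin 4) F :=
    { toFun := fun X => X + adj (RingEquiv.refl F) f₁ X
      map_add' := fun X Y => by rw [s.adj_add, add_add_add_comm]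
      map_smul' := fun c X => by rw [s.adj_smul, smul_add]; rfl }
  have Lb : ∀ u w, L (br f₁ u w) = br f₁ u w - br f₁ w u := fun u w => by
    show br f₁ u w + adj _ _ _ = _
    rw [adj_br s, neg_one_smul, sub_eq_add_neg]
  have mem : ∀ u w, f₁ u w = 0 → br f₁ u w - br f₁ w u ∈ D := fun u w h =>
    ⟨_, by rw [trace_br s, h], (Lb u w).symm⟩
  have an : ∀ u w, f₁ w u = -f₁ u w := fun u w => by simpa using s.herm w u
  have a1 : ∀ l, φP e P l (br f₁ x v - br f₁ v x) = φP e P l (br f₁ x v) +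
      adj (RingEquiv.refl F) (QuadraticMap.polar Q) (φP e P l (br f₁ x v)) := fun l => by
    rw [ad, ← map_add]; exact congrArg _ (Lb x v).symm
  have a2 : ∀ l z, Q (φP e P l (br f₁ x v - br f₁ v x) *ᵥ z) = 0 := fun l z => by
    rw [a1, add_mulVec, qa, ← hf.adj_spec', hf.adj_adj, mulVec_mulVec, ← map_mul, br_mul_br s, v1,
      ad, adj_br s, ng, br, br, hs, hs]
    simp [hf.zero_left]
  refine key D ?_ (C.top_of_br fun u u0 hu => ?_) _ (mem x v v1) (fun h => ?_) ?_ (fun z => ?_)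
    (fun z => ?_) ?_
  · rintro _ ⟨X, hX, rfl⟩ _ ⟨Y, hY, rfl⟩
    refine C.mem_of_traceless (Z := (acS (L Y)).comap L) (fun u w _ h => ?_) hX
    show Sc _
    rw [add_comm]
    refine C.mem_of_traceless (Z := (acS (L (br f₁ u w))).comap L) (fun u' w' _ h' => ?_) hY
    refine ⟨-(f₁ u w * f₁ u' w' - f₁ u u' * f₁ w w' + f₁ u w' * f₁ w u'),
      matrix_ext_mulVec fun z => ?_⟩
    have := five_vec s alt z u w u' w'
    simp only [Lb, add_mulVec, ← mulVec_mulVec, sub_mulVec, br_mulVec s, mulVec_sub, mulVec_smul,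
      smul_mulVec, one_mulVec, an u w, an u u', an u w', an w u', an w w', an u' w', h, h',
      alt] at this ⊢
    linear_combination (norm := module) this
  · obtain ⟨u', H'⟩ := C.partner u0 hu
    obtain ⟨a, b, b1, -, b2, -, b3⟩ := exists_pair_perp s (by simp) H'
    have := neg_mem (mul_mem (Algebra.subset_adjoin (R := F) (mem u a b1))
      (Algebra.subset_adjoin (mem u b (s.eq_zero_comm.1 b2))))
    simpa [mul_sub, sub_mul, br_mul_br s, b1, b2, b3, hu] using this
  · have := congrArg (· *ᵥ w) h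
    simp [sub_mulVec, br_mulVec s, wv, w1, H.ne s] at this
  · simp [mul_sub, sub_mul, br_mul_br s, v1, alt, an x v]
  · have := al (φP e P j (br f₁ x v) * φP e P i (br f₁ x v - br f₁ v x)) z
    have b1 : ∀ l, adj (RingEquiv.refl F) (QuadraticMap.polar Q) (φP e P l (br f₁ x v - br f₁ v x)) =
        φP e P l (br f₁ x v - br f₁ v x) := fun l => by rw [a1, hf.adj_add, hf.adj_adj, add_comm]
    rw [hf.adj_mul, b1, ad, S.cm i j hij, ← add_mul, ← ad, ← a1] at this
    rw [add_mulVec, qa, a2, a2, ← hf.adj_spec', b1, mulVec_mulVec, this]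
    simp
  · rw [add_mulVec, hf.add_left, a1, a1, al, al, add_zero]
  · rintro g hg l l' x h _ ⟨X, hX, rfl⟩
    refine ⟨cj x X, by rw [trace_cj, hX], ?_⟩
    rw [map_add, add_right_inj]
    exact phi_injective (φ := φP e P l') (by
      rw [← h, ← ad, ← ad, ← h, adj_cj hf (isom_of_Q hQ (omega_le_O hg))])

end Cfsg.Agent.H9
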