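import Cfsg.Agent.H9.TVec

/-! Tensor factors as embedded matrix algebras: coefficients in the centraliser, components,
partial traces. -/

set_option autoImplicit false
set_option linter.unusedSectionVars false
set_option linter.unusedVariables false
set_option linter.unusedSimpArgs false

namespace Cfsg.Agent.H9

open scoped MatrixGroups Matrix
open Matrix Cfsg.Geo Cfsg.Agent.H98

variable {ι β : Type} [Fintype ι] [DecidableEq ι] [Fintype β] [DecidableEq β] {F : Type*} [Field F]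

variable (φ : Matrix β β F →ₐ[F] Matrix ι ι F)

/-- Membership in the centraliser of the factor. -/
def Cm (z : Matrix ι ι F) : Prop := ∀ b, φ b * z = z * φ b

/-- The coefficient of `z` at the functional `ψ` and the vector `u`. -/
def cf (ψ : β → F) (z : Matrix ι ι F) (u : β → F) : Matrix ι ι F :=
  ∑ k, φ (vecMulVec (bv F k) ψ) * z * φ (vecMulVec u (bv F k))

variable {φ}

theorem Cm.one : Cm φ 1 := fun b => by simp
theorem Cm.zero : Cm φ 0 := fun b => by simp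
theorem Cm.mul {c d : Matrix ι ι F} (hc : Cm φ c) (hd : Cm φ d) : Cm φ (c * d) := fun b => by
  rw [← mul_assoc, hc, mul_assoc, hd, mul_assoc]
theorem Cm.add {c d : Matrix ι ι F} (hc : Cm φ c) (hd : Cm φ d) : Cm φ (c + d) := fun b => by
  rw [mul_add, add_mul, hc, hd]
theorem Cm.neg {c : Matrix ι ι F} (hc : Cm φ c) : Cm φ (-c) := fun b => by
  rw [mul_neg, neg_mul, hc]
theorem Cm.sub {c d : Matrix ι ι F} (hc : Cm φ c) (hd : Cm φ d) : Cm φ (c - d) := fun b => by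
  rw [mul_sub, sub_mul, hc, hd]
theorem Cm.smul {c : Matrix ι ι F} (hc : Cm φ c) (a : F) : Cm φ (a • c) := fun b => by
  rw [mul_smul_comm, smul_mul_assoc, hc]
theorem Cm.sum {τ : Type*} {s : Finset τ} {c : τ → Matrix ι ι F} (h : ∀ i ∈ s, Cm φ (c i)) :
    Cm φ (∑ i ∈ s, c i) := fun b => by
  rw [Finset.mul_sum, Finset.sum_mul]; exact Finset.sum_congr rfl fun i hi => h i hi b
theorem Cm.inv {c d : Matrix ι ι F} (hc : Cm φ c) (h1 : c * d = 1) (h2 : d * c = 1) : Cm φ d :=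
  fun b => by
    calc φ b * d = d * c * φ b * d := by rw [h2, one_mul]
      _ = d * φ b * (c * d) := by rw [mul_assoc d c, ← hc]; simp only [mul_assoc]
      _ = d * φ b := by rw [h1, mul_one]
theorem Cm.left {c : Matrix ι ι F} (hc : Cm φ c) (b : Matrix β β F) (z : Matrix ι ι F) :
    φ b * (c * z) = c * (φ b * z) := by rw [← mul_assoc, hc, mul_assoc]

theorem sandwich (u₀ ψ : β → F) (z : Matrix ι ι F) (u ψ₀ : β → F) :
    φ (vecMulVec u₀ ψ) * z * φ (vecMulVec u ψ₀) = cf φ ψ z u * φ (vecMulVec u₀ ψ₀) := by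
  have h : ∀ k, φ (vecMulVec (bv F k) ψ) * z * φ (vecMulVec u (bv F k)) * φ (vecMulVec u₀ ψ₀) =
      φ (vecMulVec (u₀ k • bv F k) ψ) * z * φ (vecMulVec u ψ₀) := fun k => by
    rw [mul_assoc, ← map_mul, vmv_mul_vmv, bv_dot, map_smul, vmv_smul_left, map_smul]
    simp
  rw [cf, Finset.sum_mul, Finset.sum_congr rfl fun k _ => h k, ← Finset.sum_mul, ← Finset.sum_mul,
    ← map_sum]
  congr 3
  ext i j
  simp [Matrix.sum_apply, vecMulVec_apply, Pi.single_apply]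

theorem sandwich' (u₀ ψ : β → F) (z : Matrix ι ι F) (u ψ₀ : β → F) :
    φ (vecMulVec u₀ ψ) * z * φ (vecMulVec u ψ₀) = φ (vecMulVec u₀ ψ₀) * cf φ ψ z u := by
  have h : ∀ k, φ (vecMulVec u₀ ψ₀) * (φ (vecMulVec (bv F k) ψ) * z * φ (vecMulVec u (bv F k))) =
      φ (vecMulVec u₀ ψ) * z * φ (vecMulVec u (ψ₀ k • bv F k)) := fun k => by
    rw [← mul_assoc, ← mul_assoc, ← map_mul, vmv_mul_vmv, dot_bv, map_smul, vmv_smul_right, map_smul]
    simp
  rw [cf, Finset.mul_sum, Finset.sum_congr rfl fun k _ => h k, ← Finset.mul_sum, ← map_sum]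
  congr 2
  ext i j
  simp [Matrix.sum_apply, vecMulVec_apply, Pi.single_apply, mul_comm]

theorem matrix_eq_sum_vmv (b : Matrix β β F) :
    b = ∑ i, ∑ j, b i j • vecMulVec (bv F i) (bv F j) := by
  ext i j
  simp [Matrix.sum_apply, vecMulVec_apply, Pi.single_apply]

theorem cm_of_vmv {c : Matrix ι ι F} (h : ∀ u ψ, φ (vecMulVec u ψ) * c = c * φ (vecMulVec u ψ)) :
    Cm φ c := fun b => by
  rw [matrix_eq_sum_vmv b]
  simp only [map_sum, map_smul, Finset.sum_mul, Finset.mul_sum, smul_mul_assoc, mul_smul_comm, h]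

theorem cf_cm (ψ : β → F) (z : Matrix ι ι F) (u : β → F) : Cm φ (cf φ ψ z u) :=
  cm_of_vmv fun u₀ ψ₀ => by rw [← sandwich, ← sandwich']

theorem cf_phi_mul (ψ : β → F) (b : Matrix β β F) (z : Matrix ι ι F) (u : β → F) :
    cf φ ψ (φ b * z) u = cf φ (ψ ᵥ* b) z u :=
  Finset.sum_congr rfl fun k _ => by rw [← mul_assoc, ← map_mul, vmv_mul]

theorem cf_mul_phi (ψ : β → F) (b : Matrix β β F) (z : Matrix ι ι F) (u : β → F) :
    cf φ ψ (z * φ b) u = cf φ ψ z (b *ᵥ u) :=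
  Finset.sum_congr rfl fun k _ => by rw [← mul_assoc, mul_assoc _ (φ b), ← map_mul, mul_vmv]

theorem Cm.cf_mul {c : Matrix ι ι F} (hc : Cm φ c) (ψ : β → F) (z : Matrix ι ι F) (u : β → F) :
    cf φ ψ (c * z) u = c * cf φ ψ z u := by
  rw [cf, cf, Finset.mul_sum]
  exact Finset.sum_congr rfl fun k _ => by rw [hc.left]; simp only [mul_assoc]

theorem Cm.mul_cf {c : Matrix ι ι F} (hc : Cm φ c) (ψ : β → F) (z : Matrix ι ι F) (u : β → F) :
    cf φ ψ (z * c) u = cf φ ψ z u * c := by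
  rw [cf, cf, Finset.sum_mul]
  exact Finset.sum_congr rfl fun k _ => by simp only [mul_assoc, hc _]

theorem cf_one (ψ u : β → F) : cf φ ψ 1 u = (ψ ⬝ᵥ u) • (1 : Matrix ι ι F) := by
  simp only [cf, mul_one, ← map_mul, vmv_mul_vmv, map_smul, ← Finset.smul_sum, ← map_sum,
    sum_vmv_bv, map_one]

theorem Cm.cf_eq {c : Matrix ι ι F} (hc : Cm φ c) (ψ u : β → F) :
    cf φ ψ c u = (ψ ⬝ᵥ u) • c := by
  rw [← mul_one c, hc.cf_mul, cf_one, mul_smul_comm]

theorem Cm.cf_mul_phi {c : Matrix ι ι F} (hc : Cm φ c) (ψ : β → F) (b : Matrix β β F) (u : β → F) :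
    cf φ ψ (c * φ b) u = (ψ ⬝ᵥ (b *ᵥ u)) • c := by rw [H9.cf_mul_phi, hc.cf_eq]

theorem cf_phi (ψ : β → F) (b : Matrix β β F) (u : β → F) :
    cf φ ψ (φ b) u = (ψ ⬝ᵥ (b *ᵥ u)) • (1 : Matrix ι ι F) := by
  rw [← one_mul (φ b), Cm.one.cf_mul_phi]

variable (φ) in
/-- The coefficient as a linear map. -/
def cfL (ψ u : β → F) : Matrix ι ι F →ₗ[F] Matrix ι ι F where
  toFun z := cf φ ψ z u
  map_add' z w := by simp [cf, mul_add, add_mul, Finset.sum_add_distrib]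
  map_smul' a z := by simp [cf, Finset.smul_sum]

theorem cf_add (ψ : β → F) (z w : Matrix ι ι F) (u : β → F) :
    cf φ ψ (z + w) u = cf φ ψ z u + cf φ ψ w u := (cfL φ ψ u).map_add z w
theorem cf_sub (ψ : β → F) (z w : Matrix ι ι F) (u : β → F) :
    cf φ ψ (z - w) u = cf φ ψ z u - cf φ ψ w u := (cfL φ ψ u).map_sub z w
theorem cf_neg (ψ : β → F) (z : Matrix ι ι F) (u : β → F) :
    cf φ ψ (-z) u = -cf φ ψ z u := (cfL φ ψ u).map_neg z
theorem cf_smul (ψ : β → F) (a : F) (z : Matrix ι ι F) (u : β → F) :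
    cf φ ψ (a • z) u = a • cf φ ψ z u := (cfL φ ψ u).map_smul a z
theorem cf_zero (ψ u : β → F) : cf φ ψ 0 u = 0 := (cfL φ ψ u).map_zero
theorem cf_sum {τ : Type*} (s : Finset τ) (ψ : β → F) (z : τ → Matrix ι ι F) (u : β → F) :
    cf φ ψ (∑ i ∈ s, z i) u = ∑ i ∈ s, cf φ ψ (z i) u := map_sum (cfL φ ψ u) z s
theorem cf_add_left (ψ χ : β → F) (z : Matrix ι ι F) (u : β → F) :
    cf φ (ψ + χ) z u = cf φ ψ z u + cf φ χ z u := by
  simp [cf, vmv_add_right, add_mul, Finset.sum_add_distrib]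
theorem cf_smul_left (a : F) (ψ : β → F) (z : Matrix ι ι F) (u : β → F) :
    cf φ (a • ψ) z u = a • cf φ ψ z u := by simp [cf, vmv_smul_right, Finset.smul_sum]
theorem cf_add_right (ψ : β → F) (z : Matrix ι ι F) (u v : β → F) :
    cf φ ψ z (u + v) = cf φ ψ z u + cf φ ψ z v := by
  simp [cf, vmv_add_left, mul_add, Finset.sum_add_distrib]
theorem cf_smul_right (a : F) (ψ : β → F) (z : Matrix ι ι F) (u : β → F) :
    cf φ ψ z (a • u) = a • cf φ ψ z u := by simp [cf, vmv_smul_left, Finset.smul_sum]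
theorem cf_zero_left (z : Matrix ι ι F) (u : β → F) : cf φ 0 z u = 0 := by simp [cf]
theorem cf_zero_right (ψ : β → F) (z : Matrix ι ι F) : cf φ ψ z 0 = 0 := by simp [cf]

theorem expand (z : Matrix ι ι F) :
    z = ∑ i, ∑ j, cf φ (bv F i) z (bv F j) * φ (vecMulVec (bv F i) (bv F j)) := by
  simp only [← sandwich]
  simp only [← Finset.mul_sum, ← Finset.sum_mul, ← map_sum, sum_vmv_bv, map_one, one_mul, mul_one]

theorem eq_zero_of_cf {z : Matrix ι ι F} (h : ∀ i j, cf φ (bv F i) z (bv F j) = 0) : z = 0 := by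
  rw [expand (φ := φ) z]; simp [h]

theorem ext_cf {z w : Matrix ι ι F} (h : ∀ ψ u, cf φ ψ z u = cf φ ψ w u) : z = w :=
  sub_eq_zero.1 (eq_zero_of_cf (φ := φ) fun i j => by rw [cf_sub, h, sub_self])

theorem Cm.cf_comm {y z : Matrix ι ι F} (hy : Cm φ y) (h : y * z = z * y) (ψ u : β → F) :
    y * cf φ ψ z u = cf φ ψ z u * y := by rw [← hy.cf_mul, h, hy.mul_cf]

theorem Cm.eq_zero_of_mul {c : Matrix ι ι F} (hc : Cm φ c) {b : Matrix β β F} (hb : b ≠ 0)
    (h : c * φ b = 0) : c = 0 := by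
  obtain ⟨i, hi⟩ := Function.ne_iff.1 hb
  obtain ⟨j, hj⟩ := Function.ne_iff.1 hi
  have := hc.cf_mul_phi (bv F i) b (bv F j)
  rw [h, cf_zero] at this
  simpa [show b i j ≠ 0 from hj] using this.symm

theorem mem_range_of_cf {z : Matrix ι ι F}
    (h : ∀ ψ u, ∃ a : F, cf φ ψ z u = a • (1 : Matrix ι ι F)) : z ∈ φ.range := by
  rw [expand (φ := φ) z]
  refine sum_mem fun i _ => sum_mem fun j _ => ?_
  obtain ⟨a, ha⟩ := h (bv F i) (bv F j)
  rw [ha, smul_mul_assoc, one_mul]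
  exact Subalgebra.smul_mem _ (φ.mem_range_self _) _

theorem scalar_of_cm_phi [Nonempty ι] {b : Matrix β β F} (h : Cm φ (φ b)) :
    ∃ a : F, b = a • (1 : Matrix β β F) := by
  by_contra hc
  obtain ⟨χ, u, h1, h2⟩ := exists_dot_of_not_scalar (b := b) fun a ha => hc ⟨a, ha⟩
  have := h.cf_eq χ u
  rw [cf_phi, h1, h2, one_smul, zero_smul] at this
  exact one_ne_zero this

theorem phi_injective [Nonempty ι] : Function.Injective φ := by
  rw [injective_iff_map_eq_zero]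
  intro b hb
  by_contra h
  exact one_ne_zero ((Cm.one (φ := φ)).eq_zero_of_mul h (by rw [hb, mul_zero]))

variable (φ) in
/-- The component of `z` along the functional `ℓ` on the centraliser. -/
def cp (ℓ : Matrix ι ι F →ₗ[F] F) : Matrix ι ι F →ₗ[F] Matrix β β F where
  toFun z := Matrix.of fun i j => ℓ (cf φ (bv F i) z (bv F j))
  map_add' z w := by ext i j; simp [cf_add]
  map_smul' a z := by ext i j; simp [cf_smul]

theorem cp_apply (ℓ : Matrix ι ι F →ₗ[F] F) (z : Matrix ι ι F) (i j : β) :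
    cp φ ℓ z i j = ℓ (cf φ (bv F i) z (bv F j)) := rfl

theorem dot_cp (ℓ : Matrix ι ι F →ₗ[F] F) (ψ : β → F) (z : Matrix ι ι F) (u : β → F) :
    ψ ⬝ᵥ (cp φ ℓ z *ᵥ u) = ℓ (cf φ ψ z u) := by
  conv_rhs => rw [expand (φ := φ) z]
  simp only [cf_sum, (cf_cm _ _ _).cf_mul_phi, map_sum, map_smul, vmv_mulVec, dotProduct_smul,
    dot_bv, bv_dot]
  simp only [dotProduct, mulVec, cp_apply, Finset.mul_sum, smul_eq_mul]
  exact Finset.sum_congr rfl fun i _ => Finset.sum_congr rfl fun j _ => by ring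

theorem matrix_ext_dot {b b' : Matrix β β F} (h : ∀ ψ u, ψ ⬝ᵥ (b *ᵥ u) = ψ ⬝ᵥ (b' *ᵥ u)) :
    b = b' := by
  ext i j; simpa using h (bv F i) (bv F j)

theorem cp_phi_mul (ℓ : Matrix ι ι F →ₗ[F] F) (b : Matrix β β F) (z : Matrix ι ι F) :
    cp φ ℓ (φ b * z) = b * cp φ ℓ z :=
  matrix_ext_dot fun ψ u => by
    rw [dot_cp, cf_phi_mul, ← dot_cp, ← mulVec_mulVec, dotProduct_mulVec ψ b]

theorem cp_mul_phi (ℓ : Matrix ι ι F →ₗ[F] F) (b : Matrix β β F) (z : Matrix ι ι F) :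
    cp φ ℓ (z * φ b) = cp φ ℓ z * b :=
  matrix_ext_dot fun ψ u => by rw [dot_cp, cf_mul_phi, ← dot_cp, ← mulVec_mulVec]

theorem Cm.cp_eq {c : Matrix ι ι F} (hc : Cm φ c) (ℓ : Matrix ι ι F →ₗ[F] F) :
    cp φ ℓ c = ℓ c • (1 : Matrix β β F) :=
  matrix_ext_dot fun ψ u => by
    rw [dot_cp, hc.cf_eq, map_smul, smul_mulVec, one_mulVec, dotProduct_smul, smul_eq_mul,
      smul_eq_mul, mul_comm]

theorem Cm.cp_mul_phi {c : Matrix ι ι F} (hc : Cm φ c) (ℓ : Matrix ι ι F →ₗ[F] F)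
    (b : Matrix β β F) : cp φ ℓ (c * φ b) = ℓ c • b := by
  rw [H9.cp_mul_phi, hc.cp_eq, smul_mul_assoc, one_mul]

theorem eq_zero_of_cp {z : Matrix ι ι F} (h : ∀ ℓ, cp φ ℓ z = 0) : z = 0 :=
  eq_zero_of_cf (φ := φ) fun i j => (Module.forall_dual_apply_eq_zero_iff F _).1 fun ℓ => by
    rw [← cp_apply, h]; rfl

theorem cm_of_cp {z : Matrix ι ι F} (h : ∀ ℓ, ∃ a : F, cp φ ℓ z = a • (1 : Matrix β β F)) :
    Cm φ z := fun b => sub_eq_zero.1 (eq_zero_of_cp (φ := φ) fun ℓ => by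
  obtain ⟨a, ha⟩ := h ℓ
  rw [map_sub, cp_phi_mul, cp_mul_phi, ha]; simp)

theorem cm_of_gen {S : Set (Matrix β β F)} (hS : Algebra.adjoin F S = ⊤) {z : Matrix ι ι F}
    (h : ∀ b ∈ S, φ b * z = z * φ b) : Cm φ z := fun b => by
  have hb : b ∈ Algebra.adjoin F S := hS ▸ Algebra.mem_top
  induction hb using Algebra.adjoin_induction with
  | mem x hx => exact h x hx
  | algebraMap r => rw [AlgHom.commutes, Algebra.commutes]
  | add x y _ _ hx hy => rw [map_add, add_mul, mul_add, hx, hy]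
  | mul x y _ _ hx hy => rw [map_mul, mul_assoc, hy, ← mul_assoc, hx, mul_assoc]

variable (φ) in
/-- The partial trace. -/
def ptr : Matrix ι ι F →ₗ[F] Matrix β β F where
  toFun z := Matrix.of fun i j => (z * φ (vecMulVec (bv F j) (bv F i))).trace
  map_add' z w := by ext i j; simp [add_mul]
  map_smul' a z := by ext i j; simp

theorem trace_ptr_mul (z : Matrix ι ι F) (b : Matrix β β F) :
    (ptr φ z * b).trace = (z * φ b).trace := by
  conv_rhs => rw [matrix_eq_sum_vmv b]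
  simp only [map_sum, map_smul, Finset.mul_sum, mul_smul_comm, trace_sum, trace_smul]
  rw [Finset.sum_comm]
  simp [trace, Matrix.mul_apply, ptr, mul_comm]

theorem eq_of_trace_mul {a a' : Matrix β β F} (h : ∀ b, (a * b).trace = (a' * b).trace) :
    a = a' := by
  ext i j
  have := h (vecMulVec (bv F j) (bv F i))
  simpa [mul_vmv, trace_vmv] using this

/-- The trace of `c` on the complementary factor. -/
theorem Cm.exists_ptr {c : Matrix ι ι F} (hc : Cm φ c) :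
    ∃ a : F, ∀ b, ptr φ (c * φ b) = a • b := by
  obtain ⟨a, ha⟩ := scalar_of_comm_all (z := ptr φ c) fun x => eq_of_trace_mul fun b => by
    rw [mul_assoc, trace_ptr_mul, mul_assoc, trace_mul_comm x, mul_assoc, trace_ptr_mul, map_mul,
      map_mul, ← mul_assoc, ← hc, mul_assoc, trace_mul_comm, mul_assoc]
  refine ⟨a, fun b => eq_of_trace_mul fun b' => ?_⟩
  rw [trace_ptr_mul, mul_assoc, ← map_mul, ← trace_ptr_mul, ha]; simp

theorem Cm.trace_mul_phi {c : Matrix ι ι F} (hc : Cm φ c) {s : Matrix β β F} (hs : s.trace = 0) :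
    (c * φ s).trace = 0 := by
  obtain ⟨a, ha⟩ := hc.exists_ptr
  have := trace_ptr_mul (φ := φ) (c * φ 1) s
  rw [ha, map_one, mul_one] at this
  rw [← this]; simp [hs]

theorem exists_ptr_one [Nonempty ι] [Nonempty β] :
    ∃ c, Cm φ c ∧ ∀ b, ptr φ (c * φ b) = b := by
  obtain ⟨o⟩ := ‹Nonempty β›
  have h0 : φ (vecMulVec (bv F o) (bv F o)) ≠ 0 := fun h =>
    vmv_ne_zero (by simp) (by simp) (phi_injective (h.trans (map_zero φ).symm))
  obtain ⟨z, hz⟩ : ∃ z, (φ (vecMulVec (bv F o) (bv F o)) * z).trace ≠ 0 := by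
    by_contra hc
    push Not at hc
    exact h0 (eq_of_trace_mul fun b => by rw [hc]; simp)
  obtain ⟨a, ha⟩ := (cf_cm (φ := φ) (bv F o) z (bv F o)).exists_ptr
  have h1 := trace_ptr_mul (φ := φ) (cf φ (bv F o) z (bv F o) * φ 1)
    (vecMulVec (bv F o) (bv F o))
  rw [ha, map_one, mul_one, ← sandwich, trace_mul_comm (φ _ * z), ← mul_assoc, ← map_mul, vmv_mul_vmv] at h1
  simp only [smul_mul_assoc, one_mul, trace_smul, trace_vmv, bv_dot, Pi.single_eq_same, one_smul,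
    smul_eq_mul, mul_one] at h1
  have ha0 : a ≠ 0 := h1 ▸ hz
  exact ⟨a⁻¹ • cf φ (bv F o) z (bv F o), (cf_cm _ _ _).smul _, fun b => by
    rw [smul_mul_assoc, map_smul, ha, smul_smul, inv_mul_cancel₀ ha0, one_smul]⟩

end Cfsg.Agent.H9
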