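import Cfsg.Agent.H9.TSum

/-! The global step: every element of `M` normalises the factor or conjugates it into its
centraliser. -/

set_option autoImplicit false
set_option linter.unusedSectionVars false
set_option linter.unusedVariables false
set_option linter.unusedSimpArgs false

namespace Cfsg.Agent.H9

open scoped MatrixGroups Matrix
open Matrix Cfsg.Geo Cfsg.Agent.H98 Module

universe u

variable {ι β : Type} [Fintype ι] [DecidableEq ι] [Fintype β] [DecidableEq β] {F : Type u} [Field F]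
variable {φ : Matrix β β F →ₐ[F] Matrix ι ι F}

/-- An additive family of root elements. -/
structure Fam (Root : Set (GL β F)) {A : Type u} [AddCommGroup A] (ε : A → GL β F) : Prop where
  add : ∀ a b, ε (a + b) = ε a * ε b
  root : ∀ a, a ≠ 0 → ε a ∈ Root
  nt : ∃ a : A, a ≠ 0

/-- The values of `Ψ` on fixed traceless matrices are norms. -/
def NE (Root : Set (GL β F)) (Ψ : Matrix β β F →ₗ[F] Matrix β β F) : Prop :=
  ∀ (A : Type u) [AddCommGroup A] [Fintype A] (ε : A → GL β F), Fam Root ε →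
    ∀ s : Matrix β β F, s.trace = 0 → (∀ a, cj (ε a) s = s) → ∃ w, Ψ s = nrm ε w

/-- `Ψ` commutes with conjugation by `G2`. -/
def Eqv (G2 : Subgroup (GL β F)) (Ψ : Matrix β β F →ₗ[F] Matrix β β F) : Prop :=
  ∀ h ∈ G2, ∀ s, Ψ (cj h s) = cj h (Ψ s)

/-- Equivariant maps whose values are norms vanish on traceless matrices. -/
def GeoD (G2 : Subgroup (GL β F)) (Root : Set (GL β F)) : Prop :=
  ∀ Ψ, Eqv G2 Ψ → NE Root Ψ → ∀ s : Matrix β β F, s.trace = 0 → Ψ s = 0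

theorem Fam.zero {Root : Set (GL β F)} {A : Type u} [AddCommGroup A] {ε : A → GL β F}
    (h : Fam Root ε) : ε 0 = 1 := by
  have := h.add 0 0
  rw [add_zero] at this
  exact left_eq_mul.1 this

theorem cp_cj_gφ (ℓ : Matrix ι ι F →ₗ[F] F) (h : GL β F) (z : Matrix ι ι F) :
    cp φ ℓ (cj (gφ φ h) z) = cj h (cp φ ℓ z) := by
  rw [cj_apply, cj_apply, coe_gφ, coe_gφ_inv, cp_mul_phi, cp_phi_mul]

theorem cp_nrm (ℓ : Matrix ι ι F →ₗ[F] F) {A : Type u} [Fintype A] (ε : A → GL β F)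
    (z : Matrix ι ι F) : cp φ ℓ (nrm (fun a => gφ φ (ε a)) z) = nrm ε (cp φ ℓ z) := by
  simp only [nrm_apply, map_sum, cp_cj_gφ]

theorem Cm.cj_gφ_mul {c : Matrix ι ι F} (hc : Cm φ c) (h : GL β F) (s : Matrix β β F) :
    H98.cj (gφ φ h) (c * φ s) = c * φ (H98.cj h s) := by rw [map_mul, hc.cj_gφ, H9.cj_gφ]

variable (φ) in
/-- The defect of `Pi` on `c ⊗ s`. -/
def dfc (Pi : Matrix ι ι F →ₗ[F] Matrix ι ι F) (c : Matrix ι ι F) :
    Matrix β β F →ₗ[F] Matrix ι ι F :=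
  (Pi - φ.toLinearMap ∘ₗ ptr φ) ∘ₗ LinearMap.mulLeft F c ∘ₗ φ.toLinearMap

theorem dfc_apply (Pi : Matrix ι ι F →ₗ[F] Matrix ι ι F) (c : Matrix ι ι F) (s : Matrix β β F) :
    dfc φ Pi c s = Pi (c * φ s) - φ (ptr φ (c * φ s)) := rfl

theorem dfc_cj {Pi : Matrix ι ι F →ₗ[F] Matrix ι ι F} {c : Matrix ι ι F} (hc : Cm φ c)
    {h : GL β F} (hP : ∀ z, Pi (cj (gφ φ h) z) = cj (gφ φ h) (Pi z)) (s : Matrix β β F) :
    dfc φ Pi c (cj h s) = cj (gφ φ h) (dfc φ Pi c s) := by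
  rw [dfc_apply, dfc_apply, ← hc.cj_gφ_mul, hP, phi_ptr_cj (gφ_mem_KB h), map_sub]

theorem eqv_dfc {Pi : Matrix ι ι F →ₗ[F] Matrix ι ι F} {c : Matrix ι ι F} (hc : Cm φ c)
    {G2 : Subgroup (GL β F)} (hP : ∀ h ∈ G2, ∀ z, Pi (cj (gφ φ h) z) = cj (gφ φ h) (Pi z))
    (ℓ : Matrix ι ι F →ₗ[F] F) : Eqv G2 (cp φ ℓ ∘ₗ dfc φ Pi c) := fun h hh s => by
  rw [LinearMap.comp_apply, LinearMap.comp_apply, dfc_cj hc (hP h hh), cp_cj_gφ]

/-- If the defect vanishes on traceless matrices the image of `Pi` lies in `B + C`. -/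
theorem exists_add_of_dfc {Pi : Matrix ι ι F →ₗ[F] Matrix ι ι F} {S : Set (GL β F)}
    (hS : Algebra.adjoin F (Units.val '' S) = ⊤)
    (hP : ∀ h ∈ S, ∀ z, Pi (cj (gφ φ h) z) = cj (gφ φ h) (Pi z))
    (h0 : ∀ c, Cm φ c → ∀ s : Matrix β β F, s.trace = 0 → dfc φ Pi c s = 0) (z : Matrix ι ι F) :
    ∃ c b, Cm φ c ∧ Pi z = c + φ b := by
  have key : ∀ c, Cm φ c → ∀ s, ∃ c' b, Cm φ c' ∧ Pi (c * φ s) = c' + φ b := by
    intro c hc s
    refine ⟨dfc φ Pi c s, ptr φ (c * φ s), cm_of_gen hS ?_, by rw [dfc_apply, sub_add_cancel]⟩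
    rintro _ ⟨h, hh, rfl⟩
    rw [← coe_gφ, ← cj_eq_iff, ← dfc_cj hc (hP h hh), ← sub_eq_zero, ← map_sub]
    exact h0 c hc _ (by rw [trace_sub, trace_cj, sub_self])
  let T : AddSubmonoid (Matrix ι ι F) :=
    { carrier := {z | ∃ c b, Cm φ c ∧ Pi z = c + φ b}
      zero_mem' := ⟨0, 0, Cm.zero, by simp⟩
      add_mem' := by
        rintro x y ⟨c, b, hc, e⟩ ⟨c', b', hc', e'⟩
        exact ⟨c + c', b + b', hc.add hc', by rw [map_add, map_add, e, e']; abel⟩ }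
  show z ∈ T
  rw [expand (φ := φ) z]
  exact sum_mem fun i _ => sum_mem fun j _ => key _ (cf_cm _ _ _) _

variable [Finite F] [Nonempty ι] [Nonempty β] {M : Subgroup (GL ι F)} {G2 : Subgroup (GL β F)}
  {Root : Set (GL β F)}

theorem range_or_cm_of_dfc {Pi : Matrix ι ι F →ₗ[F] Matrix ι ι F} {S : Set (GL β F)}
    (hS : Algebra.adjoin F (Units.val '' S) = ⊤) (hSM : ∀ h ∈ S, gφ φ h ∈ M)
    (hP : ∀ g ∈ M, ∀ z, Pi (cj g z) = cj g (Pi z))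
    (h0 : ∀ c, Cm φ c → ∀ s : Matrix β β F, s.trace = 0 → dfc φ Pi c s = 0)
    (hk : (2 : F) ≠ 0 ∨ 3 ≤ Fintype.card β) {u ψ : β → F} (hψ : ψ ⬝ᵥ u = 0) {g : GL ι F}
    (hg : g ∈ M) : cj g (φ (vecMulVec u ψ)) ∈ φ.range ∨ Cm φ (cj g (φ (vecMulVec u ψ))) := by
  obtain ⟨c₀, hc₀, e₀⟩ := exists_ptr_one (φ := φ)
  have e1 := h0 c₀ hc₀ (vecMulVec u ψ) (by rw [trace_vmv, hψ])
  rw [dfc_apply, e₀, sub_eq_zero] at e1
  obtain ⟨c, b, hc, e⟩ := exists_add_of_dfc hS (fun h hh => hP _ (hSM h hh)) h0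
    (cj g (c₀ * φ (vecMulVec u ψ)))
  rw [hP g hg, e1] at e
  have := rank_sum hc (b := b) hk (by
    rw [← e, ← map_mul, ← map_mul, vmv_mul_vmv, hψ, zero_smul, map_zero, map_zero])
    (e ▸ (rank_cj_le _ _).trans (rank_phi_vmv_le u ψ))
  rcases this with ⟨a, rfl⟩ | ⟨a, rfl⟩
  · left
    rw [e]
    exact add_mem (Subalgebra.smul_mem _ (one_mem _) _) (φ.mem_range_self _)
  · right
    rw [e, map_smul, map_one]
    exact hc.add (Cm.one.smul a)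

theorem Roots.of_conj (R : Roots φ M G2 Root) {e : GL β F} (he : e ∈ Root) {g : GL ι F}
    (hg : g ∈ M) (h : g⁻¹ * gφ φ e * g ∈ KB φ) : g ∈ KB φ ∨ ∀ b, Cm φ (cj g⁻¹ (φ b)) := by
  rcases R.tri e he g⁻¹ (M.inv_mem hg) (by rwa [inv_inv]) with h1 | h1
  · exact Or.inl ((KB φ).inv_mem_iff.1 (R.det e he _ (M.inv_mem hg) h1))
  · exact Or.inr (R.cm_of_det (R.det e he) (R.nsc e he) (M.inv_mem hg) h1)

theorem Roots.exists_Pi (R : Roots φ M G2 Root) :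
    ∃ Pi : Matrix ι ι F →ₗ[F] Matrix ι ι F, (∀ g ∈ M, ∀ z, Pi (cj g z) = cj g (Pi z)) ∧
      ∀ c, Cm φ c → ∀ ℓ, NE Root (cp φ ℓ ∘ₗ dfc φ Pi c) := by
  obtain ⟨Pi, hP, h⟩ := H9.exists_Pi φ M
  refine ⟨Pi, hP, fun c hc ℓ A _ _ ε hε s hs hεs => ?_⟩
  have hG : ∀ a, ε a ∈ G2 := fun a => by
    by_cases ha : a = 0
    · rw [ha, hε.zero]; exact G2.one_mem
    · exact R.sub _ (hε.root a ha)
  obtain ⟨a₀, ha₀⟩ := hε.nt
  have key : ∀ g ∈ M, (∀ a, g⁻¹ * gφ φ (ε a) * g ∈ KB φ) →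
      (¬ ∀ a, Cm φ (cj g⁻¹ (gφ φ (ε a) : GL ι F))) → g ∈ KB φ := fun g hg h1 h2 =>
    (R.of_conj (hε.root a₀ ha₀) hg (h1 a₀)).resolve_right fun h3 => h2 fun a => h3 _
  obtain ⟨w, hw⟩ := h A (fun a => gφ φ (ε a)) (fun a b => by rw [hε.add, map_mul])
    (fun a => R.mem _ (hG a)) (fun a => gφ_mem_KB _) (fun h => R.nsc _ (hε.root a₀ ha₀) (h a₀))
    (fun g hg a ha h1 a' => by
      rcases R.of_conj (hε.root a ha) hg h1 with h2 | h2
      · exact (KB φ).mul_mem ((KB φ).mul_mem ((KB φ).inv_mem h2) (gφ_mem_KB _)) h2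
      · refine mem_KB_of_cm ?_
        have := h2 (ε a')
        rwa [← coe_gφ, cj_coe, inv_inv] at this)
    ⊥ bot_le bot_le IsPGroup.of_bot (fun u hu a => by rw [Subgroup.mem_bot.1 hu]; simp)
    (fun g hg h1 h2 _ => key g hg h1 h2) (c * φ s) (fun a => by rw [hc.cj_gφ_mul, hεs])
    (fun g hg h1 => piG_eq_zero fun b => by
      have h2 := cm_iff_cj.2 (R.cm_of_det (R.det _ (hε.root a₀ ha₀)) (R.nsc _ (hε.root a₀ ha₀))
        (M.inv_mem hg) (h1 a₀)) b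
      rw [mul_assoc, h2, ← mul_assoc]
      exact (hc.mul h2).trace_mul_phi hs)
    (fun g hg h1 h2 => piG_of_KB (key g hg h1 h2) _)
  exact ⟨cp φ ℓ w, by rw [LinearMap.comp_apply, dfc_apply, hw, cp_nrm]⟩

/-- The dichotomy. -/
theorem Roots.dich (R : Roots φ M G2 Root) (hD : GeoD G2 Root)
    (hk : (2 : F) ≠ 0 ∨ 3 ≤ Fintype.card β) {u ψ : β → F} (hu : u ≠ 0) (hψ : ψ ≠ 0)
    (h0 : ψ ⬝ᵥ u = 0) (hdet : Det φ M (vecMulVec u ψ)) {g : GL ι F} (hg : g ∈ M) :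
    g ∈ KB φ ∨ ∀ b, Cm φ (cj g (φ b)) := by
  obtain ⟨Pi, hP, h⟩ := R.exists_Pi
  rcases range_or_cm_of_dfc R.gen (fun h hh => R.mem h (R.sub h hh)) hP
    (fun c hc s hs => eq_zero_of_cp (φ := φ) fun ℓ =>
      hD _ (eqv_dfc hc (fun h hh => hP _ (R.mem h hh)) ℓ) (h c hc ℓ) s hs) hk h0 hg with h1 | h1
  · exact Or.inl (hdet g hg h1)
  · exact Or.inr (R.cm_of_det hdet (not_cm_vmv hu hψ h0) hg h1)

end Cfsg.Agent.H9
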