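import Cfsg.Agent.H9.TCl
import Cfsg.Agent.H10.UBase
import Cfsg.Agent.H94.TGenA
import Cfsg.Agent.H27.SkHInst
import Cfsg.Agent.H11.OGeo

/-! Two opposite unipotent radicals generate the classical group. -/

set_option autoImplicit false
set_option linter.unusedSectionVars false
set_option linter.unusedVariables false
set_option linter.unusedSimpArgs false

namespace Cfsg.Agent.H94

open scoped MatrixGroups Matrix
open Matrix Cfsg.Geo Cfsg.Agent.H98 Cfsg.Agent.H9

variable {ι : Type} [Fintype ι] [DecidableEq ι] {F : Type*} [Field F]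
variable {σ : F ≃+* F} {ε : F} {f : (ι → F) → (ι → F) → F} {M : Subgroup (GL ι F)}
  {a : Matrix ι ι F}

theorem tg_vs_ses (hf : IsSesq σ ε f) (hM : M ≤ Isom σ f) (tv : ∀ v, ∃ θ, Vd σ ε f v θ) :
    TgVS σ ε f M (fun v => f v v = 0) (Vd σ ε f) where
  ses := hf
  le := hM
  sg u h := h
  sgs c u h := by rw [hf.smul_left, hf.smul_right, h, mul_zero, mul_zero]
  vd v θ h := h
  tv := tv
  sub v v' θ θ' h' h := by
    simp only [Vd, hf.add_left, hf.add_right, map_add, map_sub, map_mul, hf.map_eps,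
      sigma_f hf v' v] at h h' ⊢
    linear_combination h' - h + ε * f v v' * hf.eps_mul_self
  inv g hg v θ h := by rwa [Vd, hM hg]
  sm c v θ h := by
    simp only [Vd, hf.smul_left, hf.smul_right, map_mul, hf.invol] at h ⊢
    linear_combination c * σ c * h
  part v w hv h := exists_iso_add hf tv hv h
  move u v z θ _ _ _ _ h _ := h

theorem tg_ses (hf : IsSesq σ ε f) (hM : M ≤ Isom σ f) (tv : ∀ v, ∃ θ, Vd σ ε f v θ)
    {ω : F} (hω : ω + σ ω = 1) (P : PD σ f a) (h1 : FullQ σ f M a)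
    (h2 : FullQ σ f M (adj σ f a)) (hr : 2 ≤ a.rank) (hw : a + adj σ f a ≠ 1 ∨ 3 ≤ a.rank)
    {u : ι → F} (hu : f u u = 0) {θ : F} (hθ : θ + ε * σ θ = 0) :
    1 + θ • br f u u ∈ matrixSet M := by
  have hz : ∀ t : Matrix ι ι F, adj σ f t = -t → ∃ c, t = c - adj σ f c := fun t ht =>
    ⟨ω • t, by rw [hf.adj_smul, ht, smul_neg, sub_neg_eq_add, ← add_smul, hω, one_smul]⟩
  have P' := tg_pd_adj hf P
  rw [← elm_zero hf]
  refine (tg_vs_ses hf hM tv).all P (by omega) hw
    (fun v => tg_iso hf P (by rw [mulVec_mulVec, P.aa]) (by rw [mulVec_mulVec, P.aa]))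
    (fun v => tg_iso hf P' (by rw [mulVec_mulVec, P'.aa]) (by rw [mulVec_mulVec, P'.aa]))
    (fun u v hu hv θ hθ => tg_rad hf hM P h1 hu hv hθ fun _ _ t _ ht _ => hz t ht)
    (fun u v hu hv θ hθ => tg_rad hf hM P' h2 hu (by rwa [hf.adj_adj]) hθ
      fun _ _ t _ ht _ => hz t ht) hu (hf.zero_left u) θ ?_
  rw [Vd, hf.zero_left, mul_zero, add_zero, hθ]

theorem tg_alt (hf : IsSesq (RingEquiv.refl F) 1 f) {t : Matrix ι ι F}
    (ht : adj (RingEquiv.refl F) f t = -t) (h : ∀ w, f (t *ᵥ w) w = 0) :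
    ∃ c, t = c - adj (RingEquiv.refl F) f c := by
  have hG := hf.isUnit_det_gram
  have sy : ∀ x y, f x y = f y x := fun x y => by rw [hf.herm]; simp
  let r : ι → ℕ := fun i => (Fintype.equivFin ι i : ℕ)
  have hr : Function.Injective r := fun i j h => (Fintype.equivFin ι).injective (Fin.ext h)
  let C : Matrix ι ι F := Matrix.of fun i j => if r i < r j then f (t *ᵥ bv F i) (bv F j) else 0
  have hc : ∀ i j, f ((C * (gramMatrix f)⁻¹)ᵀ *ᵥ bv F i) (bv F j) = C i j := fun i j => by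
    rw [hf.eq_dot, mulVec_transpose, ← dotProduct_mulVec, mulVec_mulVec, mul_assoc,
      Matrix.nonsing_inv_mul _ hG, mul_one, bv_dot]
    simp
  refine ⟨(C * (gramMatrix f)⁻¹)ᵀ, ?_⟩
  generalize (C * (gramMatrix f)⁻¹)ᵀ = c at hc
  have key : ∀ i j, f (t *ᵥ bv F i) (bv F j) =
      f ((c - adj (RingEquiv.refl F) f c) *ᵥ bv F i) (bv F j) := fun i j => by
    rw [sub_mulVec, hf.sub_left, hf.adj_spec', sy (bv F i), hc, hc]
    simp only [C, of_apply]
    rcases lt_trichotomy (r i) (r j) with h1 | h1 | h1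
    · rw [if_pos h1, if_neg h1.not_gt, sub_zero]
    · rw [hr h1, h, sub_self]
    · rw [if_neg h1.not_gt, if_pos h1, hf.adj_spec, ht, neg_mulVec, hf.neg_right, sy, zero_sub]
  ext j i
  have : t *ᵥ bv F i = (c - adj (RingEquiv.refl F) f c) *ᵥ bv F i := hf.ext_left fun x => by
    rw [pi_eq_sum_univ' x, hf.sum_right, hf.sum_right]
    exact Finset.sum_congr rfl fun k _ => by rw [hf.smul_right, hf.smul_right, key]
  simpa using congrFun this j

section quad

open QuadraticMap H11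

variable {Q : QuadraticForm F (ι → F)}

theorem tg_Q_elm (hf : IsSesq (RingEquiv.refl F) 1 (polar Q)) {u z : ι → F} (hu : Q u = 0)
    (hz : polar Q z u = 0) (θ : F) (v : ι → F) :
    Q (elm (polar Q) 1 u z θ *ᵥ v) = Q v + polar Q v u ^ 2 * (θ + Q z) := by
  have h1 : polar Q u z = 0 := (polar_comm _ _ _).trans hz
  rw [elm_mulVec hf]
  qsimp
  simp only [hu, h1]
  ring

theorem tg_vs_quad (hf : IsSesq (RingEquiv.refl F) 1 (polar Q)) (hM : M ≤ isometryGroup F Q) :
    TgVS (RingEquiv.refl F) 1 (polar Q) M (fun v => Q v = 0) (fun v θ => θ = -Q v) where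
  ses := hf
  le g hg := polar_of_mem (hM hg)
  sg u h := by rw [polar_self, h, smul_zero]
  sgs c u h := by rw [Q_smul, h, mul_zero]
  vd v θ h := by rw [Vd, h, polar_self]; simp [two_mul]
  tv v := ⟨_, rfl⟩
  sub v v' θ θ' h' h := by
    rw [h, h', polar_comm]
    qsimp
    ring
  inv g hg v θ h := by rw [h, mem_isometryGroup.1 (hM hg)]
  sm c v θ h := by rw [h, Q_smul]; simp; ring
  part v w hv h := ⟨-Q w / polar Q w v, by
    qsimp
    rw [hv]
    field_simp
    ring⟩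
  move u v z θ hu hv h hz _ e := by
    rw [tg_Q_elm hf hu hz, hv, zero_add, mul_eq_zero] at e
    exact eq_neg_of_add_eq_zero_left (e.resolve_left (pow_ne_zero 2 h))

theorem tg_rad_quad (hf : IsSesq (RingEquiv.refl F) 1 (polar Q)) (hM : M ≤ isometryGroup F Q)
    (P : PD (RingEquiv.refl F) (polar Q) a) (hs : ∀ v, Q (a *ᵥ v) = 0)
    (h1 : FullQ (RingEquiv.refl F) (polar Q) M a) (u v : ι → F) (hu : a *ᵥ u = u)
    (hv : adj (RingEquiv.refl F) (polar Q) a *ᵥ v = 0) :
    TgS 1 (polar Q) M (fun v θ => θ = -Q v) u v := fun θ hθ => by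
  have S := tg_vs_quad hf hM
  refine tg_rad hf S.le P h1 hu hv (S.vd v θ hθ) fun s hs' t t1 t2 t3 => tg_alt hf t2 fun w => ?_
  obtain ⟨g, hg, rfl⟩ := mem_matrixSet.1 hs'
  have e := tg_Q_elm hf (hu ▸ hs u) (hf.eq_zero_comm.1 (tg_perp hf hu hv)) θ w
  rw [← t3, ← mulVec_mulVec, mem_isometryGroup.1 (hM hg), hθ, add_mulVec, one_mulVec] at e
  have e2 : Q (t *ᵥ w) = 0 := by rw [← t1, ← mulVec_mulVec, hs]
  qsimp at e
  rw [e2] at e
  rw [polar_comm]
  linear_combination e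

end quad

end Cfsg.Agent.H94

namespace Cfsg.Agent.H9

open scoped MatrixGroups Matrix
open Matrix Cfsg.Geo Cfsg.Agent.H98

universe u

variable {ι β : Type} [Fintype ι] [DecidableEq ι] [Fintype β] [DecidableEq β] {F : Type u} [Field F]

theorem gen_su [Fintype F] {q : ℕ} [Fact (Fintype.card F = q ^ 2)] {n : ℕ} (hn : 4 ≤ n)
    {M : Subgroup (GL (Fin n) F)} (hM : M ≤ Isom (H10.sig F q) (hermForm n F q))
    {a : Matrix (Fin n) (Fin n) F} (P : PD (H10.sig F q) (hermForm n F q) a)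
    (h1 : FullQ (H10.sig F q) (hermForm n F q) M a)
    (h2 : FullQ (H10.sig F q) (hermForm n F q) M (adj (H10.sig F q) (hermForm n F q) a))
    (hr : 2 ≤ a.rank) (hw : a + adj (H10.sig F q) (hermForm n F q) a ≠ 1 ∨ 3 ≤ a.rank) :
    GU n F q ⊓ specialLinear (Fin n) F ≤ M := by
  have hf : IsSesq (H10.sig F q) 1 (hermForm n F q) := H10.isSesq_herm
  obtain ⟨ω, hω⟩ := H10.exists_trace_eq_one F q
  have tv : ∀ v, ∃ θ, Vd (H10.sig F q) 1 (hermForm n F q) v θ := fun v => ⟨-(ω * hermForm n F q v v), by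
    rw [Vd, map_neg, map_mul, sigma_f hf, H10.sig_apply]
    linear_combination (-hermForm n F q v v) * hω⟩
  intro g hg
  have k2 : (⟨g, hg.1⟩ : GU n F q) ∈ H10.tvGU n F q := by
    rw [H10.tvGU_eq_ker (by omega)]; exact hg.2
  have k3 : H10.tvGU n F q ≤ M.comap (GU n F q).subtype := by
    rw [H10.tvGU, Subgroup.closure_le]
    rintro t ⟨v, c, hv, ht⟩
    have e : ((t : GL (Fin n) F) : Matrix (Fin n) (Fin n) F) = 1 + c • br (hermForm n F q) v v :=
      matrix_ext_mulVec fun x => by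
        rw [add_mulVec, one_mulVec, smul_mulVec, br_mulVec hf, smul_smul, ← H10.ut_mulVec, ← ht]
    refine mem_of_ms (G := M) ?_
    rw [Subgroup.coe_subtype, e]
    by_cases hv0 : v = 0
    · rw [hv0, br_zero_left, smul_zero, add_zero]; exact ms_one
    · have h4 := (H10.isIsom_ut_iff hv0).1 (ht ▸ H10.gm_isIsom t)
      refine H94.tg_ses hf hM tv hω P h1 h2 hr hw hv ?_
      rw [hv] at h4
      rw [H10.sig_apply]
      linear_combination h4
  exact k3 k2

theorem gen_sp {f : (ι → F) → (ι → F) → F} (hf : IsSesq (RingEquiv.refl F) (-1) f)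
    (h0 : (2 : F) ≠ 0) {M : Subgroup (GL ι F)} (hM : M ≤ Isom (RingEquiv.refl F) f)
    {a : Matrix ι ι F} (P : PD (RingEquiv.refl F) f a) (h1 : FullQ (RingEquiv.refl F) f M a)
    (h2 : FullQ (RingEquiv.refl F) f M (adj (RingEquiv.refl F) f a))
    (hr : 2 ≤ a.rank) (hw : a + adj (RingEquiv.refl F) f a ≠ 1 ∨ 3 ≤ a.rank) :
    Isom (RingEquiv.refl F) f ≤ M := by
  have alt : ∀ v, f v v = 0 := fun v => by
    have := hf.herm v v
    simp only [RingEquiv.refl_apply] at this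
    exact (mul_eq_zero.1 (show 2 * f v v = 0 by linear_combination this)).resolve_left h0
  have tv : ∀ v, ∃ θ, Vd (RingEquiv.refl F) (-1) f v θ := fun v => ⟨0, by simp [Vd, alt]⟩
  let B : (ι → F) →ₗ[F] (ι → F) →ₗ[F] F := LinearMap.mk₂ F (fun x y => f y x)
    (fun x x' y => hf.add_right y x x') (fun c x y => hf.smul_right c y x)
    (fun x y y' => hf.add_left y y' x) (fun c x y => hf.smul_left c y x)
  have key := H27.iso_le_of_alt (B := B) alt (fun x hx => hf.eq_zero_of_right hx)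
    (M.map (H27.toLE ι F : GL ι F →* _)) fun v c => by
      obtain ⟨g, hg, e⟩ := mem_matrixSet.1 (H94.tg_ses hf hM tv (ω := 2⁻¹) (by
        simp only [RingEquiv.refl_apply]; field_simp; norm_num) P h1 h2 hr hw (alt v) (θ := c)
        (by simp))
      exact ⟨H27.toLE ι F g, ⟨g, hg, rfl⟩, fun x => by
        rw [H27.toLE_apply, e, add_mulVec, one_mulVec, smul_mulVec, br_mulVec hf, smul_smul]
        rfl⟩
  intro g hg
  obtain ⟨k, hk, e⟩ := key (x := H27.toLE ι F g) fun x y => hg y x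
  rwa [← (H27.toLE ι F).injective e]

theorem gen_om [Finite F] {Q : (ι → F) → F} (hQ : IsNondegenerateQuadraticForm Q)
    (hn : 5 ≤ Fintype.card ι) {M : Subgroup (GL ι F)} (hM : M ≤ isometryGroup F Q)
    {a : Matrix ι ι F} (P : PD (RingEquiv.refl F) (QuadraticMap.polar Q) a)
    (hs : ∀ v, Q (a *ᵥ v) = 0)
    (hs' : ∀ v, Q (adj (RingEquiv.refl F) (QuadraticMap.polar Q) a *ᵥ v) = 0)
    (h1 : FullQ (RingEquiv.refl F) (QuadraticMap.polar Q) M a)
    (h2 : FullQ (RingEquiv.refl F) (QuadraticMap.polar Q) M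
      (adj (RingEquiv.refl F) (QuadraticMap.polar Q) a))
    (hr : 2 ≤ a.rank) (hw : a + adj (RingEquiv.refl F) (QuadraticMap.polar Q) a ≠ 1 ∨ 3 ≤ a.rank) :
    omegaGL Q ≤ M := by
  obtain ⟨Q, rfl, hN⟩ := H11.exists_qf hQ
  have hf := hN.sesq
  refine hN.omega_le_of_eich hn fun u v hu huv => mem_of_ms ?_
  have := (H94.tg_vs_quad hf hM).all P (by omega) hw hs hs' (H94.tg_rad_quad hf hM P hs h1)
    (fun u v hu hv => H94.tg_rad_quad hf hM (H94.tg_pd_adj hf P) hs' h2 u v hu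
      (by rwa [hf.adj_adj])) hu (z := -v) (by rw [hf.neg_left, hf.eq_zero_comm.1 huv, neg_zero])
    (-Q v) (by simp only [QuadraticMap.map_neg])
  convert this using 1
  refine matrix_ext_mulVec fun x => ?_
  rw [H11.toGL_mulVec, H11.ap_eich, elm_mulVec hf, hf.neg_right]
  module

end Cfsg.Agent.H9
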