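import Cfsg.Agent.H9.TCl
import Cfsg.Agent.H11.Finite

/-! Geometry of an active orthogonal factor. -/

set_option autoImplicit false
set_option linter.unusedSectionVars false
set_option linter.unusedVariables false
set_option linter.unusedSimpArgs false

namespace Cfsg.Agent.H9

open scoped MatrixGroups Matrix
open Matrix Cfsg.Geo Cfsg.Agent.H98

universe u

variable {ι β : Type} [Fintype ι] [DecidableEq ι] [Fintype β] [DecidableEq β] {F : Type u} [Field F]

variable [Finite F] {f : (β → F) → (β → F) → F} {G : Subgroup (GL β F)}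

namespace GO

variable (hf : IsSesq (RingEquiv.refl F) 1 f) (h2 : (2 : F) ≠ 0)
include hf

theorem sym (u v : β → F) : f u v = f v u := by rw [hf.herm]; simp

theorem smul_r (c : F) (u v : β → F) : f u (c • v) = c * f u v := hf.smul_right c u v

/-- the orthogonal complement of two vectors -/
def Wp (x y : β → F) : Submodule F (β → F) where
  carrier := {w | f w x = 0 ∧ f w y = 0}
  add_mem' := fun h h' => ⟨by rw [hf.add_left, h.1, h'.1, add_zero], by rw [hf.add_left, h.2, h'.2, add_zero]⟩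
  zero_mem' := ⟨hf.zero_left _, hf.zero_left _⟩
  smul_mem' := fun c w h => ⟨by rw [hf.smul_left, h.1, mul_zero], by rw [hf.smul_left, h.2, mul_zero]⟩

theorem hp_symm {x y : β → F} (H : HP f x y) : HP f y x := ⟨H.yy, H.xx, by rw [sym hf, H.xy]⟩

theorem decomp {x y : β → F} (H : HP f x y) (w : β → F) :
    ∃ w0, f w0 x = 0 ∧ f w0 y = 0 ∧ w = w0 + f w y • x + f w x • y :=
  ⟨_, (perp_part hf H w).1, (perp_part hf H w).2, by module⟩

theorem elm_fix {u z w : β → F} (θ : F) (h1 : f w u = 0) (h2 : f w z = 0) :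
    elm f 1 u z θ *ᵥ w = w := by rw [elm_mulVec hf, h1, h2]; simp

include h2

theorem vd (v : β → F) : Vd (RingEquiv.refl F) 1 f v (-f v v / 2) := by
  simp only [Vd, RingEquiv.refl_apply]; field_simp; ring

theorem tv (v : β → F) : ∃ θ, Vd (RingEquiv.refl F) 1 f v θ := ⟨_, vd hf h2 v⟩

theorem nonsing {v w : β → F} (h : f w v ≠ 0) :
    ∃ z, f z z ≠ 0 ∧ ∀ t, f v t = 0 → f w t = 0 → f z t = 0 := by
  by_cases h1 : f v v = 0
  · by_cases h3 : f w w = 0
    · refine ⟨v + w, ?_, fun t a b => by rw [hf.add_left, a, b, add_zero]⟩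
      rw [hf.add_left, hf.add_right, hf.add_right, h1, h3, sym hf v w, zero_add, add_zero, ← two_mul]
      exact mul_ne_zero h2 h
    · exact ⟨w, h3, fun t _ b => b⟩
  · exact ⟨v, h1, fun t a _ => a⟩

theorem exists_sing {m : ℕ} (hm : m + 2 < Fintype.card β) (s : Fin m → β → F) :
    ∃ v, v ≠ 0 ∧ f v v = 0 ∧ ∀ i, f v (s i) = 0 := by
  obtain ⟨a, a0, ha⟩ := exists_perp hf (m := m) (by omega) s
  by_cases h1 : f a a = 0
  · exact ⟨a, a0, h1, ha⟩
  obtain ⟨b, b0, hb⟩ := exists_perp hf (m := m + 1) (by omega) (Fin.cons a s)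
  by_cases h3 : f b b = 0
  · exact ⟨b, b0, h3, fun i => hb i.succ⟩
  obtain ⟨c, c0, hc⟩ := exists_perp hf (m := m + 2) hm (Fin.cons b (Fin.cons a s))
  by_cases h4 : f c c = 0
  · exact ⟨c, c0, h4, fun i => hc i.succ.succ⟩
  obtain ⟨p, q, e⟩ := H11.exists_binary_eq h2 h1 h3 (-f c c)
  have ba : f b a = 0 := hb 0
  have cb : f c b = 0 := hc 0
  have ca : f c a = 0 := hc 1
  refine ⟨p • a + q • b + c, fun h => h4 ?_, ?_, fun i => ?_⟩
  · have := congrArg (fun t => f t c) h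
    simpa [hf.add_left, hf.smul_left, sym hf a c, sym hf b c, ca, cb, hf.zero_left] using this
  · simp only [hf.add_left, hf.add_right, hf.smul_left, smul_r hf, sym hf a c, sym hf b c,
      sym hf a b, ca, cb, ba]
    linear_combination e
  · have h5 : f b (s i) = 0 := hb i.succ
    have h6 : f c (s i) = 0 := hc i.succ.succ
    simp [hf.add_left, hf.smul_left, ha i, h5, h6]

theorem partner_W {x y v : β → F} (H : HP f x y) (hv : v ∈ Wp hf x y) (h0 : v ≠ 0)
    (hs : f v v = 0) : ∃ v' ∈ Wp hf x y, HP f v v' := by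
  obtain ⟨w, hw⟩ := exists_f_one' hf h0
  obtain ⟨w', a, b, c⟩ := H.exists_part hf w
  refine exists_partner_in hf (tv hf h2) hv (w := w') ⟨a, b⟩ hs ?_
  rw [sym hf, c v (by rw [sym hf, hv.1]) (by rw [sym hf, hv.2]), hw]; exact one_ne_zero

theorem exists_hp_W (hk : 5 ≤ Fintype.card β) {x y : β → F} (H : HP f x y) :
    ∃ u ∈ Wp hf x y, ∃ u' ∈ Wp hf x y, HP f u u' := by
  obtain ⟨u, h0, hs, hu⟩ := exists_sing hf h2 (m := 2) hk ![x, y]
  exact ⟨u, ⟨hu 0, hu 1⟩, partner_W hf h2 H ⟨hu 0, hu 1⟩ h0 hs⟩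

theorem exists_z (hk : 5 ≤ Fintype.card β) {x y u u' : β → F} (H : HP f x y) (H' : HP f u u')
    (hu : u ∈ Wp hf x y) (hu' : u' ∈ Wp hf x y) :
    ∃ z, f z z ≠ 0 ∧ f z x = 0 ∧ f z y = 0 ∧ f z u = 0 ∧ f z u' = 0 := by
  obtain ⟨v, w, ⟨a1, a2, a3, a4⟩, ⟨b1, b2, b3, b4⟩, e⟩ := exists_pair_perp4 hf hk H H'
    (by rw [sym hf, hu.1]) (by rw [sym hf, hu.2]) (by rw [sym hf, hu'.1]) (by rw [sym hf, hu'.2])
  obtain ⟨z, hz, h⟩ := nonsing hf h2 (v := v) (w := w) (by rw [e]; exact one_ne_zero)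
  exact ⟨z, hz, h x (by rw [sym hf, a1]) b1, h y (by rw [sym hf, a2]) b2,
    h u (by rw [sym hf, a3]) b3, h u' (by rw [sym hf, a4]) b4⟩

omit hf

theorem exists_v (C : Cl (RingEquiv.refl F) 1 f G) {x y : β → F} (H : HP f x y) :
    ∃ v, f v x = 0 ∧ f v y = 0 ∧ f v v ≠ 0 := by
  obtain ⟨v, -, θ, a, b, c, d, -⟩ := C.th x trivial y trivial H
  refine ⟨v, a, b, fun h => mul_ne_zero h2 d ?_⟩
  simp only [Vd, RingEquiv.refl_apply, h] at c
  linear_combination c

theorem exists_w (C : Cl (RingEquiv.refl F) 1 f G) {x y v : β → F} (H : HP f x y) (hx : f v x = 0)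
    (hy : f v y = 0) (hv : f v v ≠ 0) {c : F} (hc : c ≠ 0) : ∃ g ∈ matrixSet G,
      g *ᵥ x = (-(2 / (c * c * f v v))) • y ∧ g *ᵥ y = (-(c * c * f v v / 2)) • x ∧
      ∀ w, f w x = 0 → f w y = 0 → g *ᵥ w = w - (2 * f w v / f v v) • v := by
  have hf := C.ses
  have m1 := C.el x (c • v) _ H.xx (by rw [hf.smul_left, hx, mul_zero]) (vd hf h2 _)
  have m2 := C.el y ((2 / (c * f v v)) • v) _ H.yy (by rw [hf.smul_left, hy, mul_zero]) (vd hf h2 _)
  have hyx := (hp_symm hf H).xy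
  have hx' : f x v = 0 := by rw [sym hf, hx]
  have hy' : f y v = 0 := by rw [sym hf, hy]
  refine ⟨_, ms_mul m1 (ms_mul m2 m1), ?_, ?_, fun w h1 h3 => ?_⟩ <;>
  · simp only [← mulVec_mulVec, elm_mulVec hf, hf.add_left, hf.sub_left, hf.smul_left, smul_r hf,
      H.xx, H.yy, H.xy, hyx, hx, hy, hx', hy', *]
    match_scalars <;> field_simp <;> ring

end GO

open GO

theorem cl_o (hf : IsSesq (RingEquiv.refl F) 1 f) (h2 : (2 : F) ≠ 0) (hk : 3 ≤ Fintype.card β)
    (h1 : G ≤ Isom (RingEquiv.refl F) f) (hel : ∀ x v θ, f x x = 0 → f v x = 0 →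
      Vd (RingEquiv.refl F) 1 f v θ → elm f 1 x v θ ∈ matrixSet G) :
    Cl (RingEquiv.refl F) 1 f G where
  ses := hf
  le := h1
  tv := GO.tv hf h2
  el := hel
  th := fun x _ y _ H => by
    obtain ⟨v, w, a1, a2, b1, b2, e⟩ := exists_pair_perp hf hk H
    obtain ⟨z, hz, h⟩ := nonsing hf h2 (v := v) (w := w) (by rw [e]; exact one_ne_zero)
    exact ⟨z, trivial, _, h x (by rw [sym hf, a1]) b1, h y (by rw [sym hf, a2]) b2, vd hf h2 z,
      div_ne_zero (neg_ne_zero.2 hz) h2, Or.inr ⟨h2, hz⟩⟩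
  ex := by
    obtain ⟨v, h0, hs, -⟩ := exists_sing hf h2 (m := 0) hk ![]
    exact ⟨v, h0, hs⟩

theorem w2_o (hf : IsSesq (RingEquiv.refl F) 1 f) (h2 : (2 : F) ≠ 0) (hk : 5 ≤ Fintype.card β) :
    W2 f := fun x y H => by
  obtain ⟨u, hu, u', hu', H'⟩ := exists_hp_W hf h2 hk H
  exact ⟨u, u', H', by rw [sym hf, hu.1], by rw [sym hf, hu.2], by rw [sym hf, hu'.1],
    by rw [sym hf, hu'.2]⟩

theorem tor_o (C : Cl (RingEquiv.refl F) 1 f G) (h2 : (2 : F) ≠ 0) {x y : β → F} (H : HP f x y)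
    {l : F} (hl : l ≠ 0) : ∃ h ∈ G, (h : Matrix β β F) *ᵥ x = (l * l) • x ∧
      (h : Matrix β β F) *ᵥ y = (l * l)⁻¹ • y ∧
      ∀ w, f w x = 0 → f w y = 0 → (h : Matrix β β F) *ᵥ w = w := by
  have hf := C.ses
  obtain ⟨v, hx, hy, hv⟩ := exists_v h2 C H
  obtain ⟨g, hg, a1, a2, a3⟩ := exists_w h2 C H hx hy hv hl
  obtain ⟨g', hg', b1, b2, b3⟩ := exists_w h2 C H hx hy hv one_ne_zero
  obtain ⟨h, hh, e⟩ := mem_matrixSet.1 (ms_mul hg hg')
  refine ⟨h, hh, ?_, ?_, fun w h1 h3 => ?_⟩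
  · rw [e, ← mulVec_mulVec, b1, mulVec_smul, a2, smul_smul]; congr 1; field_simp
  · rw [e, ← mulVec_mulVec, b2, mulVec_smul, a1, smul_smul]; congr 1; field_simp
  · rw [e, ← mulVec_mulVec, b3 w h1 h3, mulVec_sub, mulVec_smul, a3 w h1 h3, a3 v hx hy]
    match_scalars <;> field_simp
    ring

theorem GO.eq_zero_of_three (hf : IsSesq (RingEquiv.refl F) 1 f) (hk : Fintype.card β ≤ 3)
    {x y v w : β → F} (H : HP f x y) (hx : f v x = 0) (hy : f v y = 0) (hv : f v v ≠ 0)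
    (h1 : f w x = 0) (h3 : f w y = 0) (h4 : f w v = 0) : w = 0 := by
  by_contra h0
  have : LinearIndependent F ![x, y, v, w] := by
    rw [Fintype.linearIndependent_iff]
    intro g hg
    simp only [Fin.sum_univ_four, Matrix.cons_val] at hg
    have e1 := congrArg (fun t => f t y) hg
    have e2 := congrArg (fun t => f t x) hg
    have e3 := congrArg (fun t => f t v) hg
    simp only [hf.add_left, hf.smul_left, hf.zero_left, H.xx, H.yy, H.xy, (hp_symm hf H).xy, hx, hy,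
      h1, h3, h4, sym hf x v, sym hf y v, mul_zero, add_zero, zero_add, mul_one, mul_eq_zero, hv,
      or_false] at e1 e2 e3
    rw [e1, e2, e3] at hg
    have e4 : g 3 = 0 := by simpa [h0] using hg
    intro i; fin_cases i <;> assumption
  have := this.fintype_card_le_finrank
  simp at this
  omega

theorem GO.exists_sq_ne (hq : 4 ≤ Nat.card F) (c : F) : ∃ t : F, t ≠ 0 ∧ t * t ≠ c := by
  by_contra h
  push Not at h
  cases nonempty_fintype F
  have := (FiniteField.forall_pow_eq_one_iff F 2).1 fun t => Units.ext (by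
    simpa [pow_two] using (h t t.ne_zero).trans (h 1 one_ne_zero).symm)
  rw [Nat.card_eq_fintype_card] at hq
  have := Nat.le_of_dvd two_pos this
  omega

theorem frg_o (C : Cl (RingEquiv.refl F) 1 f G) (h2 : (2 : F) ≠ 0)
    (hr : Fintype.card β = 4 → ∀ z, f z z ≠ 0 → rfz f z ∈ matrixSet G)
    (hq : Fintype.card β = 4 → 4 ≤ Nat.card F) {x y : β → F}
    (H : HP f x y) : FRG G x (dl f y) (pr f 1 x y) := by
  intro R h0 h1 w χ hw hχ hχ'
  have hf := C.ses
  obtain ⟨v, rfl⟩ := exists_dl hf χ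
  have hvx : f v x = 0 := by rw [sym hf, ← dl_dot hf, hχ]
  have hvy : f v y = 0 := by rw [sym hf, H.perp_of_pr hf hχ']
  have hwx : f w x = 0 := hw ▸ H.pr_perp hf w
  have hs : ∀ {g} {c : F}, g ∈ matrixSet G → c ≠ 0 → g *ᵥ x = c • x → c⁻¹ • (g * pr f 1 x y) ∈ R := by
    rintro _ c ⟨g, hg, rfl⟩ hc e
    exact h1 g hg c hc e (pr_stab hf (C.le hg) hc H e)
  have hs1 : ∀ {g}, g ∈ matrixSet G → g *ᵥ x = x → (g - 1) * pr f 1 x y ∈ R := fun hg e => by
    have a := hs hg one_ne_zero (by rwa [one_smul])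
    have b := hs ms_one one_ne_zero (by simp)
    rw [inv_one, one_smul] at a b
    rw [sub_mul]; exact sub_mem a b
  suffices key : ∀ a ∈ Wp hf x y, ∀ b ∈ Wp hf x y, br f a b ∈ R by
    obtain ⟨w0, a, b, e⟩ := decomp hf H w
    rw [hwx, zero_smul, add_zero] at e
    show br f w v ∈ R
    rw [e, br_add_left, br_smul_left]
    refine add_mem (key w0 ⟨a, b⟩ v ⟨hvx, hvy⟩) ?_
    have := h0 (f w y • br f x v)
    rwa [mul_smul_comm, vmv_mul_br, dl_dot hf, H.xy, one_smul] at this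
  have sq : ∀ {m : Matrix β β F} {n : F}, n ≠ 0 → (∀ t : F, (t * t * n) • m ∈ R) →
      ∀ c : F, c • m ∈ R := fun {m n} hn h c => by
    obtain ⟨s, t, e⟩ := H11.exists_binary_eq h2 hn hn c
    rw [← e, add_smul]; exact add_mem (h s) (h t)
  by_cases hk : 5 ≤ Fintype.card β
  · obtain ⟨u, hu, u', hu', H'⟩ := exists_hp_W hf h2 hk H
    intro a ha b hb
    refine br_mem_of_two hf (D := R.toNonUnitalSubring) (S := {w | w ∈ Wp hf x y ∧ f w w = 0})
      (fun z hz => ?_) (fun z hz z' hz' z0 z0' => ?_) (mem_span_iso hf C.tv hu hu' H' ha)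
      (mem_span_iso hf C.tv hu hu' H' hb)
    · by_cases z0 : z = 0
      · intro c; rw [z0, br_zero_left, smul_zero]; exact zero_mem _
      obtain ⟨z', hz', Hz⟩ := partner_W hf h2 H hz.1 z0 hz.2
      obtain ⟨s, s0, s1, s2, s3, -⟩ := exists_z hf h2 hk H Hz hz.1 hz'
      refine sq (neg_ne_zero.2 s0) fun t => ?_
      have a1 : f (t • s) z = 0 := by rw [hf.smul_left, s3, mul_zero]
      have a2 := hs1 (C.el z (t • s) _ hz.2 a1 (vd hf h2 _)) (elm_fix hf _ (by rw [sym hf, hz.1.1])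
        (by rw [smul_r hf, sym hf, s1, mul_zero]))
      have a3 : ∀ θ, (elm f 1 z (t • s) θ - 1) * pr f 1 x y = elm f 1 z (t • s) θ - 1 := fun θ => by
        have b1 : f y z = 0 := by rw [sym hf, hz.1.2]
        have b2 : f y (t • s) = 0 := by rw [smul_r hf, sym hf, s2, mul_zero]
        rw [show elm f 1 z (t • s) θ - 1 = br f z (t • s) - br f (t • s) z + θ • br f z z by
          rw [elm, one_smul]; abel, add_mul, sub_mul, smul_mul_assoc, br_pr hf b1, br_pr hf b1,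
          br_pr hf b2]
      rw [a3] at a2
      have a4 := mul_mem a2 a2
      rw [elm_sub_one_sq hf hz.2 a1, hf.smul_left, smul_r hf] at a4
      convert a4 using 2; ring
    · obtain ⟨t, ht, t0, t1, t2⟩ := two_in hf C.tv (U := Wp hf x y) (fun z => by
        obtain ⟨z', a, b, c⟩ := H.exists_part hf z
        exact ⟨z', ⟨a, b⟩, fun w hw => c w (by rw [sym hf, hw.1]) (by rw [sym hf, hw.2])⟩)
        (fun p hp p' hp' Hp => by
          obtain ⟨s, s0, s1, s2, s3, s4⟩ := exists_z hf h2 hk H Hp hp hp'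
          exact ⟨s, ⟨s1, s2⟩, _, s3, s4, vd hf h2 s, div_ne_zero (neg_ne_zero.2 s0) h2,
            Or.inr ⟨h2, s0⟩⟩) hz.1 hz'.1 hz.2 hz'.2 z0 z0'
      exact ⟨t, ⟨ht, t0⟩, t1, by rwa [sym hf]⟩
  obtain ⟨s, sx, sy, s0⟩ := exists_v h2 C H
  have hπ : ∀ c : F, c • (pr f 1 x y - br f x y) ∈ R := sq one_ne_zero fun t => by
    by_cases t0 : t = 0
    · rw [t0]; simp
    obtain ⟨h, hh, e1, -, e3⟩ := tor_o C h2 H (inv_ne_zero t0)
    have a := sub_mem (hs (coe_mem_matrixSet hh) (mul_ne_zero (inv_ne_zero t0) (inv_ne_zero t0)) e1)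
      (h0 1)
    convert a using 1
    refine matrix_ext_mulVec fun w => ?_
    obtain ⟨w0, a, b, e⟩ := decomp hf H w
    have e4 : pr f 1 x y *ᵥ w = w0 + f w y • x := by
      rw [pr_mulVec hf, one_mul]; conv_lhs => rw [e]
      conv_rhs => rw [← add_sub_cancel_right (w0 + f w y • x) (f w x • y)]
      rw [← e]
    simp only [smul_mulVec, sub_mulVec, ← mulVec_mulVec, e4, mulVec_add, mulVec_smul, e1, e3 w0 a b,
      br_mulVec hf, one_mulVec, vmv_mulVec, dl_dot hf]
    match_scalars <;> field_simp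
    ring
  have hπ' : ∀ z ∈ Wp hf x y, ∀ b, (pr f 1 x y - br f x y) * br f z b = br f z b := fun z hz b => by
    rw [mul_br, sub_mulVec, pr_fix hf hz.1, br_mulVec hf, hz.2, zero_smul, sub_zero]
  have span : ∀ a ∈ Wp hf x y, a ∈ Submodule.span F {w | w ∈ Wp hf x y ∧ f w w ≠ 0} := by
    intro a ha
    have hs' : s ∈ Wp hf x y := ⟨sx, sy⟩
    have ms : s ∈ Submodule.span F {w | w ∈ Wp hf x y ∧ f w w ≠ 0} := Submodule.subset_span ⟨hs', s0⟩
    by_cases a0 : f a a = 0
    · by_cases a1 : f (a + s) (a + s) = 0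
      · have : f (a - s) (a - s) ≠ 0 := fun a2 => mul_ne_zero h2 s0 (by
          simp only [hf.add_left, hf.add_right, hf.sub_left, hf.sub_right, a0] at a1 a2
          linear_combination a1 + a2)
        simpa using add_mem (Submodule.subset_span (R := F)
          (s := {w | w ∈ Wp hf x y ∧ f w w ≠ 0}) ⟨sub_mem ha hs', this⟩) ms
      · simpa using sub_mem (Submodule.subset_span (R := F)
          (s := {w | w ∈ Wp hf x y ∧ f w w ≠ 0}) ⟨add_mem ha hs', a1⟩) ms
    · exact Submodule.subset_span ⟨ha, a0⟩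
  have three : Fintype.card β ≠ 4 → ∀ z ∈ Wp hf x y, f z z ≠ 0 → ∀ a ∈ Wp hf x y,
      a = (f a z / f z z) • z := fun h4 z hz z0 a ha => sub_eq_zero.1
    (eq_zero_of_three hf (by omega) H hz.1 hz.2 z0
      (by rw [hf.sub_left, hf.smul_left, ha.1, hz.1]; simp)
      (by rw [hf.sub_left, hf.smul_left, ha.2, hz.2]; simp)
      (by rw [hf.sub_left, hf.smul_left, div_mul_cancel₀ _ z0, sub_self]))
  intro a ha b hb
  refine br_mem_of_two hf (D := R.toNonUnitalSubring) (S := {w | w ∈ Wp hf x y ∧ f w w ≠ 0})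
    (fun z hz c => show _ ∈ R from ?_) (fun z hz z' hz' z0 z0' => ?_) (span a ha) (span b hb)
  · by_cases h4 : Fintype.card β = 4
    · have a1 := hs1 (hr h4 z hz.2) (by
        rw [rfz, sub_mulVec, one_mulVec, smul_mulVec, br_mulVec hf, sym hf x z, hz.1.1]; simp)
      rw [rfz, sub_sub_cancel_left, neg_mul, smul_mul_assoc, br_pr hf (by rw [sym hf, hz.1.2])] at a1
      have a2 := mul_mem (hπ (-(c * f z z / 2))) a1
      rw [mul_neg, smul_mul_assoc, mul_smul_comm, hπ' z hz.1, smul_smul, ← neg_smul] at a2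
      convert a2 using 2
      have := hz.2
      field_simp
    · convert hπ (c * f z z) using 1
      refine matrix_ext_mulVec fun w => ?_
      obtain ⟨w0, a, b, e⟩ := decomp hf H w
      have e4 : (pr f 1 x y - br f x y) *ᵥ w = w0 := by
        rw [sub_mulVec, pr_mulVec hf, br_mulVec hf, one_mul, sub_sub, sub_eq_iff_eq_add, add_comm (_ • y),
          ← add_assoc]
        exact e
      have e5 : f w z = f w0 z := by
        conv_lhs => rw [e]
        simp [hf.add_left, hf.smul_left, sym hf x z, sym hf y z, hz.1.1, hz.1.2]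
      rw [smul_mulVec, smul_mulVec, e4, br_mulVec hf, e5]
      conv_rhs => rw [three h4 z hz.1 hz.2 w0 ⟨a, b⟩]
      have := hz.2
      match_scalars; field_simp
  · by_cases hzz : f z' z = 0
    swap; · exact ⟨z, hz, hz.2, hzz⟩
    have h4 : Fintype.card β = 4 := by
      by_contra h4
      refine z0' ?_
      rw [three h4 z hz.1 hz.2 z' hz'.1, hzz]; simp
    obtain ⟨t, t0, ht⟩ := exists_sq_ne (hq h4) (-f z z / f z' z')
    have hzz' : f z z' = 0 := by rw [sym hf, hzz]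
    refine ⟨z + t • z', ⟨add_mem hz.1 (Submodule.smul_mem _ _ hz'.1), fun e => ht ?_⟩, ?_, ?_⟩
    · simp only [hf.add_left, hf.add_right, hf.smul_left, smul_r hf, hzz, hzz'] at e
      rw [eq_div_iff hz'.2]; linear_combination e
    · simpa [hf.add_left, hf.smul_left, hzz] using hz.2
    · simpa [hf.add_right, smul_r hf, hzz, t0] using hz'.2

theorem geoL_o (C : Cl (RingEquiv.refl F) 1 f G) (h2 : (2 : F) ≠ 0)
    (h : 5 ≤ Fintype.card β ∨ 7 ≤ Nat.card F) : GeoL G (IsoPt f) := by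
  have hf := C.ses
  refine C.geoL_of fun x hx => ?_
  obtain ⟨y, H⟩ := C.partner hx.1 hx.2
  rcases h with hk | hq
  · obtain ⟨u, hu, u', hu', H'⟩ := exists_hp_W hf h2 hk H
    obtain ⟨z, z0, z1, -, z3, z4⟩ := exists_z hf h2 hk H H' hu hu'
    have key : ∀ u, f u u = 0 → f u x = 0 → f z u = 0 → br f u u ∈ Algebra.adjoin F (StabS G x) := by
      intro u a b c
      have k := sub_mem (Algebra.subset_adjoin (R := F) (s := StabS G x)
        ⟨C.el u z _ a c (vd hf h2 z), 1, by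
          rw [one_smul, elm_fix hf _ (by rw [sym hf, b]) (by rw [sym hf, z1])]⟩) (one_mem _)
      have k2 := mul_mem k k
      rw [elm_sub_one_sq hf a c] at k2
      have : -(1 * f z z) ≠ 0 := by simpa using z0
      simpa only [inv_smul_smul₀ this] using Subalgebra.smul_mem _ k2 (-(1 * f z z))⁻¹
    exact ⟨u, u', _, _, ⟨H'.ne hf, H'.xx⟩, ⟨H'.ne' hf, H'.yy⟩, by rw [H'.xy]; exact one_ne_zero,
      dl_ne_zero hf (H'.ne hf), dl_ne_zero hf (H'.ne' hf), key u H'.xx hu.1 z3, key u' H'.yy hu'.1 z4⟩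
  · obtain ⟨l, hl⟩ : ∃ l : Fˣ, l ^ 4 ≠ 1 := by
      by_contra h
      push Not at h
      cases nonempty_fintype F
      have := Nat.le_of_dvd (by norm_num) ((FiniteField.forall_pow_eq_one_iff F 4).1 h)
      rw [Nat.card_eq_fintype_card] at hq
      omega
    have l0 := l.ne_zero
    have l4 : (l : F) * l * (l * l) ≠ 1 := fun e => hl (Units.ext (by
      rw [Units.val_pow_eq_pow_val, Units.val_one, ← e]; ring))
    obtain ⟨g, hg, e1, e2, e3⟩ := tor_o C h2 H l0
    have m : (g : Matrix β β F) ∈ Algebra.adjoin F (StabS G x) :=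
      Algebra.subset_adjoin ⟨coe_mem_matrixSet hg, _, e1⟩
    have k := mul_mem (sub_mem m (Subalgebra.smul_mem _ (one_mem _) ((l : F) * l))) (sub_mem m (one_mem _))
    have c0 : (((l : F) * l)⁻¹ - l * l) * (((l : F) * l)⁻¹ - 1) ≠ 0 := by
      refine mul_ne_zero (sub_ne_zero.2 fun e => l4 ?_) (sub_ne_zero.2 fun e => l4 ?_)
      · conv_lhs => congr; rw [← e]
        exact inv_mul_cancel₀ (mul_ne_zero l0 l0)
      · rw [inv_eq_one.1 e, mul_one]
    refine ⟨x, y, _, ((((l : F) * l)⁻¹ - l * l) * (((l : F) * l)⁻¹ - 1)) • dl f x, hx,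
      ⟨H.ne' hf, H.yy⟩, by rw [H.xy]; exact one_ne_zero, dl_ne_zero hf hx.1,
      smul_ne_zero c0 (dl_ne_zero hf hx.1), C.br_mem_stab hx.1 hx.2, ?_⟩
    convert k using 1
    refine matrix_ext_mulVec fun w => ?_
    obtain ⟨w0, a, b, e⟩ := decomp hf H w
    rw [vmv_mulVec, smul_dotProduct, dl_dot hf]
    conv_rhs => rw [e]
    simp only [smul_mulVec, sub_mulVec, ← mulVec_mulVec, mulVec_add, mulVec_sub, mulVec_smul, e1, e2,
      e3 w0 a b, one_mulVec, smul_eq_mul]
    module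

namespace GO

theorem N_sq (hf : IsSesq (RingEquiv.refl F) 1 f) {u v : β → F} (hu : f u u = 0) (hv : f v v = 0)
    (h : f v u = 0) : (br f u v - br f v u) * (br f u v - br f v u) = 0 := by
  simp [mul_sub, sub_mul, br_mul_br hf, hu, hv, h, sym hf u v]

theorem elm_N (u v : β → F) : elm f 1 u v 0 = 1 + (br f u v - br f v u) := by
  rw [elm, one_smul, zero_smul, add_zero, add_sub_assoc]

theorem root_mem (C : Cl (RingEquiv.refl F) 1 f G) {u v : β → F} (hu : f u u = 0) (hv : f v v = 0)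
    (h : f v u = 0) : 1 + (br f u v - br f v u) ∈ matrixSet G :=
  elm_N u v ▸ C.el u v 0 hu h (by simp [Vd, hv])

theorem not_smul (hf : IsSesq (RingEquiv.refl F) 1 f) {u u' v : β → F} (H : HP f u u')
    (h : f v u' = 0) (h0 : v ≠ 0) (a : F) : v ≠ a • u := by
  rintro rfl
  rw [hf.smul_left, H.xy, mul_one] at h
  exact h0 (by rw [h, zero_smul])

theorem weyl (hf : IsSesq (RingEquiv.refl F) 1 f) {u u' v v' : β → F} (H : HP f u u')
    (H' : HP f v v') (hv : v ∈ Wp hf u u') (hv' : v' ∈ Wp hf u u') :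
    (elm f 1 u v 0 * (elm f 1 u' v' 0 * elm f 1 u v 0)) *ᵥ u = -v' ∧
    (elm f 1 u v 0 * (elm f 1 u' v' 0 * elm f 1 u v 0)) *ᵥ v = u' ∧
    (elm f 1 u v 0 * (elm f 1 u' v' 0 * elm f 1 u v 0)) *ᵥ u' = -v ∧
    (elm f 1 u v 0 * (elm f 1 u' v' 0 * elm f 1 u v 0)) *ᵥ v' = u := by
  have a1 : elm f 1 u v 0 *ᵥ u = u := elm_fix hf _ H.xx (by rw [sym hf, hv.1])
  have a2 : elm f 1 u v 0 *ᵥ v = v := elm_fix hf _ hv.1 H'.xx
  have a3 : elm f 1 u v 0 *ᵥ u' = u' - v := by
    simp [elm_mulVec hf, sym hf u' v, hv.2, (hp_symm hf H).xy]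
  have a4 : elm f 1 u v 0 *ᵥ v' = v' + u := by simp [elm_mulVec hf, hv'.1, (hp_symm hf H').xy]
  have b1 : elm f 1 u' v' 0 *ᵥ u' = u' := elm_fix hf _ H.yy (by rw [sym hf, hv'.2])
  have b2 : elm f 1 u' v' 0 *ᵥ v' = v' := elm_fix hf _ hv'.2 H'.yy
  have b3 : elm f 1 u' v' 0 *ᵥ u = u - v' := by simp [elm_mulVec hf, sym hf u v', hv'.1, H.xy]
  have b4 : elm f 1 u' v' 0 *ᵥ v = v + u' := by simp [elm_mulVec hf, hv.2, H'.xy]
  refine ⟨?_, ?_, ?_, ?_⟩ <;>
  · simp only [← mulVec_mulVec, mulVec_add, mulVec_sub, a1, a2, a3, a4, b1, b2, b3, b4]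
    abel

theorem exists_nrm (C : Cl (RingEquiv.refl F) 1 f G) (h2 : (2 : F) ≠ 0)
    {Ψ : Matrix β β F →ₗ[F] Matrix β β F} (hN : NE (RootL f G) Ψ) {u v : β → F} (hu : f u u = 0)
    (hv : f v v = 0) (h : f v u = 0) (h0 : u ≠ 0) (h1 : ∀ a : F, v ≠ a • u) {s : Matrix β β F}
    (hs : s.trace = 0) (e1 : (br f u v - br f v u) * s = 0) (e2 : s * (br f u v - br f v u) = 0) :
    ∃ b, Ψ s = (br f u v - br f v u) * b * (br f u v - br f v u) := by
  have hf := C.ses
  cases nonempty_fintype F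
  set N := br f u v - br f v u with hNd
  have NN : N * N = 0 := N_sq hf hu hv h
  have inv : ∀ a b : F, (1 + a • N) * (1 + b • N) = 1 + (a + b) • N := fun a b => by
    rw [add_mul, mul_add, mul_add, smul_mul_smul_comm, NN]; simp [add_smul]; abel
  let ε : F → GL β F := fun a => mkG (1 + a • N) (1 + (-a) • N) (by rw [inv]; simp)
  have hε : ∀ a : F, a • N = br f u (a • v) - br f (a • v) u := fun a => by
    rw [br_smul_left, br_smul_right hf, hNd, smul_sub]; rfl
  have cjε : ∀ a b, cj (ε a) b = b + a • (N * b - b * N) - (a * a) • (N * b * N) := fun a b => by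
    simp only [cj_apply, ε, coe_mkG, coe_mkG_inv, add_mul, mul_add, one_mul, mul_one, smul_mul_assoc,
      mul_smul_comm]
    module
  have root : ∀ a : F, a ≠ 0 → ε a ∈ RootL f G := fun a ha => by
    have a1 : f (a • v) (a • v) = 0 := by rw [hf.smul_left, smul_r hf, hv]; simp
    have a2 : f (a • v) u = 0 := by rw [hf.smul_left, h, mul_zero]
    exact ⟨mem_of_ms (by rw [coe_mkG, hε]; exact root_mem C hu a1 a2), u, a • v, hu, a1, a2, h0,
      fun c e => h1 (a⁻¹ * c) (by rw [mul_smul, ← e, inv_smul_smul₀ ha]), by rw [coe_mkG, hε]⟩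
  obtain ⟨w, hw⟩ := hN F ε ⟨fun a b => Units.ext (inv a b).symm, root, 1, one_ne_zero⟩ s hs
    fun a => by rw [cjε, e1, e2]; simp
  refine ⟨(-∑ a : F, a * a) • w, ?_⟩
  have q3 : 1 < Fintype.card F - 1 := by
    have a1 := Nat.odd_iff.1 (H11.two_ne_zero_iff_odd.1 h2)
    have a2 : 1 < Fintype.card F := Fintype.one_lt_card
    omega
  have s1 := FiniteField.sum_pow_lt_card_sub_one F 1 q3
  simp only [pow_one] at s1
  rw [hw, nrm_apply]
  simp only [cjε, Finset.sum_sub_distrib, Finset.sum_add_distrib, ← Finset.sum_smul, s1,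
    Finset.sum_const, Finset.card_univ, ← Nat.cast_smul_eq_nsmul F, FiniteField.cast_card_eq_zero,
    zero_smul, mul_smul_comm, smul_mul_assoc]
  module

end GO

theorem geoD_o (C : Cl (RingEquiv.refl F) 1 f G) (h2 : (2 : F) ≠ 0) (hk : 5 ≤ Fintype.card β) :
    GeoD G (RootL f G) := by
  intro Ψ hE hN s hs
  have hf := C.ses
  refine C.mem_of_traceless (Z := LinearMap.ker Ψ) (fun u t hu ht => ?_) hs
  by_cases u0 : u = 0
  · rw [u0, br_zero_left]; exact zero_mem _
  obtain ⟨u', H⟩ := C.partner u0 hu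
  let T : Submodule F (β → F) :=
    { carrier := {t | Ψ (br f u t) = 0}
      add_mem' := fun {a b} ha hb => by
        show Ψ _ = 0
        rw [br_add_right hf, map_add, ha, hb, add_zero]
      zero_mem' := by show Ψ _ = 0; rw [br_zero_right hf, map_zero]
      smul_mem' := fun c a ha => by
        show Ψ _ = 0
        rw [br_smul_right hf, map_smul, ha, smul_zero] }
  have hT : ∀ g ∈ matrixSet G, g *ᵥ u = u → ∀ t ∈ T, g *ᵥ t ∈ T := by
    rintro _ ⟨g, hg, rfl⟩ e t ht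
    show Ψ _ = 0
    conv_lhs => rw [← e]
    rw [← cj_br hf (C.le hg), hE g hg, ht, map_zero]
  have key : ∀ v ∈ Wp hf u u', ∀ v' ∈ Wp hf u u', HP f v v' → u ∈ T ∧ v ∈ T := by
    intro v hv v' hv' H'
    obtain ⟨z, z0, z1, z2, z3, z4⟩ := exists_z hf h2 hk H H' hv hv'
    have hz : z ∈ T := by
      obtain ⟨b, hb⟩ := exists_nrm C h2 hN hu H'.xx hv.1 u0 (not_smul hf H hv.2 (H'.ne hf))
        (s := br f u z) (by rw [trace_br hf, sym hf, z1])
        (by simp [sub_mul, br_mul_br hf, hu, sym hf u v, hv.1])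
        (by simp [mul_sub, br_mul_br hf, sym hf u z, sym hf v z, z1, z3])
      have m1 := C.el u v 0 hu hv.1 (by simp [Vd, H'.xx])
      have m2 := C.el u' v' 0 H.yy hv'.2 (by simp [Vd, H'.yy])
      have m3 := ms_mul m1 (ms_mul m2 m1)
      obtain ⟨g, hg, e⟩ := mem_matrixSet.1 (ms_mul m3 m3)
      obtain ⟨r1, r2, r3, r4⟩ := weyl hf H H' hv hv'
      have r : (g : Matrix β β F) *ᵥ u = -u ∧ (g : Matrix β β F) *ᵥ v = -v ∧
          (g : Matrix β β F) *ᵥ z = z := by
        refine ⟨?_, ?_, ?_⟩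
        · rw [e, ← mulVec_mulVec, r1, mulVec_neg, r4]
        · rw [e, ← mulVec_mulVec, r2, r3]
        · simp only [e, ← mulVec_mulVec, elm_fix hf _ z1 z3, elm_fix hf _ z2 z4]
      have a1 := hE g hg (br f u z)
      rw [cj_br hf (C.le hg), r.1, r.2.2, br_neg_left, map_neg, hb] at a1
      have a2 : ∀ b, cj g ((br f u v - br f v u) * b * (br f u v - br f v u)) =
          (br f u v - br f v u) * b * (br f u v - br f v u) := fun b => by
        simp only [sub_mul, mul_sub, mul_assoc, mul_br, br_mul_br hf, map_sub, map_smul,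
          cj_br hf (C.le hg), r.1, r.2.1, br_neg_left, br_neg_right hf, neg_neg]
      rw [a2, ← hb, neg_eq_iff_add_eq_zero, ← two_smul F] at a1
      exact (smul_eq_zero.1 a1).resolve_left h2
    have k : ∀ p, f p p = 0 → f z p = 0 → f u p = 0 → p ∈ T := fun p a b c => by
      have := sub_mem (hT _ (C.el p z _ a b (vd hf h2 z))
        (elm_fix hf _ c (by rw [sym hf, z1])) z hz) hz
      rw [elm_mulVec hf, b] at this
      simpa [z0] using T.smul_mem (f z z)⁻¹ this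
    exact ⟨k u hu z1 hu, k v H'.xx z3 (by rw [sym hf, hv.1])⟩
  obtain ⟨v, hv, v', hv', H'⟩ := exists_hp_W hf h2 hk H
  obtain ⟨t0, a, b, e⟩ := decomp hf H t
  rw [sym hf t u, ht, zero_smul, add_zero] at e
  show t ∈ T
  rw [e]
  refine add_mem ((Submodule.span_le.2 fun p hp => ?_) (mem_span_iso hf C.tv hv hv' H' ⟨a, b⟩))
    (T.smul_mem _ (key v hv v' hv' H').1)
  by_cases p0 : p = 0
  · rw [p0]; exact zero_mem _
  obtain ⟨p', hp', Hp⟩ := partner_W hf h2 H hp.1 p0 hp.2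
  exact (key p hp.1 p' hp' Hp).2

theorem roots_L [Nonempty ι] [Nonempty β] {φ : Matrix β β F →ₐ[F] Matrix ι ι F}
    {M : Subgroup (GL ι F)} {ε : F} {f' : (ι → F) → (ι → F) → F}
    (A : Amb φ M G (RingEquiv.refl F) ε f' 1 f) (h2 : (2 : F) ≠ 0) (hk : 5 ≤ Fintype.card β)
    (L : ActL φ M G (IsoPt f)) (hG : GeoL G (IsoPt f)) : Roots φ M G (RootL f G) := by
  have C := A.C
  have hf := C.ses
  have N0 : ∀ {u v : β → F}, u ≠ 0 → (∀ a : F, v ≠ a • u) → br f u v - br f v u ≠ 0 := by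
    intro u v h0 h1 e
    obtain ⟨χ, a, b⟩ := exists_dot_of_not_smul h1
    obtain ⟨w, rfl⟩ := exists_dl hf χ
    rw [dl_dot hf] at a b
    have := congrArg (· *ᵥ w) e
    simp only [sub_mulVec, br_mulVec hf, sym hf w, a, b, zero_mulVec] at this
    exact h0 (by simpa using this)
  refine ⟨L.sub, fun e he => he.1, ?_, ?_, C.top_of_br fun w h0 hw => ?_, ?_⟩
  · rintro e ⟨-, u, v, hu, hv, h, h0, h1, e1⟩ hc
    have := hc.sub Cm.one
    rw [e1, map_add, map_one, add_sub_cancel_left] at this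
    exact N0 h0 h1 (Sc.eq_zero (scalar_of_cm_phi this) (N_sq hf hu hv h))
  · rintro e ⟨-, u, v, hu, hv, h, h0, h1, e1⟩
    have v0 : v ≠ 0 := fun e => h1 0 (by simp [e])
    obtain ⟨χ, a, b⟩ := exists_dot_of_not_smul (u := v) (v := u) fun a e => by
      have a0 : a ≠ 0 := by rintro rfl; exact h0 (by simpa using e)
      exact h1 a⁻¹ (by rw [e, inv_smul_smul₀ a0])
    obtain ⟨w, rfl⟩ := exists_dl hf χ
    rw [dl_dot hf] at a b
    obtain ⟨u', hu', H⟩ := exists_partner_in hf C.tv (U := Wp hf v v) (x := u) (w := w)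
      ⟨by rw [sym hf, h], by rw [sym hf, h]⟩ ⟨by rw [sym hf, a], by rw [sym hf, a]⟩ hu
      (by rw [b]; exact one_ne_zero)
    have hvW : v ∈ Wp hf u u' := ⟨h, by rw [sym hf, hu'.1]⟩
    obtain ⟨v', hv', H'⟩ := partner_W hf h2 H hvW v0 hv
    obtain ⟨z, z0, z1, -, z3, -⟩ := exists_z hf h2 hk H H' hvW hv'
    refine Det.of_adjoin (b := br f u v - br f v u) (L.det_of_fix hG (fun g hg b' e => ?_) ⟨h0, hu⟩
      (dl_ne_zero hf h0) ?_) ?_
    · have b0 : b' ≠ 0 := by
        rintro rfl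
        rw [map_zero, map_eq_zero_iff _ (cj g).injective, map_eq_zero_iff _ phi_injective] at e
        exact N0 h0 h1 e
      have b1 : b' * b' = 0 := phi_injective (φ := φ) (by
        rw [map_mul, ← e, ← map_mul, ← map_mul, N_sq hf hu hv h]; simp)
      have b2 : adj (RingEquiv.refl F) f b' = -b' := phi_injective (φ := φ) (by
        rw [← A.adjφ, map_neg, ← e, adj_cj A.hf (A.iso hg), A.adjφ, hf.adj_sub, adj_br hf, adj_br hf,
          one_smul, one_smul, ← map_neg, ← map_neg, neg_sub])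
      obtain ⟨t, ht⟩ : ∃ t, b' *ᵥ t ≠ 0 := by
        by_contra hh
        push Not at hh
        exact b0 (matrix_ext_mulVec fun t => by rw [hh, zero_mulVec])
      exact ⟨t, ht, by rw [hf.adj_spec, b2, mulVec_mulVec, neg_mul, b1, neg_zero, zero_mulVec,
        hf.zero_right]⟩
    · have k := sub_mem (Algebra.subset_adjoin (R := F) (s := {h | (∃ k ∈ G, (k : Matrix β β F) = h) ∧
          h * (br f u v - br f v u) = br f u v - br f v u})
        ⟨mem_matrixSet.1 (C.el u z _ hu z1 (vd hf h2 z)), by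
          rw [mul_sub, mul_br, mul_br, elm_fix hf _ hu (by rw [sym hf, z1]),
            elm_fix hf _ h (by rw [sym hf, z3])]⟩) (one_mem _)
      have k2 := mul_mem k k
      rw [elm_sub_one_sq hf hu z1] at k2
      have : -(1 * f z z) ≠ 0 := by simpa using z0
      simpa only [inv_smul_smul₀ this, br] using Subalgebra.smul_mem _ k2 (-(1 * f z z))⁻¹
    · rw [← add_sub_cancel_left 1 (br f u v - br f v u), ← e1]
      exact sub_mem (Algebra.self_mem_adjoin_singleton F _) (one_mem _)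
  · obtain ⟨w', H⟩ := C.partner h0 hw
    obtain ⟨v, hv, v', hv', H'⟩ := exists_hp_W hf h2 hk H
    have k : ∀ v ∈ Wp hf w w', v ≠ 0 → f v v = 0 →
        br f w v - br f v w ∈ Algebra.adjoin F (Units.val '' RootL f G) := fun v hv v0 hs => by
      obtain ⟨g, hg, e⟩ := mem_matrixSet.1 (root_mem C hw hs hv.1)
      simpa using sub_mem (Algebra.subset_adjoin (R := F) (s := Units.val '' RootL f G)
        ⟨g, ⟨hg, w, v, hw, hs, hv.1, h0, not_smul hf H hv.2 v0, e⟩, e⟩) (one_mem _)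
    have := neg_mem (mul_mem (k v hv (H'.ne hf) H'.xx) (k v' hv' (H'.ne' hf) H'.yy))
    simpa [mul_sub, sub_mul, br_mul_br hf, hw, sym hf w v, hv.1, hv'.1, (hp_symm hf H').xy] using this
  · rintro e ⟨-, u, v, hu, hv, h, h0, h1, e1⟩ g hg hh
    obtain ⟨c, x, hc, e2⟩ := exists_of_mem_KB hh
    have e3 : cj g (φ e) = c * φ x := by rw [← coe_gφ, cj_coe, e2]; rfl
    have e4 : (c : Matrix ι ι F) * φ x - 1 = cj g (φ (br f u v - br f v u)) := by
      rw [← e3, e1, map_add, map_add, map_one, map_one, add_sub_cancel_left]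
    rw [e3]
    exact pure_odd hc c.mul_inv c.inv_mul x.mul_inv h2 (by
      rw [e4, ← map_mul, ← map_mul, N_sq hf hu hv h, map_zero, map_zero])

end Cfsg.Agent.H9
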