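import Cfsg.Agent.H9.TPasA
import Cfsg.Agent.H99.Tv

/-! Geometry of an active unitary factor. -/

set_option autoImplicit false
set_option linter.unusedSectionVars false
set_option linter.unusedVariables false
set_option linter.unusedSimpArgs false

namespace Cfsg.Agent.H9

open scoped MatrixGroups Matrix
open Matrix Cfsg.Geo Cfsg.Agent.H98

universe u

variable {ι β : Type} [Fintype ι] [DecidableEq ι] [Fintype β] [DecidableEq β] {F : Type u} [Field F]

namespace GeoSU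

section General

variable {σ : F ≃+* F} {ε : F} {f : (β → F) → (β → F) → F} (hf : IsSesq σ ε f)
include hf

theorem det_one_add_br (c : F) (u v : β → F) : (1 + c • br f u v).det = 1 + c * f u v := by
  rw [br, ← vmv_smul_right, H99.det_one_add_vmv, smul_dotProduct, dl_dot hf, smul_eq_mul]

theorem det_elm {x v : β → F} (hx : f x x = 0) (hv : f v x = 0) (θ : F) :
    (elm f ε x v θ).det = 1 := by
  have h1 := hf.eq_zero_comm.1 hv
  have e : elm f ε x v θ = (1 + vecMulVec x (dl f v + (θ + ε * f v v) • dl f x)) *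
      (1 + (-ε) • br f v x) := by
    rw [vmv_add_right, vmv_smul_right]
    change _ = (1 + (br f x v + (θ + ε * f v v) • br f x x)) * _
    simp only [elm, mul_add, add_mul, smul_mul_assoc, mul_smul_comm, br_mul_br hf, hv, one_mul,
      mul_one]
    module
  rw [e, det_mul, det_one_add_br hf, H99.det_one_add_vmv, add_dotProduct, smul_dotProduct,
    dl_dot hf, dl_dot hf, h1, hx, hv]
  simp

theorem ms_inf {a : Matrix β β F} (h : a * adj σ f a = 1) (hd : a.det = 1) :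
    a ∈ matrixSet (Isom σ f ⊓ specialLinear β F) :=
  ⟨mkG a _ h, ⟨mkG_mem_Isom hf h, H99.mem_sl.2 hd⟩, rfl⟩

/-- The orthogonal complement of two vectors. -/
def Wp (x y : β → F) : Submodule F (β → F) where
  carrier := {w | f w x = 0 ∧ f w y = 0}
  add_mem' := fun h h' => ⟨by rw [hf.add_left, h.1, h'.1, add_zero],
    by rw [hf.add_left, h.2, h'.2, add_zero]⟩
  zero_mem' := ⟨hf.zero_left _, hf.zero_left _⟩
  smul_mem' := fun c _ h => ⟨by rw [hf.smul_left, h.1, mul_zero], by rw [hf.smul_left, h.2, mul_zero]⟩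

theorem partner_W (tv : ∀ v, ∃ θ, Vd σ ε f v θ) {x y u : β → F} (H : HP f x y) (h0 : u ≠ 0)
    (hu : f u u = 0) (h1 : f u x = 0) (h2 : f u y = 0) :
    ∃ u', HP f u u' ∧ f u' x = 0 ∧ f u' y = 0 := by
  obtain ⟨w, hw⟩ := exists_f_one' hf h0
  obtain ⟨w', a1, a2, a3⟩ := H.exists_part hf w
  obtain ⟨u', hu', H'⟩ := exists_partner_in hf tv (U := Wp hf x y) (x := u) (w := w') ⟨h1, h2⟩
    ⟨a1, a2⟩ hu (mt hf.eq_zero_comm.1 (by
      rw [a3 u (hf.eq_zero_comm.1 h1) (hf.eq_zero_comm.1 h2), hw]; exact one_ne_zero))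
  exact ⟨u', H', hu'.1, hu'.2⟩

theorem ext_hp {x y : β → F} (H : HP f x y) {a b : Matrix β β F} (h1 : a *ᵥ x = b *ᵥ x)
    (h2 : a *ᵥ y = b *ᵥ y) (h3 : ∀ w, f w x = 0 → f w y = 0 → a *ᵥ w = b *ᵥ w) : a = b :=
  matrix_ext_mulVec fun v => by
    have := h3 _ (perp_part hf H v).1 (perp_part hf H v).2
    simp only [mulVec_sub, mulVec_smul, h1, h2] at this
    exact sub_left_injective (sub_left_injective this)

end General

variable {σ : F ≃+* F} {f : (β → F) → (β → F) → F} (hf : IsSesq σ 1 f)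
include hf

/-- A torus element of a hyperbolic plane. -/
theorem exists_tor {x y : β → F} (H : HP f x y) {l : F} (hl : l ≠ 0) :
    ∃ t : Matrix β β F, t * adj σ f t = 1 ∧ t.det = l * (σ l)⁻¹ ∧ t *ᵥ x = l • x ∧
      t *ᵥ y = (σ l)⁻¹ • y ∧ ∀ w, f w x = 0 → f w y = 0 → t *ᵥ w = w := by
  have hl' : σ l ≠ 0 := (map_ne_zero σ).2 hl
  have yx : f y x = 1 := H.yx hf
  refine ⟨(1 + (l - 1) • br f x y) * (1 + ((σ l)⁻¹ - 1) • br f y x), ?_, ?_, ?_, ?_, ?_⟩
  · simp only [hf.adj_mul, hf.adj_add, hf.adj_one, hf.adj_smul, adj_br hf, one_smul, map_sub,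
      map_one, map_inv₀, hf.invol, mul_add, add_mul, smul_mul_assoc, mul_smul_comm, br_mul_br hf,
      H.xx, H.yy, H.xy, yx, mul_one, one_mul, zero_smul, smul_zero, add_zero]
    match_scalars <;> field_simp <;> ring
  · rw [det_mul, det_one_add_br hf, det_one_add_br hf, H.xy, yx]; simp
  · simp only [← mulVec_mulVec, add_mulVec, smul_mulVec, one_mulVec, br_mulVec hf, H.xx, H.xy,
      zero_smul, smul_zero, add_zero]
    module
  · simp only [← mulVec_mulVec, add_mulVec, smul_mulVec, one_mulVec, br_mulVec hf, yx, H.yy,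
      hf.add_left, hf.smul_left, mul_zero, zero_smul, smul_zero, add_zero]
    module
  · intro w h1 h2
    simp only [← mulVec_mulVec, add_mulVec, smul_mulVec, one_mulVec, br_mulVec hf, h1, h2,
      zero_smul, smul_zero, add_zero]

/-- A quasi-reflection. -/
theorem exists_qr {v : β → F} (hv : f v v ≠ 0) {m : F} (hm : m * σ m = 1) :
    ∃ t : Matrix β β F, t * adj σ f t = 1 ∧ t.det = m ∧ t *ᵥ v = m • v ∧
      ∀ w, f w v = 0 → t *ᵥ w = w := by
  have e : σ (f v v) = f v v := by rw [sigma_f hf, one_mul]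
  refine ⟨1 + ((m - 1) / f v v) • br f v v, ?_, ?_, ?_, ?_⟩
  · simp only [hf.adj_add, hf.adj_one, hf.adj_smul, adj_br hf, one_smul, map_sub, map_div₀, e,
      map_one, mul_add, add_mul, smul_mul_assoc, mul_smul_comm, br_mul_br hf, mul_one, one_mul]
    match_scalars
    · rfl
    · field_simp
      linear_combination hm
  · rw [det_one_add_br hf, div_mul_cancel₀ _ hv]; simp
  · rw [add_mulVec, smul_mulVec, one_mulVec, br_mulVec hf, smul_smul, div_mul_cancel₀ _ hv]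
    module
  · intro w h
    rw [add_mulVec, smul_mulVec, one_mulVec, br_mulVec hf, h]; simp

omit hf in
theorem isom_mul (hf : IsSesq σ 1 f) {a b : Matrix β β F} (ha : a * adj σ f a = 1)
    (hb : b * adj σ f b = 1) : a * b * adj σ f (a * b) = 1 := by
  rw [hf.adj_mul, mul_assoc, ← mul_assoc b, hb, one_mul, ha]

/-- The torus of a three-dimensional section. -/
theorem exists_tor3 {x y v : β → F} (H : HP f x y) (h1 : f v x = 0) (h2 : f v y = 0)
    (hv : f v v ≠ 0) {l : F} (hl : l ≠ 0) : ∃ h ∈ Isom σ f ⊓ specialLinear β F,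
      (h : Matrix β β F) *ᵥ x = l • x ∧ (h : Matrix β β F) *ᵥ y = (σ l)⁻¹ • y ∧
      (h : Matrix β β F) *ᵥ v = (σ l / l) • v := by
  have hl' : σ l ≠ 0 := (map_ne_zero σ).2 hl
  obtain ⟨t, a1, a2, a3, a4, a5⟩ := exists_tor hf H hl
  obtain ⟨r, b1, b2, b3, b4⟩ := exists_qr hf hv (m := σ l / l) (by
    rw [map_div₀, hf.invol]; field_simp)
  obtain ⟨h, hh, e⟩ := mem_matrixSet.1 (ms_inf hf (isom_mul hf a1 b1) (by
    rw [det_mul, a2, b2]; field_simp))
  refine ⟨h, hh, ?_, ?_, ?_⟩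
  · rw [e, ← mulVec_mulVec, b4 x (hf.eq_zero_comm.1 h1), a3]
  · rw [e, ← mulVec_mulVec, b4 y (hf.eq_zero_comm.1 h2), a4]
  · rw [e, ← mulVec_mulVec, b3, mulVec_smul, a5 v h1 h2]

/-- The torus of a four-dimensional section. -/
theorem exists_tor4 {x y u u' : β → F} (H : HP f x y) (H' : HP f u u') (h1 : f u x = 0)
    (h2 : f u y = 0) (h3 : f u' x = 0) {l : F} (hl : l ≠ 0) : ∃ h ∈ Isom σ f ⊓ specialLinear β F,
      (h : Matrix β β F) *ᵥ x = l • x ∧ (h : Matrix β β F) *ᵥ u = σ l • u := by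
  have hl' : σ l ≠ 0 := (map_ne_zero σ).2 hl
  obtain ⟨t, a1, a2, a3, a4, a5⟩ := exists_tor hf H hl
  obtain ⟨r, b1, b2, b3, b4, b5⟩ := exists_tor hf H' hl'
  obtain ⟨h, hh, e⟩ := mem_matrixSet.1 (ms_inf hf (isom_mul hf a1 b1) (by
    rw [det_mul, a2, b2, hf.invol]; field_simp))
  refine ⟨h, hh, ?_, ?_⟩
  · rw [e, ← mulVec_mulVec, b5 x (hf.eq_zero_comm.1 h1) (hf.eq_zero_comm.1 h3), a3]
  · rw [e, ← mulVec_mulVec, b3, mulVec_smul, a5 u h1 h2]

omit hf in
theorem decomp (hσ : ∀ a, σ (σ a) = a) {m : F} (hm : σ m ≠ m) (c : F) :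
    ∃ a b, σ a = a ∧ σ b = b ∧ c = a + b * m := by
  have h : m - σ m ≠ 0 := sub_ne_zero.2 hm.symm
  have h' : σ m - m ≠ 0 := sub_ne_zero.2 hm
  have hb : σ ((c - σ c) / (m - σ m)) = (c - σ c) / (m - σ m) := by
    rw [map_div₀, map_sub, map_sub, hσ, hσ]; field_simp; ring
  refine ⟨c - (c - σ c) / (m - σ m) * m, _, ?_, hb, by ring⟩
  rw [map_sub, map_mul, hb]; field_simp; ring

end GeoSU

open GeoSU

variable [Fintype F] {q : ℕ} [Fact (Fintype.card F = q ^ 2)] {f : (β → F) → (β → F) → F}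

local notation "σ" => H10.sig F q
local notation "SG" => Isom (H10.sig F q) f ⊓ specialLinear β F

namespace GeoSU

theorem exists_kappa : ∃ κ : F, κ ≠ 0 ∧ σ κ = -κ := H10.exists_skew F q

theorem exists_norm_one_pow_ne {m : ℕ} (h0 : 0 < m) (hm : m ≤ q) :
    ∃ l : F, l ≠ 0 ∧ (σ l / l) ^ m ≠ 1 := by
  classical
  obtain ⟨t, ht, h1⟩ : ∃ t : F, t * H10.cj F q t = 1 ∧ t ^ m ≠ 1 := by
    by_contra hc
    push Not at hc
    have := Nat.card_le_card_of_injective
      (fun x : {x : F // x * H10.cj F q x = 1} => (⟨x, (Polynomial.mem_nthRootsFinset h0 1).2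
        (hc x x.2)⟩ : Polynomial.nthRootsFinset m (1 : F)))
      fun x y h => Subtype.ext (by simpa using h)
    rw [H10.card_norm_eq_one, Nat.card_eq_fintype_card, Fintype.card_coe] at this
    have h2 := (Multiset.toFinset_card_le _).trans (Polynomial.card_nthRoots m (1 : F))
    rw [Polynomial.nthRootsFinset] at this
    omega
  obtain ⟨x, hx, e⟩ := H10.exists_div_cj_eq ht
  refine ⟨σ x, (map_ne_zero _).2 hx, ?_⟩
  rw [H10.sig_sig, H10.sig_apply, e]; exact h1

variable (hf : IsSesq (H10.sig F q) 1 f)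
include hf

theorem tv_su (v : β → F) : ∃ θ, Vd σ 1 f v θ := by
  obtain ⟨a, ha⟩ := H10.exists_trace_eq (F := F) (q := q) (t := -f v v) (by
    rw [← H10.sig_apply, map_neg, sigma_f hf, one_mul])
  exact ⟨a, by rw [Vd, H10.sig_apply, one_mul, one_mul, ha, neg_add_cancel]⟩

theorem th_su (U : Submodule F (β → F)) : Th σ 1 f U := fun x _ y _ H => by
  obtain ⟨κ, h0, h1⟩ := exists_kappa (F := F) (q := q)
  exact ⟨0, U.zero_mem, κ, hf.zero_left _, hf.zero_left _, by
    rw [Vd, h1, hf.zero_left]; ring, h0, Or.inl rfl⟩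

theorem cl_of (ex : ∃ x, x ≠ 0 ∧ f x x = 0) : Cl σ 1 f SG :=
  ⟨hf, inf_le_left, tv_su hf, fun x v θ h1 h2 h3 => ms_inf hf (elm_isom hf h1 h2 h3)
    (det_elm hf h1 h2 θ), th_su hf ⊤, ex⟩

theorem iso_of_two {v w : β → F} (hv : v ≠ 0) (hw : w ≠ 0) (h : f w v = 0) :
    ∃ a b : F, a • v + b • w ≠ 0 ∧ f (a • v + b • w) (a • v + b • w) = 0 := by
  by_cases h1 : f v v = 0
  · exact ⟨1, 0, by simpa using hv, by simpa using h1⟩
  by_cases h2 : f w w = 0
  · exact ⟨0, 1, by simpa using hw, by simpa using h2⟩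
  obtain ⟨c, hc⟩ := H10.exists_norm_eq (F := F) (q := q) (t := -f v v / f w w) (by
    rw [← H10.sig_apply, map_div₀, map_neg, sigma_f hf, sigma_f hf, one_mul, one_mul])
  rw [← H10.sig_apply] at hc
  refine ⟨1, c, fun e => h1 ?_, ?_⟩
  · have := congrArg (f · v) e
    simpa [hf.add_left, hf.smul_left, h, hf.zero_left] using this
  · simp only [hf.add_left, hf.add_right, hf.smul_left, hf.smul_right, h, hf.eq_zero_comm.1 h,
      map_one]
    rw [eq_div_iff h2] at hc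
    linear_combination hc

theorem exists_iso_perp {m : ℕ} (hm : m + 1 < Fintype.card β) (s : Fin m → β → F) :
    ∃ v, v ≠ 0 ∧ f v v = 0 ∧ ∀ i, f v (s i) = 0 := by
  obtain ⟨v, hv, h1⟩ := exists_perp hf (by omega) s
  obtain ⟨w, hw, h2⟩ := exists_perp hf hm (Fin.cons v s)
  obtain ⟨a, b, h3, h4⟩ := iso_of_two hf hv hw (h2 0)
  exact ⟨_, h3, h4, fun i => by
    rw [hf.add_left, hf.smul_left, hf.smul_left, h1, show f w (s i) = 0 from h2 i.succ]; simp⟩

/-- Either the complement of a hyperbolic plane has Witt index at least one, or it is spanned by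
any of its non-zero vectors. -/
theorem cases_W {x y : β → F} (H : HP f x y) :
    (∃ u u', HP f u u' ∧ f u x = 0 ∧ f u y = 0 ∧ f u' x = 0 ∧ f u' y = 0) ∨
    (Fintype.card β ≤ 3 ∧ ∀ v, v ≠ 0 → f v x = 0 → f v y = 0 → f v v ≠ 0 ∧
      ∀ w, f w x = 0 → f w y = 0 → w = (f w v / f v v) • v) := by
  by_cases h : ∃ u, u ≠ 0 ∧ f u u = 0 ∧ f u x = 0 ∧ f u y = 0
  · obtain ⟨u, h0, h1, h2, h3⟩ := h
    obtain ⟨u', H', h4, h5⟩ := partner_W hf (tv_su hf) H h0 h1 h2 h3
    exact Or.inl ⟨u, u', H', h2, h3, h4, h5⟩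
  refine Or.inr ⟨?_, fun v h0 h1 h2 => ?_⟩
  · by_contra hk
    obtain ⟨u, h0, h1, h2⟩ := exists_iso_perp hf (m := 2) (by omega) ![x, y]
    exact h ⟨u, h0, h1, h2 0, h2 1⟩
  have hv : f v v ≠ 0 := fun e => h ⟨v, h0, e, h1, h2⟩
  refine ⟨hv, fun w h3 h4 => ?_⟩
  by_contra hc
  obtain ⟨a, b, h5, h6⟩ := iso_of_two hf h0 (sub_ne_zero.2 hc) (by
    rw [hf.sub_left, hf.smul_left, div_mul_cancel₀ _ hv, sub_self])
  exact h ⟨_, h5, h6, by simp [hf.add_left, hf.sub_left, hf.smul_left, h1, h3],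
    by simp [hf.add_left, hf.sub_left, hf.smul_left, h2, h4]⟩

theorem tv_ms {u : β → F} (hu : f u u = 0) {θ : F} (h : σ θ = -θ) :
    1 + θ • br f u u ∈ matrixSet SG := by
  rw [← elm_zero hf]
  exact ms_inf hf (elm_isom hf hu (hf.zero_left u) (by rw [h, hf.zero_left]; ring))
    (det_elm hf hu (hf.zero_left u) θ)

end GeoSU

theorem cl_su (hf : IsSesq (H10.sig F q) 1 f) (hk : 2 ≤ Fintype.card β) :
    Cl (H10.sig F q) 1 f (Isom (H10.sig F q) f ⊓ specialLinear β F) := by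
  obtain ⟨v, h0, h1, -⟩ := exists_iso_perp hf (m := 0) (by omega) ![]
  exact cl_of hf ⟨v, h0, h1⟩

theorem w2_su (hf : IsSesq (H10.sig F q) 1 f) (hk : 4 ≤ Fintype.card β) : W2 f := fun x y H => by
  obtain ⟨u, u', H', h1, h2, h3, h4⟩ := (cases_W hf H).resolve_right fun h => by omega
  exact ⟨u, u', H', hf.eq_zero_comm.1 h1, hf.eq_zero_comm.1 h2, hf.eq_zero_comm.1 h3,
    hf.eq_zero_comm.1 h4⟩

theorem frg_su (hf : IsSesq (H10.sig F q) 1 f) (hex : ¬ (Fintype.card β = 3 ∧ q = 2))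
    {x y : β → F} (H : HP f x y) :
    FRG (Isom (H10.sig F q) f ⊓ specialLinear β F) x (dl f y) (pr f 1 x y) := by
  intro R h1 h2 w χ hw hχ hχ'
  have C := cl_of hf ⟨x, H.ne hf, H.xx⟩
  obtain ⟨v, rfl⟩ := exists_dl hf χ
  rw [dl_dot hf] at hχ
  have hyv := H.perp_of_pr hf hχ'
  have hwx : f w x = 0 := hw ▸ H.pr_perp hf w
  have k : ∀ h ∈ SG, ∀ c : F, c ≠ 0 → (h : Matrix β β F) *ᵥ x = c • x →
      c⁻¹ • ((h : Matrix β β F) * pr f 1 x y) ∈ R := fun h hh c hc e =>
    h2 h hh c hc e (pr_stab hf hh.1 hc H e)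
  have hp : pr f 1 x y ∈ R := by simpa using k 1 (one_mem _) 1 one_ne_zero (by simp)
  have k' : ∀ h ∈ SG, ∀ c : F, c ≠ 0 → (h : Matrix β β F) *ᵥ x = c • x → ∀ (u z : β → F) (d e : F),
      f u x = 0 → (h : Matrix β β F) *ᵥ u = d • u → e • br f u z ∈ R →
      (c⁻¹ * d * e) • br f u z ∈ R := fun h hh c hc e1 u z d e h3 e2 h4 => by
    have := mul_mem (k h hh c hc e1) h4
    rwa [smul_mul_assoc, mul_smul_comm, mul_assoc, mul_br, pr_fix hf h3, mul_br, e2, br_smul_left,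
      smul_smul, smul_smul, mul_right_comm] at this
  suffices br f (w - f w y • x) v ∈ R by
    have := add_mem this (h1 (f w y • br f x v))
    change _ + br f x y * _ ∈ R at this
    rwa [mul_smul_comm, br_mul_br hf, H.xy, one_smul, ← br_smul_left, ← br_add_left,
      sub_add_cancel] at this
  have a1 : f (w - f w y • x) x = 0 := by rw [hf.sub_left, hf.smul_left, hwx, H.xx]; simp
  have a2 : f (w - f w y • x) y = 0 := by rw [hf.sub_left, hf.smul_left, H.xy]; simp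
  generalize w - f w y • x = w0 at a1 a2
  have b1 := hf.eq_zero_comm.1 hχ
  have b2 := hf.eq_zero_comm.1 hyv
  have hq := H10.two_le_q F q
  rcases cases_W hf H with ⟨u, u', H', c1, c2, c3, c4⟩ | ⟨hk, hW⟩
  · obtain ⟨κ, hκ, hκ'⟩ := exists_kappa (F := F) (q := q)
    obtain ⟨l, hl, hl2⟩ := exists_norm_one_pow_ne (F := F) (q := q) two_pos hq
    have hl' : σ l ≠ 0 := (map_ne_zero _).2 hl
    have hm : σ (σ l / l) ≠ σ l / l := fun e => hl2 (by
      rw [sq]; nth_rewrite 1 [← e]; rw [map_div₀, hf.invol]; field_simp)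
    refine br_mem_of_two hf (D := R.toNonUnitalSubring) (S := {z | z ∈ Wp hf x y ∧ f z z = 0})
      ?_ ?_ (mem_span_iso hf C.tv (U := Wp hf x y) ⟨c1, c2⟩ ⟨c3, c4⟩ H' ⟨a1, a2⟩)
      (mem_span_iso hf C.tv (U := Wp hf x y) ⟨c1, c2⟩ ⟨c3, c4⟩ H' ⟨b1, b2⟩)
    · rintro z ⟨⟨d1, d2⟩, d3⟩ c
      by_cases h0 : z = 0
      · rw [h0, br_zero_left, smul_zero]; exact zero_mem _
      have t : ∀ θ : F, σ θ = -θ → θ • br f z z ∈ R := fun θ hθ => by
        obtain ⟨h, hh, e⟩ := mem_matrixSet.1 (tv_ms hf d3 hθ)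
        have := sub_mem (k h hh 1 one_ne_zero (by
          rw [e, add_mulVec, smul_mulVec, br_mulVec hf, hf.eq_zero_comm.1 d1]; simp)) hp
        rwa [e, inv_one, one_smul, add_mul, one_mul, add_sub_cancel_left, smul_mul_assoc,
          br_pr hf (hf.eq_zero_comm.1 d2)] at this
      obtain ⟨z', Hz, d4, d5⟩ := partner_W hf C.tv H h0 d3 d1 d2
      obtain ⟨h, hh, e1, e2⟩ := exists_tor4 hf H Hz d1 d2 d4 hl
      obtain ⟨a, b, ha, hb, e⟩ := decomp hf.invol hm (c / κ)
      have := add_mem (t (κ * a) (by rw [map_mul, hκ', ha]; ring))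
        (k' h hh l hl e1 z z _ _ d1 e2 (t (κ * b) (by rw [map_mul, hκ', hb]; ring)))
      rw [div_eq_iff hκ] at e
      rwa [← add_smul, show κ * a + l⁻¹ * σ l * (κ * b) = c by rw [e]; field_simp] at this
    · rintro z ⟨d1, d2⟩ z' ⟨d3, d4⟩ h0 h0'
      obtain ⟨t, e1, e2, e3, e4⟩ := two_in hf C.tv (U := Wp hf x y) (fun t => by
        obtain ⟨t', e1, e2, e3⟩ := H.exists_part hf t
        exact ⟨t', ⟨e1, e2⟩, fun s hs =>
          e3 s (hf.eq_zero_comm.1 hs.1) (hf.eq_zero_comm.1 hs.2)⟩) (th_su hf _) d1 d3 d2 d4 h0 h0'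
      exact ⟨t, ⟨e1, e2⟩, e3, mt hf.eq_zero_comm.1 e4⟩
  · by_cases h0 : v = 0
    · rw [h0, br_zero_right hf]; exact zero_mem _
    obtain ⟨hv, hW⟩ := hW v h0 b1 b2
    have hk3 := PasA.three_le_card C H.xx (H.ne hf) hχ fun a ha => h0 (by
      rw [ha, hf.smul_left, H.xy, mul_one] at b2
      rw [ha, b2, zero_smul])
    have hq3 : 3 ≤ q := by
      by_contra h
      exact hex ⟨by omega, by omega⟩
    have p1 : (f v v)⁻¹ • br f v v ∈ R := by
      have := sub_mem hp (h1 1)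
      change _ - br f x y * _ ∈ R at this
      convert this using 1
      refine ext_hp hf H ?_ ?_ fun z d1 d2 => ?_
      · simp [smul_mulVec, sub_mulVec, br_mulVec hf, pr_fix hf H.xx, hχ, H.xy]
      · simp [smul_mulVec, sub_mulVec, br_mulVec hf, H.pr_y hf, hyv, H.yy]
      · rw [mul_one, smul_mulVec, sub_mulVec, br_mulVec hf, br_mulVec hf, pr_fix hf d1, d2,
          zero_smul, sub_zero, smul_smul, inv_mul_eq_div, ← hW z d1 d2]
    have p2 : ∀ l : F, l ≠ 0 → ∀ e : F, e • br f v v ∈ R → (l⁻¹ * (σ l / l) * e) • br f v v ∈ R :=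
      fun l hl e he => by
        obtain ⟨h, hh, e1, -, e2⟩ := exists_tor3 hf H b1 b2 hv hl
        exact k' h hh l hl e1 v v _ _ b1 e2 he
    have p3 : ∀ a : F, σ a = a → ∀ e : F, e • br f v v ∈ R → (a * e) • br f v v ∈ R :=
      fun a ha e he => by
        by_cases h : a = 0
        · rw [h, zero_mul, zero_smul]; exact zero_mem _
        have := p2 a⁻¹ (inv_ne_zero h) e he
        rwa [map_inv₀, ha, inv_inv, div_self (inv_ne_zero h), mul_one] at this
    obtain ⟨l, hl, hl3⟩ := exists_norm_one_pow_ne (F := F) (q := q) three_pos hq3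
    have hl' : σ l ≠ 0 := (map_ne_zero _).2 hl
    have hm : σ (l⁻¹ * (σ l / l)) ≠ l⁻¹ * (σ l / l) := fun e => hl3 (by
      rw [map_mul, map_div₀, map_inv₀, hf.invol] at e
      field_simp at e ⊢
      linear_combination -e)
    obtain ⟨a, b, ha, hb, e⟩ := decomp hf.invol hm (f w0 v)
    have := add_mem (p3 a ha _ p1) (p3 b hb _ (p2 l hl _ p1))
    rw [← add_smul] at this
    rw [hW w0 a1 a2, br_smul_left]
    convert this using 2
    rw [e]; field_simp

theorem geoL_su (hf : IsSesq (H10.sig F q) 1 f) (hk : 3 ≤ Fintype.card β)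
    (hex : ¬ (Fintype.card β = 3 ∧ q = 2)) :
    GeoL (Isom (H10.sig F q) f ⊓ specialLinear β F) (IsoPt f) := by
  have C := cl_su hf (by omega)
  refine C.geoL_of fun x hx => ?_
  obtain ⟨y, H⟩ := C.partner hx.1 hx.2
  rcases cases_W hf H with ⟨u, u', H', c1, c2, c3, c4⟩ | ⟨hk', hW⟩
  · obtain ⟨κ, hκ, hκ'⟩ := exists_kappa (F := F) (q := q)
    have t : ∀ z, f z z = 0 → f z x = 0 →
        vecMulVec z (κ • dl f z) ∈ Algebra.adjoin F (StabS SG x) := fun z d1 d2 => by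
      have := sub_mem (Algebra.subset_adjoin (R := F) (s := StabS SG x) ⟨tv_ms hf d1 hκ', 1, by
        rw [add_mulVec, smul_mulVec, br_mulVec hf, hf.eq_zero_comm.1 d2]; simp⟩) (one_mem _)
      rwa [add_sub_cancel_left, br, ← vmv_smul_right] at this
    exact ⟨u, u', _, _, ⟨H'.ne hf, H'.xx⟩, ⟨H'.ne' hf, H'.yy⟩, by simp [H'.xy],
      smul_ne_zero hκ (dl_ne_zero hf (H'.ne hf)), smul_ne_zero hκ (dl_ne_zero hf (H'.ne' hf)),
      t u H'.xx c1, t u' H'.yy c3⟩
  · obtain ⟨v, h0, hv⟩ := exists_perp hf (m := 2) hk ![x, y]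
    have b1 : f v x = 0 := hv 0
    have b2 : f v y = 0 := hv 1
    obtain ⟨hv, hW⟩ := hW v h0 b1 b2
    obtain ⟨t, ht, t0, t1⟩ := H10.exists_fixed_ne (F := F) (q := q) fun h => hex ⟨by omega, h⟩
    obtain ⟨l, rfl⟩ := H10.exists_norm_eq ht
    rw [← H10.sig_apply] at t0 t1
    have hl : l ≠ 0 := left_ne_zero_of_mul t0
    have hl' : σ l ≠ 0 := right_ne_zero_of_mul t0
    obtain ⟨h, hh, e1, e2, e3⟩ := exists_tor3 hf H b1 b2 hv hl
    have n1 : (σ l)⁻¹ - l ≠ 0 := fun e => t1 (by field_simp at e; linear_combination -e)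
    have n2 : (σ l)⁻¹ - σ l / l ≠ 0 := fun e => t1 (by
      have e4 : l = σ l * σ l := by
        rw [sub_eq_zero, inv_eq_one_div, div_eq_div_iff hl' hl, one_mul] at e; exact e
      have e5 := congrArg σ e4
      rw [map_mul, hf.invol] at e5
      refine mul_left_cancel₀ hl ?_
      linear_combination -e4 - σ l * e5)
    have m : (h : Matrix β β F) ∈ Algebra.adjoin F (StabS SG x) :=
      Algebra.subset_adjoin ⟨coe_mem_matrixSet hh, l, e1⟩
    refine ⟨x, y, _, (((σ l)⁻¹ - l) * ((σ l)⁻¹ - σ l / l)) • dl f x, hx, ⟨H.ne' hf, H.yy⟩,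
      by simp [H.xy], dl_ne_zero hf hx.1, smul_ne_zero (mul_ne_zero n1 n2) (dl_ne_zero hf hx.1),
      C.br_mem_stab hx.1 hx.2, ?_⟩
    have := mul_mem (sub_mem m (Subalgebra.smul_mem _ (one_mem _) l))
      (sub_mem m (Subalgebra.smul_mem _ (one_mem _) (σ l / l)))
    convert this using 1
    refine ext_hp hf H ?_ ?_ fun z d1 d2 => ?_
    · simp only [vmv_mulVec, smul_dotProduct, dl_dot hf, H.xx, ← mulVec_mulVec, sub_mulVec,
        smul_mulVec, one_mulVec, mulVec_sub, mulVec_smul, e1]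
      module
    · simp only [vmv_mulVec, smul_dotProduct, dl_dot hf, H.yx hf, ← mulVec_mulVec, sub_mulVec,
        smul_mulVec, one_mulVec, mulVec_sub, mulVec_smul, e2, smul_eq_mul]
      module
    · rw [vmv_mulVec, smul_dotProduct, dl_dot hf, d1, hW z d1 d2, mulVec_smul, ← mulVec_mulVec,
        sub_mulVec _ _ v, e3, smul_mulVec, one_mulVec]
      simp

namespace GeoSU

/-- Values of `Ψ` on matrices commuting with the transvections at `z`. -/
theorem psi_form (hf : IsSesq (H10.sig F q) 1 f) {Ψ : Matrix β β F →ₗ[F] Matrix β β F}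
    (hN : NE (RootT f SG) Ψ) {z : β → F} (h0 : z ≠ 0) (hz : f z z = 0) {w v : β → F}
    (h1 : f w v = 0) (h2 : f w z = 0) (h3 : f v z = 0) : ∃ (b : Matrix β β F) (a c : F),
      (q ≠ 2 → a = 0) ∧ Ψ (br f w v) = a • (br f z z * b - b * br f z z) + c • br f z z := by
  classical
  let A : AddSubgroup F :=
    { carrier := {θ | σ θ = -θ}
      add_mem' := fun {a b} ha hb => by
        show σ (a + b) = _
        rw [map_add, ha, hb]; ring
      zero_mem' := by simp
      neg_mem' := fun {a} ha => by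
        show σ (-a) = _
        rw [map_neg, ha] }
  have nn : br f z z * br f z z = 0 := by rw [br_mul_br hf, hz, zero_smul]
  have inv : ∀ θ : F, (1 + θ • br f z z) * (1 - θ • br f z z) = 1 := fun θ =>
    PasA.one_add_mul_one_sub (by rw [smul_mul_smul_comm, nn, smul_zero])
  have mem : ∀ θ : A, mkG _ _ (inv θ) ∈ SG := fun θ => mem_of_ms (tv_ms hf hz θ.2)
  obtain ⟨κ, hκ, hκ'⟩ := exists_kappa (F := F) (q := q)
  obtain ⟨b, hb⟩ := hN A (fun θ => mkG _ _ (inv θ)) ⟨fun a b => Units.ext (by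
      simp only [Units.val_mul, coe_mkG, AddSubgroup.coe_add, add_smul, mul_add, add_mul,
        smul_mul_smul_comm, nn, smul_zero, one_mul, mul_one]; abel),
      fun a ha => ⟨mem a, z, a, h0, hz, fun h => ha (Subtype.ext h), rfl⟩,
      ⟨⟨κ, hκ'⟩, fun h => hκ (congrArg Subtype.val h)⟩⟩ (br f w v) (by rw [trace_br hf, h1])
    fun a => by
      rw [cj_br hf (mem a).1]
      simp [add_mulVec, smul_mulVec, br_mulVec hf, h2, h3]
  have c0 : (Fintype.card A : F) = 0 := by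
    have e1 : Fintype.card A = q := by
      rw [← H10.card_trace_eq (F := F) (q := q) (t := 0) (map_zero _), ← Nat.card_eq_fintype_card]
      exact Nat.card_congr (Equiv.subtypeEquivRight fun θ => by
        rw [← H10.sig_apply]
        exact ⟨fun h => by rw [show σ θ = -θ from h]; ring, fun h => eq_neg_of_add_eq_zero_right h⟩)
    have e2 := FiniteField.cast_card_eq_zero F
    rw [(Fact.out : Fintype.card F = q ^ 2), Nat.cast_pow] at e2
    rw [e1]; exact pow_eq_zero_iff two_ne_zero |>.1 e2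
  refine ⟨b, ∑ θ : A, (θ : F), -(∑ θ : A, (θ : F) * θ) * f (b *ᵥ z) z, fun hq => ?_, ?_⟩
  · obtain ⟨t, ht, t0, t1⟩ := H10.exists_fixed_ne (F := F) (q := q) hq
    rw [← H10.sig_apply] at ht
    let g : A → A := fun θ => ⟨t * θ, by
      show σ (t * θ) = _
      rw [map_mul, ht, θ.2]; ring⟩
    have hg : Function.Bijective g := Finite.injective_iff_bijective.1 fun a b h =>
      Subtype.ext (mul_left_cancel₀ t0 (congrArg Subtype.val h))
    have := hg.sum_comp fun θ : A => (θ : F)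
    simp only [g, ← Finset.mul_sum] at this
    exact mul_left_cancel₀ (sub_ne_zero.2 t1) (by linear_combination this)
  · rw [hb, nrm_apply]
    have e : ∀ θ : A, cj (mkG _ _ (inv θ)) b = b + (θ : F) • (br f z z * b - b * br f z z) -
        ((θ : F) * θ * f (b *ᵥ z) z) • br f z z := fun θ => by
      rw [cj_apply, coe_mkG, coe_mkG_inv, mul_smul _ (f _ _), ← PasA.sand_br hf]
      simp only [mul_sub, add_mul, smul_mul_assoc, mul_smul_comm, one_mul, mul_one]
      module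
    simp only [e, Finset.sum_sub_distrib, Finset.sum_add_distrib, ← Finset.sum_smul,
      ← Finset.sum_mul, Finset.sum_const, Finset.card_univ]
    rw [← Nat.cast_smul_eq_nsmul F, c0]
    module

end GeoSU

theorem geoD_su (hf : IsSesq (H10.sig F q) 1 f) (hk : 3 ≤ Fintype.card β)
    (hex : ¬ (Fintype.card β = 3 ∧ q = 2)) :
    GeoD (Isom (H10.sig F q) f ⊓ specialLinear β F)
      (RootT f (Isom (H10.sig F q) f ⊓ specialLinear β F)) := by
  intro Ψ hE hN s hs
  have C := cl_su hf (by omega)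
  obtain ⟨κ, hκ, hκ'⟩ := exists_kappa (F := F) (q := q)
  obtain ⟨ω, hω⟩ := H10.exists_cj_ne (F := F) (q := q)
  rw [← H10.sig_apply] at hω
  refine mem_of_ann (Z := LinearMap.ker Ψ) (fun b hb => PasA.su_scalar C hκ hκ' hω fun w hw => ?_) hs
  rw [← trace_mul_br hf]
  refine hb _ (LinearMap.mem_ker.2 ?_)
  by_cases h0 : w = 0
  · rw [h0, br_zero_left, map_zero]
  obtain ⟨y, H⟩ := C.partner h0 hw
  by_cases hq : q = 2
  · have key : ∀ u, f u u = 0 → f u w ≠ 0 → Ψ (br f w w) *ᵥ u = 0 := fun u hu h1 => by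
      have H1 := hp_of_ne hf hu hw h1
      obtain ⟨z, z', Hz, a1, a2, a3, a4⟩ := w2_su hf (by
        by_contra h; exact hex ⟨by omega, hq⟩) _ _ H1
      have hc : (σ (f u w))⁻¹ ≠ 0 := inv_ne_zero ((map_ne_zero _).2 h1)
      rw [hf.smul_left, mul_eq_zero] at a2 a4
      have k : ∀ z, z ≠ 0 → f z z = 0 → f w z = 0 → f u z = 0 →
          ∃ c : F, Ψ (br f w w) *ᵥ u = c • z := fun z d0 d1 d2 d3 => by
        obtain ⟨b, a, c, -, e⟩ := psi_form hf hN d0 d1 hw d2 d2
        exact ⟨a * f (b *ᵥ u) z, by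
          simp [e, add_mulVec, smul_mulVec, sub_mulVec, ← mulVec_mulVec, br_mulVec hf, d3,
            smul_smul]⟩
      obtain ⟨c, e⟩ := k z (Hz.ne hf) Hz.xx (a2.resolve_left hc) a1
      obtain ⟨c', e'⟩ := k z' (Hz.ne' hf) Hz.yy (a4.resolve_left hc) a3
      have := congrArg (f · z') (e.symm.trans e')
      simp only [hf.smul_left, Hz.xy, Hz.yy, mul_one, mul_zero] at this
      rw [e, this, zero_smul]
    have yw : f y w = 1 := H.yx hf
    have key2 : ∀ v θ, f v w = 0 → f v y = 0 → Vd σ 1 f v θ →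
        Ψ (br f w w) *ᵥ (y + (θ * 1) • w - v) = 0 := fun v θ d1 d2 d3 =>
      key _ (iso_third hf H d1 d2 d3) (by simp [hf.sub_left, hf.add_left, hf.smul_left, yw, hw, d1])
    have k1 := key y H.yy (by simp [yw])
    have k2 : Ψ (br f w w) *ᵥ w = 0 := by
      have := key2 0 κ (hf.zero_left _) (hf.zero_left _) (by rw [Vd, hκ', hf.zero_left]; ring)
      simpa [mulVec_add, mulVec_smul, k1, hκ] using this
    refine ext_hp hf H (by rw [k2, zero_mulVec]) (by rw [k1, zero_mulVec]) fun v d1 d2 => ?_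
    obtain ⟨θ, hθ⟩ := C.tv v
    simpa [mulVec_add, mulVec_sub, mulVec_smul, k1, k2] using key2 v θ d1 d2 hθ
  · obtain ⟨v, v', a1, a2, a3, a4, a5⟩ := exists_pair_perp hf hk H
    obtain ⟨b, a, c, ha, e⟩ := psi_form hf hN h0 hw a1 hw (hf.eq_zero_comm.1 a1)
    rw [ha hq, zero_smul, zero_add] at e
    obtain ⟨θ, hθ⟩ := C.tv v'
    obtain ⟨g, hg, eg⟩ := mem_matrixSet.1 (C.el w v' θ hw a3 hθ)
    have g1 : (g : Matrix β β F) *ᵥ w = w := by
      rw [eg, elm_mulVec hf, hw, hf.eq_zero_comm.1 a3]; simp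
    have g2 : (g : Matrix β β F) *ᵥ v = v + w := by
      rw [eg, elm_mulVec hf, hf.eq_zero_comm.1 a1, hf.herm v v', a5]; simp
    have := hE g hg (br f w v)
    rw [e, map_smul, cj_br hf hg.1, cj_br hf hg.1, g1, g2, br_add_right hf, map_add, e] at this
    exact add_eq_left.1 this

end Cfsg.Agent.H9
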