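import Cfsg.Agent.H9.TCl
import Cfsg.Agent.H27.SkHInst

/-! Geometry of an active symplectic factor. -/

set_option autoImplicit false
set_option linter.unusedSectionVars false
set_option linter.unusedVariables false

namespace Cfsg.Agent.H9

open scoped MatrixGroups Matrix
open Matrix Cfsg.Geo Cfsg.Agent.H98

universe u

variable {ι β : Type} [Fintype ι] [DecidableEq ι] [Fintype β] [DecidableEq β] {F : Type u} [Field F]

variable {f : (β → F) → (β → F) → F} {G : Subgroup (GL β F)}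

theorem vd_sp (alt : ∀ v, f v v = 0) (v : β → F) (θ : F) : Vd (RingEquiv.refl F) (-1) f v θ := by
  simp [Vd, alt]

theorem cl_sp [Nonempty β] (hf : IsSesq (RingEquiv.refl F) (-1) f) (alt : ∀ v, f v v = 0) :
    Cl (RingEquiv.refl F) (-1) f (Isom (RingEquiv.refl F) f) where
  ses := hf
  le := le_rfl
  tv := fun v => ⟨0, vd_sp alt v 0⟩
  el := fun x v θ h1 h2 h3 => (ms_Isom hf).2 (elm_isom hf h1 h2 h3)
  th := fun x _ y _ _ => ⟨0, trivial, 1, hf.zero_left x, hf.zero_left y, vd_sp alt 0 1,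
    one_ne_zero, Or.inl rfl⟩
  ex := ⟨fun _ => 1, fun h => one_ne_zero (congrFun h (Classical.arbitrary β)), alt _⟩

theorem isom_le_of_tv (hf : IsSesq (RingEquiv.refl F) (-1) f) (alt : ∀ v, f v v = 0)
    (h : ∀ (w : β → F) (θ : F), 1 + θ • br f w w ∈ matrixSet G) :
    Isom (RingEquiv.refl F) f ≤ G := by
  let B : (β → F) →ₗ[F] (β → F) →ₗ[F] F := LinearMap.mk₂ F f hf.add_left hf.smul_left hf.add_right
    fun c v x => hf.smul_right c v x
  let e : GL β F ≃* ((β → F) ≃ₗ[F] (β → F)) :=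
    Matrix.GeneralLinearGroup.toLin.trans (LinearMap.GeneralLinearGroup.generalLinearEquiv F _)
  have he : ∀ (g : GL β F) x, e g x = (g : Matrix β β F) *ᵥ x := fun g x => rfl
  have key := H27.iso_le_of_alt (B := B) alt (fun x hx => hf.eq_zero_of_left hx)
    (G.map e.toMonoidHom) fun v c => by
      obtain ⟨g, hg, e1⟩ := mem_matrixSet.1 (h v (-c))
      refine ⟨e g, ⟨g, hg, rfl⟩, fun x => ?_⟩
      rw [he, e1, add_mulVec, one_mulVec, smul_mulVec, br_mulVec hf, smul_smul, hf.herm x v]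
      show _ = x + (c * f v x) • v
      simp
  intro g hg
  obtain ⟨k, hk, e1⟩ := key (x := e g) fun x y => hg x y
  rwa [← e.injective e1]

theorem w2_sp (hf : IsSesq (RingEquiv.refl F) (-1) f) (alt : ∀ v, f v v = 0)
    (hk : 3 ≤ Fintype.card β) : W2 f := fun x y H => by
  obtain ⟨v, w, h1, h2, h3, h4, h5⟩ := exists_pair_perp hf hk H
  exact ⟨w, v, ⟨alt w, alt v, h5⟩, hf.eq_zero_comm.1 h3, hf.eq_zero_comm.1 h4, h1, h2⟩

theorem Cl.tv_sp (C : Cl (RingEquiv.refl F) (-1) f G) (alt : ∀ v, f v v = 0) (w : β → F) (θ : F) :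
    1 + θ • br f w w ∈ matrixSet G :=
  elm_zero C.ses w θ ▸ C.el w 0 θ (alt w) (C.ses.zero_left w) (vd_sp alt 0 θ)

theorem frg_sp (C : Cl (RingEquiv.refl F) (-1) f G) (alt : ∀ v, f v v = 0) {x y : β → F}
    (H : HP f x y) : FRG G x (dl f y) (pr f (-1) x y) := by
  intro R h1 h2 w χ hw hx hχ
  have hf := C.ses
  obtain ⟨v, rfl⟩ := exists_dl hf χ
  rw [dl_dot hf] at hx
  have hy := H.perp_of_pr hf hχ
  have hwx : f w x = 0 := hw ▸ H.pr_perp hf w
  obtain ⟨h3, h4⟩ := perp_part hf H w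
  rw [hwx, mul_zero, zero_smul, sub_zero] at h3 h4
  have k : ∀ h ∈ G, (h : Matrix β β F) *ᵥ x = x → h * pr f (-1) x y ∈ R := fun h hh e => by
    have e' : (h : Matrix β β F) *ᵥ x = (1 : F) • x := by rw [e, one_smul]
    simpa using h2 h hh 1 one_ne_zero e' (pr_stab hf (C.le hh) one_ne_zero H e')
  have m1 : br f (w - f w y • x) v ∈ R := by
    refine br_mem_of_two hf (D := R.toNonUnitalSubring) (S := {z | f z x = 0 ∧ f z y = 0})
      (fun z hz c => ?_) (fun z hz z' hz' h0 h0' => ?_) (Submodule.subset_span ⟨h3, h4⟩)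
      (Submodule.subset_span ⟨hf.eq_zero_comm.1 hx, hf.eq_zero_comm.1 hy⟩)
    · obtain ⟨g, hg, e⟩ := mem_matrixSet.1 (C.tv_sp alt z c)
      have := R.sub_mem (k g hg (by
        rw [e, add_mulVec, one_mulVec, smul_mulVec, br_mulVec hf, hf.eq_zero_comm.1 hz.1]; simp))
        (k 1 G.one_mem (by simp))
      rwa [e, Units.val_one, ← sub_mul, add_sub_cancel_left, smul_mul_assoc,
        br_pr hf (hf.eq_zero_comm.1 hz.2)] at this
    · obtain ⟨u, a1, a2⟩ := exists_ne_two hf h0 h0'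
      obtain ⟨u', b1, b2, b3⟩ := H.exists_part hf u
      exact ⟨u', ⟨b1, b2⟩, by rwa [b3 z (hf.eq_zero_comm.1 hz.1) (hf.eq_zero_comm.1 hz.2)],
        mt hf.eq_zero_comm.1 (by
          rwa [b3 z' (hf.eq_zero_comm.1 hz'.1) (hf.eq_zero_comm.1 hz'.2)])⟩
  have m2 := h1 (f w y • br f x v)
  rw [mul_smul_comm, vmv_mul_br, dl_dot hf, H.xy, one_smul, ← br_smul_left] at m2
  have := R.add_mem m1 m2
  rwa [← br_add_left, sub_add_cancel] at this

theorem geoL_sp [Finite F] (C : Cl (RingEquiv.refl F) (-1) f G) (alt : ∀ v, f v v = 0)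
    (h : 3 ≤ Fintype.card β ∨ 4 ≤ Nat.card F) : GeoL G (IsoPt f) := by
  have hf := C.ses
  refine C.geoL_of fun x hx => ?_
  obtain ⟨y, H⟩ := C.partner hx.1 hx.2
  have k : ∀ u, f x u = 0 → br f u u ∈ Algebra.adjoin F (StabS G x) := fun u hu => by
    have := sub_mem (Algebra.subset_adjoin (R := F) (s := StabS G x) ⟨C.tv_sp alt u 1, 1, by
      rw [add_mulVec, one_mulVec, smul_mulVec, br_mulVec hf, hu]; simp⟩) (one_mem _)
    rwa [add_sub_cancel_left, one_smul] at this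
  by_cases hW : ∃ v, v ≠ 0 ∧ f v x = 0 ∧ f v y = 0
  · obtain ⟨v, h0, h1, h2⟩ := hW
    obtain ⟨w, hw⟩ := exists_f_one' hf h0
    obtain ⟨w', b1, b2, b3⟩ := H.exists_part hf w
    have b4 : f w' v = 1 := by rw [b3 v (hf.eq_zero_comm.1 h1) (hf.eq_zero_comm.1 h2), hw]
    have h0' : w' ≠ 0 := HP.ne hf ⟨alt w', alt v, b4⟩
    exact ⟨w', v, _, _, ⟨h0', alt _⟩, ⟨h0, alt _⟩, by rw [b4]; exact one_ne_zero,
      dl_ne_zero hf h0', dl_ne_zero hf h0, k w' (hf.eq_zero_comm.1 b1), k v (hf.eq_zero_comm.1 h1)⟩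
  have h4 : 4 ≤ Nat.card F := h.resolve_left fun hk => by
    obtain ⟨v, h0, hv⟩ := exists_perp hf (m := 2) hk ![x, y]
    exact hW ⟨v, h0, hv 0, hv 1⟩
  obtain ⟨a, ha, ha2⟩ : ∃ a : F, a ≠ 0 ∧ a * a ≠ 1 := by
    classical
    letI := Fintype.ofFinite F
    by_contra hc
    have h5 : (Finset.univ : Finset F) ⊆ {0, 1, -1} := by
      intro a _
      by_contra h6
      simp only [Finset.mem_insert, Finset.mem_singleton, not_or] at h6
      exact hc ⟨a, h6.1, fun e => (mul_self_eq_one_iff.1 e).elim h6.2.1 h6.2.2⟩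
    have h6 := (Finset.card_le_card h5).trans Finset.card_le_three
    rw [Finset.card_univ, ← Nat.card_eq_fintype_card] at h6
    omega
  have e1 : (1 : Matrix β β F) = br f x y - br f y x := matrix_ext_mulVec fun w => by
    obtain ⟨b1, b2⟩ := perp_part hf H w
    have := not_not.1 fun h0 => hW ⟨_, h0, b1, b2⟩
    rw [one_mulVec, sub_mulVec, br_mulVec hf, br_mulVec hf, ← sub_eq_zero, ← this]
    module
  have m : a • br f x y - a⁻¹ • br f y x ∈ matrixSet G := by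
    refine ms_mono (isom_le_of_tv hf alt (C.tv_sp alt)) ((ms_Isom hf).2 ?_)
    rw [e1]
    simp only [hf.adj_sub, hf.adj_smul, adj_br hf, mul_sub, sub_mul, smul_mul_assoc,
      mul_smul_comm, br_mul_br hf, H.xx, H.yy, H.xy, H.yx hf, RingEquiv.refl_apply, smul_smul]
    simp [ha, sub_eq_add_neg, add_comm]
  have m2 := sub_mem (Algebra.subset_adjoin (R := F) (s := StabS G x) ⟨m, a, by
    simp [sub_mulVec, smul_mulVec, br_mulVec hf, H.xx, H.xy]⟩)
    (Subalgebra.smul_mem _ (one_mem _) a)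
  refine ⟨x, y, _, (a - a⁻¹) • dl f x, hx, ⟨H.ne' hf, H.yy⟩, by rw [H.xy]; exact one_ne_zero,
    dl_ne_zero hf hx.1, smul_ne_zero (sub_ne_zero.2 fun e => ha2 ?_) (dl_ne_zero hf hx.1),
    k x H.xx, ?_⟩
  · rw [← mul_inv_cancel₀ ha, ← e]
  · rw [vmv_smul_right]
    convert m2 using 1
    rw [e1]
    show (a - a⁻¹) • br f y x = _
    module

/-- The values of `Ψ` on `[w, v]` are norms for the transvection group at `z`. -/
theorem nrm_sp [Fintype F] (C : Cl (RingEquiv.refl F) (-1) f G) (alt : ∀ v, f v v = 0)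
    {Ψ : Matrix β β F →ₗ[F] Matrix β β F} (h : NE (RootT f G) Ψ) {w v z : β → F} (h0 : z ≠ 0)
    (h1 : f w v = 0) (h2 : f w z = 0) (h3 : f v z = 0) : ∃ b : Matrix β β F, ∀ u,
      Ψ (br f w v) *ᵥ u = ((∑ a : F, a) * f (b *ᵥ u) z - (∑ a : F, a ^ 2) * f u z * f (b *ᵥ z) z) • z
        - ((∑ a : F, a) * f u z) • b *ᵥ z := by
  have hf := C.ses
  have nn : br f z z * br f z z = 0 := by rw [br_mul_br hf, alt, zero_smul]
  have mul : ∀ a b : F, (1 + a • br f z z) * (1 + b • br f z z) = 1 + (a + b) • br f z z :=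
    fun a b => by
      simp only [mul_add, add_mul, one_mul, mul_one, smul_mul_assoc, mul_smul_comm, nn, smul_zero,
        add_zero, add_smul]
      abel
  let ε : F → GL β F := fun a => mkG (1 + a • br f z z) (1 + (-a) • br f z z) (by
    rw [mul, add_neg_cancel, zero_smul, add_zero])
  have mem : ∀ a, ε a ∈ G := fun a => mem_of_ms (C.tv_sp alt z a)
  obtain ⟨b, hb⟩ := h F ε ⟨fun a b => Units.ext (mul a b).symm,
    fun a ha => ⟨mem a, z, a, h0, alt z, ha, rfl⟩, 1, one_ne_zero⟩ (br f w v)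
    (by rw [trace_br hf, h1]) fun a => by
      rw [cj_br hf (C.le (mem a))]
      simp [ε, add_mulVec, smul_mulVec, br_mulVec hf, h2, h3]
  refine ⟨b, fun u => ?_⟩
  have e : ∀ a, cj (ε a) b *ᵥ u = b *ᵥ u + (a * f (b *ᵥ u) z - a ^ 2 * f u z * f (b *ᵥ z) z) • z
      - (a * f u z) • b *ᵥ z := fun a => by
    simp only [cj_apply, ε, coe_mkG, coe_mkG_inv, ← mulVec_mulVec, add_mulVec, one_mulVec,
      smul_mulVec, br_mulVec hf, mulVec_add, mulVec_smul, hf.add_left, hf.smul_left]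
    module
  rw [hb, nrm_apply, sum_mulVec]
  simp only [e, Finset.sum_sub_distrib, Finset.sum_add_distrib, Finset.sum_const, ← Finset.sum_smul,
    ← Finset.sum_mul, Finset.card_univ, ← Nat.cast_smul_eq_nsmul F, FiniteField.cast_card_eq_zero,
    zero_smul, zero_add]

theorem geoD_sp [Finite F] (C : Cl (RingEquiv.refl F) (-1) f G) (alt : ∀ v, f v v = 0)
    (h : 4 ≤ Nat.card F ∨ (Nat.card F = 3 ∧ 3 ≤ Fintype.card β) ∨ 5 ≤ Fintype.card β) :
    GeoD G (RootT f G) := by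
  intro Ψ _ hΨ s hs
  have hf := C.ses
  letI := Fintype.ofFinite F
  rw [Nat.card_eq_fintype_card] at h
  refine C.mem_of_traceless (Z := LinearMap.ker Ψ) (fun w v _ hwv => ?_) hs
  rw [LinearMap.mem_ker]
  by_cases h0 : w = 0
  · rw [h0, br_zero_left, map_zero]
  refine matrix_ext_mulVec fun u => ?_
  rw [zero_mulVec]
  have two : ∀ z z' y, f z y = 1 → f z' y = 0 → (∃ a : F, Ψ (br f w v) *ᵥ u = a • z) →
      (∃ a : F, Ψ (br f w v) *ᵥ u = a • z') → Ψ (br f w v) *ᵥ u = 0 := by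
    rintro z z' y h1 h2 ⟨a, ha⟩ ⟨a', ha'⟩
    have := congrArg (f · y) (ha.symm.trans ha')
    simp only [hf.smul_left, h1, h2, mul_one, mul_zero] at this
    rw [ha, this, zero_smul]
  have s1 : 3 ≤ Fintype.card F → ∑ a : F, a = 0 := fun h3 => by
    simpa using FiniteField.sum_pow_lt_card_sub_one F 1 (by omega)
  rcases h with h | ⟨h, hk⟩ | hk
  · obtain ⟨b, hb⟩ := nrm_sp C alt hΨ h0 hwv (alt w) (hf.eq_zero_comm.1 hwv)
    rw [hb, s1 (by omega), FiniteField.sum_pow_lt_card_sub_one F 2 (by omega)]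
    simp
  · have k : ∀ z, z ≠ 0 → f w z = 0 → f v z = 0 → ∃ a : F, Ψ (br f w v) *ᵥ u = a • z :=
      fun z h1 h2 h3 => by
        obtain ⟨b, hb⟩ := nrm_sp C alt hΨ h1 hwv h2 h3
        exact ⟨_, by rw [hb, s1 h.ge, zero_mul, zero_mul, zero_smul, sub_zero]⟩
    have kw := k w h0 (alt w) (hf.eq_zero_comm.1 hwv)
    by_cases hv : ∃ a : F, v = a • w
    · obtain ⟨a, rfl⟩ := hv
      obtain ⟨y, hy⟩ := exists_f_one hf h0
      obtain ⟨z, h1, h2⟩ := exists_perp hf (m := 2) hk ![w, y]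
      have h3 : f w z = 0 := hf.eq_zero_comm.1 (h2 0)
      exact two w z y hy (h2 1) kw (k z h1 h3 (by rw [hf.smul_left, h3, mul_zero]))
    · obtain ⟨χ, h1, h2⟩ := exists_dot_of_not_smul (u := w) (v := v) fun a e => hv ⟨a, e⟩
      obtain ⟨y, rfl⟩ := exists_dl hf χ
      rw [dl_dot hf] at h1 h2
      exact two v w y h2 h1 (k v (fun e => hv ⟨0, by rw [e, zero_smul]⟩) hwv (alt v)) kw
  · have k : ∀ z, z ≠ 0 → f z w = 0 → f z v = 0 → f z u = 0 →
        ∃ a : F, Ψ (br f w v) *ᵥ u = a • z := fun z h1 h2 h3 h4 => by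
      obtain ⟨b, hb⟩ := nrm_sp C alt hΨ h1 hwv (hf.eq_zero_comm.1 h2) (hf.eq_zero_comm.1 h3)
      exact ⟨_, by rw [hb, hf.eq_zero_comm.1 h4, mul_zero (∑ a : F, a), zero_smul, sub_zero]⟩
    obtain ⟨z, h1, h2⟩ := exists_perp hf (m := 3) (by omega) ![w, v, u]
    obtain ⟨y, hy⟩ := exists_f_one hf h1
    obtain ⟨z', h3, h4⟩ := exists_perp hf (m := 4) hk ![w, v, u, y]
    exact two z z' y hy (h4 3) (k z h1 (h2 0) (h2 1) (h2 2)) (k z' h3 (h4 0) (h4 1) (h4 2))

end Cfsg.Agent.H9
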