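import Cfsg.Agent.H9.TPasA

/-! Passive orthogonal factors. -/

set_option autoImplicit false
set_option linter.unusedSectionVars false
set_option linter.unusedVariables false
set_option linter.unusedSimpArgs false

namespace Cfsg.Agent.H9

open scoped MatrixGroups Matrix
open Matrix Cfsg.Geo Cfsg.Agent.H98 PasA

universe u

variable {ι β : Type} [Fintype ι] [DecidableEq ι] [Fintype β] [DecidableEq β] {F : Type u} [Field F]

variable [Finite F] {f : (β → F) → (β → F) → F} {G : Subgroup (GL β F)}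

namespace PasO

/-- The skew matrix attached to two vectors. -/
def Nv (f : (β → F) → (β → F) → F) (u v : β → F) : Matrix β β F := br f u v - br f v u

theorem DD_abs {n A A' b : Matrix β β F} {φ : F} (h1 : A * A = -φ • n) (h2 : A' * A' = -φ • n) :
    (1 + A) * ((1 + A) * b * (1 + A') - b) * (1 + A') - ((1 + A) * b * (1 + A') - b) =
      -φ • (n * b) - φ • (b * n) + (2 : F) • (A * b * A') - (2 * φ) • (n * b * A') -
        (2 * φ) • (A * b * n) + (φ * φ) • (n * b * n) := by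
  have k1 : ∀ x, A * (A * x) = -φ • (n * x) := fun x => by rw [← mul_assoc, h1, smul_mul_assoc]
  simp only [mul_add, add_mul, mul_sub, sub_mul, mul_assoc, one_mul, mul_one, k1, h2, mul_smul_comm,
    smul_mul_assoc]
  module

section
variable (hf : IsSesq (RingEquiv.refl F) 1 f)
include hf

theorem sym (u v : β → F) : f u v = f v u := by rw [hf.herm]; simp

theorem smul_r (c : F) (v x : β → F) : f v (c • x) = c * f v x := hf.smul_right c v x

theorem Nv_add (u v w : β → F) : Nv f u (v + w) = Nv f u v + Nv f u w := by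
  simp only [Nv, br_add_left, br_add_right hf]; abel

theorem Nv_smul (u v : β → F) (c : F) : Nv f u (c • v) = c • Nv f u v := by
  simp only [Nv, br_smul_left, br_smul_right hf, RingEquiv.refl_apply, smul_sub]

theorem Nv_sub (u v w : β → F) : Nv f u (v - w) = Nv f u v - Nv f u w := by
  simp only [Nv, br_sub_left, br_sub_right hf]; abel

omit hf in
theorem Nv_self (u : β → F) : Nv f u u = 0 := sub_self _

theorem Nv_mul {u v w : β → F} (hu : f u u = 0) (hv : f v u = 0) (hw : f w u = 0) :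
    Nv f u v * Nv f u w = (-f w v) • br f u u := by
  simp only [Nv, mul_sub, sub_mul, br_mul_br hf, hu, hw, sym hf u v, hv]
  module

theorem Nv_mul_n {u v : β → F} (hu : f u u = 0) (hv : f v u = 0) : Nv f u v * br f u u = 0 := by
  simp [Nv, sub_mul, br_mul_br hf, hu, sym hf u v, hv]

theorem n_mul_Nv {u v : β → F} (hu : f u u = 0) (hv : f v u = 0) : br f u u * Nv f u v = 0 := by
  simp [Nv, mul_sub, br_mul_br hf, hu, hv]

theorem cj_Nv {g : GL β F} (hg : g ∈ Isom (RingEquiv.refl F) f) (u v : β → F) :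
    cj g (Nv f u v) = Nv f ((g : Matrix β β F) *ᵥ u) ((g : Matrix β β F) *ᵥ v) := by
  simp only [Nv, map_sub, cj_br hf hg]

theorem Nv_ne_zero {u y v : β → F} (H : HP f u y) (hv : f v y = 0) (hvu : f v u = 0) (h0 : v ≠ 0) :
    Nv f u v ≠ 0 := fun h => by
  have := congrArg (· *ᵥ y) h
  simp only [Nv, sub_mulVec, br_mulVec hf, sym hf y v, hv, sym hf y u, H.xy, zero_mulVec] at this
  exact h0 (by simpa using this)

theorem exists_ns (h2 : (2 : F) ≠ 0) {z w : β → F} (h : f w z = 1) :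
    ∃ a c : F, f (a • w + c • z) (a • w + c • z) ≠ 0 ∧ f z (a • w + c • z) ≠ 0 := by
  by_cases hz : f z z = 0
  · by_cases hw : f w w = 0
    · exact ⟨1, 1, by
        simp only [one_smul, hf.add_left, hf.add_right, hz, hw, h, sym hf z w]
        rwa [zero_add, add_zero, one_add_one_eq_two], by
        simp [hf.add_right, hz, h, sym hf z w]⟩
    · exact ⟨1, 0, by simpa using hw, by simp [h, sym hf z w]⟩
  · exact ⟨0, 1, by simpa using hz, by simpa using hz⟩

theorem four_le_card {u y v p : β → F} (H : HP f u y) (h1 : f v u = 0) (h2 : f v y = 0)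
    (h3 : f v v ≠ 0) (h4 : f p u = 0) (h5 : f p y = 0) (h6 : f p v = 0) (h0 : p ≠ 0) :
    4 ≤ Fintype.card β := by
  have : LinearIndependent F ![u, y, v, p] := by
    rw [Fintype.linearIndependent_iff]
    intro g hg
    simp only [Fin.sum_univ_four, Matrix.cons_val] at hg
    have e0 := congrArg (fun z => f z y) hg
    have e1 := congrArg (fun z => f z u) hg
    have e2 := congrArg (fun z => f z v) hg
    simp only [hf.add_left, hf.smul_left, hf.zero_left, H.xx, H.yy, H.xy, sym hf y u, h1, h2, h4, h5,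
      h6, sym hf u v, sym hf y v, mul_zero, add_zero, zero_add, mul_one, mul_eq_zero, h3,
      or_false] at e0 e1 e2
    rw [e0, e1, e2] at hg
    have e3 : g 3 = 0 := by simpa [h0] using hg
    intro i; fin_cases i <;> assumption
  simpa using this.fintype_card_le_finrank

theorem eq_smul_of_three (hk : ¬ 4 ≤ Fintype.card β) {u y v z : β → F} (H : HP f u y)
    (h1 : f v u = 0) (h2 : f v y = 0) (h3 : f v v ≠ 0) (h4 : f z u = 0) (h5 : f z y = 0) :
    ∃ t : F, z = t • v := by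
  refine ⟨f z v / f v v, sub_eq_zero.1 ?_⟩
  by_contra h0
  refine hk (four_le_card hf H h1 h2 h3 ?_ ?_ ?_ h0)
  · rw [hf.sub_left, hf.smul_left, h1, h4, mul_zero, sub_zero]
  · rw [hf.sub_left, hf.smul_left, h2, h5, mul_zero, sub_zero]
  · rw [hf.sub_left, hf.smul_left, div_mul_cancel₀ _ h3, sub_self]

theorem exists_ns_W (h2 : (2 : F) ≠ 0) {u y z : β → F} (H : HP f u y) (h4 : f z u = 0)
    (h5 : f z y = 0) (h0 : z ≠ 0) : ∃ w, f w u = 0 ∧ f w y = 0 ∧ f w w ≠ 0 ∧ f z w ≠ 0 := by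
  obtain ⟨w, hw⟩ := exists_f_one' hf h0
  obtain ⟨w', b1, b2, b3⟩ := H.exists_part hf w
  obtain ⟨a, c, k1, k2⟩ := exists_ns hf h2 (z := z) (w := w')
    (by rw [b3 z (by rw [sym hf, h4]) (by rw [sym hf, h5]), hw])
  exact ⟨_, by simp [hf.add_left, hf.smul_left, b1, h4], by simp [hf.add_left, hf.smul_left, b2, h5],
    k1, k2⟩

theorem exists_ns' (h2 : (2 : F) ≠ 0) (hk : 4 ≤ Fintype.card β) {u y v : β → F} (H : HP f u y)
    (h4 : f v u = 0) (h5 : f v y = 0) (h3 : f v v ≠ 0) :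
    ∃ w, f w u = 0 ∧ f w y = 0 ∧ f w v = 0 ∧ f w w ≠ 0 := by
  obtain ⟨z, h0, hz⟩ := exists_perp hf (m := 3) hk ![u, y, v]
  have z1 : f z u = 0 := hz 0
  have z2 : f z y = 0 := hz 1
  have z3 : f z v = 0 := hz 2
  obtain ⟨w, hw⟩ := exists_f_one' hf h0
  obtain ⟨w', b1, b2, b3⟩ := H.exists_part hf w
  obtain ⟨a, c, k1, -⟩ := exists_ns hf h2 (z := z) (w := w' - (f w' v / f v v) • v) (by
    rw [hf.sub_left, hf.smul_left, b3 z (by rw [sym hf, z1]) (by rw [sym hf, z2]), hw, sym hf v z, z3,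
      mul_zero, sub_zero])
  refine ⟨_, ?_, ?_, ?_, k1⟩
  · simp [hf.add_left, hf.sub_left, hf.smul_left, b1, h4, z1]
  · simp [hf.add_left, hf.sub_left, hf.smul_left, b2, h5, z2]
  · simp [hf.add_left, hf.sub_left, hf.smul_left, z3, h3]

end

theorem exists_sq_ne (h2 : (2 : F) ≠ 0) (h3 : Nat.card F ≠ 3) : ∃ a : F, a ≠ 0 ∧ a * a ≠ 1 := by
  by_contra hc
  push_neg at hc
  refine h3 ?_
  have : (Set.univ : Set F) = {0, 1, -1} := by
    ext a
    by_cases ha : a = 0
    · simp [ha]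
    · simpa [ha] using mul_self_eq_one_iff.1 (hc a ha)
  rw [← Set.ncard_univ, this]
  refine Set.ncard_eq_three.2 ⟨0, 1, -1, zero_ne_one, by simp, fun h => h2 ?_, rfl⟩
  linear_combination h

variable (C : Cl (RingEquiv.refl F) 1 f G) (h2 : (2 : F) ≠ 0)
include C h2

theorem exists_v {u y : β → F} (H : HP f u y) : ∃ v, f v u = 0 ∧ f v y = 0 ∧ f v v ≠ 0 := by
  obtain ⟨v, -, θ, h1, h3, h4, h5, h6⟩ := C.th u trivial y trivial H
  refine ⟨v, h1, h3, ?_⟩
  rcases h6 with rfl | h6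
  · rw [Vd, C.ses.zero_left] at h4
    simp only [RingEquiv.refl_apply] at h4
    exact absurd (mul_left_cancel₀ h2 (by linear_combination h4)) h5
  · exact h6.2

omit C in
theorem vd (v : β → F) : Vd (RingEquiv.refl F) 1 f v (-(f v v / 2)) := by
  simp only [Vd, RingEquiv.refl_apply]; field_simp; ring

theorem three_le : 3 ≤ Fintype.card β := by
  obtain ⟨u, y, H⟩ := C.exists_hp
  obtain ⟨v, h1, h3, h4⟩ := exists_v C h2 H
  refine three_le_card C H.xx (H.ne C.ses) (by rw [sym C.ses, h1]) fun a ha => h4 ?_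
  rw [ha, C.ses.smul_left, smul_r C.ses, H.xx, mul_zero, mul_zero]

theorem opE {u v : β → F} (hu : f u u = 0) (hv : f v u = 0) : ∃ T ∈ Op G, ∀ b, T b =
    (1 + (Nv f u v - (f v v / 2) • br f u u)) * b * (1 + (-Nv f u v - (f v v / 2) • br f u u)) - b := by
  obtain ⟨T, hT, e⟩ := op_D (C.el u v _ hu hv (vd h2 v)) (elm_isom C.ses hu hv (vd h2 v))
  refine ⟨T, hT, fun b => ?_⟩
  rw [e, adj_elm C.ses]
  congr 3
  · simp only [elm, Nv]; module
  · simp only [elm, Nv, br_neg_left, br_neg_right C.ses, RingEquiv.refl_apply]; module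

theorem opEE {u v : β → F} (hu : f u u = 0) (hv : f v u = 0) : ∃ T ∈ Op G, ∃ A A',
    A = Nv f u v - (f v v / 2) • br f u u ∧ A' = -Nv f u v - (f v v / 2) • br f u u ∧ ∀ b, T b =
      -f v v • (br f u u * b) - f v v • (b * br f u u) + (2 : F) • (A * b * A') -
        (2 * f v v) • (br f u u * b * A') - (2 * f v v) • (A * b * br f u u) +
          (f v v * f v v) • (br f u u * b * br f u u) := by
  have hf := C.ses
  obtain ⟨T, hT, e⟩ := opE C h2 hu hv
  refine ⟨T * T, mul_mem hT hT, _, _, rfl, rfl, fun b => ?_⟩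
  rw [Module.End.mul_apply, e, e]
  refine DD_abs ?_ ?_ <;>
  simp [mul_sub, sub_mul, Nv_mul hf hu hv hv, Nv_mul_n hf hu hv, n_mul_Nv hf hu hv, br_mul_br hf, hu]

theorem opE1 (hex : ¬ (Fintype.card β = 3 ∧ Nat.card F = 3)) {u : β → F} (hu : f u u = 0)
    (h0 : u ≠ 0) : ∃ T ∈ Op G, ∀ b, T b = f (b *ᵥ u) u • br f u u := by
  have hf := C.ses
  suffices ∃ T ∈ Op G, ∃ c : F, c ≠ 0 ∧ ∀ b, T b = c • (br f u u * b * br f u u) by
    obtain ⟨T, hT, c, hc, e⟩ := this
    exact ⟨c⁻¹ • T, Subalgebra.smul_mem _ hT _, fun b => by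
      rw [LinearMap.smul_apply, e, inv_smul_smul₀ hc, sand_br hf]⟩
  obtain ⟨y, H⟩ := C.partner h0 hu
  obtain ⟨v, h1, h3, h4⟩ := exists_v C h2 H
  by_cases hq : Nat.card F = 3
  · have hk : 4 ≤ Fintype.card β := by
      have := three_le C h2
      by_contra h; exact hex ⟨by omega, hq⟩
    obtain ⟨w, w1, -, w3, w4⟩ := exists_ns' hf h2 hk H h1 h3 h4
    obtain ⟨T, hT, A, A', hA, hA', e⟩ := opEE C h2 hu h1
    obtain ⟨T', hT', B, B', hB, hB', e'⟩ := opEE C h2 hu w1
    have nn : br f u u * br f u u = 0 := by rw [br_mul_br hf, hu, zero_smul]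
    have a1 : A * B = 0 := by
      simp [hA, hB, mul_sub, sub_mul, Nv_mul hf hu h1 w1, w3, Nv_mul_n hf hu h1, n_mul_Nv hf hu w1, nn]
    have a2 : B' * A' = 0 := by
      simp [hA', hB', mul_sub, sub_mul, Nv_mul hf hu w1 h1, sym hf v w, w3, Nv_mul_n hf hu w1,
        n_mul_Nv hf hu h1, nn]
    have a3 : A * br f u u = 0 := by simp [hA, sub_mul, Nv_mul_n hf hu h1, nn]
    have a4 : br f u u * B = 0 := by simp [hB, mul_sub, n_mul_Nv hf hu w1, nn]
    have a5 : br f u u * A' = 0 := by simp [hA', mul_sub, n_mul_Nv hf hu h1, nn]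
    have a6 : B' * br f u u = 0 := by simp [hB', sub_mul, Nv_mul_n hf hu w1, nn]
    have k : ∀ {X Y : Matrix β β F}, X * Y = 0 → ∀ x : Matrix β β F, X * (Y * x) = 0 :=
      fun h x => by rw [← mul_assoc, h, zero_mul]
    refine ⟨T * T', mul_mem hT hT', 2 * (f v v * f w w), mul_ne_zero h2 (mul_ne_zero h4 w4),
      fun b => ?_⟩
    rw [Module.End.mul_apply, e, e']
    simp only [mul_add, add_mul, mul_sub, sub_mul, mul_assoc, mul_smul_comm, smul_mul_assoc, a2, a5,
      a6, nn, k a1, k a3, k a4, k nn, mul_zero, zero_mul, smul_zero]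
    module
  · obtain ⟨a, ha, ha'⟩ := exists_sq_ne h2 hq
    have key : ∀ t : F, ∃ T ∈ Op G, ∀ b, T b =
        (1 + (t • Nv f u v - (t * t * (f v v / 2)) • br f u u)) * b *
          (1 + (-(t • Nv f u v) - (t * t * (f v v / 2)) • br f u u)) - b := fun t => by
      obtain ⟨T, hT, e⟩ := opE C h2 hu (v := t • v) (by rw [hf.smul_left, h1, mul_zero])
      refine ⟨T, hT, fun b => ?_⟩
      rw [e, Nv_smul hf, hf.smul_left, smul_r hf, ← mul_assoc, mul_div_assoc]
    obtain ⟨T1, m1, e1⟩ := key a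
    obtain ⟨T2, m2, e2⟩ := key (-a)
    obtain ⟨T3, m3, e3⟩ := key 1
    obtain ⟨T4, m4, e4⟩ := key (-1)
    refine ⟨T1 + T2 - (a * a) • (T3 + T4), sub_mem (add_mem m1 m2)
      (Subalgebra.smul_mem _ (add_mem m3 m4) _),
      2 * (a * a) * (a * a - 1) * (f v v / 2 * (f v v / 2)),
      mul_ne_zero (mul_ne_zero (mul_ne_zero h2 (mul_ne_zero ha ha)) (sub_ne_zero.2 ha'))
        (mul_ne_zero (div_ne_zero h4 h2) (div_ne_zero h4 h2)), fun b => ?_⟩
    simp only [LinearMap.sub_apply, LinearMap.add_apply, LinearMap.smul_apply, e1, e2, e3, e4,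
      mul_add, add_mul, mul_sub, sub_mul, mul_neg, neg_mul, mul_assoc, mul_smul_comm, smul_mul_assoc,
      one_mul, mul_one]
    module

theorem adj_eq (hex : ¬ (Fintype.card β = 3 ∧ Nat.card F = 3)) {s : Matrix β β F}
    (h : ∀ z, f z z = 0 → f (s *ᵥ z) z = 0) :
    ∃ c : F, adj (RingEquiv.refl F) f s = c • (1 : Matrix β β F) - s := by
  have hf := C.ses
  suffices ∃ c : F, s + adj (RingEquiv.refl F) f s = c • (1 : Matrix β β F) by
    obtain ⟨c, hc⟩ := this
    exact ⟨c, by rw [← hc, add_sub_cancel_left]⟩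
  refine C.scalar_of_perp fun w v hw hwv => ?_
  rw [add_mulVec, hf.add_left, hf.adj_spec', sym hf w]
  by_cases h0 : w = 0
  · rw [h0, mulVec_zero, hf.zero_left, hf.zero_right, add_zero]
  obtain ⟨y, H⟩ := C.partner h0 hw
  have key0 : ∀ v, f v w = 0 → f v y = 0 →
      f (s *ᵥ v) v - f v v / 2 * (f (s *ᵥ y) w + f (s *ᵥ w) y) - (f (s *ᵥ y) v + f (s *ᵥ v) y) +
        f v v / 2 * (f (s *ᵥ w) v + f (s *ᵥ v) w) = 0 := fun v h1 h3 => by
    have e1 := h _ (iso_third hf H h1 h3 (vd h2 v))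
    simp only [mulVec_add, mulVec_sub, mulVec_smul, hf.add_left, hf.sub_left, hf.smul_left,
      hf.add_right, hf.sub_right, smul_r hf, h y H.yy, h w hw, mul_one] at e1
    linear_combination e1
  have key : ∀ v, f v w = 0 → f v y = 0 →
      f (s *ᵥ y) v + f (s *ᵥ v) y = f v v / 2 * (f (s *ᵥ w) v + f (s *ᵥ v) w) := fun v h1 h3 => by
    have e1 := key0 v h1 h3
    have e2 := key0 (-v) (by rw [hf.neg_left, h1, neg_zero]) (by rw [hf.neg_left, h3, neg_zero])
    simp only [mulVec_neg, hf.neg_left, hf.neg_right, neg_neg] at e2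
    refine mul_left_cancel₀ h2 ?_
    linear_combination e2 - e1
  have main : ∀ v, f v w = 0 → f v y = 0 → f (s *ᵥ w) v + f (s *ᵥ v) w = 0 := by
    intro v h1 h3
    by_cases h4 : f v v = 0
    · have := h (w + v) (by simp [hf.add_left, hf.add_right, hw, h4, h1, sym hf w v])
      simp only [mulVec_add, hf.add_left, hf.add_right, h w hw, h v h4] at this
      linear_combination this
    by_cases hq : Nat.card F = 3
    · have hk : 4 ≤ Fintype.card β := by
        have := three_le C h2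
        by_contra h; exact hex ⟨by omega, hq⟩
      obtain ⟨z, w1, w2, w3, w4⟩ := exists_ns' hf h2 hk H h1 h3 h4
      have e1 := key v h1 h3
      have e3 := key (v + z) (by rw [hf.add_left, h1, w1, add_zero])
        (by rw [hf.add_left, h3, w2, add_zero])
      have e4 := key (v - z) (by rw [hf.sub_left, h1, w1, sub_zero])
        (by rw [hf.sub_left, h3, w2, sub_zero])
      simp only [mulVec_add, mulVec_sub, hf.add_left, hf.sub_left, hf.add_right, hf.sub_right, w3,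
        sym hf v z] at e3 e4
      refine mul_left_cancel₀ w4 ?_
      have i2 : (2 : F) / 2 = 1 := div_self h2
      linear_combination 2 * e1 - e3 - e4 - f z z * (f (s *ᵥ w) v + f (s *ᵥ v) w) * i2
    · obtain ⟨a, ha, ha'⟩ := exists_sq_ne h2 hq
      have e1 := key v h1 h3
      have e3 := key (a • v) (by rw [hf.smul_left, h1, mul_zero]) (by rw [hf.smul_left, h3, mul_zero])
      simp only [mulVec_smul, hf.smul_left, smul_r hf] at e3
      refine mul_left_cancel₀ (mul_ne_zero (mul_ne_zero ha (sub_ne_zero.2 ha'))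
        (div_ne_zero h4 h2)) ?_
      linear_combination a * e1 - e3
  obtain ⟨p1, p2⟩ := perp_part hf H v
  rw [sym hf v w, hwv, mul_zero, zero_smul, sub_zero] at p1 p2
  have := main _ p1 p2
  simp only [mulVec_sub, mulVec_smul, hf.sub_left, hf.sub_right, hf.smul_left, smul_r hf, h w hw,
    mul_zero, sub_zero] at this
  exact this

/-- The square of an Eichler operator on matrices that are skew modulo scalars. -/
theorem opN (hex : ¬ (Fintype.card β = 3 ∧ Nat.card F = 3)) {u y v : β → F} (H : HP f u y)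
    (hv : f v u = 0) : ∃ T ∈ Op G, ∀ s : Matrix β β F, (∀ z, f z z = 0 → f (s *ᵥ z) z = 0) →
      T s = Nv f u (f v v • (s *ᵥ u - f (s *ᵥ u) y • u) - (2 * f (s *ᵥ u) v) • v) := by
  have hf := C.ses
  have hu := H.xx
  obtain ⟨T, hT, A, A', hA, hA', e⟩ := opEE C h2 hu hv
  refine ⟨T, hT, fun s hs => ?_⟩
  obtain ⟨c, hc⟩ := adj_eq C h2 hex hs
  have k : ∀ x z, f (s *ᵥ x) z = c * f x z - f (s *ᵥ z) x := fun x z => by
    rw [hf.adj_spec, hc, sub_mulVec, smul_mulVec, one_mulVec, hf.sub_right, smul_r hf, sym hf x (s *ᵥ z)]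
  have k1 : f (s *ᵥ v) u = -f (s *ᵥ u) v := by rw [k, hv]; ring
  have k2 : f (s *ᵥ v) v = c * (f v v / 2) := by
    refine mul_left_cancel₀ h2 ?_
    have := k v v
    field_simp
    linear_combination this
  have k3 : br f u u * s = c • br f u u - br f u (s *ᵥ u) := by
    rw [br_mul hf, hc, sub_mulVec, smul_mulVec, one_mulVec, br_sub_right hf, br_smul_right hf]; rfl
  rw [e, k3, mul_br, Nv_sub hf, Nv_smul hf, Nv_smul hf, Nv_sub hf, Nv_smul hf, Nv_self, ← k3]
  simp only [hA, hA', Nv, mul_sub, sub_mul, mul_neg, smul_mul_assoc, mul_smul_comm, sand_br hf,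
    hs u hu, k1, k2]
  rw [k3]
  match_scalars <;> field_simp <;> ring

theorem exists_z (hex : ¬ (Fintype.card β = 3 ∧ Nat.card F = 3)) {s : Matrix β β F} (hs : ¬ Sc s)
    (h : ∀ z, f z z = 0 → f (s *ᵥ z) z = 0) : ∃ u y v, HP f u y ∧ f v u = 0 ∧ f v y = 0 ∧
      f v v ≠ 0 ∧ ∃ T ∈ Op G, (∀ s : Matrix β β F, (∀ z, f z z = 0 → f (s *ᵥ z) z = 0) →
        ∃ z, f z u = 0 ∧ f z y = 0 ∧ T s = Nv f u z) ∧
        ∃ z, f z u = 0 ∧ f z y = 0 ∧ z ≠ 0 ∧ T s = Nv f u z := by
  have hf := C.ses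
  obtain ⟨u, hu, hsu⟩ : ∃ u, f u u = 0 ∧ ∀ a : F, s *ᵥ u ≠ a • u := by
    by_contra hc
    push_neg at hc
    exact hs (C.scalar_of_eigen hc)
  have h0 : u ≠ 0 := by rintro rfl; exact hsu 0 (by simp)
  obtain ⟨y, H⟩ := C.partner h0 hu
  obtain ⟨v, h1, h3, h4⟩ := exists_v C h2 H
  obtain ⟨T, hT, e⟩ := opN C h2 hex H h1
  have k : ∀ s : Matrix β β F, (∀ z, f z z = 0 → f (s *ᵥ z) z = 0) →
      f (f v v • (s *ᵥ u - f (s *ᵥ u) y • u) - (2 * f (s *ᵥ u) v) • v) u = 0 ∧
      f (f v v • (s *ᵥ u - f (s *ᵥ u) y • u) - (2 * f (s *ᵥ u) v) • v) y = 0 := fun s hs => by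
    constructor <;> simp [hf.sub_left, hf.smul_left, hs u hu, hu, h1, h3, H.xy]
  refine ⟨u, y, v, H, h1, h3, h4, T, hT, fun s hs => ⟨_, (k s hs).1, (k s hs).2, e s hs⟩, _,
    (k s h).1, (k s h).2, fun h5 => ?_, e s h⟩
  have h6 := congrArg (fun z => f z v) h5
  simp only [hf.sub_left, hf.smul_left, hf.zero_left, sym hf u v, h1] at h6
  have h7 : f (s *ᵥ u) v = 0 := mul_left_cancel₀ h4 (by linear_combination -h6)
  rw [h7, mul_zero, zero_smul, sub_zero, smul_eq_zero, sub_eq_zero] at h5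
  exact hsu _ (h5.resolve_left h4)

omit h2 in
theorem good_Nv {u w : β → F} (hu : f u u = 0) (h0 : u ≠ 0) (hw : f w u = 0) (h : f w w ≠ 0) :
    Good G (Nv f u w) :=
  Good.of_sq (by rw [Nv_mul C.ses hu hw hw]; exact (C.good_br h0 hu).smul (neg_ne_zero.2 h))

end PasO

open PasO

theorem pas_o (C : Cl (RingEquiv.refl F) 1 f G) (h2 : (2 : F) ≠ 0)
    (hex : ¬ (Fintype.card β = 3 ∧ Nat.card F = 3))
    (hr : 4 ≤ Fintype.card β → ∀ z, f z z ≠ 0 → rfz f z ∈ matrixSet G) : Pas G := by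
  have hf := C.ses
  refine ⟨C.irr, fun U hU s hsU hs => ?_⟩
  by_cases hS : ∃ s' ∈ U, ∃ u, f u u = 0 ∧ f (s' *ᵥ u) u ≠ 0
  · obtain ⟨s', hs', u, hu, h1⟩ := hS
    have h0 : u ≠ 0 := by rintro rfl; exact h1 (hf.zero_right _)
    obtain ⟨T, hT, e⟩ := opE1 C h2 hex hu h0
    exact ⟨T, hT, _, C.good_br h0 hu, fun b _ => ⟨_, e b⟩, s', hs', by
      rw [e]; exact smul_ne_zero h1 (br_ne_zero hf h0 h0)⟩
  push_neg at hS
  obtain ⟨u, y, v, H, h1, h3, h4, T, hT, e, z, z1, z2, z0, ez⟩ := exists_z C h2 hex hs (hS s hsU)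
  by_cases hk : 4 ≤ Fintype.card β
  · obtain ⟨w, w1, w2, w3, w4⟩ := exists_ns_W hf h2 H z1 z2 z0
    obtain ⟨g, hg, eg⟩ := mem_matrixSet.1 (hr hk w w3)
    have gx : ∀ x, (g : Matrix β β F) *ᵥ x = x - (2 / f w w * f x w) • w := fun x => by
      rw [eg, rfz, sub_mulVec, one_mulVec, smul_mulVec, br_mulVec hf, smul_smul]
    have key : ∀ (b : Matrix β β F) (x : β → F), T b = Nv f u x →
        (-(cjL g - 1) * T) b = (2 / f w w * f x w) • Nv f u w := fun b x hb => by
      simp only [Module.End.mul_apply, LinearMap.neg_apply, LinearMap.sub_apply, cjL_apply, hb,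
        cj_Nv hf (C.le hg), gx, sym hf u w, w1, mul_zero, zero_smul, sub_zero, Nv_sub hf, Nv_smul hf,
        Module.End.one_apply]
      abel
    refine ⟨_, mul_mem (neg_mem (dlt_mem hg)) hT, _, good_Nv C H.xx (H.ne hf) w1 w3, fun b hb => ?_,
      s, hsU, ?_⟩
    · obtain ⟨x, -, -, hx⟩ := e b (hS b hb)
      exact ⟨_, key b x hx⟩
    · rw [key s z ez]
      exact smul_ne_zero (mul_ne_zero (div_ne_zero h2 w3) w4) (Nv_ne_zero hf H w2 w1 (by
        rintro rfl; exact w3 (hf.zero_left _)))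
  · refine ⟨T, hT, _, good_Nv C H.xx (H.ne hf) h1 h4, fun b hb => ?_, s, hsU, ?_⟩
    · obtain ⟨x, x1, x2, hx⟩ := e b (hS b hb)
      obtain ⟨t, rfl⟩ := eq_smul_of_three hf hk H h1 h3 h4 x1 x2
      exact ⟨t, by rw [hx, Nv_smul hf]⟩
    · rw [ez]; exact Nv_ne_zero hf H z2 z1 z0

theorem simp_o (C : Cl (RingEquiv.refl F) 1 f G) (h2 : (2 : F) ≠ 0)
    (hex : ¬ (Fintype.card β = 3 ∧ Nat.card F = 3))
    (h4 : Fintype.card β = 4 → ∀ x y, HP f x y → ∀ z, f z x = 0 → f z y = 0 → f z z = 0 → z = 0) :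
    Simp G := by
  have hf := C.ses
  refine simp_of_good fun s hs => ?_
  by_cases hS : ∃ u, f u u = 0 ∧ f (s *ᵥ u) u ≠ 0
  · obtain ⟨u, hu, h1⟩ := hS
    have h0 : u ≠ 0 := by rintro rfl; exact h1 (hf.zero_right _)
    obtain ⟨T, hT, e⟩ := opE1 C h2 hex hu h0
    exact Good.of_op hT (by rw [e]; exact (C.good_br h0 hu).smul h1)
  push_neg at hS
  obtain ⟨u, y, v, H, h1, h3, h5, T, hT, -, z, z1, z2, z0, ez⟩ := exists_z C h2 hex hs hS
  refine Good.of_op hT ?_
  rw [ez]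
  by_cases hz : f z z = 0
  swap
  · exact good_Nv C H.xx (H.ne hf) z1 hz
  have hk : 5 ≤ Fintype.card β := by
    by_contra hc
    by_cases hk : 4 ≤ Fintype.card β
    · exact z0 (h4 (by omega) u y H z z1 z2 hz)
    · obtain ⟨t, rfl⟩ := eq_smul_of_three hf hk H h1 h3 h5 z1 z2
      rw [hf.smul_left, smul_r hf] at hz
      exact z0 (by rw [(mul_eq_zero.1 hz).elim id fun h => (mul_eq_zero.1 h).resolve_right h5,
        zero_smul])
  obtain ⟨w0, a1, a2, -, a4⟩ := exists_ns_W hf h2 H z1 z2 z0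
  obtain ⟨c, hc⟩ := exists_iso_add hf C.tv hz (w := w0) (by rwa [sym hf])
  have hzw : f z (w0 + c • z) ≠ 0 := by rwa [hf.add_right, smul_r hf, hz, mul_zero, add_zero]
  have H' := hp_of_ne hf hz hc hzw
  set w := ((RingEquiv.refl F) (f z (w0 + c • z)))⁻¹ • (w0 + c • z)
  have b1 : f w u = 0 := by simp [w, hf.smul_left, hf.add_left, a1, z1]
  have b2 : f w y = 0 := by simp [w, hf.smul_left, hf.add_left, a2, z2]
  obtain ⟨p, p', ⟨p1, p2, p3, p4⟩, ⟨r1, r2, r3, r4⟩, r5⟩ := exists_pair_perp4 hf hk H H'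
    (by rw [sym hf, z1]) (by rw [sym hf, z2]) (by rw [sym hf, b1]) (by rw [sym hf, b2])
  obtain ⟨a, d, k1, -⟩ := exists_ns hf h2 r5
  set x := a • p' + d • p
  have x1 : f u x = 0 := by simp [x, hf.add_right, smul_r hf, p1, sym hf u p', r1]
  have x2 : f z x = 0 := by simp [x, hf.add_right, smul_r hf, p3, sym hf z p', r3]
  have x3 : f x w = 0 := by simp [x, hf.add_left, hf.smul_left, r4, sym hf p w, p4]
  obtain ⟨g, hg, eg⟩ := mem_matrixSet.1 (C.el w x _ H'.yy x3 (vd h2 x))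
  have gu : (g : Matrix β β F) *ᵥ u = u := by rw [eg, elm_mulVec hf]; simp [x1, sym hf u w, b1]
  have gz : (g : Matrix β β F) *ᵥ z = z - (f x x / 2) • w - x := by
    rw [eg, elm_mulVec hf, x2, H'.xy]; module
  refine Good.of_mul_cj hg ?_
  rw [cj_Nv hf (C.le hg), gu, Nv_mul hf H.xx z1 (by rw [← gu, C.le hg, z1]), gz]
  refine (C.good_br (H.ne hf) H.xx).smul ?_
  rw [hf.sub_left, hf.sub_left, hf.smul_left, hz, sym hf w z, H'.xy, sym hf x z, x2]
  simpa using ⟨k1, h2⟩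

end Cfsg.Agent.H9
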