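import Cfsg.Agent.H9.TCl
import Cfsg.Agent.H98.PureT
import Cfsg.Agent.H98.TensorForm

/-! Pairs and systems of tensor factors: from levels to the whole centraliser, and from the
dichotomy to the stabiliser. -/

set_option autoImplicit false
set_option linter.unusedSectionVars false
set_option linter.unusedVariables false
set_option linter.unusedSimpArgs false

namespace Cfsg.Agent.H9

open scoped MatrixGroups Matrix Kronecker
open Matrix Cfsg.Geo Cfsg.Agent.H98 Module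

variable {ι α β : Type} [Fintype ι] [DecidableEq ι] [Fintype α] [DecidableEq α] [Fintype β]
  [DecidableEq β] {F : Type*} [Field F]

section
variable {φ : Matrix β β F →ₐ[F] Matrix ι ι F} {ψ : Matrix α α F →ₐ[F] Matrix ι ι F}
  {M : Subgroup (GL ι F)}

theorem dd_mul [Nonempty β] : dd φ * Fintype.card β = Fintype.card ι := by
  let e : (β → V0 φ) ≃ₗ[F] (ι → F) :=
    { toFun := fun v => ∑ k, tv φ (bv F k) (v k)
      invFun := fun w k => ⟨ev φ (bv F k) w, ev_mem _ _⟩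
      map_add' := fun v w => by simp [tv_add, Finset.sum_add_distrib]
      map_smul' := fun c v => by simp [tv_smul, Finset.smul_sum]
      left_inv := fun v => by
        ext1 k
        refine Subtype.ext ?_
        show φ _ *ᵥ _ = _
        rw [Matrix.mulVec_sum]
        have : ∀ l, φ (vecMulVec (bv F (oo β)) (bv F k)) *ᵥ tv φ (bv F l) (v l) =
            (bv F k ⬝ᵥ bv F l) • (v l : ι → F) := fun l => ev_tv _ _ (v l).2
        simp [this, Pi.single_apply]
      right_inv := sum_tv_ev }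
  have := e.finrank_eq
  rw [Module.finrank_pi_fintype] at this
  simpa [dd, mul_comm] using this

theorem dd_le_rank [Nonempty β] {u η : β → F} (hu : u ≠ 0) (hη : η ≠ 0) :
    dd φ ≤ (φ (vecMulVec u η)).rank := by
  obtain ⟨v, hv⟩ := exists_dot_one hη
  exact finrank_le_rank (tvL φ v) _ fun w hw => by
    rw [tvL_apply, phi_tv, vmv_mulVec, dotProduct_comm, hv, one_smul] at hw
    exact Subtype.ext (tv_eq_zero hu w.2 hw)

theorem le_rank_of_card [Nonempty β] {u η : β → F} (hu : u ≠ 0) (hη : η ≠ 0) {m : ℕ}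
    (h : m * Fintype.card β ≤ Fintype.card ι) : m ≤ (φ (vecMulVec u η)).rank :=
  (Nat.le_of_mul_le_mul_right (dd_mul (φ := φ) ▸ h) Fintype.card_pos).trans (dd_le_rank hu hη)

theorem exists_gφ [Nonempty ι] {g : GL ι F} (h : (g : Matrix ι ι F) ∈ φ.range) :
    ∃ x : GL β F, g = gφ φ x := by
  obtain ⟨b, hb⟩ := h
  have hb' : φ b = g := hb
  have : IsUnit b := by
    rw [← Matrix.mulVec_injective_iff_isUnit]
    intro v w hvw
    by_contra hne
    refine vmv_ne_zero (sub_ne_zero.2 hne) (sub_ne_zero.2 hne) (phi_injective (φ := φ) ?_)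
    have : g * φ (vecMulVec (v - w) (v - w)) = 0 := by
      rw [← hb', ← map_mul, mul_vmv, mulVec_sub, show b *ᵥ v = b *ᵥ w from hvw]; simp
    rw [map_zero, ← Units.inv_mul_cancel_left g (φ _), this, mul_zero]
  exact ⟨this.unit, Units.ext hb'.symm⟩

theorem Lev.cj_cm {g : GL ι F} (hg : g ∈ M) (hc : Cm φ g) {a E : Matrix β β F} {sd : Bool}
    {z : Matrix ι ι F} (h : z ∈ Lev M (φ a) (φ E) φ sd) : H98.cj g z ∈ Lev M (φ a) (φ E) φ sd := by
  have e : ∀ b, H98.cj g (φ b) = φ b := fun b => by rw [cj_eq_iff, hc]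
  have := Lev.cj (φ' := φ) hg h (h.1.cj (mem_KB_of_cm hc))
  rwa [e, e] at this

theorem sc_phi [Nonempty ι] {b : Matrix β β F} (h : Sc (φ b)) : Sc b := by
  obtain ⟨a, ha⟩ := h
  exact ⟨a, phi_injective (φ := φ) (by rw [ha, map_smul, map_one])⟩

theorem Sc.phi {b : Matrix β β F} (h : Sc b) : Sc (φ b) := by
  obtain ⟨a, rfl⟩ := h; exact ⟨a, by rw [map_smul, map_one]⟩

theorem Sc.cj {c : Matrix ι ι F} (h : Sc c) (g : GL ι F) : H98.cj g c = c := by
  obtain ⟨a, rfl⟩ := h; rw [map_smul, map_one]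

variable (φ ψ) in
/-- Two complementary tensor factors. -/
structure Pair : Prop where
  cm : ∀ b, Cm φ (ψ b)
  rg : ∀ z, Cm φ z → z ∈ ψ.range

theorem Pair.all_of_simp (P : Pair φ ψ) {G : Subgroup (GL α F)} (hS : Simp G)
    {D : NonUnitalSubalgebra F (Matrix ι ι F)} (hD : ∀ z ∈ D, Cm φ z)
    (hI : ∀ g ∈ G, ∀ z ∈ D, cj (gφ ψ g) z ∈ D) {c : Matrix ι ι F} (hc : c ∈ D) (hn : ¬ Sc c)
    (z : Matrix ι ι F) (hz : Cm φ z) : z ∈ D := by
  obtain ⟨b, rfl⟩ := P.rg c (hD c hc)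
  obtain ⟨b', rfl⟩ := P.rg z hz
  exact hS (D.comap (ψ : Matrix α α F →ₙₐ[F] Matrix ι ι F)) (fun g hg b hb => by
    show ψ (cj g b) ∈ D
    rw [← cj_gφ]; exact hI g hg _ hb) b hc (fun h => hn h.phi) b'

theorem Pair.lev_all (P : Pair φ ψ) {G : Subgroup (GL α F)} (hS : Simp G)
    (hG : ∀ g ∈ G, gφ ψ g ∈ M) {a E : Matrix β β F} {sd : Bool} {c : Matrix ι ι F}
    (hc : c ∈ Lev M (φ a) (φ E) φ sd) (hn : ¬ Sc c) (z : Matrix ι ι F) (hz : Cm φ z) :
    z ∈ Lev M (φ a) (φ E) φ sd :=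
  P.all_of_simp hS (D := Lev M (φ a) (φ E) φ sd) (fun z hz => hz.1)
    (fun g hg z hz => Lev.cj_cm (hG g hg) (P.cm _) hz) hc hn z hz

theorem Pair.exists_hom [Nonempty ι] (P : Pair φ ψ) {g : GL ι F} (h : ∀ b, Cm φ (cj g (φ b))) :
    ∃ θ : Matrix β β F →ₐ[F] Matrix α α F, ∀ b, ψ (θ b) = cj g (φ b) :=
  ⟨(AlgEquiv.ofInjective ψ phi_injective).symm.toAlgHom.comp
    ((((cj g : Matrix ι ι F ≃ₐ[F] Matrix ι ι F) : Matrix ι ι F →ₐ[F] Matrix ι ι F).comp φ).codRestrict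
      ψ.range fun b => P.rg _ (h b)), fun b =>
    congrArg Subtype.val ((AlgEquiv.ofInjective ψ phi_injective).apply_symm_apply
      ⟨_, P.rg _ (h b)⟩)⟩

theorem dvd_of_hom [Nonempty β] (θ : Matrix β β F →ₐ[F] Matrix α α F) :
    Fintype.card β ∣ Fintype.card α := Dvd.intro_left _ (dd_mul (φ := θ))

end

section
variable {a b : ℕ} (e : ι ≃ Fin a × Fin b) (P : GL ι F)

/-- The left factor of a frame. -/
def φL : Matrix (Fin a) (Fin a) F →ₐ[F] Matrix ι ι F := (frm e P).toAlgHom.comp (kronL (Fin a) (Fin b) F)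
/-- The right factor of a frame. -/
def φR : Matrix (Fin b) (Fin b) F →ₐ[F] Matrix ι ι F := (frm e P).toAlgHom.comp (kronR (Fin a) (Fin b) F)

theorem φL_apply (X : Matrix (Fin a) (Fin a) F) :
    φL e P X = frm e P (X ⊗ₖ (1 : Matrix (Fin b) (Fin b) F)) := rfl
theorem φR_apply (Y : Matrix (Fin b) (Fin b) F) :
    φR e P Y = frm e P ((1 : Matrix (Fin a) (Fin a) F) ⊗ₖ Y) := rfl

theorem φL_swap : φL (e.trans (Equiv.prodComm _ _)) P = φR e P :=
  AlgHom.ext fun X => frm_swap e P 1 X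
theorem φR_swap : φR (e.trans (Equiv.prodComm _ _)) P = φL e P :=
  AlgHom.ext fun X => frm_swap e P X 1

theorem pair_L (ha : 0 < a) : Pair (φL e P) (φR e P) :=
  ⟨fun Y X => by rw [φL_apply, φR_apply, ← map_mul, ← map_mul, ← mul_kronecker_mul,
    ← mul_kronecker_mul]; simp, fun z hz => by
    have : z ∈ Subalgebra.centralizer F (tensL e P : Set (Matrix ι ι F)) := by
      rintro _ ⟨X, rfl⟩; exact hz X
    rwa [centralizer_tensL ha] at this⟩

theorem pair_R (hb : 0 < b) : Pair (φR e P) (φL e P) := by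
  have := pair_L (e.trans (Equiv.prodComm _ _)) P hb
  rwa [φL_swap, φR_swap] at this

variable {e P}

theorem le_tensor_L (ha : 0 < a) (hb : 0 < b) {M : Subgroup (GL ι F)} (h : M ≤ KB (φL e P)) :
    M ≤ tensorProductSubgroup a b e P :=
  le_tensorProductSubgroup_of_nz ha hb fun g hg z hz => cj_mem_range (h hg) hz

theorem le_tensor_R (ha : 0 < a) (hb : 0 < b) {M : Subgroup (GL ι F)} (h : M ≤ KB (φR e P)) :
    M ≤ tensorProductSubgroup a b e P := by
  rw [← tensorProductSubgroup_swap]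
  exact le_tensor_L hb ha (by rwa [φL_swap])

theorem gφL_mem (x : GL (Fin a) F) : gφ (φL e P) x ∈ tensorProductSubgroup a b e P :=
  mem_tensorProductSubgroup.2 ⟨x, 1, rfl⟩
theorem gφR_mem (y : GL (Fin b) F) : gφ (φR e P) y ∈ tensorProductSubgroup a b e P :=
  mem_tensorProductSubgroup.2 ⟨1, y, rfl⟩

end

variable {τ : Type} [Fintype τ] [DecidableEq τ] {φ : τ → Matrix α α F →ₐ[F] Matrix ι ι F}
  {M : Subgroup (GL ι F)}

theorem Sys.cm_le (S : Sys φ) {i : τ} {D : NonUnitalSubalgebra F (Matrix ι ι F)} (h1 : 1 ∈ D)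
    (h : ∀ j, j ≠ i → ∀ b, φ j b ∈ D) [Nonempty α] {c : Matrix ι ι F} (hc : Cm (φ i) c) : c ∈ D := by
  let R : Subalgebra F (Matrix ι ι F) :=
    { carrier := {z | ∀ w, (∀ χ u, cf (φ i) χ w u ∈ D) → ∀ χ u, cf (φ i) χ (z * w) u ∈ D}
      mul_mem' := fun h h' w hw => by rw [mul_assoc]; exact h _ (h' w hw)
      add_mem' := fun h h' w hw χ u => by
        rw [add_mul, cf_add]; exact D.add_mem (h w hw χ u) (h' w hw χ u)
      algebraMap_mem' := fun r w hw χ u => by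
        rw [← Algebra.smul_def, cf_smul]; exact D.smul_mem r (hw χ u) }
  have : R = ⊤ := S.gen R fun j b w hw χ u => by
    by_cases hj : j = i
    · rw [hj, cf_phi_mul]; exact hw _ _
    · rw [(S.cm i j (Ne.symm hj) b).cf_mul]; exact D.mul_mem (h j hj b) (hw χ u)
  have := (show c ∈ R from this ▸ Algebra.mem_top) 1 (fun χ u => by
    rw [cf_one]; exact D.smul_mem _ h1) (bv F (oo α)) (bv F (oo α))
  simpa [hc.cf_eq] using this

variable (φ M) in
/-- `M` induces the three-cycles on the factors. -/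
def Cyc : Prop := ∀ i j l, i ≠ j → i ≠ l → j ≠ l →
  ∃ g ∈ M, (∀ b, cj g (φ i b) = φ j b) ∧ ∀ b, cj g (φ j b) = φ l b

theorem cyc_of_swap {N : Subgroup (GL ι F)} (hN : ∀ g ∈ N, ∀ h ∈ N, g * h * g⁻¹ * h⁻¹ ∈ M)
    (h : ∀ i j, ∃ g ∈ N, ∀ l b, cj g (φ l b) = φ (Equiv.swap i j l) b) : Cyc φ M := by
  intro i j l hij hil hjl
  obtain ⟨g, hg, e⟩ := h j l
  obtain ⟨g', hg', e'⟩ := h i j
  have k : ∀ l' b, cj g⁻¹ (φ l' b) = φ (Equiv.swap j l l') b := fun l' b => by
    rw [← cj_inv_cj g (φ (Equiv.swap j l l') b), e, Equiv.swap_apply_self]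
  have k' : ∀ l' b, cj g'⁻¹ (φ l' b) = φ (Equiv.swap i j l') b := fun l' b => by
    rw [← cj_inv_cj g' (φ (Equiv.swap i j l') b), e', Equiv.swap_apply_self]
  refine ⟨_, hN g hg g' hg', fun b => ?_, fun b => ?_⟩ <;>
    simp [cj_mul, k, k', e, e', Equiv.swap_apply_of_ne_of_ne, hij, hil, hjl, hij.symm, hil.symm,
      hjl.symm]

variable (φ M) in
/-- A unipotent element of `M` linking the factors `i` and `j`. -/
def Lnk (i j : τ) : Prop := ∃ ζ : Matrix α α F, ¬ Sc ζ ∧ ∃ u χ : α → F, u ≠ 0 ∧ χ ≠ 0 ∧ χ ⬝ᵥ u = 0 ∧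
  1 + φ j ζ * φ i (vecMulVec u χ) ∈ matrixSet M

theorem Sys.all_of_lnk (S : Sys φ) (hC : Cyc φ M) {i : τ} {G : τ → Subgroup (GL α F)}
    (hS : ∀ j, j ≠ i → Simp (G j)) {D : NonUnitalSubalgebra F (Matrix ι ι F)}
    (hI : ∀ j, j ≠ i → ∀ g ∈ G j, ∀ z ∈ D, cj (gφ (φ j) g) z ∈ D)
    (hM : ∀ g ∈ M, Cm (φ i) g → ∀ z ∈ D, cj g z ∈ D) {j : τ} (hj : j ≠ i) (h1 : ∀ b, φ j b ∈ D)
    (hZ : Lnk φ M i j) {c : Matrix ι ι F} (hc : Cm (φ i) c) : c ∈ D := by
  obtain ⟨ζ, hζ, u, χ, hu, hχ, h0, hm⟩ := hZ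
  have : Nonempty α := ⟨(Function.ne_iff.1 hu).choose⟩
  refine S.cm_le (map_one (φ j) ▸ h1 1) (fun l hl => ?_) hc
  by_cases hjl : l = j
  · exact hjl ▸ h1
  obtain ⟨g, hg, e, e'⟩ := hC i j l hj.symm hl.symm (Ne.symm hjl)
  have h2 := ms_cj hm hg
  rw [map_add, map_one, map_mul, e, e'] at h2
  obtain ⟨k, hk, h3⟩ := mem_matrixSet.1 h2
  have c1 := S.cm j l (Ne.symm hjl) ζ
  have n2 : φ j (vecMulVec u χ) * φ j (vecMulVec u χ) = 0 := by
    rw [← map_mul, vmv_mul_vmv, h0, zero_smul, map_zero]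
  have h4 : ((k⁻¹ : GL ι F) : Matrix ι ι F) = 1 - φ l ζ * φ j (vecMulVec u χ) :=
    Units.inv_eq_of_mul_eq_one_right (by
      rw [h3, mul_sub, add_mul, add_mul, mul_assoc _ _ (_ * _), c1.left, n2]; simp)
  obtain ⟨η, hη⟩ := exists_dot_one hu
  obtain ⟨v, hv⟩ := exists_dot_one hχ
  have h5 := D.sub_mem (h1 (vecMulVec u η)) (hM k hk (by
    rw [h3]; exact Cm.one.add ((S.cm i l hl.symm _).mul (S.cm i j hj.symm _))) _ (h1 (vecMulVec u η)))
  rw [cj_apply, h3, h4, add_mul, mul_assoc, ← map_mul, vmv_mul_vmv, h0, zero_smul, map_zero,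
    mul_zero, add_zero, one_mul, mul_sub, mul_one, sub_sub_cancel, c1.left, ← map_mul, vmv_mul_vmv,
    hη, one_smul] at h5
  have h6 : cf (φ j) η (φ l ζ * φ j (vecMulVec u χ)) v ∈ D :=
    sum_mem fun k _ => D.mul_mem (D.mul_mem (h1 _) h5) (h1 _)
  rw [c1.cf_mul_phi, vmv_mulVec, dotProduct_comm χ, hv, one_smul, hη, one_smul] at h6
  exact hS l hl (D.comap (φ l : Matrix α α F →ₙₐ[F] Matrix ι ι F)) (fun g hg b hb => by
    show φ l (cj g b) ∈ D
    rw [← cj_gφ]; exact hI l hl g hg _ hb) ζ h6 hζ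

theorem Sys.inv' (S : Sys φ) {i : τ} {G : τ → Subgroup (GL α F)} (hP : ∀ j, j ≠ i → Pas (G j))
    {D : NonUnitalSubalgebra F (Matrix ι ι F)} (hD : ∀ z ∈ D, Cm (φ i) z)
    (hI : ∀ j, j ≠ i → ∀ g ∈ G j, ∀ z ∈ D, cj (gφ (φ j) g) z ∈ D) {c : Matrix ι ι F} (hc : c ∈ D)
    (hn : ¬ Sc c) : ∃ j, j ≠ i ∧ ∀ b, φ j b ∈ D := by
  obtain ⟨j, hj, h⟩ := (S.inv (Finset.univ.erase i) (fun j hj => hP j (Finset.ne_of_mem_erase hj)) D
    (fun z hz l hl => by rw [show l = i by simpa using hl]; exact hD z hz)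
    (fun j hj => hI j (Finset.ne_of_mem_erase hj)) hc (fun h => hn (h ▸ Sc.zero))).2 hn
  exact ⟨j, Finset.ne_of_mem_erase hj, h⟩

theorem not_comm_all (hk : 2 ≤ Fintype.card α) : ∃ b : Matrix α α F, ¬ Sc b := by
  obtain ⟨i, j, hij⟩ := Fintype.exists_pair_of_one_lt_card hk
  refine ⟨Matrix.single i j 1, ?_⟩
  rintro ⟨a, ha⟩
  simpa [hij] using congrFun (congrFun ha i) j

/-- The dichotomy for all factors forces a permutation of the factors. -/
theorem Sys.perm [Nonempty ι] (S : Sys φ) (hC : Cyc φ M) (hk : 2 ≤ Fintype.card α)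
    (hD : ∀ i, ∀ g ∈ M, g ∈ KB (φ i) ∨ ∀ b, Cm (φ i) (cj g (φ i b))) {g : GL ι F} (hg : g ∈ M) :
    ∃ (s : Equiv.Perm τ) (x : τ → GL α F), ∀ i X, cj g (φ i X) = φ (s i) (cj (x i) X) := by
  have : Nonempty α := Fintype.card_pos_iff.1 (by omega)
  obtain ⟨b₀, hb₀⟩ := not_comm_all (F := F) hk
  have key : ∀ i, ∃ j, ∀ b, cj g (φ i b) ∈ (φ j).range := fun i => by
    by_contra hc
    push Not at hc
    have h1 : ∀ b, Cm (φ i) (cj g (φ i b)) := (hD i g hg).resolve_left fun h => by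
      obtain ⟨b, hb⟩ := hc i
      exact hb (cj_mem_range h ((φ i).mem_range_self b))
    have h2 : ∀ j b, Cm (φ j) (cj g (φ i b)) := fun j => by
      by_cases hj : j = i
      · exact hj ▸ h1
      by_cases hl : ∃ l, j ≠ l ∧ i ≠ l
      · obtain ⟨l, h3, h4⟩ := hl
        obtain ⟨k, hk, e, -⟩ := hC j i l hj h3 h4
        rcases hD j _ (M.mul_mem hg hk) with h | h
        · obtain ⟨b, hb⟩ := hc j
          have := cj_mem_range h ((φ j).mem_range_self b)
          rw [cj_mul, e] at this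
          exact (hb this).elim
        · intro b
          have := h b
          rwa [cj_mul, e] at this
      · obtain ⟨b, hb⟩ := hc j
        refine (hb (S.cm_le (D := (φ j).range.toNonUnitalSubalgebra) (one_mem (φ j).range)
          (fun l h b => ?_) (h1 b))).elim
        have : l = j := by
          by_contra h5
          exact hl ⟨l, Ne.symm h5, h.symm⟩
        exact this ▸ (φ l).mem_range_self b
    have h3 := S.sc fun j => h2 j b₀
    have h4 := h3.cj g⁻¹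
    rw [cj_inv_cj] at h4
    exact hb₀ (sc_phi (φ := φ i) (by rw [h4]; exact h3))
  choose s hs using key
  choose x hx using fun i => exists_cj_of_mapsTo (φ i) (φ (s i)) phi_injective g (hs i)
  have inj : Function.Injective s := fun i i' h => by
    by_contra hne
    refine hb₀ (scalar_of_comm_all fun b => ?_)
    have := congrArg (cj g) (S.cm i i' hne (cj (x i')⁻¹ (cj (x i) b)) b₀)
    rw [map_mul, map_mul, hx, hx, cj_cj_inv, ← h, ← map_mul, ← map_mul, ← map_mul, ← map_mul] at this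
    exact (cj (x i)).injective (phi_injective this)
  exact ⟨Equiv.ofBijective s (Finite.injective_iff_bijective.1 inj), x, hx⟩

section
variable {k t : ℕ} (e : ι ≃ (Fin t → Fin k)) (P : GL ι F)

/-- The factors of a tensor power frame. -/
def φP (i : Fin t) : Matrix (Fin k) (Fin k) F →ₐ[F] Matrix ι ι F :=
  (frm e P).toAlgHom.comp (powEmb (Fin t) (Fin k) F i)

theorem φP_apply (i : Fin t) (X : Matrix (Fin k) (Fin k) F) :
    φP e P i X = frm e P (powEmb (Fin t) (Fin k) F i X) := rfl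

theorem sys_P : Sys (φP e P) :=
  ⟨fun i j hij Y X => by rw [φP_apply, φP_apply, ← map_mul, ← map_mul, powEmb_comm hij],
    fun S hS => by
      have := eq_top_of_powEmb_mem (S := S.comap (frm e P).toAlgHom) hS
      refine eq_top_iff.2 fun z _ => ?_
      obtain ⟨z, rfl⟩ := (frm e P).surjective z
      exact (show z ∈ S.comap (frm e P).toAlgHom from this ▸ Algebra.mem_top)⟩

theorem cj_perm_φP (s : Equiv.Perm (Fin t)) (i : Fin t) (X : Matrix (Fin k) (Fin k) F) :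
    cj (frmG e P (permG (Fin k) F s)) (φP e P i X) = φP e P (s i) X := by
  rw [φP_apply, cj_frmG, cj_permG_powEmb, φP_apply]

theorem perm_mem_wreath (s : Equiv.Perm (Fin t)) :
    frmG e P (permG (Fin k) F s) ∈ tensorWreathSubgroup k t e P :=
  mem_tensorWreathSubgroup.2 (by rw [MulEquiv.symm_apply_apply]; exact permG_mem s)

theorem gφP_mem (i : Fin t) (x : GL (Fin k) F) : gφ (φP e P i) x ∈ tensorWreathSubgroup k t e P := by
  have : gφ (φP e P i) x = frmG e P (pureG (Function.update 1 i x)) := Units.ext (by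
    rw [coe_gφ, coe_frmG, coe_pureG, φP_apply, powEmb_apply]
    congr 2
    ext1 j
    by_cases h : j = i <;> simp [h])
  exact mem_tensorWreathSubgroup.2 (by rw [this, MulEquiv.symm_apply_apply]; exact pureG_mem _)

variable {e P}

theorem le_wreath [Nonempty ι] (hk : 2 ≤ k) (ht : 0 < t) (hC : Cyc (φP e P) M)
    (hD : ∀ i, ∀ g ∈ M, g ∈ KB (φP e P i) ∨ ∀ b, Cm (φP e P i) (cj g (φP e P i b))) :
    M ≤ tensorWreathSubgroup k t e P := fun g hg => by
  obtain ⟨s, x, h⟩ := (sys_P e P).perm hC (by simpa using hk) hD hg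
  refine mem_tensorWreathSubgroup.2 (mem_wreath_of_cj (by omega) ht s x fun i X => ?_)
  refine (frm e P).injective ?_
  rw [← cj_frmG, MulEquiv.apply_symm_apply]
  exact h i X

end

end Cfsg.Agent.H9
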