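import Cfsg.Agent.H9.TCl
import Cfsg.Agent.H10.UBase

/-! Passive linear, symplectic and unitary factors. -/

set_option autoImplicit false
set_option linter.unusedSectionVars false
set_option linter.unusedVariables false
set_option linter.unusedSimpArgs false

namespace Cfsg.Agent.H9

open scoped MatrixGroups Matrix
open Matrix Cfsg.Geo Cfsg.Agent.H98

universe u

variable {ι β : Type} [Fintype ι] [DecidableEq ι] [Fintype β] [DecidableEq β] {F : Type u} [Field F]

namespace PasA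

variable {G : Subgroup (GL β F)}

/-- The operator `b ↦ e b e⁻¹ - b`. -/
theorem op_D {e e' : Matrix β β F} (he : e ∈ matrixSet G) (h : e * e' = 1) :
    ∃ T ∈ Op G, ∀ b, T b = e * b * e' - b := by
  obtain ⟨g, hg, rfl⟩ := he
  refine ⟨_, dlt_mem hg, fun b => ?_⟩
  rw [LinearMap.sub_apply, cjL_apply, cj_apply, Units.inv_eq_of_mul_eq_one_right h]
  rfl

theorem one_add_mul_one_sub {n : Matrix β β F} (h : n * n = 0) : (1 + n) * (1 - n) = 1 := by
  rw [add_mul, mul_sub, mul_sub, h]; simp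

theorem op_Dn {n : Matrix β β F} (he : 1 + n ∈ matrixSet G) (h : n * n = 0) :
    ∃ T ∈ Op G, ∀ b, T b = n * b - b * n - n * b * n := by
  obtain ⟨T, hT, e⟩ := op_D he (one_add_mul_one_sub h)
  refine ⟨T, hT, fun b => ?_⟩
  rw [e]; noncomm_ring

/-- Two different parameters isolate the sandwich operator. -/
theorem op_sand {n : Matrix β β F} (h : n * n = 0) {a a' : F} (ha : a ≠ 0) (ha' : a' ≠ 0)
    (haa : a ≠ a') (h1 : 1 + a • n ∈ matrixSet G) (h2 : 1 + a' • n ∈ matrixSet G) :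
    ∃ T ∈ Op G, ∀ b, T b = n * b * n := by
  obtain ⟨T, hT, e⟩ := op_Dn h1 (by rw [smul_mul_smul_comm, h, smul_zero])
  obtain ⟨T', hT', e'⟩ := op_Dn h2 (by rw [smul_mul_smul_comm, h, smul_zero])
  refine ⟨(a' - a)⁻¹ • (a⁻¹ • T - a'⁻¹ • T'), Subalgebra.smul_mem _ (sub_mem
    (Subalgebra.smul_mem _ hT _) (Subalgebra.smul_mem _ hT' _)) _, fun b => ?_⟩
  have h3 : a' - a ≠ 0 := sub_ne_zero.2 haa.symm
  simp only [LinearMap.smul_apply, LinearMap.sub_apply, e, e', smul_mul_assoc, mul_smul_comm]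
  match_scalars <;> field_simp <;> ring

theorem op_DD {n m : Matrix β β F} (hn : 1 + n ∈ matrixSet G) (hm : 1 + m ∈ matrixSet G)
    (h1 : n * n = 0) (h2 : m * m = 0) (h3 : n * m = 0) (h4 : m * n = 0) :
    ∃ T ∈ Op G, ∀ b, T b = n * b * m + m * b * n := by
  obtain ⟨T, hT, e⟩ := op_Dn hn h1
  obtain ⟨T', hT', e'⟩ := op_Dn hm h2
  refine ⟨-(T * T'), neg_mem (mul_mem hT hT'), fun b => ?_⟩
  have k1 : ∀ x, n * (m * x) = 0 := fun x => by rw [← mul_assoc, h3, zero_mul]
  simp only [LinearMap.neg_apply, Module.End.mul_apply, e, e', mul_sub, sub_mul, mul_assoc, k1, h4,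
    mul_zero]
  abel

theorem three_D {n b E1 E2 E1' E2' : Matrix β β F} {κ ω ω' : F} (h1 : E1 * n = n) (h2 : E2 * n = n)
    (h3 : n * E1' = n) (h4 : n * E2' = n) (h5 : (E1 - 1) * (E2 - 1) = -ω • n)
    (h6 : (E2' - 1) * (E1' - 1) = -ω' • n) {X : Matrix β β F}
    (hX : X = κ • n * b - b * κ • n - κ • n * b * κ • n) :
    E1 * (E2 * X * E2' - X) * E1' - (E2 * X * E2' - X) = (κ * (ω - ω')) • (n * b * n) := by
  have a : ∀ E E' Y : Matrix β β F, E * n = n → E * (n * Y) * E' - n * Y = n * (Y * (E' - 1)) :=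
    fun E E' Y h => by rw [← mul_assoc, h]; noncomm_ring
  have c : ∀ E E' Y : Matrix β β F, n * E' = n → E * (Y * n) * E' - Y * n = (E - 1) * Y * n :=
    fun E E' Y h => by rw [mul_assoc, mul_assoc, h]; noncomm_ring
  have e2 : E2 * X * E2' - X = κ • (n * (b * (E2' - 1))) - κ • ((E2 - 1) * b * n) := by
    have k := a E2 E2' (b * n) h2
    rw [mul_assoc b n, mul_sub n, h4, mul_one, sub_self, mul_zero, mul_zero] at k
    rw [← a E2 E2' b h2, ← c E2 E2' b h4, hX]
    simp only [smul_mul_assoc, mul_smul_comm, mul_sub, sub_mul, mul_assoc] at k ⊢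
    linear_combination (norm := module) (-(κ * κ)) • k
  have k1 := a E1 E1' (b * (E2' - 1)) h1
  have k2 := c E1 E1' ((E2 - 1) * b) h3
  rw [mul_assoc b, h6] at k1
  rw [← mul_assoc (E1 - 1), h5] at k2
  rw [e2]
  simp only [smul_mul_assoc, mul_smul_comm, mul_sub E1, sub_mul _ _ E1', mul_assoc] at k1 k2 ⊢
  linear_combination (norm := module) κ • k1 - κ • k2

theorem two_le_card {s : Matrix β β F} (hs : ¬ Sc s) : 2 ≤ Fintype.card β := by
  by_contra h
  have : Subsingleton β := Fintype.card_le_one_iff_subsingleton.1 (by omega)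
  refine hs ?_
  rcases isEmpty_or_nonempty β with hβ | ⟨⟨o⟩⟩
  · exact ⟨0, Subsingleton.elim _ _⟩
  · refine ⟨s o o, ?_⟩
    ext i j
    rw [Subsingleton.elim i o, Subsingleton.elim j o]; simp

theorem exists_ne_zero_one [Finite F] (h : Nat.card F ≠ 2) : ∃ a : F, a ≠ 0 ∧ a ≠ 1 := by
  by_contra hc
  push_neg at hc
  refine h (Nat.card_eq_two_iff.2 ⟨0, 1, zero_ne_one, ?_⟩)
  ext a
  by_cases ha : a = 0 <;> simp [ha, hc a]

theorem pas_of (irr : Algebra.adjoin F (matrixSet G) = ⊤)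
    (h : ∀ s : Matrix β β F, ¬ Sc s → ∃ T ∈ Op G, ∃ a, Good G a ∧ (∀ b, ∃ c : F, T b = c • a) ∧
      T s ≠ 0) : Pas G :=
  ⟨irr, fun U hU s hs hn => by
    obtain ⟨T, hT, a, ha, h1, h2⟩ := h s hn
    exact ⟨T, hT, a, ha, fun b _ => h1 b, s, hs, h2⟩⟩

/-! ### The special linear group -/

theorem sl_tv {u χ : β → F} (h : χ ⬝ᵥ u = 0) :
    1 + vecMulVec u χ ∈ matrixSet (specialLinear β F) :=
  ⟨_, H99.tv_mem_sl u χ h, rfl⟩

theorem cj_tv {v ψ : β → F} (h : ψ ⬝ᵥ v = 0) (u χ : β → F) :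
    cj (H99.tv v ψ h) (vecMulVec u χ) =
      vecMulVec (u + (ψ ⬝ᵥ u) • v) (χ - (χ ⬝ᵥ v) • ψ) := by
  rw [cj_apply, H99.coe_tv, H99.coe_tv_inv, mul_vmv, vmv_mul, add_mulVec, one_mulVec, vmv_mulVec,
    vecMul_sub, vecMul_one, vecMul_vmv]

theorem mem_of_vmv {D : AddSubgroup (Matrix β β F)} (h : ∀ u ψ, vecMulVec u ψ ∈ D)
    (b : Matrix β β F) : b ∈ D := by
  have : b = ∑ k, vecMulVec (b *ᵥ bv F k) (bv F k) := by
    simp only [← mul_vmv]
    rw [← Finset.mul_sum, sum_vmv_bv, mul_one]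
  rw [this]
  exact sum_mem fun k _ => h _ _

theorem sl_big {u η : β → F} (h : η ⬝ᵥ u = 1) : Big (specialLinear β F) (vecMulVec u η) := by
  intro D hD he
  have k1 : ∀ v, η ⬝ᵥ v = 0 → vecMulVec v η ∈ D := by
    intro v hv
    by_cases h0 : v = 0
    · rw [h0, zero_vecMulVec]; exact zero_mem _
    obtain ⟨ψ, h1, h2⟩ := exists_dot_of_not_smul (u := v) (v := u) fun a ha => by
      rw [ha, dotProduct_smul, hv, smul_zero] at h; exact zero_ne_one h
    have := D.sub_mem (hD _ (H99.tv_mem_sl v ψ h1) _ he) he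
    rwa [cj_tv, h2, hv, one_smul, zero_smul, sub_zero, vmv_add_left, add_sub_cancel_left] at this
  have k2 : ∀ ψ, ψ ⬝ᵥ u = 0 → vecMulVec u ψ ∈ D := by
    intro ψ hψ
    by_cases h0 : ψ = 0
    · rw [h0, vecMulVec_zero]; exact zero_mem _
    obtain ⟨v, h1, h2⟩ := exists_dot_of_not_smul (u := ψ) (v := η) fun a ha => by
      rw [ha, smul_dotProduct, hψ, smul_zero] at h; exact zero_ne_one h
    rw [dotProduct_comm] at h1 h2
    have := D.sub_mem he (hD _ (H99.tv_mem_sl v ψ h1) _ he)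
    rwa [cj_tv, h2, hψ, one_smul, zero_smul, add_zero, sub_eq_add_neg η, vmv_add_right,
      ← neg_one_smul F ψ, vmv_smul_right, neg_one_smul, sub_add_eq_sub_sub, sub_self, zero_sub,
      neg_neg] at this
  have k3 : ∀ w, vecMulVec w η ∈ D := fun w => by
    have := D.add_mem (D.smul_mem (η ⬝ᵥ w) he) (k1 (w - (η ⬝ᵥ w) • u) (by
      rw [dotProduct_sub, dotProduct_smul, h, smul_eq_mul, mul_one, sub_self]))
    rwa [← vmv_smul_left, ← vmv_add_left, add_sub_cancel] at this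
  have k4 : ∀ ψ, vecMulVec u ψ ∈ D := fun ψ => by
    have := D.add_mem (D.smul_mem (ψ ⬝ᵥ u) he) (k2 (ψ - (ψ ⬝ᵥ u) • η) (by
      rw [sub_dotProduct, smul_dotProduct, h, smul_eq_mul, mul_one, sub_self]))
    rwa [← vmv_smul_right, ← vmv_add_right, add_sub_cancel] at this
  refine mem_of_vmv (D := D.toNonUnitalSubring.toAddSubgroup) fun w ψ => ?_
  have := D.mul_mem (k3 w) (k4 ψ)
  rwa [vmv_mul_vmv, h, one_smul] at this

theorem sl_good {u χ : β → F} (h : χ ⬝ᵥ u = 0) (hu : u ≠ 0) (hχ : χ ≠ 0) :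
    Good (specialLinear β F) (vecMulVec u χ) := by
  obtain ⟨v, hv⟩ := exists_dot_one hχ
  rw [dotProduct_comm] at hv
  obtain ⟨ψ, h1, h2⟩ := exists_dot_of_not_smul (u := v) (v := u) fun a ha => by
    rw [ha, dotProduct_smul, hv, smul_eq_mul, mul_one] at h
    exact hu (by rw [ha, h, zero_smul])
  refine Good.of_mul_cj (H99.tv_mem_sl v ψ h1) (Good.of_smul (-1) ?_)
  rw [cj_tv, h2, hv, one_smul, one_smul, vmv_mul_vmv, dotProduct_add, h, hv, zero_add, one_smul,
    ← vmv_smul_right, neg_one_smul, neg_sub]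
  have h3 : (ψ - χ) ⬝ᵥ u = 1 := by rw [sub_dotProduct, h2, h, sub_zero]
  exact good_of_idem (by rw [vmv_mul_vmv, h3, one_smul]) (sl_big h3)

theorem exists_dot_perp {m : ℕ} (hm : m < Fintype.card β) (s : Fin m → β → F) :
    ∃ v, v ≠ 0 ∧ ∀ i, s i ⬝ᵥ v = 0 := by
  let L : (β → F) →ₗ[F] (Fin m → F) := (Matrix.of s).mulVecLin
  have := LinearMap.ker_ne_bot_of_finrank_lt (f := L) (by simpa using hm)
  obtain ⟨v, hv, h0⟩ := Submodule.exists_mem_ne_zero_of_ne_bot this
  exact ⟨v, h0, fun i => congrFun hv i⟩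

theorem sl_irr (hk : 2 ≤ Fintype.card β) :
    Algebra.adjoin F (matrixSet (specialLinear β F)) = ⊤ := by
  set A := Algebra.adjoin F (matrixSet (specialLinear β F))
  have k : ∀ u χ : β → F, χ ⬝ᵥ u = 0 → vecMulVec u χ ∈ A := fun u χ h => by
    have := sub_mem (Algebra.subset_adjoin (R := F) (sl_tv h)) (one_mem A)
    rwa [add_sub_cancel_left] at this
  have k2 : ∀ i j, vecMulVec (bv F i) (bv F j) ∈ A := by
    intro i j
    by_cases hij : i = j
    · obtain ⟨l, hl⟩ := Fintype.exists_ne_of_one_lt_card hk i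
      have := mul_mem (k (bv F i) (bv F l) (by simp [hl])) (k (bv F l) (bv F j) (by
        simp [hl, ← hij, hl.symm]))
      rwa [vmv_mul_vmv, bv_dot, show bv F l l = 1 from Pi.single_eq_same _ _, one_smul] at this
    · exact k _ _ (by simp [Ne.symm hij])
  refine eq_top_iff.2 fun b _ => ?_
  have : b = ∑ i, ∑ j, b i j • vecMulVec (bv F i) (bv F j) := by
    ext i j
    simp [Matrix.sum_apply, vecMulVec_apply, Pi.single_apply]
  rw [this]
  exact sum_mem fun i _ => sum_mem fun j _ => A.smul_mem (k2 i j) _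

end PasA

open PasA

theorem pas_sl [Finite F] (hk : 2 ≤ Fintype.card β) (hex : ¬ (Fintype.card β = 2 ∧ Nat.card F = 2)) :
    Pas (specialLinear β F) := by
  refine pas_of (sl_irr hk) fun s hs => ?_
  obtain ⟨χ, u, h1, h2⟩ := exists_dot_of_not_scalar (b := s) fun a ha => hs ⟨a, ha⟩
  have hu : u ≠ 0 := by rintro rfl; simp at h2
  have hχ : χ ≠ 0 := by rintro rfl; simp at h2
  have hn : vecMulVec u χ * vecMulVec u χ = 0 := by rw [vmv_mul_vmv, h1, zero_smul]
  have sand : ∀ (b : Matrix β β F) (φ φ' : β → F),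
      vecMulVec u φ * b * vecMulVec u φ' = (φ ⬝ᵥ (b *ᵥ u)) • vecMulVec u φ' := fun b φ φ' => by
    rw [mul_assoc, mul_vmv, vmv_mul_vmv]
  suffices ∃ T ∈ Op (specialLinear β F), ∀ b, T b = (χ ⬝ᵥ (b *ᵥ u)) • vecMulVec u χ by
    obtain ⟨T, hT, e⟩ := this
    exact ⟨T, hT, _, sl_good h1 hu hχ, fun b => ⟨_, e b⟩, by
      rw [e, h2, one_smul]; exact vmv_ne_zero hu hχ⟩
  by_cases hq : Nat.card F = 2
  · have hk3 : 2 < Fintype.card β := lt_of_le_of_ne hk fun h => hex ⟨h.symm, hq⟩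
    obtain ⟨η, hη⟩ := exists_dot_one hu
    obtain ⟨w, hw0, hw⟩ := exists_dot_perp hk3 ![χ, η]
    have hw1 : χ ⬝ᵥ w = 0 := hw 0
    have hw2 : η ⬝ᵥ w = 0 := hw 1
    obtain ⟨ψ, h3, h4⟩ := exists_dot_of_not_smul (u := u) (v := w) fun a ha => by
      rw [ha, dotProduct_smul, hη, smul_eq_mul, mul_one] at hw2
      exact hw0 (by rw [ha, hw2, zero_smul])
    obtain ⟨T, hT, e⟩ := op_DD (sl_tv h1) (sl_tv h3) hn (by rw [vmv_mul_vmv, h3, zero_smul])
      (by rw [vmv_mul_vmv, h1, zero_smul]) (by rw [vmv_mul_vmv, h3, zero_smul])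
    refine ⟨-((cjL (H99.tv w χ hw1) - 1) * T), neg_mem (mul_mem (dlt_mem (H99.tv_mem_sl w χ hw1)) hT),
      fun b => ?_⟩
    simp only [LinearMap.neg_apply, Module.End.mul_apply, LinearMap.sub_apply, cjL_apply, e, sand,
      map_add, map_smul, cj_tv, h1, hw1, h4, zero_smul, add_zero, sub_zero, one_smul,
      Module.End.one_apply]
    rw [sub_eq_add_neg ψ, vmv_add_right, ← neg_one_smul F χ, vmv_smul_right]
    module
  · obtain ⟨a, ha, ha'⟩ := exists_ne_zero_one hq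
    obtain ⟨T, hT, e⟩ := op_sand (G := specialLinear β F) hn ha one_ne_zero ha'
      (by rw [← vmv_smul_right]; exact sl_tv (by rw [smul_dotProduct, h1, smul_zero]))
      (by rw [one_smul]; exact sl_tv h1)
    exact ⟨T, hT, fun b => by rw [e, sand]⟩

namespace PasA

variable {σ : F ≃+* F} {ε : F} {f : (β → F) → (β → F) → F} {G : Subgroup (GL β F)}

theorem sand_br (hf : IsSesq σ ε f) (b : Matrix β β F) (u v w z : β → F) :
    br f u v * b * br f w z = f (b *ᵥ w) v • br f u z := by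
  rw [mul_assoc, mul_br, br_mul_br hf]

theorem tv_mem (C : Cl σ ε f G) {u : β → F} (hu : f u u = 0) {θ : F} (h : θ + ε * σ θ = 0) :
    1 + θ • br f u u ∈ matrixSet G := by
  rw [← elm_zero C.ses]
  exact C.el u 0 θ hu (C.ses.zero_left u) (by rw [Vd, C.ses.zero_left, mul_zero, add_zero, h])

theorem three_le_card (C : Cl σ ε f G) {w v : β → F} (hw : f w w = 0) (h0 : w ≠ 0)
    (hv : f w v = 0) (h : ∀ a : F, v ≠ a • w) : 3 ≤ Fintype.card β := by
  have hf := C.ses
  obtain ⟨y, H⟩ := C.partner h0 hw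
  have : LinearIndependent F ![w, v, y] := by
    rw [Fintype.linearIndependent_iff]
    intro g hg
    simp only [Fin.sum_univ_three, Matrix.cons_val] at hg
    have h2 : g 2 = 0 := by
      have := congrArg (f w) hg
      simpa [hf.add_right, hf.smul_right, hw, hv, H.xy, hf.zero_right] using this
    rw [h2, zero_smul, add_zero] at hg
    have h1 : g 1 = 0 := by
      by_contra h1
      refine h (-((g 1)⁻¹ * g 0)) ?_
      rw [neg_smul, mul_smul, eq_neg_of_add_eq_zero_left hg, smul_neg, neg_neg, inv_smul_smul₀ h1]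
    rw [h1, zero_smul, add_zero] at hg
    have h0' : g 0 = 0 := (smul_eq_zero.1 hg).resolve_right h0
    intro i; fin_cases i <;> assumption
  simpa using this.fintype_card_le_finrank

theorem exists_perp_indep (C : Cl σ ε f G) (hk : 3 ≤ Fintype.card β) {u : β → F} (hu : f u u = 0)
    (h0 : u ≠ 0) : ∃ v, f v u = 0 ∧ ∀ a : F, v ≠ a • u := by
  obtain ⟨y, H⟩ := C.partner h0 hu
  obtain ⟨v, hv0, hv⟩ := exists_perp C.ses (m := 2) hk ![u, y]
  refine ⟨v, hv 0, fun a ha => hv0 ?_⟩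
  have : f v y = 0 := hv 1
  rw [ha, C.ses.smul_left, H.xy, mul_one] at this
  rw [ha, this, zero_smul]

theorem exists_f_of_not_smul (hf : IsSesq σ ε f) {u v : β → F} (h : ∀ a : F, v ≠ a • u) :
    ∃ z, f u z = 0 ∧ f v z = 1 := by
  obtain ⟨χ, h1, h2⟩ := exists_dot_of_not_smul h
  obtain ⟨z, rfl⟩ := exists_dl hf χ
  exact ⟨z, by rwa [dl_dot hf] at h1, by rwa [dl_dot hf] at h2⟩

theorem su_scalar (C : Cl σ 1 f G) {κ ω : F} (hκ : κ ≠ 0) (hκ' : σ κ = -κ) (hω : σ ω ≠ ω)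
    {s : Matrix β β F} (h : ∀ z, f z z = 0 → f (s *ᵥ z) z = 0) : Sc s := by
  have hf := C.ses
  refine C.scalar_of_perp fun y v hy hyv => ?_
  by_cases h0 : y = 0
  · rw [h0, mulVec_zero, hf.zero_left]
  obtain ⟨w, H⟩ := C.partner h0 hy
  have key : ∀ v, f v y = 0 → f v w = 0 →
      f (s *ᵥ y) w - f (s *ᵥ w) y - f (s *ᵥ y) v + f (s *ᵥ v) y = 0 := by
    intro v h1 h2
    obtain ⟨θ, hθ⟩ := C.tv v
    have hθ' : Vd σ 1 f v (θ + κ) := by
      rw [Vd] at hθ ⊢
      rw [map_add, hκ']; linear_combination hθ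
    have e1 := h _ (iso_third hf H h1 h2 hθ)
    have e2 := h _ (iso_third hf H h1 h2 hθ')
    simp only [mulVec_add, mulVec_sub, mulVec_smul, hf.add_left, hf.sub_left, hf.smul_left,
      hf.add_right, hf.sub_right, hf.smul_right, h y hy, mul_one, map_add, hκ'] at e1 e2
    refine mul_left_cancel₀ hκ ?_
    linear_combination e2 - e1
  have k0 := key 0 (hf.zero_left _) (hf.zero_left _)
  rw [mulVec_zero, hf.zero_left, hf.zero_right] at k0
  obtain ⟨p1, p2⟩ := perp_part hf H v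
  have hvy : f v y = 0 := hf.eq_zero_comm.1 hyv
  rw [hvy, mul_zero, zero_smul, sub_zero] at p1 p2
  have k1 := key _ p1 p2
  have k2 := key (ω • (v - f v w • y)) (by rw [hf.smul_left, p1, mul_zero])
    (by rw [hf.smul_left, p2, mul_zero])
  rw [mulVec_smul, hf.smul_left, hf.smul_right] at k2
  have k3 : f (s *ᵥ y) (v - f v w • y) = 0 := by
    refine mul_left_cancel₀ (sub_ne_zero.2 hω) ?_
    linear_combination ω * k1 - k2 - (ω - 1) * k0
  rwa [hf.sub_right, hf.smul_right, h y hy, mul_zero, sub_zero] at k3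

end PasA

theorem pas_sp [Finite F] {f : (β → F) → (β → F) → F} {G : Subgroup (GL β F)}
    (C : Cl (RingEquiv.refl F) (-1) f G) (alt : ∀ v, f v v = 0)
    (hex : ¬ (Fintype.card β = 2 ∧ Nat.card F = 2)) : Pas G := by
  have hf := C.ses
  have tv : ∀ (u : β → F) (θ : F), 1 + θ • br f u u ∈ matrixSet G := fun u θ =>
    tv_mem C (alt u) (by simp)
  have tv1 : ∀ u : β → F, 1 + br f u u ∈ matrixSet G := fun u => by simpa using tv u 1
  have nn : ∀ u v : β → F, f v u = 0 → br f u u * br f v v = 0 := fun u v h => by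
    rw [br_mul_br hf, h, zero_smul]
  refine ⟨C.irr, fun U hU s hsU hs => ?_⟩
  by_cases hk : 3 ≤ Fintype.card β
  · have DD : ∀ u v : β → F, f v u = 0 → ∃ T ∈ Op G, ∀ b,
        T b = f (b *ᵥ v) u • br f u v + f (b *ᵥ u) v • br f v u := fun u v h => by
      obtain ⟨T, hT, e⟩ := op_DD (tv1 u) (tv1 v) (nn u u (alt u)) (nn v v (alt v)) (nn u v h)
        (nn v u (hf.eq_zero_comm.1 h))
      exact ⟨T, hT, fun b => by rw [e, sand_br hf, sand_br hf]⟩
    by_cases hA : ∃ s' ∈ U, ∃ u v : β → F, u ≠ 0 ∧ f v u = 0 ∧ (∀ a : F, v ≠ a • u) ∧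
        f (s' *ᵥ v) u + f (s' *ᵥ u) v ≠ 0
    · obtain ⟨s', hs', u, v, hu, h1, h2, h3⟩ := hA
      obtain ⟨T, hT, e⟩ := DD u v h1
      obtain ⟨z, hz1, hz2⟩ := exists_f_of_not_smul hf h2
      obtain ⟨g, hg, eg⟩ := mem_matrixSet.1 (C.el u z 0 (alt u) (hf.eq_zero_comm.1 hz1)
        (by simp [Vd, alt]))
      have gu : (g : Matrix β β F) *ᵥ u = u := by rw [eg, elm_mulVec hf]; simp [hz1, alt]
      have gv : (g : Matrix β β F) *ᵥ v = v + u := by rw [eg, elm_mulVec hf]; simp [hz2, h1]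
      have key : ∀ b, ((cjL g - 1) * T) b = (f (b *ᵥ v) u + f (b *ᵥ u) v) • br f u u := fun b => by
        simp only [Module.End.mul_apply, LinearMap.sub_apply, cjL_apply, e, map_add, map_smul,
          cj_br hf (C.le hg), gu, gv, br_add_left, br_add_right hf, Module.End.one_apply]
        module
      exact ⟨_, mul_mem (dlt_mem hg) hT, _, C.good_br hu (alt u), fun b _ => ⟨_, key b⟩, s', hs', by
        rw [key]; exact smul_ne_zero h3 (br_ne_zero hf hu hu)⟩
    · push_neg at hA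
      obtain ⟨u, v, hu, h1, h2, h3⟩ : ∃ u v : β → F, u ≠ 0 ∧ f v u = 0 ∧ (∀ a : F, v ≠ a • u) ∧
          f (s *ᵥ v) u ≠ 0 := by
        by_contra hc
        push_neg at hc
        refine hs (C.scalar_of_perp fun w v _ hwv => ?_)
        by_cases h0 : v = 0
        · rw [h0, hf.zero_right]
        by_cases hw : ∀ a : F, w ≠ a • v
        · exact hc v w h0 hwv hw
        push_neg at hw
        obtain ⟨a, rfl⟩ := hw
        obtain ⟨z, hz1, hz2⟩ := exists_perp_indep C hk (alt v) h0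
        have e1 := hc v z h0 hz1 hz2
        have e2 := hc v (v + z) h0 (by rw [hf.add_left, alt, hz1, add_zero]) fun c hc' =>
          hz2 (c - 1) (by rw [sub_smul, ← hc', one_smul, add_sub_cancel_left])
        rw [mulVec_add, hf.add_left, e1, add_zero] at e2
        rw [mulVec_smul, hf.smul_left, e2, mul_zero]
      obtain ⟨T, hT, e⟩ := DD u v h1
      obtain ⟨z, hz1, hz2⟩ := exists_f_of_not_smul hf h2
      obtain ⟨g, hg, eg⟩ := mem_matrixSet.1 (tv1 z)
      have gu : (g : Matrix β β F) *ᵥ u = u := by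
        rw [eg, add_mulVec, one_mulVec, br_mulVec hf, hz1, zero_smul, add_zero]
      have gv : (g : Matrix β β F) *ᵥ v = v + z := by
        rw [eg, add_mulVec, one_mulVec, br_mulVec hf, hz2, one_smul]
      have hzv : f z v = -1 := by rw [hf.herm, hz2]; simp
      have prod : (br f u v - br f v u) * cj g (br f u v - br f v u) = br f u u := by
        simp only [map_sub, cj_br hf (C.le hg), gu, gv, mul_sub, sub_mul, br_mul_br hf, hf.add_left,
          alt, h1, hf.eq_zero_comm.1 h1, hf.eq_zero_comm.1 hz1, hzv]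
        module
      have key : ∀ b ∈ U, T b = f (b *ᵥ v) u • (br f u v - br f v u) := fun b hb => by
        rw [e, eq_neg_of_add_eq_zero_right (hA b hb u v hu h1 h2)]; module
      refine ⟨T, hT, _, Good.of_mul_cj hg (prod ▸ C.good_br hu (alt u)), fun b hb => ⟨_, key b hb⟩,
        s, hsU, ?_⟩
      rw [key s hsU]
      refine smul_ne_zero h3 fun h0 => br_ne_zero hf hu hu ?_
      rw [← prod, h0, zero_mul]
  · have hq : Nat.card F ≠ 2 := fun h => hex ⟨by have := two_le_card hs; omega, h⟩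
    obtain ⟨a, ha, ha'⟩ := exists_ne_zero_one hq
    obtain ⟨u, hu⟩ : ∃ u, f (s *ᵥ u) u ≠ 0 := by
      by_contra hc
      push_neg at hc
      refine hs (C.scalar_of_perp fun w v _ hwv => ?_)
      by_cases h0 : w = 0
      · rw [h0, mulVec_zero, hf.zero_left]
      by_cases hw : ∀ a : F, v ≠ a • w
      · exact absurd (three_le_card C (alt w) h0 hwv hw) hk
      push_neg at hw
      obtain ⟨a, rfl⟩ := hw
      rw [hf.smul_right, hc, mul_zero]
    have hu0 : u ≠ 0 := by rintro rfl; exact hu (hf.zero_right _)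
    obtain ⟨T, hT, e⟩ := op_sand (nn u u (alt u)) ha one_ne_zero ha' (tv u a) (tv u 1)
    exact ⟨T, hT, _, C.good_br hu0 (alt u), fun b _ => ⟨_, by rw [e, sand_br hf]⟩, s, hsU, by
      rw [e, sand_br hf]; exact smul_ne_zero hu (br_ne_zero hf hu0 hu0)⟩

theorem pas_su [Fintype F] {q : ℕ} [Fact (Fintype.card F = q ^ 2)] {f : (β → F) → (β → F) → F}
    {G : Subgroup (GL β F)} (C : Cl (H10.sig F q) 1 f G) (hex : ¬ (Fintype.card β = 2 ∧ q = 2)) :
    Pas G := by
  have hf := C.ses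
  obtain ⟨κ, hκ, hκ'⟩ := H10.exists_skew (F := F) (q := q)
  obtain ⟨ω, hω⟩ := H10.exists_cj_ne (F := F) (q := q)
  rw [← H10.sig_apply] at hκ' hω
  refine pas_of C.irr fun s hs => ?_
  obtain ⟨u, hu, hsu⟩ : ∃ u, f u u = 0 ∧ f (s *ᵥ u) u ≠ 0 := by
    by_contra hc
    push_neg at hc
    exact hs (su_scalar C hκ hκ' hω hc)
  have hu0 : u ≠ 0 := by rintro rfl; exact hsu (hf.zero_right _)
  have nn : br f u u * br f u u = 0 := by rw [br_mul_br hf, hu, zero_smul]
  suffices ∃ T ∈ Op G, ∃ c : F, c ≠ 0 ∧ ∀ b, T b = c • (br f u u * b * br f u u) by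
    obtain ⟨T, hT, c, hc, e⟩ := this
    exact ⟨T, hT, _, C.good_br hu0 hu, fun b => ⟨_, by rw [e, sand_br hf, smul_smul]⟩, by
      rw [e, sand_br hf]; exact smul_ne_zero hc (smul_ne_zero hsu (br_ne_zero hf hu0 hu0))⟩
  have t1 := tv_mem C hu (θ := κ) (by rw [hκ']; ring)
  by_cases hq : q = 2
  · have hk : 3 ≤ Fintype.card β := by
      have := two_le_card hs
      by_contra h; exact hex ⟨by omega, hq⟩
    obtain ⟨y, H⟩ := C.partner hu0 hu
    obtain ⟨v, w, h1, -, h2, -, h3⟩ := exists_pair_perp hf hk H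
    have h1' := hf.eq_zero_comm.1 h1
    have h2' : f (ω • w) u = 0 := by rw [hf.smul_left, h2, mul_zero]
    have h2'' := hf.eq_zero_comm.1 h2'
    have h4 : f (ω • w) v = ω := by rw [hf.smul_left, h3, mul_one]
    have h5 : f v (ω • w) = H10.sig F q ω := by rw [hf.herm, h4, one_mul]
    obtain ⟨θ, hθ⟩ := C.tv v
    obtain ⟨θ', hθ'⟩ := C.tv (ω • w)
    obtain ⟨T, hT, e⟩ := op_Dn t1 (by rw [smul_mul_smul_comm, nn, smul_zero])
    obtain ⟨T1, hT1, e1⟩ := op_D (C.el u v θ hu h1' hθ) (elm_isom hf hu h1' hθ)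
    obtain ⟨T2, hT2, e2⟩ := op_D (C.el u _ θ' hu h2' hθ') (elm_isom hf hu h2' hθ')
    refine ⟨T1 * T2 * T, mul_mem (mul_mem hT1 hT2) hT, κ * (ω - H10.sig F q ω),
      mul_ne_zero hκ (sub_ne_zero.2 hω.symm), fun b => ?_⟩
    have l1 : ∀ (v : β → F) (θ : F), f v u = 0 → elm f 1 u v θ * br f u u = br f u u := by
      intro v θ h
      rw [mul_br, elm_mulVec hf, hu, hf.eq_zero_comm.1 h]; simp
    have l2 : ∀ (v : β → F) (θ : F), f v u = 0 → br f u u * elm f 1 u v θ = br f u u := by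
      intro v θ h
      simp [elm, mul_add, mul_sub, br_mul_br hf, hu, h, hf.eq_zero_comm.1 h]
    have n1 : f (-v) u = 0 := by rw [hf.neg_left, h1', neg_zero]
    have n2 : f (-(ω • w)) u = 0 := by rw [hf.neg_left, h2', neg_zero]
    have m1 : (elm f 1 u v θ - 1) * (elm f 1 u (ω • w) θ' - 1) = -ω • br f u u := by
      simp only [elm, add_sub_cancel_left, add_assoc, add_sub_assoc, one_smul, mul_add, add_mul,
        mul_sub, sub_mul, smul_mul_assoc, mul_smul_comm, br_mul_br hf, hu, h1, h1', h2', h2'', h4]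
      module
    have m2 : ∀ a a' : F, (elm f 1 u (-(ω • w)) a - 1) * (elm f 1 u (-v) a' - 1) =
        -(H10.sig F q ω) • br f u u := fun a a' => by
      simp only [elm, br_neg_left, br_neg_right hf, add_sub_cancel_left, add_assoc, add_sub_assoc,
        one_smul, mul_add, add_mul, mul_neg, neg_mul,
        mul_sub, sub_mul, smul_mul_assoc, mul_smul_comm, br_mul_br hf, hu, h1, h1', h2', h2'', h5]
      module
    simp only [Module.End.mul_apply, e1, e2, adj_elm hf]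
    exact three_D (l1 _ _ h1') (l1 _ _ h2') (l2 _ _ n1) (l2 _ _ n2) m1 (m2 _ _) (e b)
  · obtain ⟨t, ht, ht0, ht1⟩ := H10.exists_fixed_ne (F := F) hq
    rw [← H10.sig_apply] at ht
    obtain ⟨T, hT, e⟩ := op_sand nn hκ (mul_ne_zero ht0 hκ)
      (fun h => ht1 (mul_right_cancel₀ hκ (by rw [one_mul]; exact h.symm))) t1
      (tv_mem C hu (by rw [map_mul, ht, hκ']; ring))
    exact ⟨T, hT, 1, one_ne_zero, fun b => by rw [e, one_smul]⟩

end Cfsg.Agent.H9
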