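import Cfsg.Agent.H9.TSL
import Cfsg.Agent.H9.TGlue
import Cfsg.Agent.H9.TPasA
import Cfsg.Agent.H99.ProperSL

/-! Maximality of tensor subgroups of the special linear group. -/

set_option autoImplicit false
set_option linter.unusedSectionVars false
set_option linter.unusedVariables false
set_option linter.unusedSimpArgs false

namespace Cfsg.Agent.H9

open scoped MatrixGroups Matrix
open Matrix Cfsg.Geo Cfsg.Agent.H98 Module

universe u

variable {ι β : Type} [Fintype ι] [DecidableEq ι] [Fintype β] [DecidableEq β] {F : Type u} [Field F]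

theorem det_of_unip {A : Matrix ι ι F} {m : ℕ} (h : (A - 1) ^ m = 0) : A.det = 1 := by
  have h1 : IsNilpotent (1 - A) := by rw [← neg_sub]; exact IsNilpotent.neg ⟨m, h⟩
  have h2 := (Matrix.isNilpotent_charpoly_sub_pow_of_isNilpotent h1).eq_zero
  have := Matrix.eval_charpoly (1 - A) 1
  rw [sub_eq_zero.1 h2] at this
  simpa using this.symm

theorem isMaximalIn_inf {G : Type*} [Group G] {K T : Subgroup G} (hne : ¬ K ≤ T)
    (h : ∀ M, T ⊓ K ≤ M → M ≤ K → M ≤ T ∨ K ≤ M) : IsMaximalIn K (T ⊓ K) :=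
  ⟨lt_of_le_of_ne inf_le_right fun e => hne (e ▸ inf_le_left), fun M h1 h2 =>
    (h M h1 h2).imp (fun h3 => le_antisymm (le_inf h3 h2) h1) fun h3 => le_antisymm h2 h3⟩

variable {φ : Matrix β β F →ₐ[F] Matrix ι ι F} {M : Subgroup (GL ι F)}

theorem gφ_mem_sl {h : GL β F} (hh : h ∈ specialLinear β F) : gφ φ h ∈ specialLinear ι F :=
  H99.sl_le_of_et (H := (specialLinear ι F).comap (gφ φ)) (fun i j hij c => H99.mem_sl.2
    (det_of_unip (m := 2) (by
      rw [coe_gφ, H99.coe_et, map_add, map_one, add_sub_cancel_left, pow_two, ← map_mul,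
        show Matrix.single i j c * Matrix.single i j c = 0 by simp [hij.symm], map_zero]))) hh

theorem ambL_of [Nonempty ι] (hk : 3 ≤ Fintype.card β) (hM : M ≤ specialLinear ι F)
    (h : ∀ x, gφ φ x ∈ specialLinear ι F → gφ φ x ∈ M) : AmbL φ M :=
  ⟨hk, fun x hx => h x (gφ_mem_sl hx), fun l hl q hq hql => by
    obtain ⟨g, hg, e⟩ := mem_matrixSet.1 hql
    have h1 := H99.mem_sl.1 (hM hg)
    rw [e, det_mul, det_of_unip (m := 2) (by rwa [pow_two]), one_mul] at h1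
    have h2 : IsUnit l := (Matrix.isUnit_iff_isUnit_det l).2 (h1 ▸ isUnit_one)
    obtain ⟨x, hx⟩ := exists_gφ (g := h2.unit) hl
    exact mem_matrixSet.2 ⟨_, h x (hx ▸ H99.mem_sl.2 h1), by rw [← hx]; rfl⟩⟩

theorem two_lt_of [Fintype F] {k : ℕ} (hk : 3 ≤ k) (h : ¬ (k = 3 ∧ Fintype.card F = 2)) :
    2 < (Fintype.card F - 1) * (k - 1) := by
  have := Fintype.one_lt_card (α := F)
  by_cases h2 : Fintype.card F = 2
  · rw [h2]; omega
  · calc 2 < 2 * 2 := by norm_num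
      _ ≤ _ := Nat.mul_le_mul (by omega) (by omega)

theorem isMaximalIn_sl_tensor [Fintype F] {a b : ℕ} (h1 : 2 ≤ a) (h12 : a < b)
    (hex : ¬ (a = 2 ∧ Fintype.card F = 2)) (e : ι ≃ Fin a × Fin b) (P : GL ι F) :
    IsMaximalIn (specialLinear ι F) (tensorProductSubgroup a b e P ⊓ specialLinear ι F) := by
  refine isMaximalIn_inf (H99.not_sl_le_tensor h1 (by omega) e P) fun M hH hM => ?_
  have : Nonempty (Fin b) := ⟨⟨0, by omega⟩⟩
  have : Nonempty ι := ⟨e.symm ⟨⟨0, by omega⟩, ⟨0, by omega⟩⟩⟩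
  have A : AmbL (φR e P) M := ambL_of (by simp; omega) hM fun x hx => hH ⟨gφR_mem x, hx⟩
  have PR := pair_R e P (show 0 < b by omega)
  by_cases hL : ∀ x, x ≠ 0 → Loc (φR e P) M x
  · refine Or.inl (le_tensor_R (by omega) (by omega) fun g hg => ?_)
    refine (A.dich (two_lt_of A.hk (by simp; omega)) hL hg).resolve_right fun h => ?_
    obtain ⟨θ, -⟩ := PR.exists_hom h
    have := Nat.le_of_dvd (by simp; omega) (dvd_of_hom θ)
    simp at this; omega
  · push Not at hL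
    obtain ⟨x, hx, hL⟩ := hL
    obtain ⟨η, hη⟩ := exists_dot_one hx
    obtain ⟨c, hc, hn⟩ := A.nc hη hL
    exact Or.inr (A.gen fun z hz => A.tt_of_lev hη (PR.lev_all
      (pas_sl (by simpa using h1) (by simpa using hex)).simp
      (fun g hg => hH ⟨gφL_mem g, gφ_mem_sl hg⟩) (A.lev_of_tt hη hc) hn z hz))

theorem comm_mem_sl (g h : GL ι F) : g * h * g⁻¹ * h⁻¹ ∈ specialLinear ι F := by
  simp [specialLinear, MonoidHom.mem_ker, mul_comm]

theorem comm_mem_of {G : Type*} [Group G] {N : Subgroup G} {g h : G} (hg : g ∈ N) (hh : h ∈ N) :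
    g * h * g⁻¹ * h⁻¹ ∈ N := N.mul_mem (N.mul_mem (N.mul_mem hg hh) (N.inv_mem hg)) (N.inv_mem hh)

/-- The linear wreath case, given the dichotomy. -/
theorem isMaximalIn_sl_wreath_of [Fintype F] {k t : ℕ} (hk : 3 ≤ k) (ht : 2 ≤ t)
    (e : ι ≃ (Fin t → Fin k)) (P : GL ι F)
    (hD : ∀ M, tensorWreathSubgroup k t e P ⊓ specialLinear ι F ≤ M → M ≤ specialLinear ι F →
      (∀ i x, x ≠ 0 → Loc (φP e P i) M x) →
      ∀ i, ∀ g ∈ M, g ∈ KB (φP e P i) ∨ ∀ b, Cm (φP e P i) (cj g (φP e P i b))) :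
    IsMaximalIn (specialLinear ι F) (tensorWreathSubgroup k t e P ⊓ specialLinear ι F) := by
  refine isMaximalIn_inf (H99.not_sl_le_tensorWreath (by omega) ht e P) fun M hH hM => ?_
  have : Nonempty ι := ⟨e.symm fun _ => ⟨0, by omega⟩⟩
  have A : ∀ i, AmbL (φP e P i) M := fun i =>
    ambL_of (by simpa using hk) hM fun x hx => hH ⟨gφP_mem e P i x, hx⟩
  have hC : Cyc (φP e P) M := cyc_of_swap (N := tensorWreathSubgroup k t e P)
    (fun g hg h hh => hH ⟨comm_mem_of hg hh, comm_mem_sl g h⟩) fun i j => ⟨_, perm_mem_wreath e P _, cj_perm_φP e P _⟩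
  by_cases hL : ∀ i x, x ≠ 0 → Loc (φP e P i) M x
  · exact Or.inl (le_wreath (by omega) (by omega) hC (hD M hH hM hL))
  push Not at hL
  obtain ⟨i, x, hx, hL⟩ := hL
  obtain ⟨η, hη⟩ := exists_dot_one hx
  obtain ⟨c, hc, hn⟩ := (A i).nc hη hL
  have hP : Pas (specialLinear (Fin k) F) := pas_sl (by simp; omega) (by simp; omega)
  have hI : ∀ j, j ≠ i → ∀ g ∈ specialLinear (Fin k) F,
      ∀ z ∈ Lev M (φP e P i (vecMulVec x η)) (φP e P i 1) (φP e P i) false,
      cj (gφ (φP e P j) g) z ∈ Lev M (φP e P i (vecMulVec x η)) (φP e P i 1) (φP e P i) false :=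
    fun j hj g hg z hz => Lev.cj_cm ((A j).sub g hg) ((sys_P e P).cm i j hj.symm _) hz
  obtain ⟨j, hj, h1⟩ := (sys_P e P).inv' (fun _ _ => hP) (fun z hz => And.left hz) hI
    ((A i).lev_of_tt hη hc) hn
  obtain ⟨ζ, hζ⟩ := not_comm_all (α := Fin k) (F := F) (by simp; omega)
  obtain ⟨χ, h2, h3, -⟩ := exists_ann2 (A i).hk x x
  exact Or.inr ((A i).gen fun z hz => (A i).tt_of_lev hη ((sys_P e P).all_of_lnk hC
    (fun _ _ => hP.simp) hI (fun g hg hc z hz => Lev.cj_cm hg hc hz) hj h1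
    ⟨ζ, hζ, x, χ, hx, h2, h3, ((A i).tt_of_lev hη (h1 ζ)).2 x χ h3⟩ hz))

theorem isMaximalIn_sl_wreath [Fintype F] {k t : ℕ} (hk : 3 ≤ k) (ht : 2 ≤ t)
    (hex : ¬ (k = 3 ∧ Fintype.card F = 2)) (e : ι ≃ (Fin t → Fin k)) (P : GL ι F) :
    IsMaximalIn (specialLinear ι F) (tensorWreathSubgroup k t e P ⊓ specialLinear ι F) :=
  isMaximalIn_sl_wreath_of hk ht e P fun M hH hM hL i g hg =>
    have : Nonempty ι := ⟨e.symm fun _ => ⟨0, by omega⟩⟩
    (ambL_of (by simpa using hk) hM fun x hx => hH ⟨gφP_mem e P i x, hx⟩).dich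
      (two_lt_of (by simpa using hk) (by simpa using hex)) (hL i) hg

end Cfsg.Agent.H9
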