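import Cfsg.Agent.H9.TBig
import Cfsg.Agent.H9.TSLMax
import Cfsg.Agent.H9.TGeoSp
import Cfsg.Agent.H9.TGeoSU
import Cfsg.Agent.H9.TGeoO
import Cfsg.Agent.H9.TGen
import Cfsg.Agent.H9.TAmb
import Cfsg.Agent.H9.TPasO

/-! Ambient groups, the groups induced on the factors, permutations of the factors. -/

set_option autoImplicit false
set_option linter.unusedSectionVars false
set_option linter.unusedVariables false
set_option linter.unusedSimpArgs false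

namespace Cfsg.Agent.H9

open scoped MatrixGroups Matrix Kronecker
open Matrix Cfsg.Geo Cfsg.Agent.H98

universe u

variable {ι α β τ : Type} [Fintype ι] [DecidableEq ι] [Fintype α] [DecidableEq α] [Fintype β]
  [DecidableEq β] [Fintype τ] [DecidableEq τ] {F : Type u} [Field F]

/-- An ambient classical group containing the unipotent isometries. -/
structure AmG (σ : F ≃+* F) (ε : F) (f : (ι → F) → (ι → F) → F) (K : Subgroup (GL ι F)) :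
    Prop where
  hf : IsSesq σ ε f
  le : K ≤ Isom σ f
  un : ∀ q, q * adj σ f q = 1 → (q - 1) ^ 3 = 0 → q ∈ matrixSet K
  cm : ∀ g ∈ Isom σ f, ∀ h ∈ Isom σ f, g * h * g⁻¹ * h⁻¹ ∈ K
  gen : ∀ M ≤ K, ∀ a, PD σ f a → FullQ σ f M a → FullQ σ f M (adj σ f a) → 2 ≤ a.rank →
    (a + adj σ f a ≠ 1 ∨ 3 ≤ a.rank) → K ≤ M

/-- The isometries of the factor whose images lie in `M`. -/
def GM (φ : Matrix β β F →ₐ[F] Matrix ι ι F) (M : Subgroup (GL ι F)) (σ : F ≃+* F)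
    (f₂ : (β → F) → (β → F) → F) : Subgroup (GL β F) := Isom σ f₂ ⊓ M.comap (gφ φ)

/-- The elements of the factor normalising a set. -/
def StD (φ : Matrix β β F →ₐ[F] Matrix ι ι F) (D : Set (Matrix ι ι F)) : Subgroup (GL β F) where
  carrier := {g | ∀ z, cj (gφ φ g) z ∈ D ↔ z ∈ D}
  mul_mem' := fun h h' z => by rw [map_mul, cj_mul, h, h']
  one_mem' := fun z => by rw [map_one, cj_one]
  inv_mem' := fun {g} h z => by rw [← h, map_inv, cj_cj_inv]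

/-- The permutations of the factors induced by `M`. -/
def PS (φ : τ → Matrix β β F →ₐ[F] Matrix ι ι F) (M : Subgroup (GL ι F)) :
    Subgroup (Equiv.Perm τ) where
  carrier := {s | ∃ g ∈ M, ∀ l b, cj g (φ l b) = φ (s l) b}
  mul_mem' := by
    rintro s s' ⟨g, hg, e⟩ ⟨g', hg', e'⟩
    exact ⟨g * g', M.mul_mem hg hg', fun l b => by rw [cj_mul, e', e]; rfl⟩
  one_mem' := ⟨1, M.one_mem, fun l b => by rw [cj_one]; rfl⟩
  inv_mem' := by
    rintro s ⟨g, hg, e⟩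
    exact ⟨g⁻¹, M.inv_mem hg, fun l b => by
      rw [← cj_inv_cj g (φ (s⁻¹ l) b), e, Equiv.Perm.coe_inv, Equiv.apply_symm_apply]⟩

/-- `M` induces the even permutations of the factors. -/
def Alt (φ : τ → Matrix β β F →ₐ[F] Matrix ι ι F) (M : Subgroup (GL ι F)) : Prop :=
  alternatingGroup τ ≤ PS φ M

/-- No invariant non-scalar Clifford space in the centraliser of the factor. -/
def Cliff (φ : Matrix β β F →ₐ[F] Matrix ι ι F) (M : Subgroup (GL ι F)) (σ : F ≃+* F)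
    (f : (ι → F) → (ι → F) → F) : Prop :=
  ∀ D : Submodule F (Matrix ι ι F), (∀ z ∈ D, Cm φ z) → 1 ∈ D →
    (∀ g ∈ M, Cm φ g → ∀ z ∈ D, cj g z ∈ D) →
    (∀ c ∈ D, ∀ d ∈ D, Sc (d * adj σ f c + c * adj σ f d)) → ∀ c ∈ D, Sc c

/-- Invariant non-scalar subspaces of the centraliser contain isotropic nilpotent elements. -/
def NilD (φ : Matrix β β F →ₐ[F] Matrix ι ι F) (M : Subgroup (GL ι F)) (σ : F ≃+* F)
    (f : (ι → F) → (ι → F) → F) : Prop :=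
  ∀ D : Submodule F (Matrix ι ι F), (∀ z ∈ D, Cm φ z) →
    (∀ g ∈ M, Cm φ g → ∀ z ∈ D, cj g z ∈ D) → ∀ c ∈ D, ¬ Sc c →
      ∃ w ∈ D, w ≠ 0 ∧ w * w = 0 ∧ w * adj σ f w = 0 ∧ adj σ f w * w = 0

section
variable {φ : τ → Matrix β β F →ₐ[F] Matrix ι ι F} {M N : Subgroup (GL ι F)}

theorem alt_of (hN : ∀ g ∈ N, ∀ h ∈ N, g * h * g⁻¹ * h⁻¹ ∈ M) (h : ∀ s, s ∈ PS φ N) : Alt φ M := by
  rw [Alt, ← Equiv.Perm.closure_three_cycles_eq_alternating, Subgroup.closure_le]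
  intro c hc
  obtain ⟨s, hs⟩ := isConj_iff.1 (Equiv.Perm.isConj_iff_cycleType_eq.2 c.cycleType_inv.symm)
  obtain ⟨g, hg, e⟩ := h s
  obtain ⟨g', hg', e'⟩ := h c
  have k : ∀ {g : GL ι F} {s : Equiv.Perm τ}, (∀ l b, cj g (φ l b) = φ (s l) b) →
      ∀ l b, cj g⁻¹ (φ l b) = φ (s⁻¹ l) b := fun {g s} e l b => by
    rw [← cj_inv_cj g (φ (s⁻¹ l) b), e, Equiv.Perm.coe_inv, Equiv.apply_symm_apply]
  have h3 : s * c * s⁻¹ * c⁻¹ = c := by
    have := pow_orderOf_eq_one c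
    rw [Equiv.Perm.IsThreeCycle.orderOf hc, pow_succ, pow_two] at this
    rw [hs, ← _root_.mul_inv_rev, inv_eq_iff_mul_eq_one, this]
  exact ⟨_, hN g hg g' hg', fun l b => by
    rw [cj_mul, cj_mul, cj_mul, k e', k e, e', e]
    exact congrArg (fun z : Equiv.Perm τ => φ (z l) b) h3⟩

theorem Alt.cyc (h : Alt φ M) : Cyc φ M := fun i j l hij hil hjl => by
  obtain ⟨g, hg, e⟩ := h (show Equiv.swap i l * Equiv.swap i j ∈ _ by
    simp [Equiv.Perm.mem_alternatingGroup, Equiv.Perm.sign_swap, hij, hil])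
  exact ⟨g, hg, fun b => by simp [e, Equiv.swap_apply_of_ne_of_ne hij.symm hjl],
    fun b => by simp [e]⟩

end

variable {φ : Matrix β β F →ₐ[F] Matrix ι ι F} {M K G : Subgroup (GL ι F)} {σ : F ≃+* F} {ε ε₂ : F}
  {f : (ι → F) → (ι → F) → F} {f₂ : (β → F) → (β → F) → F} {G2 : Subgroup (GL β F)}

theorem mem_StD_of {D : Set (Matrix ι ι F)} {g : GL β F} (h : ∀ z ∈ D, cj (gφ φ g) z ∈ D)
    (h' : ∀ z ∈ D, cj (gφ φ g⁻¹) z ∈ D) : g ∈ StD φ D := fun z =>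
  ⟨fun hz => by simpa only [map_inv, cj_inv_cj] using h' _ hz, h z⟩

section
variable (hf : IsSesq σ ε f) (hf₂ : IsSesq σ ε₂ f₂) (hadj : ∀ b, adj σ f (φ b) = φ (adj σ f₂ b))
include hf hf₂ hadj

theorem gφ_isom {h : GL β F} (hh : h ∈ Isom σ f₂) : gφ φ h ∈ Isom σ f :=
  (mem_Isom hf).2 (by rw [coe_gφ, hadj, (mem_Isom hf₂).1 hh, coe_gφ_inv])

theorem isom_of_gφ [Nonempty ι] {h : GL β F} (hh : gφ φ h ∈ Isom σ f) : h ∈ Isom σ f₂ :=
  (mem_Isom hf₂).2 (phi_injective (φ := φ) (by rw [← hadj, ← coe_gφ, (mem_Isom hf).1 hh, coe_gφ_inv]))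

/-- The factor of a group containing all the isometries of the factor. -/
theorem amb_full [Nonempty ι] (hM : M ≤ Isom σ f) (C : Cl σ ε₂ f₂ (Isom σ f₂))
    (h : ∀ h ∈ Isom σ f₂, gφ φ h ∈ M) : Amb φ M (Isom σ f₂) σ ε f ε₂ f₂ :=
  ⟨hf, C, hadj, hM, h, fun l hl q h1 _ h2 => by
    have h3 := ms_isom hf hM h2
    rw [hf.adj_mul, mul_assoc, ← mul_assoc l] at h3
    have h4 : l * adj σ f l = 1 := by
      have := congrArg (fun z => adj σ f q * z * q) h3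
      simp only [← mul_assoc, adj_mul_self hf h1, one_mul, mul_one] at this
      rwa [mul_assoc _ _ q, adj_mul_self hf h1, mul_one] at this
    obtain ⟨x, hx⟩ := exists_gφ (g := mkG l _ h4) hl
    exact ⟨_, h x (isom_of_gφ hf hf₂ hadj (hx ▸ mkG_mem_Isom hf h4)), congrArg Units.val hx.symm⟩⟩

end

theorem AmG.amb [Nonempty ι] (A : AmG σ ε f K) (hadj : ∀ b, adj σ f (φ b) = φ (adj σ f₂ b))
    (hM : M ≤ K) (hH : ∀ x, gφ φ x ∈ K → gφ φ x ∈ M) (C : Cl σ ε₂ f₂ G2)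
    (h : ∀ h ∈ G2, gφ φ h ∈ M) : Amb φ M G2 σ ε f ε₂ f₂ :=
  ⟨A.hf, C, hadj, hM.trans A.le, h, fun l hl q h1 h2 h3 => by
    obtain ⟨g, hg, rfl⟩ := ms_of_mul_left (A.un q h1 h2) (ms_mono hM h3)
    obtain ⟨x, rfl⟩ := exists_gφ hl
    exact coe_mem_matrixSet (hH x hg)⟩

theorem AmG.ms_unip (A : AmG σ ε f K) (hf₂ : IsSesq σ ε₂ f₂)
    (hadj : ∀ b, adj σ f (φ b) = φ (adj σ f₂ b)) (hH : ∀ x, gφ φ x ∈ K → gφ φ x ∈ M)
    {b : Matrix β β F} (h1 : b * adj σ f₂ b = 1) (h2 : (b - 1) ^ 3 = 0) :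
    b ∈ matrixSet (GM φ M σ f₂) :=
  ⟨mkG b _ h1, ⟨mkG_mem_Isom hf₂ h1, hH _ (mem_of_ms (A.un _
    (by rw [coe_gφ, coe_mkG, hadj, ← map_mul, h1, map_one])
    (by rw [coe_gφ, coe_mkG, ← map_one φ, ← map_sub, ← map_pow, h2, map_zero])))⟩, rfl⟩

theorem AmG.cl_o [Finite F] {f : (ι → F) → (ι → F) → F} (A : AmG (RingEquiv.refl F) ε f K)
    (hf₂ : IsSesq (RingEquiv.refl F) 1 f₂) (h2 : (2 : F) ≠ 0) (hk : 3 ≤ Fintype.card β)
    (hadj : ∀ b, adj (RingEquiv.refl F) f (φ b) = φ (adj (RingEquiv.refl F) f₂ b))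
    (hH : ∀ x, gφ φ x ∈ K → gφ φ x ∈ M) :
    Cl (RingEquiv.refl F) 1 f₂ (GM φ M (RingEquiv.refl F) f₂) :=
  H9.cl_o hf₂ h2 hk inf_le_left fun x v θ hx hv hθ =>
    A.ms_unip hf₂ hadj hH (elm_isom hf₂ hx hv hθ) (elm_sub_one_cube hf₂ hx hv θ)

theorem cl_o_full [Finite F] (hf₂ : IsSesq (RingEquiv.refl F) 1 f₂) (h2 : (2 : F) ≠ 0)
    (hk : 3 ≤ Fintype.card β) : Cl (RingEquiv.refl F) 1 f₂ (Isom (RingEquiv.refl F) f₂) :=
  H9.cl_o hf₂ h2 hk le_rfl fun x v θ hx hv hθ => (ms_Isom hf₂).2 (elm_isom hf₂ hx hv hθ)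

theorem rfz_sq (hf₂ : IsSesq (RingEquiv.refl F) 1 f₂) {z : β → F} (hz : f₂ z z ≠ 0) :
    rfz f₂ z * rfz f₂ z = 1 := by
  simp only [rfz, mul_sub, sub_mul, one_mul, mul_one, smul_mul_assoc, mul_smul_comm,
    br_mul_br hf₂, smul_smul]
  rw [div_mul_cancel₀ _ hz]
  module

theorem adj_rfz (hf₂ : IsSesq (RingEquiv.refl F) 1 f₂) (z : β → F) :
    adj (RingEquiv.refl F) f₂ (rfz f₂ z) = rfz f₂ z := by
  rw [rfz, hf₂.adj_sub, hf₂.adj_smul, hf₂.adj_one, adj_br hf₂, one_smul]; rfl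

theorem rfz_mem (hf₂ : IsSesq (RingEquiv.refl F) 1 f₂) {z : β → F} (hz : f₂ z z ≠ 0) :
    rfz f₂ z ∈ matrixSet (Isom (RingEquiv.refl F) f₂) :=
  (ms_Isom hf₂).2 (by rw [adj_rfz hf₂, rfz_sq hf₂ hz])

theorem amG_su [Fintype F] {q : ℕ} [Fact (Fintype.card F = q ^ 2)] {n : ℕ} (hn : 4 ≤ n) :
    AmG (H10.sig F q) 1 (hermForm n F q) (GU n F q ⊓ specialLinear (Fin n) F) :=
  ⟨H10.isSesq_herm, inf_le_left, fun z h1 h2 => GeoSU.ms_inf H10.isSesq_herm h1 (det_of_unip h2),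
    fun g hg h hh => ⟨comm_mem_of hg hh, comm_mem_sl g h⟩,
    fun M hM a => gen_su hn (hM.trans inf_le_left)⟩

theorem amG_sp (hf : IsSesq (RingEquiv.refl F) (-1) f) (h2 : (2 : F) ≠ 0) :
    AmG (RingEquiv.refl F) (-1) f (Isom (RingEquiv.refl F) f) :=
  ⟨hf, le_rfl, fun z h1 _ => (ms_Isom hf).2 h1, fun g hg h hh => comm_mem_of hg hh,
    fun M hM a => gen_sp hf h2 hM⟩

theorem Q_eq_zero {Q : (ι → F) → F} (hQ : IsNondegenerateQuadraticForm Q) (h2 : (2 : F) ≠ 0)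
    {v : ι → F} (h : QuadraticMap.polar Q v v = 0) : Q v = 0 := by
  rw [QuadraticMap.polar, ← two_smul F v, hQ.smul] at h
  exact (mul_eq_zero.1 (show 2 * Q v = 0 by linear_combination h)).resolve_left h2

theorem amG_om [Finite F] {Q : (ι → F) → F} (hQ : IsNondegenerateQuadraticForm Q) (h2 : (2 : F) ≠ 0)
    (hn : 5 ≤ Fintype.card ι) : AmG (RingEquiv.refl F) 1 (QuadraticMap.polar Q) (omegaGL Q) :=
  have hf := isSesq_polar hQ
  ⟨hf, omega_le_O.trans (isom_of_Q hQ), fun z h1 h3 => ⟨mkG z _ h1,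
      unip_mem_omega hQ h2 (Q_of_isom hQ h2 (mkG_mem_Isom hf h1)) h3, rfl⟩,
    fun g hg h hh => comm_mem_omega (Q_of_isom hQ h2 hg) (Q_of_isom hQ h2 hh),
    fun M hM a P => gen_om hQ hn (hM.trans omega_le_O) P
      (fun v => Q_eq_zero hQ h2 (by rw [hf.adj_spec, mulVec_mulVec, P.ba, zero_mulVec, hf.zero_right]))
      fun v => Q_eq_zero hQ h2 (by
        rw [hf.adj_spec', mulVec_mulVec, P.ab, zero_mulVec, hf.zero_right])⟩

section
variable {a b : ℕ} {e : ι ≃ Fin a × Fin b} {P : GL ι F} {ε₁ : F} {f₁ : (Fin a → F) → (Fin a → F) → F}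
  {f₂ : (Fin b → F) → (Fin b → F) → F} (hf : IsSesq σ ε f) (h₁ : IsSesq σ ε₁ f₁)
  (h₂ : IsSesq σ ε₂ f₂) (h : IsTensorFormStructure σ f f₁ f₂ e P)
include hf h₁ h₂ h

theorem adj_φL (X : Matrix (Fin a) (Fin a) F) : adj σ f (φL e P X) = φL e P (adj σ f₁ X) := by
  rw [φL_apply, adj_tensor hf h₁ h₂ h, h₂.adj_one, φL_apply]

theorem adj_φR (X : Matrix (Fin b) (Fin b) F) : adj σ f (φR e P X) = φR e P (adj σ f₂ X) := by
  rw [φR_apply, adj_tensor hf h₁ h₂ h, h₁.adj_one, φR_apply]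

end

section
variable {k t : ℕ} {e : ι ≃ (Fin t → Fin k)} {P : GL ι F} {ε₁ : F}
  {f₁ : (Fin k → F) → (Fin k → F) → F} (hf : IsSesq σ ε f) (h₁ : IsSesq σ ε₁ f₁)
  (h : IsTensorPowerFormStructure σ f f₁ e P)
include hf h₁ h

theorem gram_pow : ∃ c : F, c ≠ 0 ∧ gramMatrix (fun x y => f (frmV e P x) (frmV e P y)) =
    c • pureT fun _ : Fin t => gramMatrix f₁ := by
  obtain ⟨c, hc, h⟩ := h
  refine ⟨c, hc, ?_⟩
  rw [← gramMatrix_formOfGram σ]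
  exact congrArg gramMatrix (funext fun x => funext fun y => h x y)

theorem adj_φP (i : Fin t) (X : Matrix (Fin k) (Fin k) F) :
    adj σ f (φP e P i X) = φP e P i (adj σ f₁ X) := by
  obtain ⟨c, hc, hg⟩ := gram_pow hf h₁ h
  rw [φP_apply, hf.adj_frm, adj_of_gram_smul (Matrix.isUnit_det_of_left_inverse
    (pureT_const_inv_mul h₁.isUnit_det_gram)) hc hg, adj_powEmb h₁, φP_apply]

theorem perm_isom (s : Equiv.Perm (Fin t)) : frmG e P (permG (Fin k) F s) ∈ Isom σ f := by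
  obtain ⟨c, hc, h⟩ := h
  intro u v
  obtain ⟨x, rfl⟩ := (frmV e P).surjective u
  obtain ⟨y, rfl⟩ := (frmV e P).surjective v
  have k' : ∀ (x : (Fin t → Fin k) → F) a, (permM (Fin k) F s *ᵥ x) a = x (a ∘ s) := fun x a => by
    simp [permM, mulVec, dotProduct]
  simp only [coe_frmG, frm_mulVec]
  simp only [frmV_apply, h, coe_permG, k']
  congr 1
  let E : (Fin t → Fin k) ≃ (Fin t → Fin k) := Equiv.arrowCongr s.symm (Equiv.refl _)
  refine Fintype.sum_equiv E _ _ fun a => Fintype.sum_equiv E _ _ fun b => ?_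
  congr 2
  exact (Equiv.prod_comp s fun i => gramMatrix f₁ (a i) (b i)).symm

theorem alt_P {N : Subgroup (GL ι F)} (hN : ∀ s, frmG e P (permG (Fin k) F s) ∈ N)
    (hK : ∀ g ∈ N, ∀ h ∈ N, g * h * g⁻¹ * h⁻¹ ∈ K) (hH : tensorWreathSubgroup k t e P ⊓ K ≤ M) :
    Alt (φP e P) M :=
  alt_of (N := tensorWreathSubgroup k t e P ⊓ N)
    (fun g hg h hh => hH ⟨comm_mem_of hg.1 hh.1, hK g hg.2 h hh.2⟩)
    fun s => ⟨_, ⟨perm_mem_wreath e P s, hN s⟩, cj_perm_φP e P s⟩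

end

end Cfsg.Agent.H9
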