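import Cfsg.Agent.H9.TVec
import Cfsg.Agent.H98.Sesq

/-! Rank one matrices attached to a form, Eichler matrices, isometries. -/

set_option autoImplicit false
set_option linter.unusedSectionVars false
set_option linter.unusedVariables false
set_option linter.unusedSimpArgs false

namespace Cfsg.Agent.H9

open scoped MatrixGroups Matrix
open Matrix Cfsg.Geo Cfsg.Agent.H98

variable {β : Type} [Fintype β] [DecidableEq β] {F : Type*} [Field F]

theorem ms_mul {G : Subgroup (GL β F)} {a b : Matrix β β F} (ha : a ∈ matrixSet G)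
    (hb : b ∈ matrixSet G) : a * b ∈ matrixSet G := by
  obtain ⟨g, hg, rfl⟩ := ha
  obtain ⟨h, hh, rfl⟩ := hb
  exact ⟨g * h, G.mul_mem hg hh, rfl⟩

theorem ms_one {G : Subgroup (GL β F)} : (1 : Matrix β β F) ∈ matrixSet G := ⟨1, G.one_mem, rfl⟩

theorem ms_inv {G : Subgroup (GL β F)} {a b : Matrix β β F} (ha : a ∈ matrixSet G)
    (h : a * b = 1) : b ∈ matrixSet G := by
  obtain ⟨g, hg, rfl⟩ := ha
  exact ⟨g⁻¹, G.inv_mem hg, Units.inv_eq_of_mul_eq_one_right h⟩

theorem ms_cj {G : Subgroup (GL β F)} {a : Matrix β β F} (ha : a ∈ matrixSet G) {g : GL β F}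
    (hg : g ∈ G) : cj g a ∈ matrixSet G := by
  rw [cj_apply]
  exact ms_mul (ms_mul (coe_mem_matrixSet hg) ha) (coe_mem_matrixSet (G.inv_mem hg))

theorem ms_of_mul_left {G : Subgroup (GL β F)} {a b : Matrix β β F} (ha : a ∈ matrixSet G)
    (h : a * b ∈ matrixSet G) : b ∈ matrixSet G := by
  obtain ⟨g, hg, rfl⟩ := ha
  have := ms_mul (coe_mem_matrixSet (G.inv_mem hg)) h
  rwa [Units.inv_mul_cancel_left] at this

theorem ms_of_mul_right {G : Subgroup (GL β F)} {a b : Matrix β β F} (hb : b ∈ matrixSet G)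
    (h : a * b ∈ matrixSet G) : a ∈ matrixSet G := by
  obtain ⟨g, hg, rfl⟩ := hb
  have := ms_mul h (coe_mem_matrixSet (G.inv_mem hg))
  rwa [Units.mul_inv_cancel_right] at this

theorem ms_mono {G H : Subgroup (GL β F)} (h : G ≤ H) {a : Matrix β β F} (ha : a ∈ matrixSet G) :
    a ∈ matrixSet H := by
  obtain ⟨g, hg, rfl⟩ := ha
  exact ⟨g, h hg, rfl⟩

theorem mem_of_ms {G : Subgroup (GL β F)} {g : GL β F} (h : (g : Matrix β β F) ∈ matrixSet G) :
    g ∈ G := by
  obtain ⟨k, hk, e⟩ := h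
  rwa [← Units.ext e]

/-- The invertible matrix with a given inverse. -/
def mkG (a b : Matrix β β F) (h : a * b = 1) : GL β F := ⟨a, b, h, mul_eq_one_comm.1 h⟩

@[simp] theorem coe_mkG (a b : Matrix β β F) (h : a * b = 1) :
    ((mkG a b h : GL β F) : Matrix β β F) = a := rfl
@[simp] theorem coe_mkG_inv (a b : Matrix β β F) (h : a * b = 1) :
    (((mkG a b h)⁻¹ : GL β F) : Matrix β β F) = b := rfl

/-- The functional `f (·, v)`. -/
def dl (f : (β → F) → (β → F) → F) (v : β → F) : β → F := fun i => f (bv F i) v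

/-- The rank one matrix `w ↦ f (w, v) u`. -/
def br (f : (β → F) → (β → F) → F) (u v : β → F) : Matrix β β F := vecMulVec u (dl f v)

/-- The isometry group. -/
def Isom (σ : F ≃+* F) (f : (β → F) → (β → F) → F) : Subgroup (GL β F) where
  carrier := {g | ∀ u v, f ((g : Matrix β β F) *ᵥ u) ((g : Matrix β β F) *ᵥ v) = f u v}
  mul_mem' := fun {g h} hg hh u v => by
    rw [Units.val_mul, ← mulVec_mulVec, ← mulVec_mulVec, hg, hh]
  one_mem' := fun u v => by simp
  inv_mem' := fun {g} hg u v => by rw [← hg, mulVec_inv_mulVec, mulVec_inv_mulVec]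

/-- The Eichler matrix. -/
def elm (f : (β → F) → (β → F) → F) (ε : F) (x v : β → F) (θ : F) : Matrix β β F :=
  1 + br f x v - ε • br f v x + θ • br f x x

variable {σ : F ≃+* F} {ε : F} {f : (β → F) → (β → F) → F} (hf : IsSesq σ ε f)
include hf

theorem dl_dot (v w : β → F) : dl f v ⬝ᵥ w = f w v := by
  conv_rhs => rw [pi_eq_sum_univ' w, hf.sum_left]
  simp [dotProduct, dl, hf.smul_left, mul_comm]

theorem dl_add (v w : β → F) : dl f (v + w) = dl f v + dl f w := by
  ext i; simp [dl, hf.add_right]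
theorem dl_smul (c : F) (v : β → F) : dl f (c • v) = σ c • dl f v := by
  ext i; simp [dl, hf.smul_right]
theorem dl_zero : dl f 0 = 0 := by ext i; simp [dl, hf.zero_right]

theorem dl_ne_zero {v : β → F} (hv : v ≠ 0) : dl f v ≠ 0 := fun h =>
  hv (hf.eq_zero_of_right fun x => by rw [← dl_dot hf, h, zero_dotProduct])

theorem exists_dl (ψ : β → F) : ∃ v, dl f v = ψ := by
  have hG := hf.isUnit_det_gram
  refine ⟨fun i => σ (((gramMatrix f)⁻¹ *ᵥ ψ) i), ?_⟩
  ext i
  rw [dl, hf.eq_dot]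
  simp only [hf.invol, mulVec_mulVec, Matrix.mul_nonsing_inv _ hG, one_mulVec, bv_dot]

theorem exists_f_one {u : β → F} (hu : u ≠ 0) : ∃ v, f u v = 1 := by
  obtain ⟨ψ, hψ⟩ := exists_dot_one hu
  obtain ⟨v, rfl⟩ := exists_dl hf ψ
  exact ⟨v, by rwa [dl_dot hf] at hψ⟩

theorem exists_f_one' {u : β → F} (hu : u ≠ 0) : ∃ v, f v u = 1 := by
  obtain ⟨v, hv⟩ := exists_f_one hf hu
  exact ⟨ε • v, by rw [hf.smul_left, hf.herm, hv, map_one, mul_one, hf.eps_mul_self]⟩

theorem br_mulVec (u v w : β → F) : br f u v *ᵥ w = f w v • u := by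
  rw [br, vmv_mulVec, dl_dot hf]
theorem br_mul_br (u v w z : β → F) : br f u v * br f w z = f w v • br f u z := by
  rw [br, br, vmv_mul_vmv, dl_dot hf]; rfl
theorem br_mul_vmv (u v w ψ : β → F) : br f u v * vecMulVec w ψ = f w v • vecMulVec u ψ := by
  rw [br, vmv_mul_vmv, dl_dot hf]
omit hf in
theorem vmv_mul_br (u ψ w z : β → F) : vecMulVec u ψ * br f w z = (ψ ⬝ᵥ w) • br f u z :=
  vmv_mul_vmv _ _ _ _
omit hf in
theorem mul_br (b : Matrix β β F) (u v : β → F) : b * br f u v = br f (b *ᵥ u) v := mul_vmv _ _ _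
theorem br_mul (u v : β → F) (b : Matrix β β F) : br f u v * b = br f u (adj σ f b *ᵥ v) :=
  matrix_ext_mulVec fun w => by rw [← mulVec_mulVec, br_mulVec hf, br_mulVec hf, hf.adj_spec]
omit hf in
theorem br_add_left (u u' v : β → F) : br f (u + u') v = br f u v + br f u' v := vmv_add_left _ _ _
omit hf in
theorem br_smul_left (c : F) (u v : β → F) : br f (c • u) v = c • br f u v := vmv_smul_left _ _ _
theorem br_add_right (u v v' : β → F) : br f u (v + v') = br f u v + br f u v' := by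
  rw [br, dl_add hf, vmv_add_right]; rfl
theorem br_smul_right (c : F) (u v : β → F) : br f u (c • v) = σ c • br f u v := by
  rw [br, dl_smul hf, vmv_smul_right]; rfl
omit hf in
theorem br_neg_left (u v : β → F) : br f (-u) v = -br f u v := by
  rw [← neg_one_smul F u, br_smul_left, neg_one_smul]
theorem br_neg_right (u v : β → F) : br f u (-v) = -br f u v := by
  rw [← neg_one_smul F v, br_smul_right hf]; simp
omit hf in
theorem br_sub_left (u u' v : β → F) : br f (u - u') v = br f u v - br f u' v := by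
  rw [sub_eq_add_neg, br_add_left, br_neg_left, sub_eq_add_neg]
theorem br_sub_right (u v v' : β → F) : br f u (v - v') = br f u v - br f u v' := by
  rw [sub_eq_add_neg, br_add_right hf, br_neg_right hf, sub_eq_add_neg]
omit hf in
theorem br_zero_left (v : β → F) : br f 0 v = 0 := by simp [br]
theorem br_zero_right (u : β → F) : br f u 0 = 0 := by simp [br, dl_zero hf]
theorem br_ne_zero {u v : β → F} (hu : u ≠ 0) (hv : v ≠ 0) : br f u v ≠ 0 :=
  vmv_ne_zero hu (dl_ne_zero hf hv)
theorem trace_br (u v : β → F) : (br f u v).trace = f u v := by rw [br, trace_vmv, dl_dot hf]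
theorem trace_mul_br (s : Matrix β β F) (u v : β → F) : (s * br f u v).trace = f (s *ᵥ u) v := by
  rw [mul_br, trace_br hf]

theorem sigma_f (u v : β → F) : σ (f u v) = ε * f v u := by
  rw [hf.herm v u, ← mul_assoc, hf.eps_mul_self, one_mul]

theorem adj_br (u v : β → F) : adj σ f (br f u v) = ε • br f v u :=
  hf.adj_unique fun w z => by
    rw [br_mulVec hf, smul_mulVec, br_mulVec hf, hf.smul_left, smul_smul, hf.smul_right, map_mul,
      hf.map_eps, sigma_f hf, ← mul_assoc, hf.eps_mul_self, one_mul, mul_comm]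

theorem mem_Isom {g : GL β F} :
    g ∈ Isom σ f ↔ adj σ f g = ((g⁻¹ : GL β F) : Matrix β β F) := by
  refine ⟨fun h => by simpa using hf.adj_of_sim (c := 1) (fun u v => by rw [one_mul]; exact h u v), fun h u v => ?_⟩
  rw [hf.adj_spec, h, inv_mulVec_mulVec]

theorem mkG_mem_Isom {a : Matrix β β F} (h : a * adj σ f a = 1) : mkG a _ h ∈ Isom σ f :=
  (mem_Isom hf).2 rfl

theorem ms_Isom {a : Matrix β β F} : a ∈ matrixSet (Isom σ f) ↔ a * adj σ f a = 1 :=
  ⟨by rintro ⟨g, hg, rfl⟩; rw [(mem_Isom hf).1 hg, Units.mul_inv],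
    fun h => ⟨_, mkG_mem_Isom hf h, rfl⟩⟩

theorem adj_inv {g : GL β F} (hg : g ∈ Isom σ f) :
    adj σ f ((g⁻¹ : GL β F) : Matrix β β F) = g := by
  rw [← (mem_Isom hf).1 hg, hf.adj_adj]

theorem adj_cj {g : GL β F} (hg : g ∈ Isom σ f) (z : Matrix β β F) :
    adj σ f (cj g z) = cj g (adj σ f z) := by
  rw [cj_apply, cj_apply, hf.adj_mul, hf.adj_mul, adj_inv hf hg, (mem_Isom hf).1 hg, mul_assoc]

theorem cj_br {g : GL β F} (hg : g ∈ Isom σ f) (u v : β → F) :
    cj g (br f u v) = br f ((g : Matrix β β F) *ᵥ u) ((g : Matrix β β F) *ᵥ v) := by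
  rw [cj_apply, mul_br, br_mul hf, adj_inv hf hg]

theorem elm_mulVec (x v : β → F) (θ : F) (w : β → F) :
    elm f ε x v θ *ᵥ w = w + (f w v + θ * f w x) • x - (ε * f w x) • v := by
  simp only [elm, add_mulVec, sub_mulVec, smul_mulVec, one_mulVec, br_mulVec hf]
  module

theorem elm_mul {x v v' : β → F} (hx : f x x = 0) (hv : f v x = 0) (hv' : f v' x = 0) (θ θ' : F) :
    elm f ε x v θ * elm f ε x v' θ' = elm f ε x (v + v') (θ + θ' - ε * f v' v) :=
  matrix_ext_mulVec fun w => by
    have h1 := hf.eq_zero_comm.1 hv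
    simp only [← mulVec_mulVec, elm_mulVec hf, hf.add_left, hf.sub_left, hf.smul_left,
      hf.add_right, hx, hv', h1]
    module

theorem elm_zero (x : β → F) (θ : F) : elm f ε x 0 θ = 1 + θ • br f x x := by
  simp [elm, br_zero_left, br_zero_right hf]

theorem adj_elm (x v : β → F) (θ : F) :
    adj σ f (elm f ε x v θ) = elm f ε x (-v) (ε * σ θ) := by
  simp only [elm, hf.adj_add, hf.adj_sub, hf.adj_smul, hf.adj_one, adj_br hf, br_neg_left,
    br_neg_right hf, hf.map_eps, smul_smul, hf.eps_mul_self]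
  module

theorem elm_isom {x v : β → F} {θ : F} (hx : f x x = 0) (hv : f v x = 0)
    (hθ : θ + ε * σ θ + ε * f v v = 0) : elm f ε x v θ * adj σ f (elm f ε x v θ) = 1 := by
  rw [adj_elm hf, elm_mul hf hx hv (by rw [hf.neg_left, hv, neg_zero]), add_neg_cancel,
    elm_zero hf, hf.neg_left, mul_neg, sub_neg_eq_add, hθ, zero_smul, add_zero]

theorem cj_elm {g : GL β F} (hg : g ∈ Isom σ f) (x v : β → F) (θ : F) :
    cj g (elm f ε x v θ) = elm f ε ((g : Matrix β β F) *ᵥ x) ((g : Matrix β β F) *ᵥ v) θ := by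
  simp only [elm, map_add, map_sub, map_smul, map_one, cj_br hf hg]

theorem elm_sub_one_cube {x v : β → F} (hx : f x x = 0) (hv : f v x = 0) (θ : F) :
    (elm f ε x v θ - 1) ^ 3 = 0 := by
  have h1 := hf.eq_zero_comm.1 hv
  have e : elm f ε x v θ - 1 = br f x v - ε • br f v x + θ • br f x x := by
    rw [elm]; abel
  simp only [e, pow_succ, pow_zero, one_mul, mul_add, add_mul, mul_sub, sub_mul, smul_mul_assoc,
    mul_smul_comm, br_mul_br hf, hx, hv, h1, zero_smul, smul_zero, add_zero, sub_zero, zero_sub,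
    neg_mul, neg_zero, zero_mul, sub_self]

theorem elm_sub_one_sq {x v : β → F} (hx : f x x = 0) (hv : f v x = 0) (θ : F) :
    (elm f ε x v θ - 1) * (elm f ε x v θ - 1) = (-(ε * f v v)) • br f x x := by
  have h1 := hf.eq_zero_comm.1 hv
  have e : elm f ε x v θ - 1 = br f x v - ε • br f v x + θ • br f x x := by
    rw [elm]; abel
  simp only [e, mul_add, add_mul, mul_sub, sub_mul, smul_mul_assoc,
    mul_smul_comm, br_mul_br hf, hx, hv, h1, zero_smul, smul_zero, add_zero, sub_zero, zero_sub,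
    neg_mul, neg_zero, zero_mul, sub_self]
  module

/-- A non-unital subring containing the multiples of the `[w, w]` contains all `[u, v]`. -/
theorem br_mem_of_two {D : NonUnitalSubring (Matrix β β F)} {S : Set (β → F)}
    (h1 : ∀ w ∈ S, ∀ c : F, c • br f w w ∈ D)
    (h2 : ∀ w ∈ S, ∀ w' ∈ S, w ≠ 0 → w' ≠ 0 → ∃ z ∈ S, f z w ≠ 0 ∧ f w' z ≠ 0)
    {u v : β → F} (hu : u ∈ Submodule.span F S) (hv : v ∈ Submodule.span F S) :
    br f u v ∈ D := by
  have k1 : ∀ w ∈ S, ∀ w' ∈ S, ∀ c : F, c • br f w w' ∈ D := by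
    intro w hw w' hw' c
    by_cases h0 : w = 0
    · rw [h0, br_zero_left, smul_zero]; exact D.zero_mem
    by_cases h0' : w' = 0
    · rw [h0', br_zero_right hf, smul_zero]; exact D.zero_mem
    obtain ⟨z, hz, h3, h4⟩ := h2 w hw w' hw' h0 h0'
    have := D.mul_mem (D.mul_mem (h1 w hw (c * (f z w)⁻¹ * (f w' z)⁻¹)) (h1 z hz 1)) (h1 w' hw' 1)
    simp only [one_smul, smul_mul_assoc, br_mul_br hf, smul_smul] at this
    convert this using 2
    field_simp
  have k2 : ∀ w' ∈ S, ∀ c : F, c • br f u w' ∈ D := by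
    intro w' hw'
    induction hu using Submodule.span_induction with
    | mem x hx => exact k1 x hx w' hw'
    | zero => intro c; rw [br_zero_left, smul_zero]; exact D.zero_mem
    | add x y _ _ hx hy => intro c; rw [br_add_left, smul_add]; exact D.add_mem (hx c) (hy c)
    | smul a x _ hx => intro c; rw [br_smul_left, smul_smul]; exact hx _
  suffices ∀ c : F, c • br f u v ∈ D by simpa using this 1
  induction hv using Submodule.span_induction with
  | mem x hx => exact k2 x hx
  | zero => intro c; rw [br_zero_right hf, smul_zero]; exact D.zero_mem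
  | add x y _ _ hx hy => intro c; rw [br_add_right hf, smul_add]; exact D.add_mem (hx c) (hy c)
  | smul a x _ hx => intro c; rw [br_smul_right hf, smul_smul]; exact hx _

theorem eq_sum_br (b : Matrix β β F) :
    ∃ w : β → β → F, (∀ k, dl f (w k) = bv F k) ∧ b = ∑ k, br f (b *ᵥ bv F k) (w k) := by
  choose w hw using fun k => exists_dl hf (bv F k)
  refine ⟨w, hw, ?_⟩
  simp only [br, hw, ← mul_vmv]
  rw [← Finset.mul_sum, sum_vmv_bv, mul_one]

theorem mem_of_br {D : AddSubgroup (Matrix β β F)} (h : ∀ u v, br f u v ∈ D) (b : Matrix β β F) :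
    b ∈ D := by
  obtain ⟨w, -, e⟩ := eq_sum_br hf b
  rw [e]
  exact sum_mem fun k _ => h _ _

end Cfsg.Agent.H9
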