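import Cfsg.Agent.H9.TLoc
import Cfsg.Agent.H9.TForm

/-! The level of `M` in the unipotent radical of the stabiliser of `V₁ ⊗ x`. -/

set_option autoImplicit false
set_option linter.unusedSectionVars false
set_option linter.unusedVariables false
set_option linter.unusedSimpArgs false

namespace Cfsg.Agent.H9

open scoped MatrixGroups Matrix
open Matrix Cfsg.Geo Cfsg.Agent.H98

variable {ι β : Type} [Fintype ι] [DecidableEq ι] [Fintype β] [DecidableEq β] {F : Type*} [Field F]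

/-- `s` fixes the image of `a` and acts trivially on the image of `E` modulo the image of `a`. -/
def InQ (a E s : Matrix ι ι F) : Prop := (s - 1) * a = 0 ∧ a * ((s - 1) * E) = (s - 1) * E

theorem InQ.mul_a {a E s : Matrix ι ι F} (h : InQ a E s) : s * a = a := by
  have := h.1
  rwa [sub_mul, one_mul, sub_eq_zero] at this

theorem InQ.mul_sub {a E s s' : Matrix ι ι F} (h : InQ a E s) (h' : InQ a E s') :
    (s * s' - 1) * E = (s - 1) * E + (s' - 1) * E := by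
  have : s * ((s' - 1) * E) = (s' - 1) * E := by rw [← h'.2, ← mul_assoc, h.mul_a]
  rw [← this]; noncomm_ring

theorem InQ.mul {a E s s' : Matrix ι ι F} (h : InQ a E s) (h' : InQ a E s') : InQ a E (s * s') :=
  ⟨by rw [sub_mul, mul_assoc, h'.mul_a, h.mul_a, one_mul, sub_self],
    by rw [h.mul_sub h', mul_add, h.2, h'.2]⟩

theorem InQ.inv_sub {a E s s' : Matrix ι ι F} (h : InQ a E s) (e : s' * s = 1) :
    (s' - 1) * E = -((s - 1) * E) := by
  have h1 : s' * a = a := by conv_lhs => rw [← h.mul_a, ← mul_assoc, e, one_mul]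
  have : s' * ((s - 1) * E) = (s - 1) * E := by rw [← h.2, ← mul_assoc, h1]
  rw [← this, ← mul_assoc, _root_.mul_sub, e]; noncomm_ring

theorem InQ.inv {a E s s' : Matrix ι ι F} (h : InQ a E s) (e : s' * s = 1) : InQ a E s' :=
  ⟨by rw [sub_mul, one_mul, sub_eq_zero]; conv_lhs => rw [← h.mul_a, ← mul_assoc, e, one_mul],
    by rw [h.inv_sub e, mul_neg, h.2]⟩

theorem InQ.one {a E : Matrix ι ι F} : InQ a E 1 := ⟨by simp, by simp⟩

variable (M : Subgroup (GL ι F)) (a E : Matrix ι ι F)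

/-- The level. -/
def Rho : AddSubgroup (Matrix ι ι F) where
  carrier := {ρ | ∃ s ∈ matrixSet M, InQ a E s ∧ (s - 1) * E = ρ}
  zero_mem' := ⟨1, ms_one, InQ.one, by simp⟩
  add_mem' := by
    rintro _ _ ⟨s, hs, h, rfl⟩ ⟨s', hs', h', rfl⟩
    exact ⟨s * s', ms_mul hs hs', h.mul h', h.mul_sub h'⟩
  neg_mem' := by
    rintro _ ⟨_, ⟨g, hg, rfl⟩, h, rfl⟩
    exact ⟨_, coe_mem_matrixSet (M.inv_mem hg), h.inv g.inv_mul, h.inv_sub g.inv_mul⟩

/-- Right multipliers of the level. -/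
def RM : Subring (Matrix ι ι F) where
  carrier := {z | ∀ ρ ∈ Rho M a E, ρ * z ∈ Rho M a E}
  mul_mem' := fun h h' ρ hρ => by rw [← mul_assoc]; exact h' _ (h ρ hρ)
  one_mem' := fun ρ hρ => by rwa [mul_one]
  add_mem' := fun h h' ρ hρ => by rw [mul_add]; exact add_mem (h ρ hρ) (h' ρ hρ)
  zero_mem' := fun ρ hρ => by rw [mul_zero]; exact zero_mem _
  neg_mem' := fun h ρ hρ => by rw [mul_neg]; exact neg_mem (h ρ hρ)

/-- Left multipliers of the level. -/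
def LM : Subring (Matrix ι ι F) where
  carrier := {z | ∀ ρ ∈ Rho M a E, z * ρ ∈ Rho M a E}
  mul_mem' := fun h h' ρ hρ => by rw [mul_assoc]; exact h _ (h' ρ hρ)
  one_mem' := fun ρ hρ => by rwa [one_mul]
  add_mem' := fun h h' ρ hρ => by rw [add_mul]; exact add_mem (h ρ hρ) (h' ρ hρ)
  zero_mem' := fun ρ hρ => by rw [zero_mul]; exact zero_mem _
  neg_mem' := fun h ρ hρ => by rw [neg_mul]; exact neg_mem (h ρ hρ)

/-- Multipliers on the chosen side. -/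
def SM (sd : Bool) : Subring (Matrix ι ι F) := bif sd then LM M a E else RM M a E

/-- The level algebra. -/
def Lev (φ : Matrix β β F →ₐ[F] Matrix ι ι F) (sd : Bool) :
    NonUnitalSubalgebra F (Matrix ι ι F) where
  carrier := {z | Cm φ z ∧ ∀ c : F, c • z ∈ SM M a E sd}
  mul_mem' := fun h h' => ⟨h.1.mul h'.1, fun c => by
    rw [← smul_mul_assoc]; exact mul_mem (h.2 c) (by simpa using h'.2 1)⟩
  add_mem' := fun h h' => ⟨h.1.add h'.1, fun c => by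
    rw [smul_add]; exact add_mem (h.2 c) (h'.2 c)⟩
  zero_mem' := ⟨Cm.zero, fun c => by rw [smul_zero]; exact zero_mem _⟩
  smul_mem' := fun c z h => ⟨h.1.smul c, fun c' => by rw [smul_smul]; exact h.2 _⟩

variable {M a E}

theorem Rho.a_mul {ρ : Matrix ι ι F} (h : ρ ∈ Rho M a E) : a * ρ = ρ := by
  obtain ⟨s, -, h, rfl⟩ := h; exact h.2
theorem Rho.mul_E (hE : E * E = E) {ρ : Matrix ι ι F} (h : ρ ∈ Rho M a E) : ρ * E = ρ := by
  obtain ⟨s, -, h, rfl⟩ := h; rw [mul_assoc, hE]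
theorem Rho.mul_a (hE : E * a = a) {ρ : Matrix ι ι F} (h : ρ ∈ Rho M a E) : ρ * a = 0 := by
  obtain ⟨s, -, h, rfl⟩ := h; rw [mul_assoc, hE, h.1]

theorem Rho.cj {g : GL ι F} (hg : g ∈ M) {ρ : Matrix ι ι F} (h : ρ ∈ Rho M a E) :
    cj g ρ ∈ Rho M (cj g a) (cj g E) := by
  obtain ⟨s, hs, h, rfl⟩ := h
  have e : H98.cj g s - 1 = H98.cj g (s - 1) := by rw [map_sub, map_one]
  exact ⟨H98.cj g s, ms_cj hs hg, ⟨by rw [e, ← map_mul, h.1, map_zero],
    by rw [e, ← map_mul, ← map_mul, h.2]⟩, by rw [e, map_mul]⟩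

theorem Rho.conj {l : GL ι F} (hl : l ∈ M) (h1 : a * (l * a) = l * a)
    (h2 : a * ((l⁻¹ : GL ι F) * a) = (l⁻¹ : GL ι F) * a) (h3 : E * (l * E) = l * E)
    {ρ : Matrix ι ι F} (h : ρ ∈ Rho M a E) : (l⁻¹ : GL ι F) * ρ * (l * E) ∈ Rho M a E := by
  obtain ⟨s, hs, h, rfl⟩ := h
  have e : H98.cj l⁻¹ s - 1 = (l⁻¹ : GL ι F) * (s - 1) * l := by
    rw [cj_apply, inv_inv, mul_sub, sub_mul, mul_one, Units.inv_mul]
  have e2 : (H98.cj l⁻¹ s - 1) * E = (l⁻¹ : GL ι F) * ((s - 1) * E) * (l * E) := by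
    rw [e, mul_assoc, ← h3]; simp only [mul_assoc, h3]
  refine ⟨H98.cj l⁻¹ s, ms_cj hs (M.inv_mem hl), ⟨?_, ?_⟩, e2⟩
  · rw [e, mul_assoc, ← h1, ← mul_assoc, mul_assoc _ (s - 1), h.1, mul_zero, zero_mul]
  · rw [e2, ← h.2, ← mul_assoc (l⁻¹ : GL ι F).val, ← mul_assoc a, ← mul_assoc a, h2]

theorem mem_RM_of_fix {l : GL ι F} (hl : l ∈ M) {c : F} (hc : c ≠ 0) (h1 : l * a = c • a)
    (ha : a * a = a) (h3 : E * (l * E) = l * E) : c⁻¹ • (l * E) ∈ RM M a E := fun ρ hρ => by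
  have h2 : (l⁻¹ : GL ι F) * a = c⁻¹ • a := by
    rw [eq_inv_smul_iff₀ hc, ← mul_smul_comm, ← h1, Units.inv_mul_cancel_left]
  have := Rho.conj hl (by rw [h1, mul_smul_comm, ha]) (by rw [h2, mul_smul_comm, ha]) h3 hρ
  rwa [← Rho.a_mul hρ, ← mul_assoc (l⁻¹ : GL ι F).val, h2, smul_mul_assoc, smul_mul_assoc,
    Rho.a_mul hρ, ← mul_smul_comm] at this

theorem mem_LM_of {l : GL ι F} (hl : l ∈ M) {u u' : Matrix ι ι F} (hu : a * u = u * a)
    (hu' : a * u' = u' * a) (ha : a * a = a) (hE : E * E = E) (hEa : E * a = a)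
    (huE : E * u' = u' * E) (h1 : l * E = E + (u' - 1) * a) (h2 : (l⁻¹ : GL ι F) * a = u * a) :
    u ∈ LM M a E := fun ρ hρ => by
  have h4 : (l : Matrix ι ι F) * a = u' * a := by
    rw [← hEa, ← mul_assoc, h1, add_mul, mul_assoc, ha, hEa]; noncomm_ring
  have := Rho.conj hl (by rw [h4, ← mul_assoc, hu', mul_assoc, ha])
    (by rw [h2, ← mul_assoc, hu, mul_assoc, ha])
    (by rw [h1, mul_add, hE, ← mul_assoc, mul_sub, huE, sub_mul, sub_mul, mul_assoc, mul_one,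
      one_mul, hEa]) hρ
  rwa [← Rho.a_mul hρ, ← mul_assoc (l⁻¹ : GL ι F).val, h2, h1, mul_assoc u, Rho.a_mul hρ,
    mul_assoc, mul_add, Rho.mul_E hE hρ, sub_mul, ← hu', one_mul, mul_sub, ← mul_assoc,
    Rho.mul_a hEa hρ, zero_mul, sub_zero, add_zero] at this

theorem SM.cj {sd : Bool} {g : GL ι F} (hg : g ∈ M) {z : Matrix ι ι F} (h : z ∈ SM M a E sd) :
    cj g z ∈ SM M (cj g a) (cj g E) sd := by
  have key : ∀ ρ ∈ Rho M (H98.cj g a) (H98.cj g E), H98.cj g⁻¹ ρ ∈ Rho M a E := fun ρ hρ => by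
    simpa only [cj_inv_cj] using Rho.cj (M.inv_mem hg) hρ
  cases sd
  · intro ρ hρ
    simpa only [map_mul, cj_cj_inv] using Rho.cj hg (h _ (key ρ hρ))
  · intro ρ hρ
    simpa only [map_mul, cj_cj_inv] using Rho.cj hg (h _ (key ρ hρ))

variable {φ : Matrix β β F →ₐ[F] Matrix ι ι F}

theorem Lev.cj {φ' : Matrix β β F →ₐ[F] Matrix ι ι F} {sd : Bool} {g : GL ι F} (hg : g ∈ M)
    {z : Matrix ι ι F} (h : z ∈ Lev M a E φ sd) (hz : Cm φ' (cj g z)) :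
    cj g z ∈ Lev M (cj g a) (cj g E) φ' sd :=
  ⟨hz, fun c => by rw [← map_smul]; exact SM.cj hg (h.2 c)⟩

theorem Lev.mul_mem {sd : Bool} {z : Matrix ι ι F} (h : z ∈ Lev M a E φ sd) {b : Matrix β β F}
    (hb : φ b ∈ Rho M a E) : z * φ b ∈ Rho M a E := by
  have := h.2 1
  rw [one_smul] at this
  cases sd
  · rw [← h.1]; exact this _ hb
  · exact this _ hb

/-- A point `x`, a functional `η` and a projection `p` onto the hyperplane attached to `x`. -/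
structure AD (x η : β → F) (p : Matrix β β F) : Prop where
  ηx : η ⬝ᵥ x = 1
  pp : p * p = p
  px : p *ᵥ x = x
  ηp : η ᵥ* p = η

variable {x η : β → F} {p : Matrix β β F}

theorem AD.aa (A : AD x η p) : φ (vecMulVec x η) * φ (vecMulVec x η) = φ (vecMulVec x η) := by
  rw [← map_mul, vmv_mul_vmv, A.ηx, one_smul]
theorem AD.EE (A : AD x η p) : φ p * φ p = φ p := by rw [← map_mul, A.pp]
theorem AD.Ea (A : AD x η p) : φ p * φ (vecMulVec x η) = φ (vecMulVec x η) := by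
  rw [← map_mul, mul_vmv, A.px]
theorem AD.aE (A : AD x η p) : φ (vecMulVec x η) * φ p = φ (vecMulVec x η) := by
  rw [← map_mul, vmv_mul, A.ηp]

theorem AD.row_dot (A : AD x η p) (k : β) : (bv F k ᵥ* (p - vecMulVec x η)) ⬝ᵥ x = 0 := by
  rw [← dotProduct_mulVec, sub_mulVec, A.px, vmv_mulVec, A.ηx, one_smul, sub_self, dotProduct_zero]
theorem AD.row_p (A : AD x η p) (k : β) :
    (bv F k ᵥ* (p - vecMulVec x η)) ᵥ* p = bv F k ᵥ* (p - vecMulVec x η) := by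
  rw [vecMul_vecMul, sub_mul, A.pp, vmv_mul, A.ηp]
theorem AD.p_col (A : AD x η p) (v : β → F) :
    p *ᵥ ((p - vecMulVec x η) *ᵥ v) = (p - vecMulVec x η) *ᵥ v := by
  rw [mulVec_mulVec, mul_sub, A.pp, mul_vmv, A.px]

theorem AD.rho_mul (A : AD x η p) {ρ : Matrix ι ι F}
    (h : ρ ∈ Rho M (φ (vecMulVec x η)) (φ p)) : ρ * φ (p - vecMulVec x η) = ρ := by
  rw [map_sub, mul_sub, Rho.mul_E A.EE h, Rho.mul_a A.Ea h, sub_zero]

theorem AD.expand (A : AD x η p) {ρ : Matrix ι ι F} (h1 : φ (vecMulVec x η) * ρ = ρ)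
    (h2 : ρ * φ (p - vecMulVec x η) = ρ) :
    ρ = ∑ k, cf φ η ρ ((p - vecMulVec x η) *ᵥ bv F k) *
      φ (vecMulVec x (bv F k ᵥ* (p - vecMulVec x η))) := by
  simp only [← sandwich, h1, ← mul_vmv, ← vmv_mul, map_mul, ← mul_assoc, h2]
  rw [← Finset.sum_mul, ← Finset.mul_sum, ← map_sum, sum_vmv_bv, map_one, mul_one, h2]

/-- If the level algebra is the whole centraliser, the level is full. -/
theorem AD.full (A : AD x η p) {sd : Bool}
    (h0 : ∀ χ, χ ⬝ᵥ x = 0 → χ ᵥ* p = χ → φ (vecMulVec x χ) ∈ Rho M (φ (vecMulVec x η)) (φ p))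
    (h : ∀ c, Cm φ c → c ∈ Lev M (φ (vecMulVec x η)) (φ p) φ sd) {ρ : Matrix ι ι F}
    (h1 : φ (vecMulVec x η) * ρ = ρ) (h2 : ρ * φ (p - vecMulVec x η) = ρ) :
    ρ ∈ Rho M (φ (vecMulVec x η)) (φ p) := by
  rw [A.expand h1 h2]
  exact sum_mem fun k _ => Lev.mul_mem (h _ (cf_cm _ _ _)) (h0 _ (A.row_dot k) (A.row_p k))

/-- The stabiliser of `x` in `G2` generates all maps of the hyperplane modulo `x`. -/
def FRG (G2 : Subgroup (GL β F)) (x η : β → F) (p : Matrix β β F) : Prop :=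
  ∀ R : Subring (Matrix β β F), (∀ b, vecMulVec x η * b ∈ R) →
    (∀ h ∈ G2, ∀ c : F, c ≠ 0 → (h : Matrix β β F) *ᵥ x = c • x → p * (h * p) = h * p →
      c⁻¹ • ((h : Matrix β β F) * p) ∈ R) →
    ∀ w χ, p *ᵥ w = w → χ ⬝ᵥ x = 0 → χ ᵥ* p = χ → vecMulVec w χ ∈ R

variable (φ M) in
/-- All rank one maps of the hyperplane modulo `x` are right multipliers. -/
def FR (x η : β → F) (p : Matrix β β F) : Prop :=
  ∀ w χ, p *ᵥ w = w → χ ⬝ᵥ x = 0 → χ ᵥ* p = χ →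
    φ (vecMulVec w χ) ∈ RM M (φ (vecMulVec x η)) (φ p)

theorem AD.mem_RM (A : AD x η p) {h : GL β F} (hh : gφ φ h ∈ M) {c : F} (hc : c ≠ 0)
    (h1 : (h : Matrix β β F) *ᵥ x = c • x) (h2 : p * (h * p) = h * p) :
    φ (c⁻¹ • ((h : Matrix β β F) * p)) ∈ RM M (φ (vecMulVec x η)) (φ p) := by
  rw [map_smul, map_mul, ← coe_gφ]
  exact mem_RM_of_fix hh hc (by rw [coe_gφ, ← map_mul, mul_vmv, h1, vmv_smul_left, map_smul]) A.aa
    (by rw [coe_gφ, ← map_mul, ← map_mul, h2])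

theorem AD.fr (A : AD x η p) {G2 : Subgroup (GL β F)} (hG : ∀ h ∈ G2, gφ φ h ∈ M)
    (h : FRG G2 x η p) : FR M φ x η p :=
  h ((RM M (φ (vecMulVec x η)) (φ p)).comap (φ : Matrix β β F →+* Matrix ι ι F))
    (fun b ρ hρ => by
      show ρ * φ _ ∈ _
      rw [map_mul, ← mul_assoc, Rho.mul_a A.Ea hρ, zero_mul]; exact zero_mem _)
    fun h hh c hc h1 h2 => A.mem_RM (hG h hh) hc h1 h2

theorem FR.cf_mem (H : FR M φ x η p) {ρ : Matrix ι ι F}
    (hρ : ρ ∈ Rho M (φ (vecMulVec x η)) (φ p)) {w χ : β → F} (hw : p *ᵥ w = w) (h1 : χ ⬝ᵥ x = 0)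
    (h2 : χ ᵥ* p = χ) : cf φ η ρ w * φ (vecMulVec x χ) ∈ Rho M (φ (vecMulVec x η)) (φ p) := by
  rw [← sandwich, Rho.a_mul hρ]; exact H w χ hw h1 h2 ρ hρ

theorem FR.cf_mem_Lev (H : FR M φ x η p) (A : AD x η p) {z : Matrix ι ι F}
    (hz : z ∈ RM M (φ (vecMulVec x η)) (φ p)) {w χ : β → F} (hw : p *ᵥ w = w) (h1 : χ ⬝ᵥ x = 0)
    (h2 : χ ᵥ* p = χ) : cf φ χ z w ∈ Lev M (φ (vecMulVec x η)) (φ p) φ false := by
  refine ⟨cf_cm _ _ _, fun c ρ hρ => ?_⟩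
  have hc := (cf_cm (φ := φ) χ z w).smul c
  rw [← A.rho_mul hρ, ← A.rho_mul hρ, mul_assoc, hc, ← mul_assoc, ← cf_smul_right, cf,
    Finset.mul_sum, Finset.sum_mul]
  refine sum_mem fun k _ => ?_
  rw [← mul_assoc, ← mul_assoc, mul_assoc ρ, ← map_mul, mul_assoc _ (φ _), ← map_mul, mul_vmv,
    vmv_mul]
  exact H _ _ (by rw [mulVec_smul, hw]) (A.row_dot k) (A.row_p k) _
    (hz _ (H _ _ (A.p_col _) h1 h2 _ hρ))

theorem FR.smul_mem (H : FR M φ x η p) (A : AD x η p) (c : F) {ρ : Matrix ι ι F}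
    (hρ : ρ ∈ Rho M (φ (vecMulVec x η)) (φ p)) : c • ρ ∈ Rho M (φ (vecMulVec x η)) (φ p) := by
  rw [A.expand (Rho.a_mul hρ) (A.rho_mul hρ), Finset.smul_sum]
  refine sum_mem fun k _ => ?_
  rw [← smul_mul_assoc, ← cf_smul_right]
  exact H.cf_mem hρ (by rw [mulVec_smul, A.p_col]) (A.row_dot k) (A.row_p k)

/-- The level lies in the factor if all its coefficients are scalars. -/
theorem AD.mem_range (A : AD x η p) {ρ : Matrix ι ι F}
    (hρ : ρ ∈ Rho M (φ (vecMulVec x η)) (φ p))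
    (h : ∀ w, p *ᵥ w = w → ∃ c : F, cf φ η ρ w = c • (1 : Matrix ι ι F)) : ρ ∈ φ.range := by
  rw [A.expand (Rho.a_mul hρ) (A.rho_mul hρ)]
  refine sum_mem fun k _ => ?_
  obtain ⟨c, hc⟩ := h _ (A.p_col (bv F k))
  rw [hc, smul_mul_assoc, one_mul]
  exact Subalgebra.smul_mem _ (φ.mem_range_self _) _

theorem mem_Lev_left (hF : ∀ (c : F), ∀ ρ ∈ Rho M a E, c • ρ ∈ Rho M a E) {u : Matrix ι ι F}
    (hu : Cm φ u) (h : u ∈ LM M a E) : u ∈ Lev M a E φ true :=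
  ⟨hu, fun c ρ hρ => by rw [smul_mul_assoc]; exact hF c _ (h ρ hρ)⟩

theorem scalar_of_mul_mem_range [Nonempty ι] {c : Matrix ι ι F} (hc : Cm φ c) {b : Matrix β β F}
    (hb : b ≠ 0) (h : c * φ b ∈ φ.range) : ∃ a : F, c = a • (1 : Matrix ι ι F) := by
  obtain ⟨b', hb'⟩ := h
  obtain ⟨i, hi⟩ := Function.ne_iff.1 hb
  obtain ⟨j, hj⟩ := Function.ne_iff.1 hi
  have := hc.cf_mul_phi (bv F i) b (bv F j)
  rw [← show φ b' = c * φ b from hb', cf_phi] at this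
  have hj' : bv F i ⬝ᵥ b *ᵥ bv F j ≠ 0 := by simpa using hj
  exact ⟨_, by rw [← inv_smul_smul₀ hj' c, ← this, smul_smul]⟩

end Cfsg.Agent.H9
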