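import Cfsg.Agent.H9.TRank

/-! The normaliser of a tensor factor; consequences of the local hypothesis. -/

set_option autoImplicit false
set_option linter.unusedSectionVars false
set_option linter.unusedVariables false
set_option linter.unusedSimpArgs false

namespace Cfsg.Agent.H9

open scoped MatrixGroups Matrix
open Matrix Cfsg.Geo Cfsg.Agent.H98 Module

variable {ι β : Type} [Fintype ι] [DecidableEq ι] [Fintype β] [DecidableEq β] {F : Type*} [Field F]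
variable (φ : Matrix β β F →ₐ[F] Matrix ι ι F)

/-- The image of an invertible matrix. -/
def gφ : GL β F →* GL ι F := Units.map (φ : Matrix β β F →* Matrix ι ι F)

/-- The normaliser of the factor. -/
def KB : Subgroup (GL ι F) where
  carrier := {g | ∃ x : GL β F, ∀ b, cj g (φ b) = φ (cj x b)}
  mul_mem' := by
    rintro g h ⟨x, hx⟩ ⟨y, hy⟩
    exact ⟨x * y, fun b => by rw [cj_mul, hy, hx, cj_mul]⟩
  one_mem' := ⟨1, fun b => by rw [cj_one, cj_one]⟩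
  inv_mem' := by
    rintro g ⟨x, hx⟩
    exact ⟨x⁻¹, fun b => by rw [← cj_cj_inv x b, ← hx, cj_inv_cj, cj_inv_cj]⟩

/-- `g` maps `V₁ ⊗ u` to `V₁ ⊗ u'`. -/
def Mov (g : Matrix ι ι F) (u u' : β → F) : Prop :=
  ∃ c, Cm φ c ∧ ∀ ψ, g * φ (vecMulVec u ψ) = c * φ (vecMulVec u' ψ)

/-- The elements of the factor conjugated into the factor. -/
def AG (g : GL ι F) : Subalgebra F (Matrix β β F) :=
  φ.range.comap (((cj g : Matrix ι ι F ≃ₐ[F] Matrix ι ι F) : Matrix ι ι F →ₐ[F] Matrix ι ι F).comp φ)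

variable {φ}

theorem coe_gφ (h : GL β F) : ((gφ φ h : GL ι F) : Matrix ι ι F) = φ h := rfl

theorem coe_gφ_inv (h : GL β F) :
    (((gφ φ h)⁻¹ : GL ι F) : Matrix ι ι F) = φ ((h⁻¹ : GL β F) : Matrix β β F) := rfl

theorem cj_gφ (h : GL β F) (b : Matrix β β F) : cj (gφ φ h) (φ b) = φ (cj h b) := by
  rw [cj_apply, cj_apply, map_mul, map_mul]; rfl

theorem Cm.cj_gφ {c : Matrix ι ι F} (hc : Cm φ c) (h : GL β F) : cj (gφ φ h) c = c := by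
  rw [cj_eq_iff, coe_gφ, hc]

theorem gφ_mem_KB (h : GL β F) : gφ φ h ∈ KB φ := ⟨h, cj_gφ h⟩

theorem mem_AG {g : GL ι F} {b : Matrix β β F} : b ∈ AG φ g ↔ cj g (φ b) ∈ φ.range := Iff.rfl

theorem mem_KB_of [Nonempty ι] {g : GL ι F} (h : ∀ b, cj g (φ b) ∈ φ.range) : g ∈ KB φ :=
  exists_cj_of_mapsTo φ φ phi_injective g h

theorem cj_mem_range {g : GL ι F} (hg : g ∈ KB φ) {z : Matrix ι ι F} (hz : z ∈ φ.range) :
    cj g z ∈ φ.range := by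
  obtain ⟨x, hx⟩ := hg
  obtain ⟨b, rfl⟩ := hz
  exact ⟨cj x b, (hx b).symm⟩

theorem Cm.cj {g : GL ι F} (hg : g ∈ KB φ) {c : Matrix ι ι F} (hc : Cm φ c) : Cm φ (cj g c) := by
  obtain ⟨x, hx⟩ := hg
  intro b
  rw [← cj_cj_inv x b, ← hx, ← map_mul, hc, map_mul]

theorem mem_KB_of_cm {g : GL ι F} (h : Cm φ g) : g ∈ KB φ :=
  ⟨1, fun b => by rw [cj_one, cj_eq_iff, h]⟩

theorem exists_of_mem_KB {g : GL ι F} (hg : g ∈ KB φ) :
    ∃ (c : GL ι F) (x : GL β F), Cm φ c ∧ g = c * gφ φ x := by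
  obtain ⟨x, hx⟩ := hg
  refine ⟨g * (gφ φ x)⁻¹, x, fun b => ?_, by simp⟩
  rw [eq_comm, ← cj_eq_iff, cj_mul, ← map_inv, cj_gφ, hx, cj_cj_inv]

theorem cm_iff_cj {g : GL ι F} : (∀ b, Cm φ (cj g (φ b))) ↔ ∀ b, Cm φ (cj g⁻¹ (φ b)) := by
  have key : ∀ g : GL ι F, (∀ b, Cm φ (cj g (φ b))) → ∀ b, Cm φ (cj g⁻¹ (φ b)) := by
    intro g h b b'
    rw [← cj_inv_cj g (φ b'), ← map_mul, ← map_mul, h]
  exact ⟨key g, fun h => by simpa using key g⁻¹ h⟩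

theorem mov_of_cf {g : Matrix ι ι F} {u u' : β → F} (hu' : u' ≠ 0)
    (h : ∀ χ, χ ⬝ᵥ u' = 0 → cf φ χ g u = 0) : Mov φ g u u' := by
  obtain ⟨ρ, hρ⟩ := exists_dot_one hu'
  refine ⟨cf φ ρ g u, cf_cm _ _ _, fun ψ => ext_cf (φ := φ) fun χ v => ?_⟩
  rw [cf_mul_phi, (cf_cm _ _ _).cf_mul_phi, vmv_mulVec, vmv_mulVec, cf_smul_right, dotProduct_smul,
    smul_eq_mul, mul_smul]
  congr 1
  have := h (χ - (χ ⬝ᵥ u') • ρ) (by simp [hρ])
  rw [sub_eq_add_neg, ← neg_smul, cf_add_left, cf_smul_left, neg_smul, add_neg_eq_zero] at this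
  exact this

theorem Mov.cf_eq {g : Matrix ι ι F} {u u' : β → F} (hu : u ≠ 0) (h : Mov φ g u u') {χ : β → F}
    (hχ : χ ⬝ᵥ u' = 0) : cf φ χ g u = 0 := by
  obtain ⟨c, hc, h⟩ := h
  obtain ⟨ρ, hρ⟩ := exists_dot_one hu
  have := congrArg (fun z => cf φ χ z u) (h ρ)
  simpa only [cf_mul_phi, hc.cf_eq, vmv_mulVec, hρ, one_smul, hχ, zero_smul] using this

theorem Mov.mul {g g' : Matrix ι ι F} {u u' u'' : β → F} (h : Mov φ g u' u'') (h' : Mov φ g' u u') :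
    Mov φ (g * g') u u'' := by
  obtain ⟨c, hc, h⟩ := h
  obtain ⟨c', hc', h'⟩ := h'
  refine ⟨c * c', hc.mul hc', fun ψ => ?_⟩
  rw [mul_assoc, h', ← hc', ← mul_assoc, h, mul_assoc, hc', mul_assoc]

theorem mov_phi {b : Matrix β β F} {u u' : β → F} {a : F} (h : b *ᵥ u = a • u') :
    Mov φ (φ b) u u' :=
  ⟨a • 1, Cm.one.smul a, fun ψ => by rw [← map_mul, mul_vmv, h, vmv_smul_left, map_smul]; simp⟩

theorem mov_of_comm {z : Matrix ι ι F} {u ψ : β → F} (hψ : ψ ≠ 0)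
    (h : z * φ (vecMulVec u ψ) = φ (vecMulVec u ψ) * z) : Mov φ z u u := by
  obtain ⟨v, hv⟩ := exists_dot_one hψ
  refine ⟨cf φ ψ z v, cf_cm _ _ _, fun χ => ?_⟩
  rw [← sandwich, ← h, mul_assoc, ← map_mul, vmv_mul_vmv, dotProduct_comm, hv, one_smul]

theorem Mov.inv {g : GL ι F} {u u' : β → F} (hu : u ≠ 0) (h : Mov φ g u u') :
    ∃ c : GL ι F, Cm φ c ∧ ∀ ψ, g * φ (vecMulVec u ψ) = c * φ (vecMulVec u' ψ) := by
  obtain ⟨c, hc, h⟩ := h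
  have hdet : IsUnit c := by
    rw [← Matrix.mulVec_injective_iff_isUnit]
    intro v w hvw
    rw [← sub_eq_zero]
    have h1 : c *ᵥ (v - w) = 0 := by rw [mulVec_sub]; exact sub_eq_zero.2 hvw
    have h2 : ∀ ψ, φ (vecMulVec u ψ) *ᵥ (v - w) = 0 := fun ψ => by
      rw [← gl_mulVec_eq_zero g, mulVec_mulVec, h, ← hc, ← mulVec_mulVec, h1, mulVec_zero]
    obtain ⟨ρ, hρ⟩ := exists_dot_one hu
    have h3 : (1 : Matrix ι ι F) = ∑ k, φ (vecMulVec (bv F k) ρ) * φ (vecMulVec u (bv F k)) := by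
      simp only [← map_mul, vmv_mul_vmv, hρ, one_smul, ← map_sum, sum_vmv_bv, map_one]
    rw [← one_mulVec (v - w), h3, Matrix.sum_mulVec]
    simp only [← mulVec_mulVec, h2, mulVec_zero, Finset.sum_const_zero]
  exact ⟨hdet.unit, hc, h⟩

theorem Mov.symm {g : GL ι F} {u u' : β → F} (hu : u ≠ 0) (h : Mov φ g u u') :
    Mov φ ((g⁻¹ : GL ι F) : Matrix ι ι F) u' u := by
  obtain ⟨c, hc, h⟩ := h.inv hu
  have hc' := hc.inv c.mul_inv c.inv_mul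
  refine ⟨(c⁻¹ : GL ι F), hc', fun ψ => ?_⟩
  rw [← Units.mul_inv_cancel_right (φ (vecMulVec u' ψ)) c, hc, ← h, mul_assoc,
    Units.inv_mul_cancel_left, hc']

theorem mov_of_cj [Nonempty β] [Nonempty ι] {g : GL ι F} {u ψ : β → F} (hu : u ≠ 0) (hψ : ψ ≠ 0)
    (h : cj g (φ (vecMulVec u ψ)) ∈ φ.range) : ∃ u', u' ≠ 0 ∧ Mov φ g u u' := by
  obtain ⟨b, hb⟩ := h
  obtain ⟨u', ψ', rfl⟩ := rank_one_of_rank_phi (φ := φ) (b := b)
    (hb ▸ (rank_cj_le _ _).trans (rank_phi_vmv_le u ψ))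
  have hb' : cj g (φ (vecMulVec u ψ)) = φ (vecMulVec u' ψ') := hb.symm
  have hu' : u' ≠ 0 := by
    rintro rfl
    rw [zero_vecMulVec, map_zero, map_eq_zero_iff _ (cj g).injective,
      map_eq_zero_iff _ phi_injective] at hb'
    exact vmv_ne_zero hu hψ hb'
  obtain ⟨v, hv⟩ := exists_dot_one hψ
  refine ⟨u', hu', cf φ ψ' g v, cf_cm _ _ _, fun χ => ?_⟩
  rw [← sandwich, ← (cj_eq_iff _ _ _).1 hb', mul_assoc, ← map_mul, vmv_mul_vmv, dotProduct_comm,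
    hv, one_smul]

variable (φ) in
/-- The data making the local argument work. -/
structure ActL (M : Subgroup (GL ι F)) (G2 : Subgroup (GL β F)) (Pt : (β → F) → Prop) : Prop where
  sub : ∀ h ∈ G2, gφ φ h ∈ M
  ne : ∀ x, Pt x → x ≠ 0
  loc : ∀ x, Pt x → ∀ s ∈ M, (∀ ψ, s * φ (vecMulVec x ψ) = φ (vecMulVec x ψ)) →
    (s : Matrix ι ι F) ∈ φ.range
  trans : ∀ x x', Pt x → Pt x' → ∃ h ∈ G2, ∃ a : F, (h : Matrix β β F) *ᵥ x = a • x'
  iso : ∀ g ∈ M, ∀ x x', Pt x → x' ≠ 0 → Mov φ g x x' → Pt x'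

/-- The stabilisers of points generate, step by step, the whole matrix algebra. -/
def GeoL (G2 : Subgroup (GL β F)) (Pt : (β → F) → Prop) : Prop :=
  ∀ A : Subalgebra F (Matrix β β F),
    (∀ u ψ, Pt u → ψ ≠ 0 → vecMulVec u ψ ∈ A → ∀ h ∈ G2, ∀ a : F,
      (h : Matrix β β F) *ᵥ u = a • u → (h : Matrix β β F) ∈ A) →
    ∀ x, Pt x → (∀ h ∈ G2, ∀ a : F, (h : Matrix β β F) *ᵥ x = a • x → (h : Matrix β β F) ∈ A) →
      A = ⊤

variable {M : Subgroup (GL ι F)} {G2 : Subgroup (GL β F)} {Pt : (β → F) → Prop}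

theorem ActL.mem_of_fix (L : ActL φ M G2 Pt) {g : GL ι F} (hg : g ∈ M) {x : β → F} (hx : Pt x)
    (hm : Mov φ g x x) {h : GL β F} (hh : h ∈ G2) {a : F} (ha : (h : Matrix β β F) *ᵥ x = a • x) :
    (h : Matrix β β F) ∈ AG φ g := by
  obtain ⟨c, hc, e⟩ := hm.symm (L.ne x hx)
  have ha0 : a ≠ 0 := by
    rintro rfl
    rw [zero_smul, gl_mulVec_eq_zero] at ha
    exact L.ne x hx ha
  have e1 : ∀ ψ, φ h * φ (vecMulVec x ψ) = a • φ (vecMulVec x ψ) := fun ψ => by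
    rw [← map_mul, mul_vmv, ha, vmv_smul_left, map_smul]
  have e2 : ∀ ψ, φ ((h⁻¹ : GL β F) : Matrix β β F) * φ (vecMulVec x ψ) =
      a⁻¹ • φ (vecMulVec x ψ) := fun ψ => by
    rw [eq_inv_smul_iff₀ ha0, ← mul_smul_comm, ← e1, ← mul_assoc, ← map_mul, Units.inv_mul,
      map_one, one_mul]
  have := L.loc x hx (g * gφ φ h * g⁻¹ * (gφ φ h)⁻¹)
    (M.mul_mem (M.mul_mem (M.mul_mem hg (L.sub h hh)) (M.inv_mem hg)) (M.inv_mem (L.sub h hh)))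
    fun ψ => by
      rw [Units.val_mul, Units.val_mul, Units.val_mul, coe_gφ_inv, coe_gφ, mul_assoc, e2,
        mul_smul_comm, mul_assoc, e, mul_assoc, hc.left, e1, mul_smul_comm, mul_smul_comm, ← e,
        Units.mul_inv_cancel_left, smul_smul, inv_mul_cancel₀ ha0, one_smul]
  have h2 := mul_mem this (φ.mem_range_self (h : Matrix β β F))
  rwa [Units.val_mul, coe_gφ_inv, mul_assoc, ← map_mul, Units.inv_mul, map_one, mul_one] at h2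

theorem ActL.mem_of_mov (L : ActL φ M G2 Pt) {g : GL ι F} (hg : g ∈ M) {x x' : β → F} (hx : Pt x)
    (hx' : x' ≠ 0) (hm : Mov φ g x x') {h : GL β F} (hh : h ∈ G2) {a : F}
    (ha : (h : Matrix β β F) *ᵥ x = a • x) : (h : Matrix β β F) ∈ AG φ g := by
  obtain ⟨k, hk, b, hb⟩ := L.trans x' x (L.iso g hg x x' hx hx' hm) hx
  have := L.mem_of_fix (M.mul_mem (L.sub k hk) hg) hx ((mov_phi hb).mul hm) hh ha
  rw [mem_AG, cj_mul] at this
  have h2 := cj_mem_range ((KB φ).inv_mem (gφ_mem_KB k)) this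
  rwa [cj_inv_cj] at h2

variable [Nonempty β] [Nonempty ι]

/-- The strong local statement. -/
theorem ActL.mem_KB (L : ActL φ M G2 Pt) (hG : GeoL G2 Pt) {g : GL ι F} (hg : g ∈ M)
    {x x' : β → F} (hx : Pt x) (hx' : x' ≠ 0) (hm : Mov φ g x x') : g ∈ KB φ := by
  have : AG φ g = ⊤ := hG _ (fun u ψ hu hψ hA h hh a ha => by
    obtain ⟨u', hu', hm'⟩ := mov_of_cj (L.ne u hu) hψ hA
    exact L.mem_of_mov hg hu hu' hm' hh ha) x hx fun h hh a ha => L.mem_of_mov hg hx hx' hm hh ha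
  exact mem_KB_of fun b => mem_AG.1 (this ▸ Algebra.mem_top)

theorem ActL.mem_KB_of_pt (L : ActL φ M G2 Pt) (hG : GeoL G2 Pt) {g : GL ι F} (hg : g ∈ M)
    {u ψ : β → F} (hu : Pt u) (hψ : ψ ≠ 0) (h : cj g (φ (vecMulVec u ψ)) ∈ φ.range) :
    g ∈ KB φ := by
  obtain ⟨u', hu', hm'⟩ := mov_of_cj (L.ne u hu) hψ h
  exact L.mem_KB hG hg hu hu' hm'

variable (φ) in
/-- Elements of `M` conjugating `φ b` into the factor normalise the factor. -/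
def Det (M : Subgroup (GL ι F)) (b : Matrix β β F) : Prop :=
  ∀ g ∈ M, cj g (φ b) ∈ φ.range → g ∈ KB φ

theorem ActL.det_pt (L : ActL φ M G2 Pt) (hG : GeoL G2 Pt) {u ψ : β → F} (hu : Pt u)
    (hψ : ψ ≠ 0) : Det φ M (vecMulVec u ψ) := fun g hg h => L.mem_KB_of_pt hG hg hu hψ h

theorem Det.of_adjoin {b b' : Matrix β β F} (h : Det φ M b) (hb : b ∈ Algebra.adjoin F {b'}) :
    Det φ M b' := fun g hg h' =>
  h g hg (Algebra.adjoin_le (S := AG φ g) (by rintro _ rfl; exact h') hb)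

theorem ActL.det_of_fix (L : ActL φ M G2 Pt) (hG : GeoL G2 Pt) {b : Matrix β β F}
    (h1 : ∀ g ∈ M, ∀ b', cj g (φ b) = φ b' → ∃ v, Pt (b' *ᵥ v)) {u ψ : β → F} (hu : Pt u)
    (hψ : ψ ≠ 0) (h2 : vecMulVec u ψ ∈ Algebra.adjoin F
      {h | (∃ k ∈ G2, (k : Matrix β β F) = h) ∧ h * b = b}) : Det φ M b := by
  rintro g hg ⟨b', hb'⟩
  have hb : cj g (φ b) = φ b' := hb'.symm
  obtain ⟨v, hv⟩ := h1 g hg b' hb
  refine L.mem_KB_of_pt hG hg hu hψ (Algebra.adjoin_le (S := AG φ g) ?_ h2)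
  rintro _ ⟨⟨k, hk, rfl⟩, hkb⟩
  have := L.loc _ hv (g * gφ φ k * g⁻¹)
    (M.mul_mem (M.mul_mem hg (L.sub k hk)) (M.inv_mem hg)) fun χ => by
      rw [← cj_coe, coe_gφ, ← mul_vmv, map_mul, ← hb, ← mul_assoc, ← map_mul, ← map_mul, hkb]
  rwa [← cj_coe, coe_gφ] at this

variable (φ) in
/-- Root elements: conjugates normalising the factor lie in it or centralise it. -/
structure Roots (M : Subgroup (GL ι F)) (G2 : Subgroup (GL β F)) (Root : Set (GL β F)) : Prop where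
  mem : ∀ h ∈ G2, gφ φ h ∈ M
  sub : ∀ e ∈ Root, e ∈ G2
  nsc : ∀ e ∈ Root, ¬ Cm φ (φ e)
  det : ∀ e ∈ Root, Det φ M e
  gen : Algebra.adjoin F (Units.val '' Root) = ⊤
  tri : ∀ e ∈ Root, ∀ g ∈ M, g * gφ φ e * g⁻¹ ∈ KB φ →
    cj g (φ e) ∈ φ.range ∨ Cm φ (cj g (φ e))

variable {Root : Set (GL β F)}

theorem not_cm_vmv {u ψ : β → F} (hu : u ≠ 0) (hψ : ψ ≠ 0) (h0 : ψ ⬝ᵥ u = 0) :
    ¬ Cm φ (φ (vecMulVec u ψ)) := fun h => by
  obtain ⟨a, ha⟩ := scalar_of_cm_phi h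
  have h1 : vecMulVec u ψ * vecMulVec u ψ = 0 := by rw [vmv_mul_vmv, h0, zero_smul]
  rw [ha, smul_mul_assoc, one_mul, smul_smul, smul_eq_zero, mul_self_eq_zero] at h1
  rw [h1.resolve_right one_ne_zero, zero_smul] at ha
  exact vmv_ne_zero hu hψ ha

theorem cm_all_of_gen {S : Set (Matrix β β F)} (hS : Algebra.adjoin F S = ⊤) {g : GL ι F}
    (h : ∀ b ∈ S, Cm φ (cj g (φ b))) (b : Matrix β β F) : Cm φ (cj g (φ b)) := fun b' =>
  (cm_of_gen (φ := ((cj g : Matrix ι ι F ≃ₐ[F] Matrix ι ι F) :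
    Matrix ι ι F →ₐ[F] Matrix ι ι F).comp φ) hS (z := φ b') (fun r hr => (h r hr b').symm) b).symm

theorem Roots.cm_of_det (R : Roots φ M G2 Root) {b : Matrix β β F} (hb : Det φ M b)
    (hn : ¬ Cm φ (φ b)) {g : GL ι F} (hg : g ∈ M) (h : Cm φ (cj g (φ b))) :
    ∀ b, Cm φ (cj g (φ b)) := by
  rw [cm_iff_cj]
  refine cm_all_of_gen R.gen ?_
  rintro _ ⟨r, hr, rfl⟩
  have hm : g⁻¹ * gφ φ r * g⁻¹⁻¹ ∈ M :=
    M.mul_mem (M.mul_mem (M.inv_mem hg) (R.mem r (R.sub r hr))) (by rwa [inv_inv])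
  have h2 := hb _ hm (by
    rw [cj_mul, cj_mul, inv_inv, h.cj_gφ, cj_inv_cj]; exact φ.mem_range_self _)
  rcases R.tri r hr g⁻¹ (M.inv_mem hg) h2 with h3 | h3
  · have h5 := h.cj (R.det r hr _ (M.inv_mem hg) h3)
    rw [cj_inv_cj] at h5
    exact (hn h5).elim
  · exact h3

end Cfsg.Agent.H9
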