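import Cfsg.Agent.H9.TO34a

/-! The tensor product of orthogonal spaces of dimensions three and four. -/

set_option autoImplicit false
set_option linter.unusedSectionVars false
set_option linter.unusedVariables false
set_option linter.unusedSimpArgs false

namespace Cfsg.Agent.H9

open scoped MatrixGroups Matrix
open Matrix Cfsg.Geo Cfsg.Agent.H98 PasO TOP

universe u

variable {ι α β : Type} [Fintype ι] [DecidableEq ι] [Fintype α] [DecidableEq α] [Fintype β]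
  [DecidableEq β] {F : Type u} [Field F]

variable [Finite F] [Nonempty ι] {M K : Subgroup (GL ι F)} {ε : F} {f : (ι → F) → (ι → F) → F}
  {f₁ : (α → F) → (α → F) → F} {f₂ : (β → F) → (β → F) → F} {x y : β → F}
  {φ : Matrix β β F →ₐ[F] Matrix ι ι F} {ψ : Matrix α α F →ₐ[F] Matrix ι ι F}
  {G : Subgroup (GL β F)} {G₁ : Subgroup (GL α F)}

theorem nrm_zero [Fintype F] (hf : IsSesq (RingEquiv.refl F) 1 f₂) (h2 : (2 : F) ≠ 0)
    (h3 : Nat.card F ≠ 3) (hx : f₂ x x = 0) {v w : β → F} (hv : f₂ v x = 0) (hw : f₂ w x = 0)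
    {e : F × F → GL β F} (he : ∀ a, (e a : Matrix β β F) = eo f₂ x (a.1 • v + a.2 • w))
    (z : Matrix ι ι F) : nrm (fun a => gφ φ (e a)) z = 0 := by
  obtain ⟨l, l0, l1⟩ := exists_sq_ne h2 h3
  obtain ⟨γ, hγ, eγ⟩ := nrm_eq (φ := φ) hf h2 hx (AddMonoidHom.mk' (fun a : F => a • w)
    fun a b => add_smul a b w) (fun a => by simp [hf.smul_left, hw]) (e := fun a => e (0, a))
    (fun a => by simp [he]) (by simp) (fun T h1 _ => smul_right_injective _ (sub_ne_zero.2 l1) (by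
      simp only [sub_smul, one_smul, smul_zero, AddMonoidHom.mk'_apply, Finset.smul_sum, ← h1,
        smul_smul]
      rw [Finset.sum_sub_distrib]
      exact sub_eq_zero.2 (Equiv.sum_comp (Equiv.mulLeft₀ l l0) fun a => T (a • w)))) z
  have hv' : ∀ a : F, f₂ (a • v) x = 0 := fun a => by rw [hf.smul_left, hv, mul_zero]
  rw [nrm_apply, Fintype.sum_prod_type, Finset.sum_congr rfl (g := fun _ => γ * φ (br f₂ x x)),
    Finset.sum_const, ← Nat.cast_smul_eq_nsmul F, Finset.card_univ, FiniteField.cast_card_eq_zero,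
    zero_smul]
  intro a _
  have : cj (e (a, 0)) (br f₂ x x) = br f₂ x x := by
    rw [cj_eq_iff, he, zero_smul, add_zero, eo_eq]
    simp [add_mul, sub_mul, mul_add, mul_sub, Nv_mul_n hf hx (hv' a), n_mul_Nv hf hx (hv' a)]
  rw [← this, ← hγ.cj_gφ_mul, ← eγ, nrm_apply, map_sum]
  refine Finset.sum_congr rfl fun b _ => ?_
  rw [← cj_mul, ← map_mul]
  congr 3
  exact Units.ext (by
    rw [Units.val_mul, he, he, he, eo_mul hf h2 hx] <;> simp [hf.smul_left, hv, hw])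

theorem not_cm34 (hd : Fintype.card ι < Fintype.card β * Fintype.card β) {u χ : β → F} (hu : u ≠ 0)
    (hχ : χ ≠ 0) (g : GL ι F) : ¬ Cm φ (cj g (φ (vecMulVec u χ))) := fun h => by
  have : Nonempty β := ⟨(Function.ne_iff.1 hu).choose⟩
  have h1 := (h.card_le_rank fun h0 => vmv_ne_zero hu hχ (phi_injective (φ := φ)
    ((cj g).injective (by rw [h0, map_zero, map_zero])))).trans
    ((rank_cj_le _ _).trans (rank_phi_vmv_le u χ))
  exact absurd (dd_mul (φ := φ) ▸ Nat.mul_le_mul_right _ h1) hd.not_ge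

variable (A : Amb φ M G (RingEquiv.refl F) ε f 1 f₂) (A' : Amb ψ M G₁ (RingEquiv.refl F) ε f 1 f₁)
  (O : OS f₂ G) (O' : OS f₁ G₁) (P : Pair φ ψ) (k : Fintype.card α = 3) (hL : LocA φ M f₂)
include A A' O O' P k hL

theorem fix34 (H : HP f₂ x y) {u u' v : α → F} (H' : HP f₁ u u') (h1 : f₁ v u = 0) (h3 : f₁ v u' = 0)
    (h4 : f₁ v v ≠ 0) {e : GL α F} (he : e ∈ G₁) (ee : (e : Matrix α α F) = eo f₁ u v) {g : GL ι F}
    (hg : g ∈ M) (hm : Mov φ g x x) (h : g⁻¹ * gφ ψ e * g ∈ KB φ) : g ∈ KB φ := by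
  have hf := A.C.ses
  have hf' := A'.C.ses
  have h2 := O.two
  have := A.C.nonempty
  by_cases h7 : 7 ≤ Nat.card F
  · exact (A.actL hL).mem_KB (geoL_o A.C h2 (Or.inr h7)) hg ⟨H.ne hf, H.xx⟩ (H.ne hf) hm
  obtain ⟨ζ, l, hl, c0, c3, e0⟩ := bdec A O hL H hg hm
  have hn : φ (br f₂ x x) * φ (br f₂ x x) = 0 := by
    rw [← map_mul, br_mul_br hf, H.xx, zero_smul, map_zero]
  have e1 : ((g * l⁻¹ : GL ι F) : Matrix ι ι F) = 1 + ζ * φ (br f₂ x x) := by
    rw [Units.val_mul, e0, Units.mul_inv_cancel_right]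
  have e2 : (((g * l⁻¹)⁻¹ : GL ι F) : Matrix ι ι F) = 1 - ζ * φ (br f₂ x x) :=
    Units.inv_eq_of_mul_eq_one_right (by
      rw [e1, add_mul, mul_sub, mul_sub, mul_assoc ζ, mul_assoc ζ, c0.left, hn]; simp)
  have c1 : Cm φ (gφ ψ e : GL ι F) := P.cm _
  have c2 := c0.cj (mem_KB_of_cm c1)
  have key := eq_zero_of_KB A O H (c2.sub c0) (by
    rw [A.hf.adj_sub, adj_cj A.hf (A.iso (A'.sub e he)), c3, map_neg]; abel)
    (k := (g * l⁻¹)⁻¹ * (gφ ψ e * (g * l⁻¹) * (gφ ψ e)⁻¹)) (by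
      have := mul_mem (mul_mem (mul_mem hl h) (inv_mem hl)) (inv_mem (mem_KB_of_cm c1))
      simpa [mul_assoc] using this) (by
      rw [Units.val_mul, ← cj_coe, e1, e2, map_add, map_one, map_mul,
        (cj_eq_iff _ _ _).2 (c1 _).symm, sub_mul, mul_add, mul_add, mul_assoc ζ, mul_assoc ζ,
        c2.left, hn, sub_mul]
      simp only [mul_one, one_mul, mul_zero, add_zero]; abel)
  obtain ⟨s, hs⟩ := P.rg ζ c0
  replace hs : ψ s = ζ := hs
  obtain ⟨w, w1, -, ew⟩ := O'.eq_Nv k H' h1 h3 h4 (s := s) (phi_injective (φ := ψ) (by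
    rw [← A'.adjφ, hs, c3, map_neg, hs])) (ee ▸ ((cj_eq_iff _ _ _).1 (phi_injective (φ := ψ) (by
      rw [← cj_gφ, hs, sub_eq_zero.1 key]))).symm)
  have := zeta_zero A O (prime_field h2 h7) hL H hg hl c0 c3 ⟨3, by
    rw [← hs, ew, ← map_pow, pow_succ', pow_two, Nv_mul hf' H'.xx w1 w1, mul_smul_comm,
      Nv_mul_n hf' H'.xx w1, smul_zero, map_zero]⟩ e0
  rw [this, zero_mul, add_zero, one_mul] at e0
  exact Units.ext e0 ▸ hl

theorem exists_Pi34 (k₂ : Fintype.card β = 4) (hn : Fintype.card ι < 16) :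
    ∃ Pi : Matrix ι ι F →ₗ[F] Matrix ι ι F, (∀ g ∈ M, ∀ z, Pi (cj g z) = cj g (Pi z)) ∧
      ∀ c, Cm φ c → ∀ x y, HP f₂ x y → ∀ s, br f₂ x x * s = 0 → s * br f₂ x x = 0 →
      (∀ w, f₂ w x = 0 → eo f₂ x w * s = s * eo f₂ x w) → dfc φ Pi c s = 0 := by
  have := Fintype.ofFinite F
  obtain ⟨Pi, hP, h⟩ := H9.exists_Pi φ M
  refine ⟨Pi, hP, fun c hc x y H s s1 s2 s3 => ?_⟩
  have hf := A.C.ses
  have hf' := A'.C.ses
  have h2 := O.two
  have h3 : Nat.card F ≠ 3 := fun h => O'.hex ⟨k, h⟩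
  have nc : ∀ {u}, u ≠ 0 → ∀ g, ¬ Cm φ (cj g (φ (br f₂ u u))) := fun hu =>
    not_cm34 (by rwa [k₂]) hu (dl_ne_zero hf hu)
  obtain ⟨u, u', H'⟩ := O'.C.exists_hp
  obtain ⟨t, t1, t2, t3⟩ := exists_v O'.C h2 H'
  obtain ⟨e₁, he₁, ee₁⟩ := mem_matrixSet.1 (O'.eo_mem H'.xx t1)
  obtain ⟨v, a1, a2, a3⟩ := exists_v O.C h2 H
  obtain ⟨w, b1, b2, b3, b4⟩ := exists_ns' hf h2 k₂.ge H a1 a2 a3
  have hW : ∀ a : F × F, f₂ (a.1 • v + a.2 • w) x = 0 ∧ f₂ (a.1 • v + a.2 • w) y = 0 := fun a => by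
    simp [hf.add_left, hf.smul_left, a1, a2, b1, b2]
  have hi : ∀ a : F × F, a ≠ 0 → a.1 • v + a.2 • w ≠ 0 := fun a ha h => ha (by
    have c1 := congrArg (f₂ · v) h
    have c2 := congrArg (f₂ · w) h
    simp [hf.add_left, hf.smul_left, hf.zero_left, a3, b3, b4, sym hf v w] at c1 c2
    exact Prod.ext c1 c2)
  choose e he ee using fun a => O.eo_mem H.xx (hW a).1
  replace ee : ∀ a, (e a : Matrix β β F) = eo f₂ x (a.1 • v + a.2 • w) := ee
  have nc' : ∀ g a, a ≠ 0 → ¬ Cm φ (cj g (φ (e a))) := fun g a ha h => nc (H.ne hf) g (by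
    have c := h.sub Cm.one
    rw [ee, ← map_one (cj g), ← map_one φ, ← map_sub, ← map_sub] at c
    rw [TOD.n_eq hf H (hW a).1 fun h => hi a ha (O.an x y H _ (hW a).1 (hW a).2 h), map_smul,
      map_smul, map_mul, map_mul]
    exact (c.mul c).smul _)
  have key : ∀ g ∈ M, ∀ a, a ≠ 0 → g⁻¹ * gφ φ (e a) * g ∈ KB φ →
      (∀ w, f₂ w x = 0 → cj g⁻¹ (φ (eo f₂ x w)) ∈ φ.range) ∧ ∃ g₁ ∈ M, Mov φ g₁ x x ∧
        g₁⁻¹ * g ∈ KB φ := fun g hg a ha h1 =>
    rng A O hL H hg (hW a).1 (hW a).2 (hi a ha) (ee a ▸ (tri_o A O hL H (M.inv_mem hg) (hW a).1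
      (hW a).2 (ee a) (by rwa [inv_inv])).resolve_right (nc' _ a ha))
  have hS : Subgroup.closure {gφ ψ e₁} ≤ CG φ := (Subgroup.closure_le _).2 (by
    rintro _ rfl; exact P.cm _)
  have hn : ∀ {ζ}, Cm φ ζ → ∀ {u : GL ι F}, (u : Matrix ι ι F) = 1 + ζ * φ (br f₂ x x) →
      ∀ {d}, Cm φ d → cj u (d * φ s) = d * φ s := fun hζ u hu d hd => by
    rw [cj_eq_iff, hu, add_mul, mul_add, mul_assoc, mul_assoc d _ (_ * _), hd.left, hζ.left,
      ← map_mul, ← map_mul, s1, s2]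
    simp
  obtain ⟨z, hz⟩ := h (F × F) (fun a => gφ φ (e a)) (fun a b => by
      rw [← map_mul]; congr 1
      exact Units.ext (by
        rw [Units.val_mul, ee, ee, ee, eo_mul hf h2 H.xx (hW a).1 (hW b).1, Prod.fst_add,
          Prod.snd_add, add_smul, add_smul, add_add_add_comm]))
    (fun a => A.sub _ (he a)) (fun a => gφ_mem_KB _)
    (fun h => nc' 1 1 one_ne_zero (by rw [cj_one]; exact h 1))
    (fun g hg a ha h1 a' => conj_mem_KB (Or.inl (ee a' ▸ (key g hg a ha h1).1 _ (hW a').1)))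
    (Subgroup.closure {gφ ψ e₁}) ((Subgroup.closure_le _).2 (by
      rintro _ rfl; exact A'.sub _ he₁)) (fun u hu => mem_KB_of_cm (hS hu))
    (isPGroup_closure (by rintro _ rfl _ rfl; rfl) (by
      rintro _ rfl
      rw [← map_pow, show e₁ ^ ringChar F = 1 from Units.ext (by
        rw [Units.val_pow_eq_pow_val, ee₁, eo_pow hf' h2 H'.xx t1, ringChar.Nat.cast_ringChar,
          zero_smul, eo_zero hf', Units.val_one]), map_one]))
    (fun u hu a => Units.ext (hS hu (e a)).symm) (fun g hg h1 _ h4 => by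
      obtain ⟨g₁, c1, c2, c3⟩ := (key g hg 1 one_ne_zero (h1 1)).2
      have := fix34 A A' O O' P k hL H H' t1 t2 t3 he₁ ee₁ c1 c2 (by
        have := mul_mem (mul_mem c3 (h4 _ (Subgroup.subset_closure rfl))) (inv_mem c3)
        simpa [mul_assoc] using this)
      simpa using mul_mem this c3) (c * φ s)
    (fun a => by rw [hc.cj_gφ_mul, (cj_eq_iff _ _ _).2 (ee a ▸ s3 _ (hW a).1)])
    (fun g hg h1 => (nc' _ 1 one_ne_zero (h1 1)).elim) fun g hg h1 _ => by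
      obtain ⟨g₁, c1, c2, c3⟩ := (key g hg 1 one_ne_zero (h1 1)).2
      obtain ⟨ζ, l, hl, d1, -, d2⟩ := bdec A O hL H c1 c2
      have e1 : ((g₁ * l⁻¹ : GL ι F) : Matrix ι ι F) = 1 + ζ * φ (br f₂ x x) := by
        rw [Units.val_mul, d2, Units.mul_inv_cancel_right]
      obtain ⟨a, ha⟩ := hc.exists_ptr
      have e2 := hn d1 e1 hc
      have e3 := hn d1 e1 (Cm.one.smul a)
      rw [show g = g₁ * l⁻¹ * (l * (g₁⁻¹ * g)) by group, piG_mul_KB _ (mul_mem hl c3), piG_apply]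
      nth_rewrite 1 [← e2]
      rw [cj_inv_cj, ha, map_smul]
      simpa using e3
  rw [dfc_apply, hz, nrm_zero hf h2 h3 H.xx a1 b1 ee]

omit A A' O' P k hL in
theorem OS.mem_of_traceless {Z : Submodule F (Matrix β β F)}
    (h1 : ∀ u w, f₂ u u = 0 → f₂ w u = 0 → Nv f₂ u w ∈ Z) (h3 : ∀ u, f₂ u u = 0 → br f₂ u u ∈ Z)
    {s : Matrix β β F} (hs : s.trace = 0) : s ∈ Z := by
  have hf := O.C.ses
  refine mem_of_ann (fun s hs => ?_) hs
  obtain ⟨a, ha⟩ := adj_eq O.C O.two O.hex (s := s) fun x hx => by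
    rw [← trace_mul_br hf]; exact hs _ (h3 x hx)
  have e : adj (RingEquiv.refl F) f₂ s = s := eq_of_trace_mul fun b => by
    have := hs _ (O.skew_span h1 (s := b - adj (RingEquiv.refl F) f₂ b)
      (by rw [hf.adj_sub, hf.adj_adj, neg_sub]))
    rw [mul_sub, trace_sub, sub_eq_zero] at this
    have k := hf.trace_adj (b * adj (RingEquiv.refl F) f₂ s)
    rw [hf.adj_mul, hf.adj_adj, RingEquiv.refl_apply] at k
    rw [this, k, trace_mul_comm]
  rw [e, eq_sub_iff_add_eq, ← two_smul F] at ha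
  exact Sc.of_smul O.two ⟨a, ha⟩

theorem le_KB34 (k₂ : Fintype.card β = 4) (hn : Fintype.card ι < 16) : M ≤ KB φ := by
  obtain ⟨Pi, hP, main⟩ := exists_Pi34 A A' O O' P k hL k₂ hn
  have hf := A.C.ses
  have h2 := O.two
  have := A.C.nonempty
  suffices h0 : ∀ c, Cm φ c → ∀ s : Matrix β β F, s.trace = 0 → dfc φ Pi c s = 0 by
    intro g hg
    have : AG φ g = ⊤ := A.C.top_of_br fun u u0 hu => mem_AG.2
      ((range_or_cm_of_dfc (S := (G : Set (GL β F))) A.C.irr A.sub hP h0 (Or.inl h2)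
        (by rw [dl_dot hf, hu]) hg).resolve_right
        (not_cm34 (by rwa [k₂]) u0 (dl_ne_zero hf u0) g))
    exact mem_KB_of fun b => mem_AG.1 (this ▸ Algebra.mem_top)
  refine fun c hc s hs => LinearMap.mem_ker.1
    (O.mem_of_traceless (fun x w hx hw => ?_) (fun x hx => ?_) hs)
  all_goals
    by_cases h0 : x = 0
    · simp [h0, Nv, br_zero_left, br_zero_right hf]
    obtain ⟨y, H⟩ := A.C.partner h0 hx
  · rw [LinearMap.mem_ker]
    refine main c hc x y H _ (n_mul_Nv hf hx hw) (Nv_mul_n hf hx hw) fun v hv => ?_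
    have n : f₂ (-w) x = 0 := by rw [hf.neg_left, hw, neg_zero]
    rw [Nv_eq hf h2, mul_smul_comm, smul_mul_assoc, mul_sub, sub_mul, eo_mul hf h2 hx hv hw,
      eo_mul hf h2 hx hw hv, add_comm, eo_mul hf h2 hx hv n, eo_mul hf h2 hx n hv, add_comm (-w)]
  · have nn : br f₂ x x * br f₂ x x = 0 := by rw [br_mul_br hf, hx, zero_smul]
    rw [LinearMap.mem_ker]
    exact main c hc x y H _ nn nn fun v hv => by
      simp [eo_eq, add_mul, sub_mul, mul_add, mul_sub, Nv_mul_n hf hx hv, n_mul_Nv hf hx hv]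

end Cfsg.Agent.H9

namespace Cfsg.Agent.H9

open scoped MatrixGroups Matrix
open Matrix Cfsg.Geo Cfsg.Agent.H98

/-- An orthogonal space of dimension three times one of dimension four and minus type. -/
theorem isMaximalIn_om_tensor_o34 {ι : Type} [Fintype ι] [DecidableEq ι] {F : Type*} [Field F]
    [Fintype F] {Q : (ι → F) → F} (hQ : IsNondegenerateQuadraticForm Q) (h2 : (2 : F) ≠ 0)
    (hex : Fintype.card F ≠ 3) {e : ι ≃ Fin 3 × Fin 4} {P : GL ι F}
    {f₁ : (Fin 3 → F) → (Fin 3 → F) → F} {f₂ : (Fin 4 → F) → (Fin 4 → F) → F}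
    (hf₁ : IsSymmetricForm f₁) (hf₂ : IsSymmetricForm f₂)
    (h4 : ¬ IsPlusTypeOn (fun v => f₂ v v) ⊤)
    (hT : IsTensorFormStructure id (QuadraticMap.polar Q) f₁ f₂ e P) :
    IsMaximalIn (omegaGL Q) (tensorProductSubgroup 3 4 e P ⊓ omegaGL Q) := by
  have hn := card_of_tensor e
  refine isMaximalIn_inf (by
    obtain ⟨Q, rfl, h⟩ := H11.exists_qf hQ
    exact h.not_le_tensor h2 le_rfl (by omega) hf₁ hf₂ hT) fun M hH hM => ?_
  have : Nonempty ι := Fintype.card_pos_iff.1 (by omega)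
  have B := amG_om hQ h2 (by omega)
  have s1 := isSesq_of_symmetric hf₁
  have s2 := isSesq_of_symmetric hf₂
  have aL := adj_φL B.hf s1 s2 hT
  have aR := adj_φR B.hf s1 s2 hT
  have hL : ∀ x, gφ (φL e P) x ∈ omegaGL Q → gφ (φL e P) x ∈ M := fun x hx => hH ⟨gφL_mem x, hx⟩
  have hR : ∀ x, gφ (φR e P) x ∈ omegaGL Q → gφ (φR e P) x ∈ M := fun x hx => hH ⟨gφR_mem x, hx⟩
  have A := B.amb aR hM hR (B.cl_o s2 h2 (by simp) aR hR) fun h hh => hh.2
  have A' := B.amb aL hM hL (B.cl_o s1 h2 (by simp) aL hL) fun h hh => hh.2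
  have O : OS f₂ _ := ⟨A.C, h2, by simp, h4_of_minus s2 (fun _ => h4) h2 (by simp), by simp,
    fun b => B.ms_unip s2 aR hR⟩
  have O' : OS f₁ _ := ⟨A'.C, h2, by simp, an_of_three A'.C h2 (by simp), by simpa using hex,
    fun b => B.ms_unip s1 aL hL⟩
  have PR := pair_R e P (by omega)
  exact (A.C.loc_or fun x y H h => gen34 A A' O O' PR (pair_L e P (by omega)) (by simp)
    (B.hasGen A' hM (Or.inl (by simp [hn]))) H h).imp_left fun h => le_tensor_R (by omega) (by omega)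
      (le_KB34 A A' O O' PR (by simp) h (by simp) (by omega))

end Cfsg.Agent.H9
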