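import Cfsg.Agent.H9.TC7o

/-! The tensor product of orthogonal spaces of dimensions three and four: the local step. -/

set_option autoImplicit false
set_option linter.unusedSectionVars false
set_option linter.unusedVariables false
set_option linter.unusedSimpArgs false

namespace Cfsg.Agent.H9

open scoped MatrixGroups Matrix
open Matrix Cfsg.Geo Cfsg.Agent.H98 PasO

universe u

variable {ι α β : Type} [Fintype ι] [DecidableEq ι] [Fintype α] [DecidableEq α] [Fintype β]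
  [DecidableEq β] {F : Type u} [Field F]

theorem exists_fix (J : AddSubgroup (Matrix ι ι F)) {e : GL ι F}
    (hn : IsNilpotent ((e : Matrix ι ι F) - 1)) (hJ : ∀ z ∈ J, cj e z ∈ J) {z : Matrix ι ι F}
    (hz : z ∈ J) (h0 : z ≠ 0) : ∃ w ∈ J, w ≠ 0 ∧ cj e w = w := by
  obtain ⟨m, hm⟩ := (LinearMap.commute_mulLeft_right (R := F) ((e : Matrix ι ι F) - 1)
    ((e : Matrix ι ι F) - 1)).isNilpotent_sub ((LinearMap.isNilpotent_mulLeft_iff F _).2 hn)
    ((LinearMap.isNilpotent_mulRight_iff F _).2 hn)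
  have c : Commute (LinearMap.mulRight F ((e⁻¹ : GL ι F) : Matrix ι ι F))
      (LinearMap.mulLeft F ((e : Matrix ι ι F) - 1) - LinearMap.mulRight F ((e : Matrix ι ι F) - 1)) := by
    ext1 z
    simp [mul_sub, sub_mul, mul_assoc]
  obtain ⟨w, hw, w0, h⟩ := common_ker (Finset.univ : Finset Unit)
    (fun _ => (cjL e - 1 : Module.End F (Matrix ι ι F)).toAddMonoidHom) (fun _ _ _ _ _ => rfl)
    (fun _ _ => ⟨m, fun z => by
      rw [LinearMap.toAddMonoidHom_coe, ← Module.End.pow_apply, show cjL e - 1 = _ * _ from ?_,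
        c.mul_pow, hm, mul_zero, LinearMap.zero_apply]
      ext1 z
      simp [cj_apply, mul_sub, sub_mul, mul_assoc]⟩) J
    (fun _ _ z hz => sub_mem (hJ z hz) hz) hz h0
  exact ⟨w, hw, w0, sub_eq_zero.1 (h () (Finset.mem_univ _))⟩

variable [Finite F] [Nonempty ι] {M K : Subgroup (GL ι F)} {ε : F} {f : (ι → F) → (ι → F) → F}
  {f₁ : (α → F) → (α → F) → F} {f₂ : (β → F) → (β → F) → F} {x y : β → F}
  {φ : Matrix β β F →ₐ[F] Matrix ι ι F} {ψ : Matrix α α F →ₐ[F] Matrix ι ι F}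
  {G : Subgroup (GL β F)} {G₁ : Subgroup (GL α F)}

theorem OS.eq_Nv (O : OS f₁ G₁) (k : Fintype.card α = 3) {u u' v : α → F} (H : HP f₁ u u')
    (h1 : f₁ v u = 0) (h2 : f₁ v u' = 0) (h3 : f₁ v v ≠ 0) {s : Matrix α α F}
    (hs : adj (RingEquiv.refl F) f₁ s = -s) (h : s * eo f₁ u v = eo f₁ u v * s) :
    ∃ w, f₁ w u = 0 ∧ f₁ w u' = 0 ∧ s = Nv f₁ u w := by
  have hf := O.C.ses
  obtain ⟨c, b, w, w1, w2, e⟩ := O.cent H (s := s) fun w a1 a2 => by
    obtain ⟨t, rfl⟩ := eq_smul_of_three hf (by omega) H h1 h2 h3 a1 a2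
    have c1 : Commute s (eo f₁ u v - 1) := (show Commute s _ from h).sub_right (Commute.one_right s)
    rw [Nv_smul hf, TOD.Nv_eq hf H O.two h1]
    exact ((c1.sub_right ((c1.mul_right c1).smul_right _)).smul_right _).eq
  refine ⟨w, w1, w2, smul_right_injective _ O.two ?_⟩
  conv_lhs at hs => rw [e]
  simp only [hf.adj_add, hf.adj_smul, hf.adj_one, TOB.adj_Nv hf, adj_br hf, one_smul,
    RingEquiv.refl_apply] at hs
  simp only [two_smul]
  linear_combination (norm := abel) e + hs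

variable (A : Amb φ M G (RingEquiv.refl F) ε f 1 f₂) (A' : Amb ψ M G₁ (RingEquiv.refl F) ε f 1 f₁)
  (O : OS f₂ G) (O' : OS f₁ G₁) (P : Pair φ ψ) (P' : Pair ψ φ)
include A A' O O' P P'

theorem jj_ne34 (H : HP f₂ x y) (h : ¬ Loc φ M x) : ∃ j, JJ φ M f₂ x j ∧ j ≠ 0 := by
  by_contra hJ
  push Not at hJ
  have hf := A.C.ses
  have hf' := A'.C.ses
  have h2 := O.two
  have D := H.ad hf
  obtain ⟨ρ, hρ, w, hw, hn⟩ := (A.nc H h).resolve_right fun ⟨j, h1, h3⟩ => h3 (hJ j h1 ▸ Sc.zero)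
  obtain ⟨v, v1, v2, e⟩ := GO.decomp hf H w
  have e0 : cf φ (dl f₂ y) ρ x = 0 := by
    have := cf_mul_phi (φ := φ) (dl f₂ y) (br f₂ x y) ρ x
    rwa [br, Rho.mul_a D.Ea hρ, cf_zero, ← br, br_mulVec hf, H.xy, one_smul, eq_comm] at this
  rw [e, hw, zero_smul, add_zero, cf_add_right, cf_smul_right, e0, smul_zero, add_zero] at hn
  have v4 := hf.eq_zero_comm.1 v1
  have v5 := hf.eq_zero_comm.1 v2
  have s : ∀ u, ρ * φ (br f₂ v u) = cf φ (dl f₂ y) ρ v * φ (br f₂ x u) := fun u => by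
    rw [br, br, ← sandwich, show φ (vecMulVec x (dl f₂ y)) * ρ = ρ from Rho.a_mul hρ]
  have hc := cf_cm (φ := φ) (dl f₂ y) ρ v
  let R : Submodule F (Matrix ι ι F) :=
    { carrier := Rho M (φ (br f₂ x y)) (φ (pr f₂ 1 x y))
      add_mem' := add_mem
      zero_mem' := zero_mem _
      smul_mem' := fun c _ h => A.rho_smul_o h2 H c h }
  have hR : ∀ g ∈ G₁, ∀ z ∈ R, cj (gφ ψ g) z ∈ R := fun g hg z hz => by
    have := Rho.cj (A'.sub g hg) hz
    rwa [(P'.cm _).cj_gφ, (P'.cm _).cj_gφ] at this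
  have := A.C.nonempty
  have c2 : adj (RingEquiv.refl F) f (cf φ (dl f₂ y) ρ v) = cf φ (dl f₂ y) ρ v := by
    have k1 := A.h0 H v4 v5
    have k0 := hρ
    rw [A.hp] at k0 k1
    have := (A.pd H).comm_mem A.hf A.iso k0 k1
    have k2 : φ (br f₂ x v) * adj (RingEquiv.refl F) f ρ -
        ρ * adj (RingEquiv.refl F) f (φ (br f₂ x v)) =
        (adj (RingEquiv.refl F) f (cf φ (dl f₂ y) ρ v) - cf φ (dl f₂ y) ρ v) * φ (br f₂ x x) := by
      rw [A.adj_br, one_smul, s, show φ (br f₂ x v) * adj (RingEquiv.refl F) f ρ =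
        adj (RingEquiv.refl F) f (ρ * φ (br f₂ v x)) by rw [A.hf.adj_mul, A.adj_br, one_smul], s,
        A.hf.adj_mul, A.adj_br, one_smul, A.cm_adj hc, ← sub_mul]
    rw [k2] at this
    exact sub_eq_zero.1 (hJ _ (A.jj_of_zed H ((A.cm_adj hc).sub hc) this))
  obtain ⟨t, ht⟩ := P.rg _ hc
  replace ht : ψ t = cf φ (dl f₂ y) ρ v := ht
  obtain ⟨u, hu, hu'⟩ : ∃ z, f₁ z z = 0 ∧ f₁ (t *ᵥ z) z ≠ 0 := by
    by_contra hz
    push Not at hz
    obtain ⟨a, e⟩ := adj_eq O'.C h2 O'.hex hz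
    rw [phi_injective (φ := ψ) (show ψ (adj (RingEquiv.refl F) f₁ t) = ψ t by
      rw [← A'.adjφ, ht, c2]), eq_sub_iff_add_eq, ← two_smul F] at e
    exact hn (ht ▸ Sc.phi (Sc.of_smul h2 ⟨a, e⟩))
  have u0 : u ≠ 0 := by rintro rfl; exact hu' (hf'.zero_right _)
  obtain ⟨T, hT, e1⟩ := opE1 O'.C h2 O'.hex hu u0
  obtain ⟨ρ', hρ', e2⟩ := exists_tens hT hR (z := ρ) hρ
  have r0 : ρ' ≠ 0 := by
    rintro rfl
    obtain ⟨ℓ, hℓ⟩ := not_forall.1 fun h => one_ne_zero (α := Matrix ι ι F)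
      ((Module.forall_dual_apply_eq_zero_iff F _).1 h)
    have := e2 (ℓ ∘ₗ cfL φ (dl f₂ y) v)
    rw [map_zero, show cp ψ (ℓ ∘ₗ cfL φ (dl f₂ y) v) ρ = cp ψ ℓ (cf φ (dl f₂ y) ρ v) by
      ext a b
      exact congrArg ℓ ((cf_sum _ _ _ _).trans (Finset.sum_congr rfl fun k _ => by
        rw [(P'.cm _).mul_cf, (P'.cm _).cf_mul])).symm, ← ht, ← one_mul (ψ t), Cm.one.cp_mul_phi,
      map_smul, e1] at this
    exact smul_ne_zero hℓ (smul_ne_zero hu' (br_ne_zero hf' u0 u0)) this.symm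
  obtain ⟨p, q, r, e3⟩ := pure_of_cp (φ := ψ) (w := ρ') (br_ne_zero hf' u0 u0) fun ℓ =>
    ⟨_, by rw [e2, e1]⟩
  obtain ⟨b, hb⟩ := P'.rg _ ((cf_cm (φ := ψ) (bv F p) ρ' (bv F q)).smul r)
  rw [← show φ b = _ from hb, P.cm] at e3
  have n0 : ψ (br f₁ u u) ≠ 0 := fun h =>
    br_ne_zero hf' u0 u0 (phi_injective (φ := ψ) (h.trans (map_zero _).symm))
  have canc : ∀ {b b'}, ψ (br f₁ u u) * φ b = ψ (br f₁ u u) * φ b' → b = b' :=
    fun {b b'} e => by_contra fun h => n0 ((P.cm _).eq_zero_of_mul (sub_ne_zero.2 h)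
      (by rw [map_sub, mul_sub, e, sub_self]))
  have b1 : br f₂ x (adj (RingEquiv.refl F) f₂ b *ᵥ y) = b := canc (by
    rw [← br_mul hf, map_mul, ← (P.cm _).left, ← e3]; exact Rho.a_mul hρ')
  have b2 : b * (pr f₂ 1 x y - br f₂ x y) = b := canc (by
    rw [map_mul, ← mul_assoc, ← e3]; exact D.rho_mul hρ')
  generalize adj (RingEquiv.refl F) f₂ b *ᵥ y = v' at b1
  subst b1
  have b3 : f₂ x v' = 0 := by
    have := congrArg (· *ᵥ x) b2
    simp only [← mulVec_mulVec, sub_mulVec, pr_fix hf H.xx, br_mulVec hf, H.xy, one_smul, sub_self,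
      hf.zero_left, zero_smul] at this
    exact (smul_eq_zero.1 this.symm).resolve_right (H.ne hf)
  have b4 : f₂ y v' = 0 := by
    have := congrArg (· *ᵥ y) b2
    simp only [← mulVec_mulVec, sub_mulVec, H.pr_y hf, br_mulVec hf, H.yy, one_smul, sub_self,
      hf.zero_left, zero_smul] at this
    exact (smul_eq_zero.1 this.symm).resolve_right (H.ne hf)
  have b5 : f₂ v' v' ≠ 0 := fun h0 => r0 (by
    rw [e3, O.an x y H v' (hf.eq_zero_comm.1 b3) (hf.eq_zero_comm.1 b4) h0, br_zero_right hf,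
      map_zero, mul_zero])
  obtain ⟨u', H'⟩ := O'.C.partner u0 hu
  obtain ⟨g, hg, a, ha, e4⟩ := O'.C.trans hu H'.yy u0 (H'.ne' hf')
  have k1 := hR g hg _ hρ'
  rw [e3, map_mul, (P'.cm _).cj_gφ, cj_gφ, cj_br hf' (O'.C.le hg), e4] at k1
  have k2 := TOL.comm A H hJ b3 b4 b5 (P.cm _) (P.cm _) (e3 ▸ hρ') k1
  rw [← map_mul, ← map_mul] at k2
  have k3 := congrArg (· *ᵥ u) (phi_injective k2)
  simp only [← mulVec_mulVec, br_mulVec hf', hu, zero_smul, mulVec_zero, hf'.smul_left,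
    hf'.smul_right, H'.xy, H'.yx hf', RingEquiv.refl_apply, mul_one, hf'.zero_left] at k3
  exact smul_ne_zero (mul_ne_zero ha ha) u0 (by simpa using k3)

theorem gen34 (k : Fintype.card α = 3) (hG : HasGen ψ M K (RingEquiv.refl F) f f₁) (H : HP f₂ x y)
    (h : ¬ Loc φ M x) : K ≤ M := by
  obtain ⟨j, hj, j0⟩ := jj_ne34 A A' O O' P P' H h
  have hf := A.C.ses
  have hf' := A'.C.ses
  obtain ⟨u, u', H'⟩ := O'.C.exists_hp
  obtain ⟨v, v1, v2, v3⟩ := exists_v O'.C O.two H'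
  obtain ⟨e, he, ee⟩ := mem_matrixSet.1 (O'.eo_mem H'.xx v1)
  obtain ⟨ζ, hζ, z0, hz⟩ := exists_fix
    { carrier := {j | JJ φ M f₂ x j}
      add_mem' := A.jj_add H.xx
      zero_mem' := A.jj_zero
      neg_mem' := A.jj_neg H.xx } (e := gφ ψ e)
    ⟨3, by rw [coe_gφ, ← map_one ψ, ← map_sub, ← map_pow, ee, eo, elm_sub_one_cube hf' H'.xx v1,
      map_zero]⟩ (fun z hz => by
      have := A.jj_cj (A'.sub e he) (φ' := φ) (x' := x) (c := 1)
        (by rw [(P'.cm _).cj_gφ, one_smul]) hz (hz.1.cj (mem_KB_of_cm (P.cm _)))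
      rwa [one_smul] at this) hj j0
  obtain ⟨s, rfl⟩ := P.rg ζ hζ.1
  replace hζ : JJ φ M f₂ x (ψ s) := hζ
  replace z0 : ψ s ≠ 0 := z0
  obtain ⟨w, w1, w2, rfl⟩ := O'.eq_Nv k H' v1 v2 v3 (s := s) (phi_injective (φ := ψ) (by
    rw [← A'.adjφ, A.jj_adj H.xx (H.ne hf) hζ, one_smul, map_neg]))
    (ee ▸ ((cj_eq_iff _ _ _).1 (phi_injective (φ := ψ) ((cj_gφ _ _).symm.trans hz))).symm)
  obtain ⟨c, hc, hn⟩ := A'.lev_of_nil O.two H' w1 w2 (fun h0 => z0 (by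
      rw [O'.an u u' H' w w1 w2 h0, Nv, br_zero_left, br_zero_right hf', sub_self, map_zero]))
    (P'.cm (br f₂ x x)) (fun h => br_ne_zero hf (H.ne hf) (H.ne hf)
      (phi_injective (φ := φ) (h.trans (map_zero _).symm)))
    (by rw [← map_mul, br_mul_br hf, H.xx, zero_smul, map_zero]) (by rw [P.cm]; exact hζ.2)
  exact (A'.fullQ_of_aa k.ge H' fun z hz => A'.aa_of_lev H' (P'.lev_all
    (simp_o O.C O.two O.hex fun _ => O.an) A.sub hc hn z hz)).elim (hG u u' H')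

end Cfsg.Agent.H9
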