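import Cfsg.Agent.H9.TODef

/-! Small orthogonal spaces: matrices. Sketch: notes/TENS.md, Batch 3. -/

set_option autoImplicit false
set_option linter.unusedSectionVars false
set_option linter.unusedVariables false
set_option linter.unusedSimpArgs false

namespace Cfsg.Agent.H9

open scoped MatrixGroups Matrix
open Matrix Cfsg.Geo Cfsg.Agent.H98

universe u

variable {ι β τ : Type} [Fintype ι] [DecidableEq ι] [Fintype β] [DecidableEq β] [Fintype τ]
  [DecidableEq τ] {F : Type u} [Field F]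

namespace TOB

variable [Finite F] {f : (β → F) → (β → F) → F} (hf : IsSesq (RingEquiv.refl F) 1 f) {x y : β → F}
include hf

theorem ext (H : HP f x y) {a b : Matrix β β F} (h1 : a *ᵥ x = b *ᵥ x) (h2 : a *ᵥ y = b *ᵥ y)
    (h3 : ∀ w, f w x = 0 → f w y = 0 → a *ᵥ w = b *ᵥ w) : a = b :=
  matrix_ext_mulVec fun w => by
    obtain ⟨w0, a1, a2, e⟩ := GO.decomp hf H w
    rw [e]
    simp only [mulVec_add, mulVec_smul, h1, h2, h3 w0 a1 a2]

theorem Nv_mulVec (u w z : β → F) : PasO.Nv f u w *ᵥ z = f z w • u - f z u • w := by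
  rw [PasO.Nv, sub_mulVec, br_mulVec hf, br_mulVec hf]

theorem adj_Nv (u w : β → F) : adj (RingEquiv.refl F) f (PasO.Nv f u w) = -PasO.Nv f u w := by
  rw [PasO.Nv, hf.adj_sub, adj_br hf, adj_br hf, one_smul, one_smul, neg_sub]

omit hf in
theorem Nv_swap (u w : β → F) : PasO.Nv f u w = -PasO.Nv f w u := by rw [PasO.Nv, PasO.Nv, neg_sub]

theorem Nv_smul_left (u w : β → F) (c : F) : PasO.Nv f (c • u) w = c • PasO.Nv f u w := by
  rw [Nv_swap, PasO.Nv_smul hf, Nv_swap w, smul_neg, neg_neg]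

theorem skew_f {a : Matrix β β F} (ha : adj (RingEquiv.refl F) f a = -a) (u v : β → F) :
    f (a *ᵥ u) v = -f u (a *ᵥ v) := by
  rw [hf.adj_spec, ha, neg_mulVec, hf.neg_right]

theorem skew_self (h2 : (2 : F) ≠ 0) {a : Matrix β β F} (ha : adj (RingEquiv.refl F) f a = -a)
    (u : β → F) : f (a *ᵥ u) u = 0 := by
  have := skew_f hf ha u u
  rw [PasO.sym hf u, eq_neg_iff_add_eq_zero, ← two_mul] at this
  exact (mul_eq_zero.1 this).resolve_left h2

theorem lie_Nv {a : Matrix β β F} (ha : adj (RingEquiv.refl F) f a = -a) (u w : β → F) :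
    a * PasO.Nv f u w - PasO.Nv f u w * a = PasO.Nv f (a *ᵥ u) w + PasO.Nv f u (a *ᵥ w) := by
  simp only [PasO.Nv, mul_sub, sub_mul, mul_br, br_mul hf, ha, neg_mulVec, br_neg_right hf]
  abel

theorem eq_zero_of_four (hk : Fintype.card β ≤ 4) {v v' w : β → F} (H : HP f x y) (hx : f v x = 0)
    (hy : f v y = 0) (hv : f v v ≠ 0) (hx' : f v' x = 0) (hy' : f v' y = 0) (hv' : f v' v = 0)
    (hv'' : f v' v' ≠ 0) (h1 : f w x = 0) (h3 : f w y = 0) (h4 : f w v = 0) (h5 : f w v' = 0) :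
    w = 0 := by
  by_contra h0
  have : LinearIndependent F ![x, y, v, v', w] := by
    rw [Fintype.linearIndependent_iff]
    intro g hg
    simp only [Fin.sum_univ_five, Matrix.cons_val] at hg
    have e1 := congrArg (fun t => f t y) hg
    have e2 := congrArg (fun t => f t x) hg
    have e3 := congrArg (fun t => f t v) hg
    have e4 := congrArg (fun t => f t v') hg
    simp only [hf.add_left, hf.smul_left, hf.zero_left, H.xx, H.yy, H.xy, (GO.hp_symm hf H).xy, hx, hy,
      hx', hy', hv', h1, h3, h4, h5, PasO.sym hf x v, PasO.sym hf y v, PasO.sym hf x v',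
      PasO.sym hf y v', PasO.sym hf v v', mul_zero, add_zero, zero_add, mul_one, mul_eq_zero, hv, hv'',
      or_false] at e1 e2 e3 e4
    rw [e1, e2, e3, e4] at hg
    have e5 : g 4 = 0 := by simpa [h0] using hg
    intro i; fin_cases i <;> assumption
  have := this.fintype_card_le_finrank
  simp at this
  omega

end TOB

open TOB

variable [Finite F] {f : (β → F) → (β → F) → F} {G : Subgroup (GL β F)} (O : OS f G) {x y : β → F}
include O

theorem OS.cent (H : HP f x y) {s : Matrix β β F}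
    (h : ∀ v, f v x = 0 → f v y = 0 → s * PasO.Nv f x v = PasO.Nv f x v * s) :
    ∃ (a b : F) (w : β → F), f w x = 0 ∧ f w y = 0 ∧
      s = a • (1 : Matrix β β F) + PasO.Nv f x w + b • br f x x := by
  have hf := O.C.ses
  obtain ⟨w0, a1, a2, e⟩ := GO.decomp hf H (s *ᵥ y)
  have n1 : f (-w0) x = 0 := by rw [hf.neg_left, a1, neg_zero]
  have n2 : f (-w0) y = 0 := by rw [hf.neg_left, a2, neg_zero]
  refine ⟨f (s *ᵥ y) x, f (s *ᵥ y) y, -w0, n1, n2, sub_eq_zero.1 ?_⟩
  generalize hT : s - (f (s *ᵥ y) x • (1 : Matrix β β F) + PasO.Nv f x (-w0) +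
    f (s *ᵥ y) y • br f x x) = T
  have k1 : ∀ v, f v x = 0 → f v y = 0 → T * PasO.Nv f x v = PasO.Nv f x v * T := fun v v1 v2 => by
    simp only [← hT, sub_mul, mul_sub, add_mul, mul_add, smul_mul_assoc, mul_smul_comm, one_mul,
      mul_one, h v v1 v2, PasO.Nv_mul hf H.xx n1 v1, PasO.Nv_mul hf H.xx v1 n1,
      PasO.Nv_mul_n hf H.xx v1, PasO.n_mul_Nv hf H.xx v1, PasO.sym hf v (-w0)]
  have k2 : T *ᵥ y = 0 := by
    simp only [← hT, sub_mulVec, add_mulVec, smul_mulVec, one_mulVec, Nv_mulVec hf, br_mulVec hf,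
      PasO.sym hf y (-w0), n2, (GO.hp_symm hf H).xy]
    conv_lhs => enter [1]; rw [e]
    module
  have k3 : ∀ v, f v x = 0 → f v y = 0 → T *ᵥ v = 0 := fun v v1 v2 => by
    have := congrArg (· *ᵥ y) (k1 v v1 v2)
    simp only [← mulVec_mulVec, k2, mulVec_zero, Nv_mulVec hf, PasO.sym hf y v, v2,
      (GO.hp_symm hf H).xy] at this
    simpa [mulVec_neg, hf.zero_left] using this
  obtain ⟨v, v1, v2, v3⟩ := PasO.exists_v O.C O.two H
  have k4 : T *ᵥ x = 0 := by
    have := congrArg (· *ᵥ v) (k1 v v1 v2)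
    simp only [← mulVec_mulVec, k3 v v1 v2, mulVec_zero, Nv_mulVec hf, v1, zero_smul, sub_zero,
      mulVec_smul, hf.zero_left] at this
    exact (smul_eq_zero.1 this).resolve_left v3
  exact ext hf H (by rw [k4, zero_mulVec]) (by rw [k2, zero_mulVec]) fun w w1 w2 => by
    rw [k3 w w1 w2, zero_mulVec]

theorem OS.exists_h (H : HP f x y) : ∃ h ∈ G, ∃ μ ν : F, μ ≠ 0 ∧ ν ≠ μ ∧ ν ≠ μ⁻¹ ∧
    (h : Matrix β β F) *ᵥ x = μ • x ∧ (h : Matrix β β F) *ᵥ y = μ⁻¹ • y ∧
    ∀ w, f w x = 0 → f w y = 0 → (h : Matrix β β F) *ᵥ w = ν • w := by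
  have hf := O.C.ses
  have h2 := O.two
  rcases O.k with k | k
  · obtain ⟨a, ha, ha'⟩ := PasO.exists_sq_ne h2 fun h3 => O.hex ⟨k, h3⟩
    obtain ⟨h, hh, e1, e2, e3⟩ := tor_o O.C h2 H ha
    exact ⟨h, hh, a * a, 1, mul_ne_zero ha ha, ha'.symm, fun e => ha' (inv_eq_one.1 e.symm), e1, e2,
      fun w w1 w2 => by rw [e3 w w1 w2, one_smul]⟩
  obtain ⟨v, v1, v2, v3⟩ := PasO.exists_v O.C h2 H
  obtain ⟨v', w1, w2, w3, w4⟩ := PasO.exists_ns' hf h2 k.ge H v1 v2 v3
  obtain ⟨g, hg, a1, a2, a3⟩ := GO.exists_w h2 O.C H v1 v2 v3 one_ne_zero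
  obtain ⟨g', hg', b1, b2, b3⟩ := GO.exists_w h2 O.C H w1 w2 w4 one_ne_zero
  obtain ⟨h, hh, e⟩ := mem_matrixSet.1 (ms_mul hg' hg)
  have n : f v' v' + f v v ≠ 0 := fun h0 => v3 (by
    have := O.an x y H (v' + v) (by rw [hf.add_left, w1, v1, add_zero])
      (by rw [hf.add_left, w2, v2, add_zero])
      (by simp only [hf.add_left, hf.add_right, w3, PasO.sym hf v v']; linear_combination h0)
    have := congrArg (f · v) this
    simpa [hf.add_left, w3, hf.zero_left] using this)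
  refine ⟨h, hh, f v' v' / f v v, -1, div_ne_zero w4 v3, fun e => n ?_, fun e => n ?_, ?_, ?_,
    fun w c1 c2 => ?_⟩
  · field_simp at e; linear_combination -e
  · rw [inv_div] at e; field_simp at e; linear_combination -e
  · rw [e, ← mulVec_mulVec, a1, mulVec_smul, b2, smul_smul]; congr 1; field_simp
  · rw [e, ← mulVec_mulVec, a2, mulVec_smul, b1, smul_smul]; congr 1; field_simp
  · have := eq_zero_of_four hf k.le H v1 v2 v3 w1 w2 w3 w4
      (w := w - (f w v / f v v) • v - (f w v' / f v' v') • v')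
      (by simp [hf.sub_left, hf.smul_left, c1, v1, w1]) (by simp [hf.sub_left, hf.smul_left, c2, v2, w2])
      (by simp [hf.sub_left, hf.smul_left, w3, v3])
      (by simp [hf.sub_left, hf.smul_left, w3, w4, PasO.sym hf v v'])
    rw [e, ← mulVec_mulVec, a3 w c1 c2, mulVec_sub, mulVec_smul, b3 w c1 c2, b3 v v1 v2,
      PasO.sym hf v v', w3]
    linear_combination (norm := skip) (2 : F) • this
    match_scalars <;> ring

theorem OS.piW_mem (H : HP f x y) : 1 - br f x y - br f y x ∈ Algebra.adjoin F (StabS G x) := by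
  have hf := O.C.ses
  obtain ⟨h, hh, μ, ν, h0, n1, n2, e1, e2, e3⟩ := O.exists_h H
  have m : (h : Matrix β β F) ∈ Algebra.adjoin F (StabS G x) :=
    Algebra.subset_adjoin ⟨mem_matrixSet.2 ⟨h, hh, rfl⟩, μ, e1⟩
  have := Subalgebra.smul_mem _ (mul_mem (sub_mem m (Subalgebra.smul_mem _ (one_mem _) μ))
    (sub_mem m (Subalgebra.smul_mem _ (one_mem _) μ⁻¹))) ((ν - μ) * (ν - μ⁻¹))⁻¹
  convert this using 1
  have n3 := sub_ne_zero.2 n1
  have n4 := sub_ne_zero.2 n2
  refine ext hf H ?_ ?_ fun w w1 w2 => ?_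
  · simp only [sub_mulVec, smul_mulVec, ← mulVec_mulVec, one_mulVec, br_mulVec hf, H.xx, H.xy, e1,
      mulVec_sub, mulVec_smul]
    module
  · simp only [sub_mulVec, smul_mulVec, ← mulVec_mulVec, one_mulVec, br_mulVec hf, H.yy,
      (GO.hp_symm hf H).xy, e2, mulVec_sub, mulVec_smul]
    module
  · simp only [sub_mulVec, smul_mulVec, ← mulVec_mulVec, one_mulVec, br_mulVec hf, w1, w2,
      e3 w w1 w2, mulVec_sub, mulVec_smul, zero_smul, sub_zero]
    match_scalars
    rw [eq_comm, inv_mul_eq_one₀ (mul_ne_zero n3 n4)]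
    ring

theorem OS.unip_sq {b : Matrix β β F} (h1 : b * adj (RingEquiv.refl F) f b = 1)
    (h2 : (b - 1) * (b - 1) = 0) : b = 1 := by
  have hf := O.C.ses
  obtain ⟨a, rfl⟩ : ∃ a, b = 1 + a := ⟨b - 1, by abel⟩
  rw [add_sub_cancel_left] at h2
  have ha : adj (RingEquiv.refl F) f a = -a := by
    have := congrArg ((1 - a) * ·) h1
    simp only [← mul_assoc, sub_mul, mul_add, mul_one, one_mul, h2, hf.adj_add, hf.adj_one,
      sub_zero, sub_add_cancel] at this
    linear_combination (norm := abel) this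
  have k : ∀ u v, f (a *ᵥ u) (a *ᵥ v) = 0 := fun u v => by
    rw [skew_f hf ha, mulVec_mulVec, h2, zero_mulVec, hf.zero_right, neg_zero]
  rw [add_eq_left]
  refine matrix_ext_mulVec fun w => ?_
  rw [zero_mulVec]
  by_contra h0
  obtain ⟨y, H⟩ := O.C.partner h0 (k w w)
  have := H.xy
  rw [skew_f hf ha, O.an _ _ H (a *ᵥ y) (k _ _) (skew_self hf O.two ha _) (k _ _), hf.zero_right,
    neg_zero] at this
  exact zero_ne_one this

theorem OS.skew_span {Z : Submodule F (Matrix β β F)}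
    (h : ∀ u w, f u u = 0 → f w u = 0 → PasO.Nv f u w ∈ Z) {s : Matrix β β F}
    (hs : adj (RingEquiv.refl F) f s = -s) : s ∈ Z := by
  have hf := O.C.ses
  have h2 := O.two
  have k1 : ∀ x y, HP f x y → PasO.Nv f x y ∈ Z := fun x y H => by
    obtain ⟨z, z1, z2, z3⟩ := PasO.exists_v O.C h2 H
    have := sub_mem (sub_mem (h (x - z - (f z z / 2) • y) (z + f z z • y) ?_ ?_) (h x z H.xx z1))
      (Z.smul_mem (f z z / 2) (h y z H.yy z2))
    · rw [← Z.smul_mem_iff z3]
      convert this using 1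
      simp only [PasO.Nv, br_add_left, br_add_right hf, br_sub_left, br_sub_right hf, br_smul_left,
        br_smul_right hf, RingEquiv.refl_apply]
      match_scalars <;> field_simp <;> ring
    all_goals
      simp only [hf.add_left, hf.add_right, hf.sub_left, hf.sub_right, hf.smul_left, PasO.smul_r hf,
        H.xx, H.yy, H.xy, (GO.hp_symm hf H).xy, z1, z2, PasO.sym hf x z, PasO.sym hf y z]
      field_simp; ring
  have k2 : ∀ a b, f a a = 0 → f b b = 0 → PasO.Nv f a b ∈ Z := fun a b ha hb => by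
    by_cases h0 : f a b = 0
    · exact h a b ha (by rw [PasO.sym hf, h0])
    · have := k1 _ _ (hp_of_ne hf ha hb h0)
      rwa [PasO.Nv_smul hf, Z.smul_mem_iff (by simpa using h0)] at this
  have k3 : ∀ a, (∀ b, f b b = 0 → PasO.Nv f a b ∈ Z) → ∀ b, PasO.Nv f a b ∈ Z := fun a ha b => by
    induction O.C.span_iso b using Submodule.span_induction with
    | mem b hb => exact ha b hb
    | zero => rw [← zero_smul F (0 : β → F), PasO.Nv_smul hf, zero_smul]; exact zero_mem _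
    | add b c _ _ hb hc => rw [PasO.Nv_add hf]; exact add_mem hb hc
    | smul c b _ hb => rw [PasO.Nv_smul hf]; exact Z.smul_mem _ hb
  have k4 : ∀ a b, PasO.Nv f a b ∈ Z := fun a => k3 a fun b hb => by
    rw [Nv_swap]; exact neg_mem (k3 b (fun a ha => k2 b a hb ha) a)
  let D : AddSubgroup (Matrix β β F) :=
    { carrier := {b | b - adj (RingEquiv.refl F) f b ∈ Z}
      add_mem' := fun {a b} ha hb => by
        have := Z.add_mem ha hb
        show _ ∈ Z
        rwa [hf.adj_add, ← sub_add_sub_comm]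
      zero_mem' := by show _ ∈ Z; rw [hf.adj_zero, sub_zero]; exact zero_mem _
      neg_mem' := fun {a} ha => by
        have := Z.neg_mem ha
        show _ ∈ Z
        rwa [hf.adj_neg, ← neg_sub']  }
  have k5 : s - adj (RingEquiv.refl F) f s ∈ Z := mem_of_br hf (D := D) (fun u v => by
    show _ ∈ Z
    rw [adj_br hf, one_smul]; exact k4 u v) s
  rwa [hs, sub_neg_eq_add, ← two_smul F, Z.smul_mem_iff h2] at k5

theorem OS.skew_cent {a : Matrix β β F} (ha : adj (RingEquiv.refl F) f a = -a)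
    (h : ∀ s, adj (RingEquiv.refl F) f s = -s → a * s = s * a) : a = 0 := by
  have hf := O.C.ses
  obtain ⟨x, y, H⟩ := O.C.exists_hp
  obtain ⟨c, b, w, w1, w2, e⟩ := O.cent H (s := a) fun v _ _ => h _ (adj_Nv hf x v)
  have k : a = PasO.Nv f x w := by
    refine smul_right_injective _ O.two ?_
    have := ha
    conv_lhs at this => rw [e]
    simp only [hf.adj_add, hf.adj_smul, hf.adj_one, adj_Nv hf, adj_br hf, one_smul,
      RingEquiv.refl_apply] at this
    simp only [two_smul]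
    linear_combination (norm := abel) e + this
  have := congrArg (· *ᵥ y) (h _ (adj_Nv hf x y))
  simp only [k, ← mulVec_mulVec, Nv_mulVec hf, H.yy, (GO.hp_symm hf H).xy, PasO.sym hf y w, w1, w2,
    zero_smul, one_smul, zero_sub, hf.neg_left, neg_zero, neg_smul, sub_self, neg_neg, sub_neg_eq_add,
    zero_add] at this
  rw [k, this, ← zero_smul F (0 : β → F), PasO.Nv_smul hf, zero_smul]

theorem OS.lie_top {S : Subalgebra F (Matrix β β F)}
    (hS : ∀ a, adj (RingEquiv.refl F) f a = -a → ∀ b ∈ S, a * b - b * a ∈ S) {s : Matrix β β F}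
    (h1 : s ∈ S) (h2 : s ≠ 0) (h3 : adj (RingEquiv.refl F) f s = -s) : S = ⊤ := by
  have hf := O.C.ses
  have sm : ∀ {c : F} {b}, c ≠ 0 → c • b ∈ S → b ∈ S := fun {c b} hc h => by
    simpa [smul_smul, hc] using S.smul_mem h c⁻¹
  have N0 : ∀ u, PasO.Nv f u 0 = 0 := fun u => by
    rw [← zero_smul F (0 : β → F), PasO.Nv_smul hf, zero_smul]
  have step : ∀ {u y}, f u u = 0 → f y y = 0 → f u y ≠ 0 →
      (∃ z, f z u = 0 ∧ f z z ≠ 0 ∧ PasO.Nv f u z ∈ S) →
      ∃ z, f z y = 0 ∧ f z z ≠ 0 ∧ PasO.Nv f y z ∈ S := by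
    rintro u y hu hy h0 ⟨z, z1, z2, z3⟩
    have a1 : f (z - (f z y / f u y) • u) y = 0 := by
      rw [hf.sub_left, hf.smul_left, div_mul_cancel₀ _ h0, sub_self]
    have a2 : f (z - (f z y / f u y) • u) u = 0 := by
      rw [hf.sub_left, hf.smul_left, hu, z1, mul_zero, sub_zero]
    have a3 : f (z - (f z y / f u y) • u) (z - (f z y / f u y) • u) = f z z := by
      rw [hf.sub_right, PasO.smul_r hf, a2, mul_zero, sub_zero, PasO.sym hf, hf.sub_right,
        PasO.smul_r hf, z1, mul_zero, sub_zero]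
    have a4 : PasO.Nv f u (z - (f z y / f u y) • u) = PasO.Nv f u z := by
      rw [PasO.Nv_sub hf, PasO.Nv_smul hf, PasO.Nv_self, smul_zero, sub_zero]
    rw [← a4] at z3
    rw [← a3] at z2
    generalize z - (f z y / f u y) • u = z at a1 a2 z2 z3
    refine ⟨z, a1, z2, ?_⟩
    have b1 := hS _ (adj_Nv hf y z) _ z3
    rw [lie_Nv hf (adj_Nv hf y z), Nv_mulVec hf, Nv_mulVec hf, PasO.sym hf u z, a2, a1, zero_smul,
      zero_smul, zero_sub, sub_zero, ← neg_smul, Nv_smul_left hf, PasO.Nv_self, smul_zero, zero_add,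
      PasO.Nv_smul hf] at b1
    have b2 := hS _ (adj_Nv hf y z) _ (sm z2 b1)
    rw [lie_Nv hf (adj_Nv hf y z), Nv_mulVec hf, Nv_mulVec hf, PasO.sym hf u z, a2, PasO.sym hf y z,
      a1, hy, zero_smul, zero_smul, zero_sub, sub_zero, ← neg_smul, Nv_smul_left hf, N0, add_zero,
      Nv_swap z, neg_smul_neg] at b2
    exact sm h0 b2
  obtain ⟨u, hu, hu'⟩ : ∃ u, f u u = 0 ∧ ∀ a : F, s *ᵥ u ≠ a • u := by
    by_contra hc
    push Not at hc
    obtain ⟨a, rfl⟩ := O.C.scalar_of_eigen hc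
    rw [hf.adj_smul, hf.adj_one, RingEquiv.refl_apply, eq_neg_iff_add_eq_zero, ← two_smul F] at h3
    exact smul_ne_zero O.two h2 h3
  have u0 : u ≠ 0 := by rintro rfl; exact hu' 0 (by simp)
  obtain ⟨y, H⟩ := O.C.partner u0 hu
  obtain ⟨w, w1, w2, e⟩ := GO.decomp hf H (s *ᵥ u)
  rw [skew_self hf O.two h3, zero_smul, add_zero] at e
  have w3 : f w w ≠ 0 := fun h0 => hu' _ (by rw [e, O.an u y H w w1 w2 h0, zero_add])
  have P : ∃ z, f z u = 0 ∧ f z z ≠ 0 ∧ PasO.Nv f u z ∈ S := by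
    refine ⟨w, w1, w3, ?_⟩
    have c1 := neg_mem (hS _ (adj_Nv hf u w) _ h1)
    rw [neg_sub, lie_Nv hf h3] at c1
    have c2 := hS _ (adj_Nv hf u w) _ c1
    have c3 : f (s *ᵥ u) w = f w w := by
      rw [e, hf.add_left, hf.smul_left, PasO.sym hf u w, w1, mul_zero, add_zero]
    have c4 : f (s *ᵥ w) u = -f w w := by rw [skew_f hf h3, PasO.sym hf w, c3]
    have c5 : PasO.Nv f (s *ᵥ u) u = -PasO.Nv f u w := by
      rw [Nv_swap, e, PasO.Nv_add hf, PasO.Nv_smul hf, PasO.Nv_self, smul_zero, add_zero]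
    rw [mul_add, add_mul, add_sub_add_comm, lie_Nv hf (adj_Nv hf u w), lie_Nv hf (adj_Nv hf u w)] at c2
    simp only [Nv_mulVec hf, skew_self hf O.two h3, c3, c4, w1, hu, PasO.sym hf u w, zero_smul,
      sub_zero, zero_sub, Nv_smul_left hf, PasO.Nv_smul hf, c5, neg_smul, neg_neg, sub_self] at c2
    rw [← zero_smul F (0 : β → F), Nv_smul_left hf, zero_smul, zero_add, smul_neg, add_neg_cancel,
      zero_add] at c2
    exact sm w3 c2
  refine O.C.top_of_br fun w w0 hw => ?_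
  obtain ⟨z, z1, z2, z3⟩ := O.C.two hu hw u0 w0
  obtain ⟨v, v1, v2, v3⟩ := step z1 hw z3 (step hu z1 (by rwa [PasO.sym hf]) P)
  have := mul_mem v3 v3
  rw [PasO.Nv_mul hf hw v1 v1] at this
  exact sm (neg_ne_zero.2 v2) this

end Cfsg.Agent.H9
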