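import Cfsg.Agent.H9.TOBas

/-! Small orthogonal factors: adjoints and nilpotent elements. Sketch: notes/TENS.md, Batch 3. -/

set_option autoImplicit false
set_option linter.unusedSectionVars false
set_option linter.unusedVariables false
set_option linter.unusedSimpArgs false

namespace Cfsg.Agent.H9

open scoped MatrixGroups Matrix
open Matrix Cfsg.Geo Cfsg.Agent.H98

universe u

variable {ι β τ : Type} [Fintype ι] [DecidableEq ι] [Fintype β] [DecidableEq β] [Fintype τ]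
  [DecidableEq τ] {F : Type u} [Field F]

variable [Finite F] [Nonempty ι] {M : Subgroup (GL ι F)} {ε ε₂ : F} {f : (ι → F) → (ι → F) → F}
  {f₂ : (β → F) → (β → F) → F} {x y : β → F}

theorem common_ker {V A : Type*} [AddCommGroup V] (s : Finset A) (D : A → V →+ V)
    (hc : ∀ a ∈ s, ∀ b ∈ s, ∀ z, D a (D b z) = D b (D a z)) (hn : ∀ a ∈ s, ∃ m, ∀ z, (D a)^[m] z = 0)
    (J : AddSubgroup V) (hJ : ∀ a ∈ s, ∀ z ∈ J, D a z ∈ J) {z : V} (hz : z ∈ J) (h0 : z ≠ 0) :
    ∃ w ∈ J, w ≠ 0 ∧ ∀ a ∈ s, D a w = 0 := by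
  classical
  induction s using Finset.induction_on generalizing J z with
  | empty => exact ⟨z, hz, h0, by simp⟩
  | insert a s ha ih =>
    obtain ⟨m, hm⟩ := hn a (Finset.mem_insert_self _ _)
    have k : ∀ m, ∀ z ∈ J, z ≠ 0 → (D a)^[m] z = 0 → ∃ w ∈ J, w ≠ 0 ∧ D a w = 0 := by
      intro m
      induction m with
      | zero => exact fun z _ h0 h => (h0 h).elim
      | succ m ih =>
        intro z hz h0 h
        by_cases h1 : D a z = 0
        · exact ⟨z, hz, h0, h1⟩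
        · exact ih _ (hJ a (Finset.mem_insert_self _ _) z hz) h1 h
    obtain ⟨w, hw, w0, h1⟩ := k m z hz h0 (hm z)
    obtain ⟨w', hw', w1, h2⟩ := ih
      (fun a ha b hb => hc a (Finset.mem_insert_of_mem ha) b (Finset.mem_insert_of_mem hb))
      (fun a ha => hn a (Finset.mem_insert_of_mem ha)) (J ⊓ (D a).ker)
      (fun b hb z hz => ⟨hJ b (Finset.mem_insert_of_mem hb) z hz.1, by
        show D a (D b z) = 0
        rw [hc a (Finset.mem_insert_self _ _) b (Finset.mem_insert_of_mem hb),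
          show D a z = 0 from hz.2, map_zero]⟩) (z := w) ⟨hw, h1⟩ w0
    exact ⟨w', hw'.1, w1, fun b hb => by
      rcases Finset.mem_insert.1 hb with rfl | hb
      exacts [hw'.2, h2 b hb]⟩

theorem Amb.rho_smul_o {φ : Matrix β β F →ₐ[F] Matrix ι ι F} {G : Subgroup (GL β F)}
    (A : Amb φ M G (RingEquiv.refl F) ε f 1 f₂) (h2 : (2 : F) ≠ 0) (H : HP f₂ x y) (c : F)
    {ρ : Matrix ι ι F} (h : ρ ∈ Rho M (φ (br f₂ x y)) (φ (pr f₂ 1 x y))) :
    c • ρ ∈ Rho M (φ (br f₂ x y)) (φ (pr f₂ 1 x y)) := by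
  have hf := A.C.ses
  have k : ∀ l : F, (l * l) • ρ ∈ Rho M (φ (br f₂ x y)) (φ (pr f₂ 1 x y)) := fun l => by
    by_cases hl : l = 0
    · rw [hl, mul_zero, zero_smul]; exact zero_mem _
    obtain ⟨g, hg, e1, e2, e3⟩ := tor_o A.C h2 H (inv_ne_zero hl)
    have h0 := mul_ne_zero (inv_ne_zero hl) (inv_ne_zero hl)
    have := (H.ad hf).mem_RM (A.sub g hg) h0 e1 (pr_stab hf (A.C.le hg) h0 H e1) ρ h
    have e : (pr f₂ 1 x y - br f₂ x y) * ((g : Matrix β β F) * pr f₂ 1 x y) =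
        pr f₂ 1 x y - br f₂ x y := matrix_ext_mulVec fun w => by
      obtain ⟨w0, a1, a2, a3⟩ := GO.decomp hf H w
      have : pr f₂ 1 x y *ᵥ w = w0 + f₂ w y • x := by
        rw [pr_mulVec hf, one_mul, sub_eq_iff_eq_add]; exact a3
      simp only [← mulVec_mulVec, this, mulVec_add, mulVec_smul, e3 w0 a1 a2, e1, sub_mulVec,
        pr_fix hf a1, pr_fix hf H.xx, br_mulVec hf, a2, H.xy]
      module
    rwa [← (H.ad hf).rho_mul h, mul_assoc, ← map_mul, mul_smul_comm, ← br, e, map_smul,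
      mul_smul_comm, br, (H.ad hf).rho_mul h, mul_inv, inv_inv] at this
  have := sub_mem (k ((c + 1) / 2)) (k ((c - 1) / 2))
  rwa [← sub_smul, show (c + 1) / 2 * ((c + 1) / 2) - (c - 1) / 2 * ((c - 1) / 2) = c by
    field_simp; ring] at this

namespace TOS

variable {φ ψ : Matrix β β F →ₐ[F] Matrix ι ι F}

theorem cf_cf (h : ∀ b, Cm ψ (φ b)) (χ u χ' u' : β → F) (z : Matrix ι ι F) :
    cf ψ χ' (cf φ χ z u) u' = cf φ χ (cf ψ χ' z u') u := by
  exact (cf_sum _ _ _ _).trans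
    (Finset.sum_congr rfl fun k _ => by rw [(h _).mul_cf, (h _).cf_mul])

theorem cp_cf (h : ∀ b, Cm ψ (φ b)) (χ u : β → F) (ℓ : Matrix ι ι F →ₗ[F] F) (z : Matrix ι ι F) :
    cp ψ ℓ (cf φ χ z u) = cp ψ (ℓ ∘ₗ cfL φ χ u) z := by
  ext a b; rw [cp_apply, cf_cf h]; rfl

theorem out {φ : τ → Matrix β β F →ₐ[F] Matrix ι ι F} (S : Sys φ) {j : τ} {T : Finset τ}
    {z : Matrix ι ι F} (h : ∀ l ∉ insert j T, Cm (φ l) z) (χ u : β → F) :
    ∀ l ∉ T, Cm (φ l) (cf (φ j) χ z u) := fun l hl => by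
  by_cases e : l = j
  · rw [e]; exact cf_cm _ _ _
  · exact (h l (by simp [e, hl])).cm_cf (S.cm l j e) _ _

variable (hf : IsSesq (RingEquiv.refl F) ε f) (hf₂ : IsSesq (RingEquiv.refl F) ε₂ f₂)
  (hadj : ∀ b, adj (RingEquiv.refl F) f (φ b) = φ (adj (RingEquiv.refl F) f₂ b))
include hf hf₂ hadj

theorem cm_adj {c : Matrix ι ι F} (h : Cm φ c) : Cm φ (adj (RingEquiv.refl F) f c) := fun b => by
  rw [← hf₂.adj_adj b, ← hadj, ← hf.adj_mul, ← h, hf.adj_mul]

theorem adj_cf (z : Matrix ι ι F) (u v : β → F) : cf φ (dl f₂ u) (adj (RingEquiv.refl F) f z) v =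
    ε₂ • adj (RingEquiv.refl F) f (cf φ (dl f₂ v) z u) := by
  have s : ∀ z a b c d, φ (br f₂ a b) * z * φ (br f₂ c d) = cf φ (dl f₂ b) z c * φ (br f₂ a d) :=
    fun z a b c d => sandwich _ _ _ _ _
  have k : ∀ a b, cf φ (dl f₂ u) (adj (RingEquiv.refl F) f z) v * φ (br f₂ b a) =
      ε₂ • adj (RingEquiv.refl F) f (cf φ (dl f₂ v) z u) * φ (br f₂ b a) := fun a b => by
    have e := congrArg (adj (RingEquiv.refl F) f) (s z a v u b)
    simp only [hf.adj_mul, hadj, adj_br hf₂, map_smul, smul_mul_assoc, mul_smul_comm, smul_smul,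
      hf₂.eps_mul_self, one_smul] at e
    rwa [← mul_assoc, s, cm_adj hf hf₂ hadj (cf_cm _ _ _), ← smul_mul_assoc] at e
  obtain ⟨w, -, e⟩ := eq_sum_br hf₂ 1
  rw [← mul_one (cf _ _ _ _), ← mul_one (ε₂ • _), ← map_one φ, e, map_sum, Finset.mul_sum,
    Finset.mul_sum]
  exact Finset.sum_congr rfl fun a _ => k _ _

omit hf hf₂ hadj in
theorem tri {R : Type*} [Ring R] {c i : R} {A B : AddSubgroup R} (h1 : ∀ w ∈ A, c * w ∈ A)
    (h2 : ∀ w ∈ B, c * w ∈ B) (h3 : ∀ w ∈ B, i * w ∈ A) (h4 : A ≤ B) {m : ℕ} (hm : c ^ m = 0)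
    {w : R} (hw : w ∈ B) : (c + i) ^ m * w ∈ A := by
  have k : ∀ m, (c + i) ^ m * w - c ^ m * w ∈ A ∧ c ^ m * w ∈ B := fun m => by
    induction m with
    | zero => simpa using hw
    | succ m ih =>
      refine ⟨?_, by rw [pow_succ', mul_assoc]; exact h2 _ ih.2⟩
      convert add_mem (add_mem (h1 _ ih.1) (h3 _ (h4 ih.1))) (h3 _ ih.2) using 1
      rw [pow_succ', pow_succ']; noncomm_ring
  simpa [hm] using (k m).1

end TOS

variable {φ : τ → Matrix β β F →ₐ[F] Matrix ι ι F}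

theorem Sys.adj_eq_of_cp (S : Sys φ) (hf : IsSesq (RingEquiv.refl F) ε f)
    (hf₂ : IsSesq (RingEquiv.refl F) ε₂ f₂)
    (hadj : ∀ j b, adj (RingEquiv.refl F) f (φ j b) = φ j (adj (RingEquiv.refl F) f₂ b))
    {z : Matrix ι ι F} (h : ∀ j ℓ, adj (RingEquiv.refl F) f₂ (cp (φ j) ℓ z) = cp (φ j) ℓ z) :
    adj (RingEquiv.refl F) f z = z := by
  have key : ∀ (T : Finset τ) (z : Matrix ι ι F), (∀ l ∉ T, Cm (φ l) z) →
      (∀ j ∈ T, ∀ ℓ, adj (RingEquiv.refl F) f₂ (cp (φ j) ℓ z) = cp (φ j) ℓ z) →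
      adj (RingEquiv.refl F) f z = z := by
    intro T
    induction T using Finset.induction_on with
    | empty =>
      intro z h1 _
      obtain ⟨a, rfl⟩ := S.sc fun l => h1 l (by simp)
      rw [hf.adj_smul, hf.adj_one, RingEquiv.refl_apply]
    | insert j T hj ih =>
      intro z h1 h2
      refine ext_cf (φ := φ j) fun χ v => ?_
      obtain ⟨u, rfl⟩ := exists_dl hf₂ χ
      rw [TOS.adj_cf hf hf₂ (hadj j), ih _ (TOS.out S h1 _ _) fun l hl ℓ => by
        rw [TOS.cp_cf (S.cm l j fun e => hj (e ▸ hl))]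
        exact h2 l (Finset.mem_insert_of_mem hl) _, ← sub_eq_zero]
      refine (Module.forall_dual_apply_eq_zero_iff F _).1 fun ℓ => ?_
      rw [map_sub, map_smul, ← dot_cp, ← dot_cp, dl_dot hf₂, dl_dot hf₂, hf₂.adj_spec,
        h2 j (Finset.mem_insert_self _ _), hf₂.herm u, smul_eq_mul, ← mul_assoc, hf₂.eps_mul_self,
        one_mul, RingEquiv.refl_apply, sub_self]
  exact key Finset.univ z (by simp) fun j _ => h j

theorem Sys.skew_mem (S : Sys φ) (hf : IsSesq (RingEquiv.refl F) ε f)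
    (hf₂ : IsSesq (RingEquiv.refl F) ε₂ f₂)
    (hadj : ∀ j b, adj (RingEquiv.refl F) f (φ j b) = φ j (adj (RingEquiv.refl F) f₂ b))
    (h2 : (2 : F) ≠ 0) {Y : Submodule F (Matrix ι ι F)}
    (h : ∀ j c s, Cm (φ j) c → adj (RingEquiv.refl F) f₂ s = -s → c * φ j s ∈ Y) (z : Matrix ι ι F) :
    z - adj (RingEquiv.refl F) f z ∈ Y := by
  have key : ∀ (T : Finset τ) (z d : Matrix ι ι F), (∀ l ∉ T, Cm (φ l) z) → (∀ l ∈ T, Cm (φ l) d) →
      d * (z - adj (RingEquiv.refl F) f z) ∈ Y := by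
    intro T
    induction T using Finset.induction_on with
    | empty =>
      intro z d h1 _
      obtain ⟨a, rfl⟩ := S.sc fun l => h1 l (by simp)
      rw [hf.adj_smul, hf.adj_one, RingEquiv.refl_apply, sub_self, mul_zero]
      exact Y.zero_mem
    | insert j T hj ih =>
      intro z d h1 h3
      have k : ∀ c b, (∀ l ∉ T, Cm (φ l) c) →
          d * (c * φ j b - adj (RingEquiv.refl F) f (c * φ j b)) ∈ Y := fun c b hc => by
        have c1 := hc j hj
        have c2 := TOS.cm_adj hf hf₂ (hadj j) c1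
        rw [← Y.smul_mem_iff h2]
        convert Y.add_mem (ih c (d * φ j (b + adj (RingEquiv.refl F) f₂ b)) hc fun l hl =>
          (h3 l (Finset.mem_insert_of_mem hl)).mul (S.cm l j (fun e => hj (e ▸ hl)) _))
          (h j _ (b - adj (RingEquiv.refl F) f₂ b) ((h3 j (Finset.mem_insert_self _ _)).mul (c1.add c2))
            (by rw [hf₂.adj_sub, hf₂.adj_adj, neg_sub])) using 1
        rw [mul_assoc, (c1.sub c2) _, hf.adj_mul, hadj, c2, map_add, map_sub, two_smul]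
        noncomm_ring
      rw [expand (φ := φ j) z, hf.adj_sum, ← Finset.sum_sub_distrib, Finset.mul_sum]
      refine Y.sum_mem fun a _ => ?_
      rw [hf.adj_sum, ← Finset.sum_sub_distrib, Finset.mul_sum]
      exact Y.sum_mem fun b _ => k _ _ (TOS.out S h1 _ _)
  simpa using key Finset.univ z 1 (by simp) fun l _ => Cm.one

theorem OSys.nil_of_fix {G : τ → Subgroup (GL β F)} (O : OSys φ M G ε f f₂) (H : HP f₂ x y) {i : τ}
    {ζ : Matrix ι ι F} (h1 : Cm (φ i) ζ) (h2 : ∀ j, j ≠ i → ∀ v, f₂ v x = 0 → f₂ v y = 0 →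
      φ j (PasO.Nv f₂ x v) * ζ = ζ * φ j (PasO.Nv f₂ x v))
    (h3 : adj (RingEquiv.refl F) f ζ = -ζ) : IsNilpotent ζ := by
  have hf := (O.A i).hf
  have hf₂ := (O.A i).C.ses
  have key : ∀ (T : Finset τ) (z : Matrix ι ι F), (∀ l ∉ T, Cm (φ l) z) →
      (∀ j ∈ T, ∀ v, f₂ v x = 0 → f₂ v y = 0 → φ j (PasO.Nv f₂ x v) * z = z * φ j (PasO.Nv f₂ x v)) →
      ∃ a : F, IsNilpotent (z - a • 1) := by
    intro T
    induction T using Finset.induction_on with
    | empty =>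
      intro z h1 _
      obtain ⟨a, rfl⟩ := O.S.sc fun l => h1 l (by simp)
      exact ⟨a, by rw [sub_self]; exact IsNilpotent.zero⟩
    | insert j T hj ih =>
      intro z h1 h2
      obtain ⟨a, m, hm⟩ := ih (cf (φ j) (dl f₂ y) z x) (TOS.out O.S h1 _ _) fun l hl v a1 a2 =>
        (O.S.cm j l (fun e => hj (e ▸ hl)) _).cf_comm (h2 l (Finset.mem_insert_of_mem hl) v a1 a2) _ _
      have hc := (cf_cm (φ := φ j) (dl f₂ y) z x).sub (Cm.one.smul a)
      have k : ∀ b b' : Matrix β β F, (∀ w (t : F), f₂ w x = 0 → f₂ w y = 0 →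
          b * (PasO.Nv f₂ x w + t • br f₂ x x) * b' = 0) →
          φ j b * (z - cf (φ j) (dl f₂ y) z x) * φ j b' = 0 := fun b b' hb =>
        eq_zero_of_cp (φ := φ j) fun ℓ => by
          obtain ⟨s, t, w, a1, a2, e⟩ := (O.O j).cent H (s := cp (φ j) ℓ z) fun v a1 a2 => by
            rw [← cp_mul_phi, ← h2 j (Finset.mem_insert_self _ _) v a1 a2, cp_phi_mul]
          rw [cp_mul_phi, cp_phi_mul, map_sub, (cf_cm _ _ _).cp_eq, ← dot_cp, dl_dot hf₂, e,
            ← hb w t a1 a2]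
          congr 2
          simp [PasO.Nv, add_mulVec, sub_mulVec, smul_mulVec, br_mulVec hf₂, H.xx, H.xy,
            PasO.sym hf₂ x w, a1, hf₂.smul_left, add_assoc]
      have k1 := k (br f₂ y x) 1 fun w t a1 a2 => by
        simp [PasO.Nv, mul_add, mul_sub, br_mul_br hf₂, H.xx, a1]
      have k2 := k (1 - br f₂ x y) (1 - br f₂ y x) fun w t a1 a2 => by
        simp [PasO.Nv, mul_add, mul_sub, add_mul, sub_mul, br_mul_br hf₂, H.xx, H.xy, H.yx hf₂, a1,
          a2, PasO.sym hf₂ y w]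
      have k3 := k 1 (br f₂ x y) fun w t a1 a2 => by
        simp [PasO.Nv, add_mul, sub_mul, br_mul_br hf₂, H.xx, a1, PasO.sym hf₂ x w]
      rw [map_one, mul_one] at k1
      rw [map_one, one_mul] at k3
      let U : Matrix β β F → AddSubgroup (Matrix ι ι F) := fun b =>
        (AddMonoidHom.mulLeft (φ j b)).ker
      have mem : ∀ {b w}, w ∈ U b ↔ φ j b * w = 0 := Iff.rfl
      have hU : ∀ b, ∀ w ∈ U b, (cf (φ j) (dl f₂ y) z x - a • 1) * w ∈ U b := fun b w hw => by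
        rw [mem, hc.left, mem.1 hw, mul_zero]
      have s1 := TOS.tri (i := z - cf (φ j) (dl f₂ y) z x) (B := ⊤) (hU (br f₂ y x))
        (fun _ _ => trivial) (fun w _ => by rw [mem, ← mul_assoc, k1, zero_mul]) le_top hm
        (w := 1) trivial
      have s2 := TOS.tri (i := z - cf (φ j) (dl f₂ y) z x) (hU (1 - br f₂ x y)) (hU _)
        (fun w hw => by
          have : w = φ j (1 - br f₂ y x) * w := by
            rw [map_sub, map_one, sub_mul, mem.1 hw, one_mul, sub_zero]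
          rw [mem, this, ← mul_assoc, ← mul_assoc, k2, zero_mul])
        (fun w hw => by
          have : br f₂ y x = br f₂ y x * (1 - br f₂ x y) := by
            rw [mul_sub, br_mul_br hf₂, H.xx]; simp
          rw [mem, this, map_mul, mul_assoc, mem.1 hw, mul_zero]) hm s1
      have s3 := TOS.tri (i := z - cf (φ j) (dl f₂ y) z x) (A := ⊥) (fun w hw => by
          rw [AddSubgroup.mem_bot.1 hw, mul_zero]; exact zero_mem _) (hU _)
        (fun w hw => by
          have := mem.1 hw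
          rw [map_sub, map_one, sub_mul, one_mul, sub_eq_zero] at this
          rw [this, ← mul_assoc, k3, zero_mul]; exact zero_mem _) bot_le hm s2
      rw [AddSubgroup.mem_bot, mul_one, ← pow_add, ← pow_add,
        show cf (φ j) (dl f₂ y) z x - a • 1 + (z - cf (φ j) (dl f₂ y) z x) = z - a • 1 by abel] at s3
      exact ⟨a, _, s3⟩
  obtain ⟨a, m, hm⟩ := key (Finset.univ.erase i) ζ (fun l hl => by
    rwa [show l = i by simpa using hl]) fun j hj => h2 j (Finset.ne_of_mem_erase hj)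
  have n2 : IsNilpotent (-ζ - a • 1) := ⟨m, by
    have := congrArg (adj (RingEquiv.refl F) f) hm
    rwa [hf.adj_pow, hf.adj_zero, hf.adj_sub, h3, hf.adj_smul, hf.adj_one] at this⟩
  obtain ⟨n, hn⟩ := Commute.isNilpotent_add (show Commute (ζ - a • 1) (-ζ - a • 1) by
    simp only [Commute, SemiconjBy, mul_sub, sub_mul, mul_smul_comm, smul_mul_assoc, mul_one,
      one_mul, mul_neg, neg_mul]
    module) ⟨m, hm⟩ n2
  rw [show ζ - a • 1 + (-ζ - a • 1) = (-(2 * a)) • (1 : Matrix ι ι F) by module, _root_.smul_pow,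
    one_pow, smul_eq_zero, or_iff_left one_ne_zero] at hn
  have : a = 0 := by simpa [(O.O i).two] using pow_eq_zero_iff'.1 hn |>.1
  exact ⟨m, by simpa [this] using hm⟩

end Cfsg.Agent.H9
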