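import Cfsg.Agent.H9.TAct
import Cfsg.Agent.H9.TEng

/-! Passive tensor factors: invariant subalgebras. -/

set_option autoImplicit false
set_option linter.unusedSectionVars false
set_option linter.unusedVariables false
set_option linter.unusedSimpArgs false

namespace Cfsg.Agent.H9

open scoped MatrixGroups Matrix
open Matrix Cfsg.Geo Cfsg.Agent.H98

variable {ι α : Type} [Fintype ι] [DecidableEq ι] [Fintype α] [DecidableEq α] {F : Type*} [Field F]

/-- Conjugation as a linear operator. -/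
def cjL (g : GL α F) : Module.End F (Matrix α α F) := (cj g).toLinearMap

@[simp] theorem cjL_apply (g : GL α F) (z : Matrix α α F) : cjL g z = cj g z := rfl

/-- The operator algebra generated by the conjugations. -/
def Op (G : Subgroup (GL α F)) : Subalgebra F (Module.End F (Matrix α α F)) :=
  Algebra.adjoin F (cjL '' (G : Set (GL α F)))

/-- A set of matrices invariant under conjugation. -/
def InvS (G : Subgroup (GL α F)) (U : Set (Matrix α α F)) : Prop := ∀ g ∈ G, ∀ z ∈ U, cj g z ∈ U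

/-- Every invariant subalgebra containing `e` is everything. -/
def Big (G : Subgroup (GL α F)) (e : Matrix α α F) : Prop :=
  ∀ D : NonUnitalSubalgebra F (Matrix α α F), InvS G D → e ∈ D → ∀ b, b ∈ D

/-- Products and operators lead from `a` to a big idempotent. -/
def Good (G : Subgroup (GL α F)) (a : Matrix α α F) : Prop :=
  ∀ P : Set (Matrix α α F), a ∈ P → (∀ b ∈ P, ∀ b' ∈ P, b * b' ∈ P) →
    (∀ T ∈ Op G, ∀ b ∈ P, T b ∈ P) → ∃ e ∈ P, e * e = e ∧ Big G e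

/-- The data of a passive factor. -/
structure Pas (G : Subgroup (GL α F)) : Prop where
  irr : Algebra.adjoin F (matrixSet G) = ⊤
  pure : ∀ U : Submodule F (Matrix α α F), InvS G U → ∀ s ∈ U, ¬ Sc s →
    ∃ T ∈ Op G, ∃ a, Good G a ∧ (∀ s ∈ U, ∃ c : F, T s = c • a) ∧ ∃ s ∈ U, T s ≠ 0

/-- Invariant subalgebras are scalar or everything. -/
def Simp (G : Subgroup (GL α F)) : Prop :=
  ∀ D : NonUnitalSubalgebra F (Matrix α α F), InvS G D → ∀ s ∈ D, ¬ Sc s → ∀ b, b ∈ D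

variable {G : Subgroup (GL α F)}

theorem cjL_mem {g : GL α F} (hg : g ∈ G) : cjL g ∈ Op G := Algebra.subset_adjoin ⟨g, hg, rfl⟩

theorem dlt_mem {g : GL α F} (hg : g ∈ G) : cjL g - 1 ∈ Op G := sub_mem (cjL_mem hg) (one_mem _)

theorem Op.mono {G' : Subgroup (GL α F)} (h : G ≤ G') : Op G ≤ Op G' :=
  Algebra.adjoin_mono (Set.image_mono h)

theorem Op.mem {T : Module.End F (Matrix α α F)} (hT : T ∈ Op G) {U : Submodule F (Matrix α α F)}
    (hU : InvS G U) {z : Matrix α α F} (hz : z ∈ U) : T z ∈ U := by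
  induction hT using Algebra.adjoin_induction generalizing z with
  | mem x hx => obtain ⟨g, hg, rfl⟩ := hx; exact hU g hg z hz
  | algebraMap r => exact U.smul_mem r hz
  | add x y _ _ hx hy => exact U.add_mem (hx hz) (hy hz)
  | mul x y _ _ hx hy => exact hx (hy hz)

theorem Good.big {a : Matrix α α F} (h : Good G a) : Big G a := fun D hD ha => by
  obtain ⟨e, he, -, hb⟩ := h D ha (fun b hb b' hb' => D.mul_mem hb hb')
    fun T hT b hb => Op.mem hT (U := D.toSubmodule) hD hb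
  exact hb D hD he

theorem Good.of_op {a : Matrix α α F} {T : Module.End F (Matrix α α F)} (hT : T ∈ Op G)
    (h : Good G (T a)) : Good G a := fun P ha h1 h2 => h P (h2 T hT a ha) h1 h2

theorem Good.of_smul {a : Matrix α α F} (c : F) (h : Good G (c • a)) : Good G a :=
  Good.of_op (T := c • 1) (Subalgebra.smul_mem _ (one_mem _) c) h

theorem Good.smul {a : Matrix α α F} {c : F} (hc : c ≠ 0) (h : Good G a) : Good G (c • a) :=
  Good.of_smul c⁻¹ (by rwa [inv_smul_smul₀ hc])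

theorem Good.of_mul {a : Matrix α α F} {T T' : Module.End F (Matrix α α F)} (hT : T ∈ Op G)
    (hT' : T' ∈ Op G) (h : Good G (T a * T' a)) : Good G a := fun P ha h1 h2 =>
  h P (h1 _ (h2 T hT a ha) _ (h2 T' hT' a ha)) h1 h2

theorem Good.of_mul_cj {a : Matrix α α F} {g : GL α F} (hg : g ∈ G) (h : Good G (a * cj g a)) :
    Good G a := Good.of_mul (one_mem _) (cjL_mem hg) h

theorem Good.of_sq {a : Matrix α α F} (h : Good G (a * a)) : Good G a :=
  Good.of_mul (one_mem _) (one_mem _) h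

theorem good_of_idem {e : Matrix α α F} (h : e * e = e) (hb : Big G e) : Good G e :=
  fun P he _ _ => ⟨e, he, h, hb⟩

theorem simp_of_good (h : ∀ s : Matrix α α F, ¬ Sc s → Good G s) : Simp G :=
  fun D hD s hs hn => (h s hn).big D hD hs

theorem Pas.simp (h : Pas G) : Simp G := fun D hD s hs hn => by
  obtain ⟨T, hT, a, ha, h1, s', hs', h2⟩ := h.pure D.toSubmodule hD s hs hn
  obtain ⟨c, hc⟩ := h1 s' hs'
  have h3 : T s' ∈ D := Op.mem hT (U := D.toSubmodule) hD hs'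
  have hc0 : c ≠ 0 := by rintro rfl; exact h2 (by rw [hc, zero_smul])
  exact (ha.smul hc0).big D hD (hc ▸ h3)

theorem Simp.mono {G' : Subgroup (GL α F)} (h : Simp G) (hG : G ≤ G') : Simp G' :=
  fun D hD => h D fun g hg => hD g (hG hg)

variable {φ : Matrix α α F →ₐ[F] Matrix ι ι F}

/-- Operators act on an invariant subspace componentwise. -/
theorem exists_tens {T : Module.End F (Matrix α α F)} (hT : T ∈ Op G)
    {D : Submodule F (Matrix ι ι F)} (hD : ∀ g ∈ G, ∀ z ∈ D, cj (gφ φ g) z ∈ D)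
    {z : Matrix ι ι F} (hz : z ∈ D) : ∃ w ∈ D, ∀ ℓ, cp φ ℓ w = T (cp φ ℓ z) := by
  induction hT using Algebra.adjoin_induction generalizing z with
  | mem x hx => obtain ⟨g, hg, rfl⟩ := hx; exact ⟨_, hD g hg z hz, fun ℓ => cp_cj_gφ ℓ g z⟩
  | algebraMap r => exact ⟨_, D.smul_mem r hz, fun ℓ => map_smul _ _ _⟩
  | add x y _ _ hx hy =>
    obtain ⟨w, hw, e⟩ := hx hz
    obtain ⟨w', hw', e'⟩ := hy hz
    exact ⟨_, D.add_mem hw hw', fun ℓ => by rw [map_add, e, e']; rfl⟩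
  | mul x y _ _ hx hy =>
    obtain ⟨w, hw, e⟩ := hy hz
    obtain ⟨w', hw', e'⟩ := hx hw
    exact ⟨_, hw', fun ℓ => by rw [e', e]; rfl⟩

theorem ext_cp {z w : Matrix ι ι F} (h : ∀ ℓ, cp φ ℓ z = cp φ ℓ w) : z = w :=
  sub_eq_zero.1 (eq_zero_of_cp (φ := φ) fun ℓ => by rw [map_sub, h, sub_self])

theorem tens_pure {T : Module.End F (Matrix α α F)} (hT : T ∈ Op G)
    {D : Submodule F (Matrix ι ι F)} (hD : ∀ g ∈ G, ∀ z ∈ D, cj (gφ φ g) z ∈ D)
    {c : Matrix ι ι F} (hc : Cm φ c) {a : Matrix α α F} (hz : c * φ a ∈ D) : c * φ (T a) ∈ D := by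
  obtain ⟨w, hw, e⟩ := exists_tens hT hD hz
  rwa [ext_cp (φ := φ) (z := w) (w := c * φ (T a)) fun ℓ => by
    rw [e, hc.cp_mul_phi, hc.cp_mul_phi, map_smul]] at hw

theorem pure_of_cp {w : Matrix ι ι F} {a : Matrix α α F} (ha : a ≠ 0)
    (h : ∀ ℓ, ∃ c : F, cp φ ℓ w = c • a) :
    ∃ (i j : α) (r : F), w = (r • cf φ (bv F i) w (bv F j)) * φ a := by
  obtain ⟨i, hi⟩ := Function.ne_iff.1 ha
  obtain ⟨j, hj⟩ := Function.ne_iff.1 hi
  refine ⟨i, j, (a i j)⁻¹, ext_cp (φ := φ) fun ℓ => ?_⟩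
  obtain ⟨c, hc⟩ := h ℓ
  rw [((cf_cm _ _ _).smul _).cp_mul_phi, map_smul, ← cp_apply, hc]
  simp [mul_comm c, inv_mul_cancel_left₀ (show a i j ≠ 0 from hj)]

theorem eq_zero_of_mul_mul {y c : Matrix ι ι F} (h : ∀ z, y * z * c = 0) (hc : c ≠ 0) : y = 0 := by
  obtain ⟨i, hi⟩ := Function.ne_iff.1 hc
  obtain ⟨j, hj⟩ := Function.ne_iff.1 hi
  ext a b
  have := congrFun (congrFun (h (Matrix.single b i 1)) a) j
  rw [mul_assoc, Matrix.mul_apply, Finset.sum_eq_single b] at this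
  · simpa [show c i j ≠ 0 from hj] using this
  · intro k _ hk; simp [single_mul_apply_of_ne, hk]
  · simp

theorem Cm.cm_cf {β : Type} [Fintype β] [DecidableEq β] {ψ : Matrix β β F →ₐ[F] Matrix ι ι F}
    {z : Matrix ι ι F} (hz : Cm ψ z) (h : ∀ b, Cm ψ (φ b)) (χ u : α → F) : Cm ψ (cf φ χ z u) :=
  Cm.sum fun k _ => ((h _).mul hz).mul (h _)

/-- A family of commuting tensor factors generating the matrix algebra. -/
structure Sys {τ : Type} (φ : τ → Matrix α α F →ₐ[F] Matrix ι ι F) : Prop where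
  cm : ∀ i j, i ≠ j → ∀ b, Cm (φ i) (φ j b)
  gen : ∀ S : Subalgebra F (Matrix ι ι F), (∀ i b, φ i b ∈ S) → S = ⊤

variable {τ : Type} [DecidableEq τ] {φ : τ → Matrix α α F →ₐ[F] Matrix ι ι F}

theorem Sys.sc (S : Sys φ) {z : Matrix ι ι F} (h : ∀ i, Cm (φ i) z) : Sc z :=
  scalar_of_comm_all fun x => by
    have := S.gen (Subalgebra.centralizer F {z}) fun i b => by
      rw [Subalgebra.mem_centralizer_iff]; rintro _ rfl; exact (h i b).symm
    have h2 : x ∈ Subalgebra.centralizer F {z} := this ▸ Algebra.mem_top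
    exact (Subalgebra.mem_centralizer_iff F).1 h2 z rfl

theorem Sys.mul_ne (S : Sys φ) {G : τ → Subgroup (GL α F)} {T : Finset τ}
    (hG : ∀ j ∈ T, Algebra.adjoin F (matrixSet (G j)) = ⊤) {D : Set (Matrix ι ι F)}
    (hD : ∀ z ∈ D, ∀ i ∉ T, Cm (φ i) z) (hI : ∀ j ∈ T, ∀ g ∈ G j, ∀ z ∈ D, cj (gφ (φ j) g) z ∈ D)
    {c y : Matrix ι ι F} (hc : c ∈ D) (h0 : c ≠ 0) (hy : y ≠ 0) : ∃ c' ∈ D, y * c' ≠ 0 := by
  by_contra hh
  push Not at hh
  let R : Subalgebra F (Matrix ι ι F) :=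
    { carrier := {z | ∀ y, (∀ c ∈ D, y * c = 0) → ∀ c ∈ D, y * z * c = 0}
      mul_mem' := fun h h' y hy c hc => by rw [← mul_assoc]; exact h' _ (h y hy) c hc
      add_mem' := fun h h' y hy c hc => by rw [mul_add, add_mul, h y hy c hc, h' y hy c hc, add_zero]
      algebraMap_mem' := fun r y hy c hc => by
        rw [Algebra.algebraMap_eq_smul_one, mul_smul_comm, mul_one, smul_mul_assoc, hy c hc,
          smul_zero] }
  have : R = ⊤ := S.gen R fun i b => by
    by_cases hi : i ∈ T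
    · refine Algebra.adjoin_le (S := R.comap (φ i)) ?_ (hG i hi ▸ Algebra.mem_top)
      rintro _ ⟨g, hg, rfl⟩ y hy c hc
      have := hy _ (hI i hi g hg c hc)
      show y * φ i g * c = 0
      rw [← coe_gφ, mul_assoc, (cj_eq_iff _ c _).1 rfl, ← mul_assoc, this, zero_mul]
    · intro y hy c hc
      rw [mul_assoc, hD c hc i hi, ← mul_assoc, hy c hc, zero_mul]
  exact hy (eq_zero_of_mul_mul (fun z => (show z ∈ R from this ▸ Algebra.mem_top) y hh c hc) h0)

/-- Invariant subalgebras of a tensor product of passive factors. -/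
theorem Sys.inv (S : Sys φ) {G : τ → Subgroup (GL α F)} (T : Finset τ) (hP : ∀ j ∈ T, Pas (G j))
    (D : NonUnitalSubalgebra F (Matrix ι ι F)) (hD : ∀ z ∈ D, ∀ i ∉ T, Cm (φ i) z)
    (hI : ∀ j ∈ T, ∀ g ∈ G j, ∀ z ∈ D, cj (gφ (φ j) g) z ∈ D) {z : Matrix ι ι F} (hz : z ∈ D)
    (h0 : z ≠ 0) : 1 ∈ D ∧ (¬ Sc z → ∃ j ∈ T, ∀ b, φ j b ∈ D) := by
  induction T using Finset.induction_on generalizing D z with
  | empty =>
    obtain ⟨a, rfl⟩ := S.sc fun i => hD z hz i (by simp)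
    have ha : a ≠ 0 := by rintro rfl; simp at h0
    exact ⟨by simpa [ha] using D.smul_mem a⁻¹ hz, fun h => (h ⟨a, rfl⟩).elim⟩
  | insert j T hj ih =>
    have hP' := fun i hi => hP i (Finset.mem_insert_of_mem hi)
    have hI' := fun i hi => hI i (Finset.mem_insert_of_mem hi)
    have hIj := hI j (Finset.mem_insert_self _ _)
    have out : ∀ {w}, Cm (φ j) w → (∀ i ∉ insert j T, Cm (φ i) w) → ∀ i ∉ T, Cm (φ i) w :=
      fun h1 h2 i hi => by
        by_cases hij : i = j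
        · rwa [hij]
        · exact h2 i (by simp [hi, hij])
    let U := Submodule.span F {s | ∃ ℓ, ∃ w ∈ D, cp (φ j) ℓ w = s}
    by_cases hU : ∀ s ∈ U, Sc s
    · obtain ⟨h1, h2⟩ := ih hP' D (fun w hw => out (cm_of_cp fun ℓ =>
        hU _ (Submodule.subset_span ⟨ℓ, w, hw, rfl⟩)) (hD w hw)) hI' hz h0
      exact ⟨h1, fun h => (h2 h).imp fun i hi => ⟨Finset.mem_insert_of_mem hi.1, hi.2⟩⟩
    push Not at hU
    obtain ⟨s, hs, hn⟩ := hU
    obtain ⟨R, hR, a, ha, h1, s', hs', h2⟩ := (hP j (Finset.mem_insert_self _ _)).pure U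
      (fun g hg s hs => by
        have : U.map (cjL g) ≤ U := Submodule.map_span_le _ _ _ |>.2 (by
          rintro _ ⟨ℓ, w, hw, rfl⟩
          exact Submodule.subset_span ⟨ℓ, _, hIj g hg w hw, cp_cj_gφ ℓ g w⟩)
        exact this ⟨s, hs, rfl⟩) s hs hn
    obtain ⟨ℓ, w, hw, h3⟩ : ∃ ℓ, ∃ w ∈ D, R (cp (φ j) ℓ w) ≠ 0 := by
      by_contra hh
      push Not at hh
      refine h2 ((Submodule.span_le (p := LinearMap.ker R)).2 ?_ hs')
      rintro _ ⟨ℓ, w, hw, rfl⟩
      exact hh ℓ w hw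
    have ha0 : a ≠ 0 := by
      rintro rfl
      obtain ⟨c, hc⟩ := h1 s' hs'
      exact h2 (by rw [hc, smul_zero])
    obtain ⟨w', hw', e⟩ := exists_tens hR (D := D.toSubmodule) hIj hw
    obtain ⟨p, q, r, e'⟩ := pure_of_cp (φ := φ j) (w := w') ha0 fun ℓ => by
      rw [e]; exact h1 _ (Submodule.subset_span ⟨ℓ, w, hw, rfl⟩)
    let E : Matrix α α F → Set (Matrix ι ι F) := fun a => {c | (∀ i ∉ T, Cm (φ i) c) ∧ c * φ j a ∈ D}
    have hE : ∀ a, ∀ i ∈ T, ∀ g ∈ G i, ∀ c ∈ E a, cj (gφ (φ i) g) c ∈ E a := fun a i hi g hg c hc => by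
      have hij : i ≠ j := fun h => hj (h ▸ hi)
      refine ⟨fun l hl => ?_, ?_⟩
      · have hl' : l ≠ i := fun h => hl (h ▸ hi)
        rw [cj_apply]
        exact ((S.cm l i hl' _).mul (hc.1 l hl)).mul (S.cm l i hl' _)
      · rw [← (S.cm i j hij a).cj_gφ g, ← map_mul]
        exact hI' i hi g hg _ hc.2
    obtain ⟨f, ⟨c, hc, hc0⟩, hf, hb⟩ := ha {a | ∃ c ∈ E a, c ≠ 0}
      ⟨_, ⟨out ((cf_cm _ _ _).smul r) fun i hi => ((hD w' hw' i hi).cm_cf
        (S.cm i j fun h => hi (by simp [h])) _ _).smul r, e' ▸ hw'⟩, fun h => h3 (by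
          rw [← e, e', h, zero_mul, map_zero])⟩
      (by
        rintro b ⟨c, hc, hc0⟩ b' ⟨c', hc', hc0'⟩
        obtain ⟨d, hd, hcd⟩ := S.mul_ne (fun i hi => (hP' i hi).irr) (fun z hz => hz.1) (hE b') hc'
          hc0' hc0
        refine ⟨_, ⟨fun i hi => (hc.1 i hi).mul (hd.1 i hi), ?_⟩, hcd⟩
        have := D.mul_mem hc.2 hd.2
        rwa [mul_assoc, (hd.1 j hj).left, ← map_mul, ← mul_assoc] at this)
      (by
        rintro R hR b ⟨c, hc, hc0⟩
        exact ⟨c, ⟨hc.1, tens_pure hR (D := D.toSubmodule) hIj (hc.1 j hj) hc.2⟩, hc0⟩)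
    let D2 : NonUnitalSubalgebra F (Matrix ι ι F) :=
      { carrier := E f
        add_mem' := fun h h' => ⟨fun i hi => (h.1 i hi).add (h'.1 i hi), by
          rw [add_mul]; exact D.add_mem h.2 h'.2⟩
        zero_mem' := ⟨fun i hi => Cm.zero, by rw [zero_mul]; exact D.zero_mem⟩
        smul_mem' := fun r _ h => ⟨fun i hi => (h.1 i hi).smul r, by
          rw [smul_mul_assoc]; exact D.smul_mem r h.2⟩
        mul_mem' := fun {c d} h h' => ⟨fun i hi => (h.1 i hi).mul (h'.1 i hi), by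
          have := D.mul_mem h.2 h'.2
          rwa [mul_assoc, (h'.1 j hj).left, ← map_mul, hf, ← mul_assoc] at this⟩ }
    have k := ((ih hP' D2 (fun z hz => hz.1) (hE f) hc hc0).1).2
    rw [one_mul] at k
    have k2 := hb (D.comap (φ j : Matrix α α F →ₙₐ[F] Matrix ι ι F)) (fun g hg b hb => by
      show φ j (cj g b) ∈ D
      rw [← cj_gφ]; exact hIj g hg _ hb) k
    exact ⟨map_one (φ j) ▸ (k2 1 : φ j 1 ∈ D), fun _ => ⟨j, Finset.mem_insert_self _ _, k2⟩⟩

end Cfsg.Agent.H9
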