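import Cfsg.Agent.H9.TLev

/-! The unipotent radical of the stabiliser of a totally isotropic subspace; the local
statement when all levels are trivial. -/

set_option autoImplicit false
set_option linter.unusedSectionVars false
set_option linter.unusedVariables false
set_option linter.unusedSimpArgs false

namespace Cfsg.Agent.H9

open scoped MatrixGroups Matrix
open Matrix Cfsg.Geo Cfsg.Agent.H98

variable {ι β : Type} [Fintype ι] [DecidableEq ι] [Fintype β] [DecidableEq β] {F : Type*} [Field F]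

/-- The central level. -/
def Zed (M : Subgroup (GL ι F)) (a a' : Matrix ι ι F) (h : a' * a = 0) :
    AddSubgroup (Matrix ι ι F) where
  carrier := {θ | a * θ = θ ∧ θ * a' = θ ∧ 1 + θ ∈ matrixSet M}
  zero_mem' := ⟨by simp, by simp, by simpa using ms_one⟩
  add_mem' := by
    rintro θ θ' ⟨h1, h2, h3⟩ ⟨h4, h5, h6⟩
    have : θ * θ' = 0 := by rw [← h2, ← h4, mul_assoc, ← mul_assoc a', h, zero_mul, mul_zero]
    refine ⟨by rw [mul_add, h1, h4], by rw [add_mul, h2, h5], ?_⟩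
    have e := ms_mul h3 h6
    rwa [mul_add, mul_one, add_mul, one_mul, this, add_zero, add_assoc] at e
  neg_mem' := by
    rintro θ ⟨h1, h2, h3⟩
    have : θ * θ = 0 := by
      calc θ * θ = θ * a' * (a * θ) := by rw [h1, h2]
        _ = 0 := by rw [mul_assoc, ← mul_assoc a', h, zero_mul, mul_zero]
    refine ⟨by rw [mul_neg, h1], by rw [neg_mul, h2], ms_inv h3 ?_⟩
    rw [mul_add, mul_one, mul_neg, add_mul, one_mul, this]; abel

/-- An idempotent with totally isotropic image whose adjoint is orthogonal to it. -/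
structure PD (σ : F ≃+* F) (f : (ι → F) → (ι → F) → F) (a : Matrix ι ι F) : Prop where
  aa : a * a = a
  ab : a * adj σ f a = 0
  ba : adj σ f a * a = 0

variable {σ : F ≃+* F} {ε : F} {f : (ι → F) → (ι → F) → F} (hf : IsSesq σ ε f)
  {a : Matrix ι ι F} (P : PD σ f a) {M : Subgroup (GL ι F)}

local notation:max z "†" => adj σ f z

include hf

theorem adj_mul_self {s : Matrix ι ι F} (hs : s * s† = 1) : s† * s = 1 := mul_eq_one_comm.1 hs

theorem adj_fix {s a : Matrix ι ι F} (hs : s * s† = 1) (h : s * a = a) : s† * a = a := by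
  conv_lhs => rw [← h, ← mul_assoc, adj_mul_self hf hs, one_mul]

theorem fix_adj {s a : Matrix ι ι F} (hs : s * s† = 1) (h : s * a = a) : a† * s = a† := by
  have := congrArg (adj σ f) (adj_fix hf hs h)
  rwa [hf.adj_mul, hf.adj_adj] at this

theorem fix_adj' {s a : Matrix ι ι F} (h : s * a = a) : a† * s† = a† := by rw [← hf.adj_mul, h]

theorem ms_isom (hM : M ≤ Isom σ f) {s : Matrix ι ι F} (hs : s ∈ matrixSet M) : s * s† = 1 :=
  (ms_Isom hf).1 (ms_mono hM hs)

include P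

theorem PD.bb : a† * a† = a† := by rw [← hf.adj_mul, P.aa]
theorem PD.EE : (1 - a†) * (1 - a†) = 1 - a† := by
  rw [mul_sub, sub_mul, sub_mul, P.bb hf]; simp
theorem PD.Ea : (1 - a†) * a = a := by rw [sub_mul, P.ba, one_mul, sub_zero]

theorem PD.decomp {s : Matrix ι ι F} (hs : s * s† = 1) (h : InQ a (1 - a†) s) :
    s - 1 = (s - 1) * (1 - a†) - ((s - 1) * (1 - a†))† + a * (s - 1) * a† := by
  have h1 := fix_adj hf hs h.mul_a
  have h2 : ((s - 1) * (1 - a†))† = ((s - 1) * (1 - a†))† * a† := by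
    conv_lhs => rw [← h.2, hf.adj_mul]
  have h3 : ((s - 1) * (1 - a†))† = -((1 - a) * (s - 1)) := by
    calc ((s - 1) * (1 - a†))† = ((s - 1) * (1 - a†))† * s := by
          rw [h2, mul_assoc, h1]
      _ = _ := by
          rw [hf.adj_mul, hf.adj_sub, hf.adj_sub, hf.adj_one, hf.adj_adj, mul_assoc, sub_mul s†,
            adj_mul_self hf hs]; noncomm_ring
  rw [h3, ← h.2]; noncomm_ring

theorem PD.mul_eq {s s' : Matrix ι ι F} (h : InQ a (1 - a†) s) (hs' : s' * s'† = 1)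
    (h' : InQ a (1 - a†) s') :
    (s - 1) * (s' - 1) = -((s - 1) * (1 - a†) * ((s' - 1) * (1 - a†))†) := by
  have h1 : (1 - a†) * (s' - 1) = s' - 1 := by
    rw [sub_mul, mul_sub a†, fix_adj hf hs' h'.mul_a]; simp
  have h2 : (s - 1) * (1 - a†) * a = 0 := by rw [mul_assoc, P.Ea hf, h.1]
  have h3 : (s - 1) * (1 - a†) * ((s' - 1) * (1 - a†)) = 0 := by
    rw [← h'.2, ← mul_assoc, h2, zero_mul]
  calc (s - 1) * (s' - 1) = (s - 1) * (1 - a†) * (s' - 1) := by rw [mul_assoc, h1]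
    _ = (s - 1) * (1 - a†) * ((s' - 1) * (1 - a†) - ((s' - 1) * (1 - a†))† + a * (s' - 1) * a†) := by
      rw [← P.decomp hf hs' h']
    _ = _ := by rw [mul_add, mul_sub, h3, ← mul_assoc, ← mul_assoc, h2]; simp

theorem PD.cube {s : Matrix ι ι F} (hs : s * s† = 1) (h : InQ a (1 - a†) s) : (s - 1) ^ 3 = 0 := by
  rw [pow_succ, pow_two, P.mul_eq hf h hs h, ← h.2, hf.adj_mul, neg_mul, mul_assoc, mul_assoc,
    mul_assoc, mul_assoc _ a†, mul_sub a†, fix_adj hf hs h.mul_a]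
  simp

theorem PD.comm_mem (hM : M ≤ Isom σ f) {ρ ρ' : Matrix ι ι F} (h : ρ ∈ Rho M a (1 - a†))
    (h' : ρ' ∈ Rho M a (1 - a†)) : ρ' * ρ† - ρ * ρ'† ∈ Zed M a a† P.ba := by
  have e1 : ∀ r ∈ Rho M a (1 - a†), r† * a† = r† := fun r hr => by
    rw [← hf.adj_mul, Rho.a_mul hr]
  have h2 : (ρ' * ρ† - ρ * ρ'†) * a† = ρ' * ρ† - ρ * ρ'† := by
    rw [sub_mul, mul_assoc, mul_assoc, e1 _ h, e1 _ h']
  refine ⟨by rw [mul_sub, ← mul_assoc, ← mul_assoc, Rho.a_mul h, Rho.a_mul h'], h2, ?_⟩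
  obtain ⟨s, hs, hq, rfl⟩ := h
  obtain ⟨s', hs', hq', rfl⟩ := h'
  have i1 := ms_isom hf hM hs
  have i2 := ms_isom hf hM hs'
  refine ms_of_mul_right (ms_mul hs' hs) ?_
  rw [add_mul, one_mul, ← h2, mul_assoc, ← mul_assoc a†, fix_adj hf i2 hq'.mul_a,
    fix_adj hf i1 hq.mul_a, h2]
  convert ms_mul hs hs' using 1
  rw [← neg_eq_iff_eq_neg.2 (P.mul_eq hf hq i2 hq'), ← neg_eq_iff_eq_neg.2 (P.mul_eq hf hq' i1 hq)]
  noncomm_ring

theorem PD.zed_of_rho_zero {s : Matrix ι ι F} (hs : s * s† = 1) (h : InQ a (1 - a†) s)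
    (h0 : (s - 1) * (1 - a†) = 0) : a * (s - 1) = s - 1 ∧ (s - 1) * a† = s - 1 := by
  have := P.decomp hf hs h
  rw [h0, hf.adj_zero, sub_zero, zero_add] at this
  exact ⟨by rw [this, ← mul_assoc, ← mul_assoc, P.aa], by rw [this, mul_assoc, P.bb hf]⟩

omit hf in
theorem PD.inQ_zed {θ : Matrix ι ι F} (hb : a† * a† = a†) (h : θ * a† = θ) :
    InQ a (1 - a†) (1 + θ) ∧ (1 + θ - 1) * (1 - a†) = 0 := by
  have : (1 + θ - 1) * (1 - a†) = 0 := by rw [add_sub_cancel_left, mul_sub, h, mul_one, sub_self]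
  exact ⟨⟨by rw [add_sub_cancel_left, ← h, mul_assoc, P.ba, mul_zero], by rw [this, mul_zero]⟩, this⟩

/-- Two elements of the radical with the same level differ by a central element. -/
theorem PD.exists_zed {s s' : Matrix ι ι F} (hs : s * s† = 1) (h : InQ a (1 - a†) s)
    (hs' : s' * s'† = 1) (h' : InQ a (1 - a†) s') (e : (s - 1) * (1 - a†) = (s' - 1) * (1 - a†)) :
    ∃ θ, a * θ = θ ∧ θ * a† = θ ∧ s'† * s = 1 + θ := by
  have i1 := h'.inv (adj_mul_self hf hs')
  have := P.zed_of_rho_zero hf (s := s'† * s) (by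
    rw [hf.adj_mul, hf.adj_adj, mul_assoc, ← mul_assoc s, hs, one_mul, adj_mul_self hf hs'])
    (i1.mul h) (by rw [i1.mul_sub h, h'.inv_sub (adj_mul_self hf hs'), e, neg_add_cancel])
  exact ⟨_, this.1, this.2, by abel⟩

/-- The Levi component of an isometry fixing the image of `a`. -/
theorem PD.levi {s : Matrix ι ι F} (hs : s * s† = 1) (h : s * a = a) {l : Matrix ι ι F}
    (hl : l = a + (1 - a† - a) * s * (1 - a† - a) + a†) :
    l * l† = 1 ∧ InQ a (1 - a†) (s * l†) := by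
  obtain ⟨e, he⟩ : ∃ e, e = 1 - a† - a := ⟨_, rfl⟩
  rw [← he] at hl
  have ea : e * a = 0 := by rw [he, sub_mul, P.Ea hf, P.aa, sub_self]
  have ae : a * e = 0 := by rw [he, mul_sub, mul_sub, P.ab, P.aa]; simp
  have eb : e * a† = 0 := by rw [he, sub_mul, sub_mul, P.ab, P.bb hf]; simp
  have be : a† * e = 0 := by rw [he, mul_sub, mul_sub, P.ba, P.bb hf]; simp
  have ee : e * e = e := by conv_lhs => enter [2]; rw [he]
                            rw [mul_sub, mul_sub, ea, eb]; simp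
  have e' : e† = e := by rw [he, hf.adj_sub, hf.adj_sub, hf.adj_one, hf.adj_adj]; abel
  have l' : l† = a† + e * s† * e + a := by
    simp only [hl, hf.adj_add, hf.adj_mul, e', hf.adj_adj, mul_assoc]
  have k : e * s * e * s† * e = e := by
    have : e * s * e * s† * e = e * (s * s†) * e - e * s * (a† * s†) * e - e * (s * a) * s† * e := by
      conv_lhs => enter [1, 1, 2]; rw [he]
      noncomm_ring
    rw [this, hs, fix_adj' hf h, h, ea, mul_assoc (e * s), be, mul_one, ee]; simp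
  have k' : ∀ z, e * (s * (e * (s† * (e * z)))) = e * z := fun z => by
    simpa only [mul_assoc] using congrArg (· * z) k
  have z1 : ∀ {u v : Matrix ι ι F}, u * v = 0 → ∀ z, u * (v * z) = 0 := fun h z => by
    rw [← mul_assoc, h, zero_mul]
  have z2 : ∀ z, e * (e * z) = e * z := fun z => by rw [← mul_assoc, ee]
  have h1 : (1 : Matrix ι ι F) = a + e + a† := by rw [he]; abel
  have h2 : 1 - a† = a + e := by rw [he]; abel
  refine ⟨?_, ?_, ?_⟩
  · rw [l', hl]
    have := k' 1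
    simp only [mul_add, add_mul, mul_assoc, P.aa, P.ab, P.ba, P.bb hf, ea, eb, z1 ae, z1 be, z2,
      mul_zero, zero_add, add_zero, mul_one] at this ⊢
    rw [this, h1]; abel
  · simp only [l', mul_add, add_mul, sub_mul, mul_assoc, P.aa, P.ba, ea, h, mul_zero, zero_add,
      one_mul, sub_self]
  · have e3 : (s * l† - 1) * (1 - a†) = s * (e * (s† * e)) - e := by
      simp only [h2, l', mul_add, add_mul, sub_mul, mul_assoc, P.aa, P.ba, ea, ae, be, ee, h,
        mul_zero, zero_add, add_zero, one_mul, sub_self]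
    have := k' 1
    rw [e3, ← sub_eq_zero, ← neg_eq_zero, neg_sub, ← one_sub_mul,
      show 1 - a = e + a† by rw [he]; abel]
    simp only [mul_one] at this
    simp only [add_mul, mul_sub, this, ee, ← mul_assoc a†, fix_adj hf hs h, be, zero_mul, sub_self,
      add_zero]

variable {φ : Matrix β β F →ₐ[F] Matrix ι ι F}

omit hf P in
theorem InQ.map {a E s : Matrix β β F} (h : InQ a E s) : InQ (φ a) (φ E) (φ s) := by
  have e : φ s - 1 = φ (s - 1) := by rw [map_sub, map_one]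
  exact ⟨by rw [e, ← map_mul, h.1, map_zero], by rw [e, ← map_mul, ← map_mul, h.2]⟩

omit P in
/-- The local statement when the levels lie in the factor. -/
theorem loc_of_levels [Nonempty ι] (hM : M ≤ Isom σ f) {x η : β → F} {p : Matrix β β F}
    (A : AD x η p) (P : PD σ f (φ (vecMulVec x η))) (hp : φ p = 1 - (φ (vecMulVec x η))†)
    (hadj : ∀ z ∈ φ.range, z† ∈ φ.range)
    (h0 : ∀ χ, χ ⬝ᵥ x = 0 → χ ᵥ* p = χ → ∃ h, φ h ∈ matrixSet M ∧ InQ (vecMulVec x η) p h ∧
      (h - 1) * p = vecMulVec x χ)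
    (full : ∀ l ∈ φ.range, ∀ q, q * q† = 1 → (q - 1) ^ 3 = 0 → q * l ∈ matrixSet M →
      l ∈ matrixSet M)
    (hR : ∀ ρ ∈ Rho M (φ (vecMulVec x η)) (φ p), ρ ∈ φ.range)
    (hZ : ∀ θ ∈ Zed M _ _ P.ba, θ ∈ φ.range) {s : Matrix ι ι F} (hs : s ∈ matrixSet M)
    (h : s * φ (vecMulVec x η) = φ (vecMulVec x η)) : s ∈ φ.range := by
  have h0' : ∀ χ, χ ⬝ᵥ x = 0 → χ ᵥ* p = χ →
      φ (vecMulVec x χ) ∈ Rho M (φ (vecMulVec x η)) (φ p) := fun χ h1 h2 => by
    obtain ⟨h, h3, h4, h5⟩ := h0 χ h1 h2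
    exact ⟨φ h, h3, h4.map, by rw [← h5, map_mul, map_sub, map_one]⟩
  have k1 : ∀ q ∈ matrixSet M, InQ (φ (vecMulVec x η)) (φ p) q → q ∈ φ.range := by
    intro q hq hQ
    have hρ : (q - 1) * φ p ∈ Rho M (φ (vecMulVec x η)) (φ p) := ⟨q, hq, hQ, rfl⟩
    obtain ⟨b, hb⟩ := hR _ hρ
    have hb' : φ b = (q - 1) * φ p := hb
    have e1 : b = vecMulVec x (η ᵥ* b) := phi_injective (φ := φ) (by
      rw [← vmv_mul, map_mul, hb', Rho.a_mul hρ])
    have e2 : b * (p - vecMulVec x η) = b := phi_injective (φ := φ) (by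
      rw [map_mul, hb', A.rho_mul hρ])
    obtain ⟨h, h3, h4, h5⟩ := h0 (η ᵥ* b) (by
      rw [← e2, ← dotProduct_mulVec, ← mulVec_mulVec, sub_mulVec, A.px, vmv_mulVec, A.ηx, one_smul,
        sub_self, mulVec_zero, dotProduct_zero]) (by
      rw [← e2, vecMul_vecMul, mul_assoc, sub_mul, A.pp, vmv_mul, A.ηp])
    have h6 := h4.map (φ := φ)
    rw [hp] at h6 hQ
    obtain ⟨θ, t1, t2, t3⟩ := P.exists_zed hf (ms_isom hf hM hq) hQ (ms_isom hf hM h3) h6 (by
      rw [← hp, ← hb', e1, ← h5, map_mul, map_sub, map_one])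
    have t4 := hZ θ ⟨t1, t2, t3 ▸ ms_mul (ms_inv h3 (ms_isom hf hM h3)) hq⟩
    rw [← one_mul q, ← ms_isom hf hM h3, mul_assoc, t3]
    exact mul_mem (φ.mem_range_self _) (add_mem (one_mem _) t4)
  have i1 := ms_isom hf hM hs
  obtain ⟨g, hg, rfl⟩ := mem_matrixSet.1 hs
  have k2 := mem_RM_of_fix (E := φ p) hg one_ne_zero (by rw [h, one_smul]) A.aa (by
    rw [hp, sub_mul, one_mul, ← mul_assoc, fix_adj hf i1 h, mul_sub (φ (vecMulVec x η))†,
      P.bb hf]; simp)
  rw [inv_one, one_smul] at k2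
  obtain ⟨l, hl⟩ : ∃ l, l = φ (vecMulVec x η) + (1 - (φ (vecMulVec x η))† - φ (vecMulVec x η)) * g *
    (1 - (φ (vecMulVec x η))† - φ (vecMulVec x η)) + (φ (vecMulVec x η))† := ⟨_, rfl⟩
  obtain ⟨l1, l2⟩ := P.levi hf i1 h hl
  have k3 : l ∈ φ.range := by
    rw [hl, ← hp, ← map_sub]
    refine add_mem (add_mem (φ.mem_range_self _) ?_) (hadj _ (φ.mem_range_self _))
    rw [expand (φ := φ) (φ _ * g * φ _)]
    refine sum_mem fun i _ => sum_mem fun j _ => mul_mem ?_ (φ.mem_range_self _)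
    have x0 : x ≠ 0 := fun h => by simpa [h] using A.ηx
    rw [cf_mul_phi, cf_phi_mul]
    have := hR _ (k2 _ (h0' _ (A.row_dot i) (A.row_p i)))
    have h7 := mul_mem this (φ.mem_range_self (vecMulVec ((p - vecMulVec x η) *ᵥ bv F j) η))
    rw [mul_assoc, mul_assoc, ← map_mul, mul_vmv, A.p_col, ← mul_assoc, sandwich] at h7
    obtain ⟨c, hc⟩ := scalar_of_mul_mem_range (cf_cm _ _ _) (vmv_ne_zero x0 (fun h => by
      simpa [h] using A.ηx)) h7
    rw [hc]
    exact Subalgebra.smul_mem _ (one_mem _) _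
  have e : (g : Matrix ι ι F) = g * l† * l := by rw [mul_assoc, adj_mul_self hf l1, mul_one]
  have i2 : g * l† * (g * l†)† = 1 := by
    rw [hf.adj_mul, hf.adj_adj, ← mul_assoc, ← e, i1]
  have k4 := full l k3 _ i2 (P.cube hf i2 l2) (e ▸ coe_mem_matrixSet hg)
  rw [e]
  exact mul_mem (k1 _ (ms_mul (coe_mem_matrixSet hg) (ms_inv k4 l1)) (hp ▸ l2)) k3

end Cfsg.Agent.H9
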