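import Cfsg.Agent.H9.TCore

/-! Rank estimates for elements `c + φ b` and `c * φ b` with `c` centralising the factor. -/

set_option autoImplicit false
set_option linter.unusedSectionVars false
set_option linter.unusedVariables false
set_option linter.unusedSimpArgs false

namespace Cfsg.Agent.H9

open scoped MatrixGroups Matrix
open Matrix Cfsg.Geo Cfsg.Agent.H98 Module

variable {ι β : Type} [Fintype ι] [DecidableEq ι] [Fintype β] [DecidableEq β] {F : Type*} [Field F]
variable [Nonempty β] (φ : Matrix β β F →ₐ[F] Matrix ι ι F)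

/-- A fixed index. -/
noncomputable abbrev oo (β : Type) [Nonempty β] : β := Classical.arbitrary β

/-- The multiplicity space. -/
noncomputable def V0 : Submodule F (ι → F) :=
  LinearMap.range (φ (vecMulVec (bv F (oo β)) (bv F (oo β)))).mulVecLin

/-- The dimension of the multiplicity space. -/
noncomputable def dd : ℕ := finrank F (V0 φ)

/-- The vector `v ⊗ u`. -/
noncomputable def tv (u : β → F) (v : ι → F) : ι → F := φ (vecMulVec u (bv F (oo β))) *ᵥ v

/-- The contraction with the functional `χ`. -/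
noncomputable def ev (χ : β → F) (w : ι → F) : ι → F := φ (vecMulVec (bv F (oo β)) χ) *ᵥ w

variable {φ}

theorem mem_V0 {v : ι → F} :
    v ∈ V0 φ ↔ φ (vecMulVec (bv F (oo β)) (bv F (oo β))) *ᵥ v = v := by
  constructor
  · rintro ⟨w, rfl⟩
    simp only [mulVecLin_apply, mulVec_mulVec, ← map_mul, vmv_mul_vmv, bv_dot, Pi.single_eq_same,
      one_smul]
  · intro h; exact ⟨v, h⟩

theorem ev_mem (χ : β → F) (w : ι → F) : ev φ χ w ∈ V0 φ := by
  rw [mem_V0, ev, mulVec_mulVec, ← map_mul, vmv_mul_vmv]; simp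

theorem ev_tv (χ u : β → F) {v : ι → F} (hv : v ∈ V0 φ) : ev φ χ (tv φ u v) = (χ ⬝ᵥ u) • v := by
  rw [ev, tv, mulVec_mulVec, ← map_mul, vmv_mul_vmv, map_smul, smul_mulVec, mem_V0.1 hv]

theorem ev_add (χ : β → F) (v w : ι → F) : ev φ χ (v + w) = ev φ χ v + ev φ χ w := mulVec_add _ _ _
theorem ev_sub (χ : β → F) (v w : ι → F) : ev φ χ (v - w) = ev φ χ v - ev φ χ w := mulVec_sub _ _ _
theorem ev_smul (χ : β → F) (a : F) (v : ι → F) : ev φ χ (a • v) = a • ev φ χ v :=
  mulVec_smul _ _ _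
theorem ev_zero (χ : β → F) : ev φ χ 0 = 0 := mulVec_zero _
theorem tv_add (u : β → F) (v w : ι → F) : tv φ u (v + w) = tv φ u v + tv φ u w := mulVec_add _ _ _
theorem tv_sub (u : β → F) (v w : ι → F) : tv φ u (v - w) = tv φ u v - tv φ u w := mulVec_sub _ _ _
theorem tv_smul (u : β → F) (a : F) (v : ι → F) : tv φ u (a • v) = a • tv φ u v :=
  mulVec_smul _ _ _
theorem tv_zero (u : β → F) : tv φ u 0 = 0 := mulVec_zero _
theorem tv_zero_left (v : ι → F) : tv φ 0 v = 0 := by simp [tv]
theorem tv_add_left (u u' : β → F) (v : ι → F) : tv φ (u + u') v = tv φ u v + tv φ u' v := by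
  rw [tv, vmv_add_left, map_add, add_mulVec]; rfl
theorem tv_smul_left (a : F) (u : β → F) (v : ι → F) : tv φ (a • u) v = a • tv φ u v := by
  rw [tv, vmv_smul_left, map_smul, smul_mulVec]; rfl

theorem phi_tv (b : Matrix β β F) (u : β → F) (v : ι → F) :
    φ b *ᵥ tv φ u v = tv φ (b *ᵥ u) v := by rw [tv, tv, mulVec_mulVec, ← map_mul, mul_vmv]

theorem Cm.mulVec_tv {c : Matrix ι ι F} (hc : Cm φ c) (u : β → F) (v : ι → F) :
    c *ᵥ tv φ u v = tv φ u (c *ᵥ v) := by rw [tv, tv, mulVec_mulVec, mulVec_mulVec, hc]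

theorem Cm.ev_mulVec {c : Matrix ι ι F} (hc : Cm φ c) (χ : β → F) (v : ι → F) :
    ev φ χ (c *ᵥ v) = c *ᵥ ev φ χ v := by rw [ev, ev, mulVec_mulVec, mulVec_mulVec, hc]

theorem ev_phi (χ : β → F) (b : Matrix β β F) (v : ι → F) :
    ev φ χ (φ b *ᵥ v) = ev φ (χ ᵥ* b) v := by rw [ev, ev, mulVec_mulVec, ← map_mul, vmv_mul]

theorem Cm.mulVec_mem {c : Matrix ι ι F} (hc : Cm φ c) {v : ι → F} (hv : v ∈ V0 φ) :
    c *ᵥ v ∈ V0 φ := by
  rw [mem_V0] at hv ⊢
  rw [mulVec_mulVec, hc, ← mulVec_mulVec, hv]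

theorem sum_tv_ev (w : ι → F) : ∑ k, tv φ (bv F k) (ev φ (bv F k) w) = w := by
  simp only [tv, ev, mulVec_mulVec, ← map_mul, vmv_mul_vmv, bv_dot, Pi.single_eq_same, one_smul]
  rw [← Matrix.sum_mulVec, ← map_sum, sum_vmv_bv, map_one, one_mulVec]

theorem tv_eq_zero {u : β → F} (hu : u ≠ 0) {v : ι → F} (hv : v ∈ V0 φ) (h : tv φ u v = 0) :
    v = 0 := by
  obtain ⟨χ, hχ⟩ := exists_dot_one hu
  have := ev_tv χ u hv
  rwa [h, ev_zero, hχ, one_smul, eq_comm] at this

theorem Cm.exists_V0 {c : Matrix ι ι F} (hc : Cm φ c) (h0 : c ≠ 0) : ∃ v ∈ V0 φ, c *ᵥ v ≠ 0 := by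
  by_contra hh
  push Not at hh
  refine h0 (matrix_ext_mulVec fun w => ?_)
  rw [← sum_tv_ev (φ := φ) w, Matrix.mulVec_sum]
  simp only [hc.mulVec_tv, hh _ (ev_mem _ _), tv_zero, Finset.sum_const_zero, zero_mulVec]

theorem finrank_le_rank {W : Type*} [AddCommGroup W] [Module F W] (L : W →ₗ[F] (ι → F))
    (N : Matrix ι ι F) (h : ∀ w, N *ᵥ L w = 0 → w = 0) : finrank F W ≤ N.rank := by
  let L' : W →ₗ[F] LinearMap.range N.mulVecLin := N.mulVecLin.rangeRestrict ∘ₗ L
  refine LinearMap.finrank_le_finrank_of_injective (f := L') ?_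
  rw [injective_iff_map_eq_zero]
  intro w hw
  exact h w (congrArg Subtype.val hw)

variable (φ) in
/-- `v ↦ v ⊗ u` on the multiplicity space. -/
noncomputable def tvL (u : β → F) : V0 φ →ₗ[F] (ι → F) :=
  (φ (vecMulVec u (bv F (oo β)))).mulVecLin ∘ₗ (V0 φ).subtype

theorem tvL_apply (u : β → F) (v : V0 φ) : tvL φ u v = tv φ u v := rfl

theorem rank_phi_vmv_le (u ψ : β → F) : (φ (vecMulVec u ψ)).rank ≤ dd φ := by
  have : φ (vecMulVec u ψ) = φ (vecMulVec u (bv F (oo β))) *
      (φ (vecMulVec (bv F (oo β)) (bv F (oo β))) * φ (vecMulVec (bv F (oo β)) ψ)) := by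
    simp [← map_mul, vmv_mul_vmv]
  rw [this]
  exact (rank_mul_le_right _ _).trans (rank_mul_le_left _ _)

theorem rank_cj_le (g : GL ι F) (N : Matrix ι ι F) : (cj g N).rank ≤ N.rank := by
  rw [cj_apply]; exact (rank_mul_le_left _ _).trans (rank_mul_le_right _ _)

theorem dd_pos [Nonempty ι] : 0 < dd φ := by
  obtain ⟨v, hv, h⟩ := (Cm.one (φ := φ)).exists_V0 one_ne_zero
  rw [one_mulVec] at h
  exact finrank_pos_iff_exists_ne_zero.2 ⟨⟨v, hv⟩, fun h' => h (congrArg Subtype.val h')⟩

/-- An element of the factor of rank at most `dd` has rank at most one. -/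
theorem rank_one_of_rank_phi [Nonempty ι] {b : Matrix β β F} (h : (φ b).rank ≤ dd φ) :
    ∃ u ψ, b = vecMulVec u ψ := by
  by_cases hb : b = 0
  · exact ⟨0, 0, by simp [hb]⟩
  obtain ⟨y, hy⟩ : ∃ y, b *ᵥ y ≠ 0 := by
    by_contra hc; push Not at hc
    exact hb (matrix_ext_mulVec fun v => by rw [hc, zero_mulVec])
  have key : ∀ y', ∃ a : F, b *ᵥ y' = a • b *ᵥ y := by
    intro y'
    by_contra hc
    push Not at hc
    obtain ⟨χ, h1, h2⟩ := exists_dot_of_not_smul hc
    have := finrank_le_rank ((tvL φ y).coprod (tvL φ y')) (φ b) (fun w hw => by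
      rw [LinearMap.coprod_apply, tvL_apply, tvL_apply, mulVec_add, phi_tv, phi_tv] at hw
      have h3 := congrArg (ev φ χ) hw
      rw [ev_add, ev_tv _ _ w.1.2, ev_tv _ _ w.2.2, h1, h2, ev_zero, zero_smul, zero_add,
        one_smul] at h3
      rw [h3, tv_zero, add_zero] at hw
      exact Prod.ext (Subtype.ext (tv_eq_zero hy w.1.2 hw)) (Subtype.ext h3))
    rw [finrank_prod] at this
    have := dd_pos (φ := φ)
    unfold dd at *
    omega
  choose a ha using key
  refine ⟨b *ᵥ y, fun j => a (bv F j), ?_⟩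
  ext i j
  have := congrFun (ha (bv F j)) i
  simpa [vecMulVec_apply, mul_comm] using this

theorem Cm.card_le_rank {c : Matrix ι ι F} (hc : Cm φ c) (h0 : c ≠ 0) :
    Fintype.card β ≤ c.rank := by
  obtain ⟨v, hv, hcv⟩ := hc.exists_V0 h0
  let L : (β → F) →ₗ[F] (ι → F) :=
    { toFun := fun u => tv φ u v
      map_add' := fun u u' => tv_add_left u u' v
      map_smul' := fun a u => tv_smul_left a u v }
  have := finrank_le_rank L c fun u hu => by
    by_contra h
    exact hcv (tv_eq_zero h (hc.mulVec_mem hv) (by rw [← hc.mulVec_tv]; exact hu))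
  simpa using this

theorem exists_ker_not_smul {b : Matrix β β F} (hb : b * b = 0) (hk : 3 ≤ Fintype.card β)
    (z : β → F) : ∃ x, b *ᵥ x = 0 ∧ ∀ a : F, x ≠ a • z := by
  have h1 : LinearMap.range b.mulVecLin ≤ LinearMap.ker b.mulVecLin := by
    rintro _ ⟨v, rfl⟩
    simp [LinearMap.mem_ker, mulVec_mulVec, hb]
  have h2 := LinearMap.finrank_range_add_finrank_ker b.mulVecLin
  have h3 := Submodule.finrank_mono h1
  rw [Module.finrank_fintype_fun_eq_card] at h2
  by_contra hc
  push Not at hc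
  have h4 : LinearMap.ker b.mulVecLin ≤ Submodule.span F {z} := fun x hx => by
    obtain ⟨a, ha⟩ := hc x hx
    exact Submodule.mem_span_singleton.2 ⟨a, ha.symm⟩
  have h5 := (Submodule.finrank_mono h4).trans (finrank_span_le_card ({z} : Set (β → F)))
  simp at h5
  omega

theorem rank_sum_nil {c : Matrix ι ι F} (hc : Cm φ c) {b : Matrix β β F} (hb : b * b = 0)
    (hk : 3 ≤ Fintype.card β) (h : (c + φ b).rank ≤ dd φ) : c = 0 ∨ b = 0 := by
  by_contra hh
  push Not at hh
  obtain ⟨v0, hv0, hcv⟩ := hc.exists_V0 hh.1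
  obtain ⟨y, hy⟩ : ∃ y, b *ᵥ y ≠ 0 := by
    by_contra hc; push Not at hc
    exact hh.2 (matrix_ext_mulVec fun v => by rw [hc, zero_mulVec])
  obtain ⟨x, hx, hx'⟩ := exists_ker_not_smul hb hk (b *ᵥ y)
  obtain ⟨χ, h1, h2⟩ := exists_dot_of_not_smul hx'
  have := finrank_le_rank ((tvL φ y).coprod (LinearMap.toSpanSingleton F _ (tv φ x v0)))
    (c + φ b) (fun w hw => by
      rw [LinearMap.coprod_apply, tvL_apply, LinearMap.toSpanSingleton_apply, add_mulVec,
        mulVec_add, mulVec_add, mulVec_smul, mulVec_smul, phi_tv, phi_tv, hx, tv_zero_left,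
        smul_zero, add_zero, hc.mulVec_tv, hc.mulVec_tv] at hw
      have h3 := congrArg (fun v => φ b *ᵥ v) hw
      simp only [mulVec_add, mulVec_smul, phi_tv, hx, mulVec_mulVec, hb, zero_mulVec,
        tv_zero_left, smul_zero, add_zero, mulVec_zero] at h3
      have h4 := tv_eq_zero hy (hc.mulVec_mem w.1.2) h3
      rw [h4, tv_zero, zero_add] at hw
      have h5 := congrArg (ev φ χ) hw
      rw [ev_add, ev_smul, ev_tv _ _ w.1.2, ev_tv _ _ (hc.mulVec_mem hv0), h1, h2, ev_zero,
        zero_smul, add_zero, one_smul, smul_eq_zero] at h5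
      have h6 := h5.resolve_right hcv
      rw [h6, zero_smul, zero_add] at hw
      exact Prod.ext (Subtype.ext (tv_eq_zero hy w.1.2 hw)) h6)
  rw [finrank_prod, finrank_self] at this
  unfold dd at h
  omega

theorem exists_sq_of_two [Finite F] (h2 : (2 : F) = 0) (a : F) : ∃ m : F, m * m = a := by
  have : Function.Injective fun m : F => m * m := by
    intro x y h
    have h' : (x - y) * (x - y) = 0 := by
      have : x * x = y * y := h
      linear_combination this + (y * y - x * y) * h2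
    exact sub_eq_zero.1 (mul_self_eq_zero.1 h')
  exact (Finite.injective_iff_surjective.1 this) a

/-- A square zero element of `B + C` of small rank lies in `B` or in `C`. -/
theorem rank_sum [Finite F] [Nonempty ι] {c : Matrix ι ι F} (hc : Cm φ c) {b : Matrix β β F}
    (hk : (2 : F) ≠ 0 ∨ 3 ≤ Fintype.card β) (h0 : (c + φ b) * (c + φ b) = 0)
    (h : (c + φ b).rank ≤ dd φ) :
    (∃ a : F, c = a • (1 : Matrix ι ι F)) ∨ ∃ a : F, b = a • (1 : Matrix β β F) := by
  have e : c * c + (2 : F) • (c * φ b) + φ (b * b) = 0 := by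
    rw [← h0, mul_add, add_mul, add_mul, hc, map_mul, two_smul]; abel
  by_cases h2 : (2 : F) = 0
  · have hk' := hk.resolve_left (not_not.2 h2)
    rw [h2, zero_smul, add_zero] at e
    have e1 : φ (b * b) = -(c * c) := eq_neg_of_add_eq_zero_right e
    obtain ⟨l, hl⟩ := scalar_of_cm_phi (φ := φ) (b := b * b) (e1 ▸ (hc.mul hc).neg)
    obtain ⟨m, rfl⟩ := exists_sq_of_two h2 l
    have hb : (b + m • 1) * (b + m • 1) = 0 := by
      have : (b + m • 1) * (b + m • (1 : Matrix β β F)) =
          b * b + (2 : F) • m • b + (m * m) • 1 := by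
        simp only [mul_add, add_mul, smul_mul_assoc, mul_smul_comm, one_mul, mul_one]
        module
      rw [this, hl, h2, zero_smul, add_zero, ← add_smul, ← two_mul, h2, zero_mul, zero_smul]
    have := rank_sum_nil (hc.sub (Cm.one.smul m)) hb hk' (by
      rwa [map_add, map_smul, map_one, show c - m • 1 + (φ b + m • 1) = c + φ b by abel])
    rcases this with h3 | h3
    · exact Or.inl ⟨m, sub_eq_zero.1 h3⟩
    · exact Or.inr ⟨-m, by rw [neg_smul]; exact eq_neg_of_add_eq_zero_left h3⟩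
  · by_contra hh
    push Not at hh
    obtain ⟨χ, u, h3, h4⟩ := exists_dot_of_not_scalar hh.2
    have := congrArg (fun z => cf φ χ z u) e
    simp only [cf_add, cf_smul, (hc.mul hc).cf_eq, hc.cf_mul_phi, cf_phi, h3, h4, zero_smul,
      one_smul, zero_add, cf_zero] at this
    refine hh.1 (-(2⁻¹ * (χ ⬝ᵥ (b * b) *ᵥ u))) ?_
    rw [← one_smul F c, ← inv_mul_cancel₀ h2, mul_smul, eq_neg_of_add_eq_zero_left this]
    simp [smul_smul]

/-- A quadratic unipotent pure tensor of small rank lies in one of the factors. -/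
theorem rank_pure [Finite F] [Nonempty ι] {c c' : Matrix ι ι F} (hc : Cm φ c) (hcc : c * c' = 1)
    (hcc' : c' * c = 1) {u u' : Matrix β β F} (huu : u * u' = 1) (huu' : u' * u = 1)
    (hk : (2 : F) ≠ 0 ∨ 3 ≤ Fintype.card β) (h0 : (c * φ u - 1) * (c * φ u - 1) = 0)
    (h : (c * φ u - 1).rank ≤ dd φ) : c * φ u ∈ φ.range ∨ Cm φ (c * φ u) := by
  have hc' := hc.inv hcc hcc'
  have e : c * c * φ (u * u) + 1 = (2 : F) • (c * φ u) := by
    rw [← sub_eq_zero, ← h0, map_mul, two_smul]
    simp only [mul_sub, sub_mul, mul_one, one_mul, mul_assoc, hc.left]; abel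
  have fin : (∃ a : F, c = a • (1 : Matrix ι ι F)) → c * φ u ∈ φ.range := by
    rintro ⟨a, rfl⟩
    rw [smul_mul_assoc, one_mul]; exact Subalgebra.smul_mem _ (φ.mem_range_self _) _
  have fin' : (∃ a : F, u = a • (1 : Matrix β β F)) → Cm φ (c * φ u) := by
    rintro ⟨a, rfl⟩
    rw [map_smul, map_one, mul_smul_comm, mul_one]; exact hc.smul a
  by_cases h2 : (2 : F) = 0
  · have e1 : c * c + φ (u' * u') = 0 := by
      have := congrArg (· * φ (u' * u')) e
      simp only [h2, zero_smul, zero_mul, add_mul, one_mul] at this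
      rwa [mul_assoc, ← map_mul, mul_assoc u, ← mul_assoc u u', huu, one_mul, huu, map_one,
        mul_one] at this
    have e2 : c + φ (-u') = (c * φ u - 1) * φ u' := by
      rw [sub_mul, mul_assoc, ← map_mul, huu, map_one, mul_one, one_mul, map_neg, sub_eq_add_neg]
    have := rank_sum hc (b := -u') hk (by
      rw [map_neg, mul_add, add_mul, add_mul, neg_mul, neg_mul, mul_neg, mul_neg, neg_neg, hc,
        ← map_mul]
      rw [show c * c + -(c * φ u') + (-(c * φ u') + φ (u' * u')) =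
        c * c + φ (u' * u') - (2 : F) • (c * φ u') by rw [two_smul]; abel, e1, h2]; simp)
      (e2 ▸ (rank_mul_le_left _ _).trans h)
    rcases this with h3 | ⟨a, h3⟩
    · exact Or.inl (fin h3)
    · have h4 : u' = (-a) • (1 : Matrix β β F) := by rw [neg_smul, ← h3, neg_neg]
      have ha : -a ≠ 0 := by
        rintro h5
        rw [h5, zero_smul] at h4
        rw [h4, mul_zero] at huu
        exact zero_ne_one huu
      refine Or.inr (fin' ⟨(-a)⁻¹, ?_⟩)
      rw [h4, mul_smul_comm, mul_one] at huu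
      rw [← huu, smul_smul, inv_mul_cancel₀ ha, one_smul]
  · by_cases hu : ∃ a : F, u = a • (1 : Matrix β β F)
    · exact Or.inr (fin' hu)
    push Not at hu
    have e1 : c * φ u + c' * φ u' = (2 : F) • 1 := by
      have := congrArg (· * (c' * φ u')) e
      simp only [add_mul, one_mul, smul_mul_assoc, mul_assoc, hc'.left, ← map_mul, huu, mul_one,
        map_one, hcc] at this
      rwa [← mul_assoc c c', hcc, one_mul] at this
    obtain ⟨χ, v, h3, h4⟩ := exists_dot_of_not_scalar hu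
    have e2 := congrArg (fun z => cf φ χ z v) e1
    simp only [cf_add, cf_smul, hc.cf_mul_phi, hc'.cf_mul_phi, cf_one, h3, h4, zero_smul,
      one_smul, smul_zero] at e2
    set l := χ ⬝ᵥ u' *ᵥ v
    have e3 : c = (-l) • c' := by rw [neg_smul]; exact eq_neg_of_add_eq_zero_left e2
    have e4 : φ ((-l) • u + u') = (2 : F) • c := by
      have := congrArg (c * ·) e1
      simp only [mul_add, ← mul_assoc, hcc, one_mul, mul_smul_comm, mul_one] at this
      rw [← this, map_add, map_smul]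
      congr 1
      conv_rhs => rw [mul_assoc, e3, smul_mul_assoc, ← mul_assoc c', ← e3, hcc', one_mul]
    left
    have : c ∈ φ.range := by
      rw [← one_smul F c, ← inv_mul_cancel₀ h2, mul_smul, ← e4]
      exact Subalgebra.smul_mem _ (φ.mem_range_self _) _
    exact mul_mem this (φ.mem_range_self _)

end Cfsg.Agent.H9
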