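import Cfsg.Agent.H9.TCl
import Cfsg.Agent.H99.Tv

/-! An active linear factor. -/

set_option autoImplicit false
set_option linter.unusedSectionVars false
set_option linter.unusedVariables false
set_option linter.unusedSimpArgs false

namespace Cfsg.Agent.H9

open scoped MatrixGroups Matrix
open Matrix Cfsg.Geo Cfsg.Agent.H98 Module

universe u

variable {ι β : Type} [Fintype ι] [DecidableEq ι] [Fintype β] [DecidableEq β] {F : Type u} [Field F]

/-- The transvections. -/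
def RootS (β : Type) [Fintype β] [DecidableEq β] (F : Type u) [Field F] : Set (GL β F) :=
  {e | e ∈ specialLinear β F ∧ ∃ u ψ : β → F, u ≠ 0 ∧ ψ ≠ 0 ∧ ψ ⬝ᵥ u = 0 ∧
    (e : Matrix β β F) = 1 + vecMulVec u ψ}

theorem tv_ms {u ψ : β → F} (h : ψ ⬝ᵥ u = 0) : 1 + vecMulVec u ψ ∈ matrixSet (specialLinear β F) :=
  coe_mem_matrixSet (H99.tv_mem_sl u ψ h)

theorem exists_ann {m : ℕ} (hm : m < Fintype.card β) (s : Fin m → β → F) :
    ∃ v : β → F, v ≠ 0 ∧ ∀ i, s i ⬝ᵥ v = 0 := by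
  let L : (β → F) →ₗ[F] (Fin m → F) := (Matrix.of s).mulVecLin
  have := LinearMap.ker_ne_bot_of_finrank_lt (f := L) (by simpa using hm)
  obtain ⟨v, hv, h0⟩ := Submodule.exists_mem_ne_zero_of_ne_bot this
  exact ⟨v, h0, fun i => congrFun hv i⟩

theorem exists_ann2 (hk : 3 ≤ Fintype.card β) (u v : β → F) :
    ∃ ψ : β → F, ψ ≠ 0 ∧ ψ ⬝ᵥ u = 0 ∧ ψ ⬝ᵥ v = 0 := by
  obtain ⟨ψ, h0, h⟩ := exists_ann (m := 2) hk ![u, v]
  exact ⟨ψ, h0, dotProduct_comm u ψ ▸ h 0, dotProduct_comm v ψ ▸ h 1⟩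

theorem sl_trans {x x' : β → F} (hx : x ≠ 0) (hx' : x' ≠ 0) :
    ∃ h ∈ specialLinear β F, ∃ a : F, a ≠ 0 ∧ (h : Matrix β β F) *ᵥ x = a • x' := by
  by_cases h : ∃ a : F, x = a • x'
  · obtain ⟨a, rfl⟩ := h
    exact ⟨1, one_mem _, a, by rintro rfl; simp at hx, by simp⟩
  obtain ⟨g, hg, e⟩ := H99.exists_sl_add (u := x) (w := x' - x) fun c hc => by
    by_cases h1 : 1 + c = 0
    · have : c • x' = 0 := by linear_combination (norm := module) -hc + h1 • x
      exact hx' ((smul_eq_zero.1 this).resolve_left fun h2 => by simp [h2] at h1)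
    · exact h ⟨(1 + c)⁻¹ * c, by
        rw [mul_smul, eq_inv_smul_iff₀ h1]; linear_combination (norm := module) hc⟩
  exact ⟨g, hg, 1, one_ne_zero, by rw [e]; simp⟩

theorem cj_vmv (g : GL β F) (u ψ : β → F) : cj g (vecMulVec u ψ) =
    vecMulVec ((g : Matrix β β F) *ᵥ u) (ψ ᵥ* ((g⁻¹ : GL β F) : Matrix β β F)) := by
  rw [cj_apply, mul_vmv, vmv_mul]

theorem top_of_vmv (hk : 2 ≤ Fintype.card β) {S : Subalgebra F (Matrix β β F)}
    (h : ∀ u ψ, u ≠ 0 → ψ ≠ 0 → ψ ⬝ᵥ u = 0 → vecMulVec u ψ ∈ S) : S = ⊤ := by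
  have h' : ∀ u ψ, ψ ⬝ᵥ u = 0 → vecMulVec u ψ ∈ S := fun u ψ h0 => by
    by_cases hu : u = 0
    · simp [hu]
    by_cases hψ : ψ = 0
    · simp [hψ]
    exact h u ψ hu hψ h0
  refine eq_top_iff.2 fun b _ => ?_
  rw [matrix_eq_sum_vmv b]
  refine sum_mem fun i _ => sum_mem fun j _ => S.smul_mem ?_ _
  by_cases hij : i = j
  · obtain ⟨l, hl⟩ := Fintype.exists_ne_of_one_lt_card hk j
    have := mul_mem (h' (bv F j) (bv F l) (by simp [hl])) (h' (bv F l) (bv F j) (by simp [hl.symm]))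
    rw [vmv_mul_vmv] at this
    simpa [hij] using this
  · exact h' _ _ (by simp [Ne.symm hij])

theorem geoL_sl (hk : 3 ≤ Fintype.card β) : GeoL (specialLinear β F) fun x => x ≠ 0 := by
  intro A hA x hx h1
  have k : ∀ {y : β → F}, (∀ h ∈ specialLinear β F, ∀ a : F, (h : Matrix β β F) *ᵥ y = a • y →
      (h : Matrix β β F) ∈ A) → ∀ u ψ, ψ ⬝ᵥ u = 0 → ψ ⬝ᵥ y = 0 → vecMulVec u ψ ∈ A :=
    fun h u ψ h2 h3 => by
      have := sub_mem (h _ (H99.tv_mem_sl u ψ h2) 1 (by rw [H99.tv_mulVec, h3]; simp)) (one_mem A)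
      rwa [H99.coe_tv, add_sub_cancel_left] at this
  refine top_of_vmv (by omega) fun u χ hu _ h0 => ?_
  obtain ⟨ψ, h2, h3, h4⟩ := exists_ann2 hk u x
  exact k (hA u ψ hu h2 (k h1 u ψ h3 h4)) u χ h0 h0

theorem gen_rootS (hk : 2 ≤ Fintype.card β) : Algebra.adjoin F (Units.val '' RootS β F) = ⊤ :=
  top_of_vmv hk fun u ψ hu hψ h0 => by
    have := sub_mem (Algebra.subset_adjoin (R := F) (s := Units.val '' RootS β F)
      ⟨H99.tv u ψ h0, ⟨H99.tv_mem_sl u ψ h0, u, ψ, hu, hψ, h0, rfl⟩, rfl⟩) (one_mem _)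
    rwa [H99.coe_tv, add_sub_cancel_left] at this

theorem sum_quad_zero [Fintype F] {τ : Type} [Fintype τ] [DecidableEq τ]
    (h : 2 < (Fintype.card F - 1) * Fintype.card τ) (n : (τ → F) →ₗ[F] Matrix β β F)
    (w : Matrix β β F) : ∑ a : τ → F, (1 + n a) * w * (1 - n a) = 0 := by
  have h0 : ∑ _a : τ → F, (1 : F) = 0 := by
    simpa using MvPolynomial.sum_eval_eq_zero (1 : MvPolynomial τ F)
      (by rw [MvPolynomial.totalDegree_one]; omega)
  have h1 : ∀ i, ∑ a : τ → F, a i = 0 := fun i => by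
    simpa using MvPolynomial.sum_eval_eq_zero (MvPolynomial.X i : MvPolynomial τ F) (by simp; omega)
  have h2 : ∀ i j, ∑ a : τ → F, a i * a j = 0 := fun i j => by
    simpa using MvPolynomial.sum_eval_eq_zero (MvPolynomial.X i * MvPolynomial.X j : MvPolynomial τ F)
      (lt_of_le_of_lt (MvPolynomial.totalDegree_mul _ _) (by simpa using h))
  have e : ∀ a : τ → F, (1 + n a) * w * (1 - n a) = (1 : F) • w +
      ∑ i, a i • (n (bv F i) * w - w * n (bv F i)) -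
      ∑ i, ∑ j, (a i * a j) • (n (bv F i) * w * n (bv F j)) := fun a => by
    have : n a = ∑ i, a i • n (bv F i) := by
      conv_lhs => rw [pi_eq_sum_univ' a, map_sum]
      simp
    rw [show (1 + n a) * w * (1 - n a) = w + (n a * w - w * n a) - n a * w * n a by noncomm_ring,
      this]
    simp only [Finset.sum_mul, Finset.mul_sum, smul_mul_assoc, mul_smul_comm, smul_sub,
      Finset.sum_sub_distrib, one_smul, Finset.smul_sum, smul_smul]
    congr 1
    rw [Finset.sum_comm]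
    simp only [mul_comm]
  simp only [e, Finset.sum_sub_distrib, Finset.sum_add_distrib, ← Finset.sum_smul, h0, zero_smul,
    zero_add]
  rw [Finset.sum_comm, Finset.sum_comm (γ := τ → F)]
  simp only [← Finset.sum_smul, h1, zero_smul, Finset.sum_const_zero, zero_sub, neg_eq_zero]
  refine Finset.sum_eq_zero fun i _ => ?_
  rw [Finset.sum_comm]
  simp only [← Finset.sum_smul, h2, zero_smul, Finset.sum_const_zero]

theorem geoD_sl [Fintype F] (h : 2 < (Fintype.card F - 1) * (Fintype.card β - 1)) :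
    GeoD (specialLinear β F) (RootS β F) := by
  intro Ψ _ hN s hs
  refine mem_of_ann (Z := LinearMap.ker Ψ) (fun b hb => ?_) hs
  by_contra hc
  obtain ⟨χ, u, h1, h2⟩ := exists_dot_of_not_scalar (b := b) fun a ha => hc ⟨a, ha⟩
  have hu : u ≠ 0 := by rintro rfl; simp at h2
  suffices Ψ (vecMulVec u χ) = 0 by
    have := hb _ this
    rw [mul_vmv, trace_vmv, h2] at this
    exact one_ne_zero this
  let l : (β → F) →ₗ[F] F := (dotProductBilin F F).flip u
  have hl : finrank F (LinearMap.ker l) = Fintype.card β - 1 := by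
    obtain ⟨ρ, hρ⟩ := exists_dot_one hu
    have := Module.Dual.finrank_ker_add_one_of_ne_zero (f := l) (fun h => by
      have := LinearMap.congr_fun h ρ
      simp [l, hρ] at this)
    simp at this; omega
  let B := (Module.finBasisOfFinrankEq F _ hl).equivFun.symm
  have hB : ∀ a, (B a : β → F) ⬝ᵥ u = 0 := fun a => (B a).2
  let n : (Fin (Fintype.card β - 1) → F) →ₗ[F] Matrix β β F :=
    { toFun := fun a => vecMulVec u (B a)
      map_add' := fun a b => by simp [vmv_add_right]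
      map_smul' := fun c a => by simp [vmv_smul_right] }
  obtain ⟨w, hw⟩ := hN (Fin (Fintype.card β - 1) → F) (fun a => H99.tv u (B a) (hB a))
    ⟨fun a b => Units.ext (by
      simp only [Units.val_mul, H99.coe_tv, map_add, Submodule.coe_add, vmv_add_right, mul_add,
        add_mul, vmv_mul_vmv, hB, zero_smul, one_mul, mul_one, add_zero]; abel),
    fun a ha => ⟨H99.tv_mem_sl _ _ _, u, B a, hu, fun h => ha (by simpa using h), hB a, rfl⟩,
    ⟨fun _ => 1, fun h0 => by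
      have : 0 < Fintype.card β - 1 := Nat.pos_of_mul_pos_left (lt_trans two_pos h)
      simpa using congrFun h0 ⟨0, this⟩⟩⟩ (vecMulVec u χ) (by rw [trace_vmv, h1])
    fun a => by
      rw [cj_eq_iff, H99.coe_tv, mul_add, add_mul, vmv_mul_vmv, vmv_mul_vmv, hB, h1]; simp
  rw [hw, nrm_apply]
  simp only [cj_apply, H99.coe_tv, H99.coe_tv_inv]
  exact sum_quad_zero (by simpa using h) n w

theorem ad_one {x η : β → F} (h : η ⬝ᵥ x = 1) : AD x η 1 := ⟨h, by simp, by simp, by simp⟩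

theorem frg_sl (hk : 3 ≤ Fintype.card β) {x η : β → F} (h : η ⬝ᵥ x = 1) :
    FRG (specialLinear β F) x η 1 := by
  intro R h1 h2 w χ _ h3 _
  have k : ∀ u ψ, ψ ⬝ᵥ u = 0 → ψ ⬝ᵥ x = 0 → vecMulVec u ψ ∈ R := fun u ψ h4 h5 => by
    have := sub_mem (h2 _ (H99.tv_mem_sl u ψ h4) 1 one_ne_zero
      (by rw [H99.tv_mulVec, h5]; simp) (by simp)) (one_mem R)
    simpa [H99.coe_tv] using this
  by_cases h4 : χ ⬝ᵥ w = 0
  · exact k w χ h4 h3
  obtain ⟨v, h5, h6, h7⟩ := exists_ann2 hk χ η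
  obtain ⟨ψ, h8, h9⟩ := exists_dot_of_not_mem (W := Submodule.span F {x, w}) (u := v) (by
    rw [Submodule.mem_span_pair]
    rintro ⟨a, b, rfl⟩
    rw [dotProduct_comm] at h6 h7
    simp only [dotProduct_add, dotProduct_smul, h3, smul_eq_mul, mul_zero, zero_add, mul_eq_zero,
      h4, or_false] at h6
    simp [h6, h] at h7
    simp [h6, h7] at h5)
  have := mul_mem (k w ψ (h8 _ (Submodule.subset_span (by simp))) (h8 _ (Submodule.subset_span
    (by simp)))) (k v χ (dotProduct_comm v χ ▸ h6) h3)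
  rwa [vmv_mul_vmv, h9, one_smul] at this

variable {φ : Matrix β β F →ₐ[F] Matrix ι ι F} {M : Subgroup (GL ι F)}

variable (φ M) in
/-- The standing hypotheses on an active linear factor. -/
structure AmbL : Prop where
  hk : 3 ≤ Fintype.card β
  sub : ∀ h ∈ specialLinear β F, gφ φ h ∈ M
  full : ∀ l ∈ φ.range, ∀ q, (q - 1) * (q - 1) = 0 → q * l ∈ matrixSet M → l ∈ matrixSet M

variable (φ M) in
/-- The elements `1 + c ⊗ n`, `n` nilpotent of rank one, lie in `M`. -/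
def TT (c : Matrix ι ι F) : Prop :=
  Cm φ c ∧ ∀ u χ, χ ⬝ᵥ u = 0 → 1 + c * φ (vecMulVec u χ) ∈ matrixSet M

theorem mem_rho_one {a ρ : Matrix ι ι F} :
    ρ ∈ Rho M a 1 ↔ 1 + ρ ∈ matrixSet M ∧ ρ * a = 0 ∧ a * ρ = ρ :=
  ⟨by rintro ⟨s, hs, h, rfl⟩; simpa [hs, InQ] using h, fun h => ⟨1 + ρ, h.1, by simpa [InQ] using h.2,
    by simp⟩⟩

namespace AmbL
variable (A : AmbL φ M) {x η : β → F}
include A

theorem fr (h : η ⬝ᵥ x = 1) : FR M φ x η 1 := (ad_one h).fr A.sub (frg_sl A.hk h)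

theorem h0 (h : η ⬝ᵥ x = 1) {χ : β → F} (h1 : χ ⬝ᵥ x = 0) :
    φ (vecMulVec x χ) ∈ Rho M (φ (vecMulVec x η)) (φ 1) := by
  rw [map_one, mem_rho_one, ← map_mul, ← map_mul, vmv_mul_vmv, vmv_mul_vmv, h, h1]
  exact ⟨mem_matrixSet.2 ⟨_, A.sub _ (H99.tv_mem_sl x χ h1), by
    rw [coe_gφ, H99.coe_tv, map_add, map_one]⟩, by simp, by simp⟩

theorem tt_of (hx : x ≠ 0) {c : Matrix ι ι F} (hc : Cm φ c)
    (h : ∀ χ, χ ⬝ᵥ x = 0 → 1 + c * φ (vecMulVec x χ) ∈ matrixSet M) : TT φ M c := by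
  refine ⟨hc, fun u χ h0 => ?_⟩
  by_cases hu : u = 0
  · simpa [hu] using ms_one
  obtain ⟨g, hg, a, ha, e⟩ := sl_trans hx hu
  have := ms_cj (h (a⁻¹ • χ ᵥ* (g : Matrix β β F)) (by
    rw [smul_dotProduct, ← dotProduct_mulVec, e, dotProduct_smul, h0]; simp)) (A.sub g hg)
  rwa [map_add, map_one, hc.cj_gφ_mul, cj_vmv, e, smul_vecMul, vecMul_vecMul, Units.mul_inv,
    vecMul_one, vmv_smul_left, vmv_smul_right, smul_inv_smul₀ ha] at this

theorem tt_of_lev (h : η ⬝ᵥ x = 1) {sd : Bool} {c : Matrix ι ι F}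
    (hc : c ∈ Lev M (φ (vecMulVec x η)) (φ 1) φ sd) : TT φ M c :=
  A.tt_of (x := x) (by rintro rfl; simp at h) hc.1 fun χ h1 => by
    have := Lev.mul_mem hc (A.h0 h h1)
    rw [map_one] at this
    exact (mem_rho_one.1 this).1

theorem lev_of_tt (h : η ⬝ᵥ x = 1) {c : Matrix ι ι F} (hc : TT φ M c) :
    c ∈ Lev M (φ (vecMulVec x η)) (φ 1) φ false := by
  obtain ⟨x', h0, h1, -⟩ := exists_ann2 A.hk η η
  obtain ⟨χ, h2, h3, h4⟩ := exists_ann2 A.hk x x'
  obtain ⟨χ', h5, h6⟩ := exists_dot_of_not_smul (u := x) (v := x') fun a ha => by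
    rw [ha, smul_dotProduct, dotProduct_comm, h] at h1
    simp at h1
    simp [h1] at ha
    exact h0 ha
  obtain ⟨w, hw⟩ := exists_dot_one h2
  rw [dotProduct_comm] at hw
  obtain ⟨g, hg, e⟩ := mem_matrixSet.1 (hc.2 x' χ h4)
  have k := mem_RM_of_fix (a := φ (vecMulVec x η)) (E := φ 1) hg one_ne_zero (by
    rw [e, add_mul, mul_assoc, ← map_mul, vmv_mul_vmv, h3]; simp) (ad_one h).aa (by simp)
  have := (A.fr h).cf_mem_Lev (ad_one h) k (w := w - (χ' ⬝ᵥ w) • x') (χ := χ') (by simp) h5 (by simp)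
  simpa [e, cf_add, cf_one, hc.1.cf_mul_phi, vmv_mulVec, h6, hw, h4] using this

/-- Failure of the local statement produces a non-scalar level element. -/
theorem nc [Nonempty ι] (h : η ⬝ᵥ x = 1) (hL : ¬ Loc φ M x) : ∃ c, TT φ M c ∧ ¬ Sc c := by
  have x0 : x ≠ 0 := by rintro rfl; simp at h
  by_contra hc
  push Not at hc
  have hR : ∀ ρ ∈ Rho M (φ (vecMulVec x η)) (φ 1), ρ ∈ φ.range := fun ρ hρ =>
    (ad_one h).mem_range hρ fun w _ => hc _ (A.tt_of x0 (cf_cm _ _ _) fun χ h1 => by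
      have := (A.fr h).cf_mem hρ (w := w) (by simp) h1 (by simp)
      rw [map_one] at this
      exact (mem_rho_one.1 this).1)
  refine hL fun s hs h1 => ?_
  obtain ⟨a, ha⟩ : ∃ a, a = φ (vecMulVec x η) := ⟨_, rfl⟩
  have aa : a * a = a := ha ▸ (ad_one h).aa
  have sa : (s : Matrix ι ι F) * a = a := ha ▸ h1 η
  have sa' : ((s⁻¹ : GL ι F) : Matrix ι ι F) * a = a := by
    conv_lhs => rw [← sa, Units.inv_mul_cancel_left]
  have k2 := mem_RM_of_fix (E := φ 1) hs one_ne_zero (by rw [h1 η, one_smul]) (ad_one h).aa (by simp)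
  have k3 : a + (1 - a) * s * (1 - a) ∈ φ.range := by
    rw [ha, ← map_one φ, ← map_sub]
    refine add_mem (φ.mem_range_self _) (mem_range_of_cf fun ψ u => ?_)
    rw [cf_mul_phi, cf_phi_mul]
    have h2 : ψ ᵥ* (1 - vecMulVec x η) ⬝ᵥ x = 0 := by
      rw [← dotProduct_mulVec, sub_mulVec, vmv_mulVec, h]; simp
    have h7 := mul_mem (hR _ (k2 _ (A.h0 h h2)))
      (φ.mem_range_self (vecMulVec ((1 - vecMulVec x η) *ᵥ u) η))
    rw [inv_one, one_smul, map_one, mul_one, sandwich] at h7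
    exact scalar_of_mul_mem_range (cf_cm _ _ _) (vmv_ne_zero x0 fun h3 => by simp [h3] at h) h7
  obtain ⟨ρ, hρ⟩ : ∃ ρ, ρ = -(a * (s⁻¹ : GL ι F) * (1 - a)) := ⟨_, rfl⟩
  have r1 : ρ * a = 0 := by rw [hρ, neg_mul, mul_assoc, sub_mul, aa]; simp
  have r2 : a * ρ = ρ := by rw [hρ, mul_neg, ← mul_assoc, ← mul_assoc, aa]
  have e1 : (1 + ρ) * (a + (1 - a) * s * (1 - a)) = s := by
    have e2 : ρ * ((1 - a) * s) = a * s - a := by
      rw [← mul_assoc, mul_sub, r1, mul_one, sub_zero, hρ, neg_mul, mul_sub, mul_assoc a _ a, sa', aa,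
        sub_mul, mul_one, Units.inv_mul_cancel_right, neg_sub]
    rw [add_mul, one_mul, mul_add, r1, ← mul_assoc, e2]
    conv_rhs => rw [← mul_one s.val, ← add_sub_cancel a 1, mul_add, sa]
    simp only [sub_mul, mul_sub, aa, one_mul, mul_one, sub_self]
    abel
  have k4 := A.full _ k3 (1 + ρ) (by rw [add_sub_cancel_left, ← r2, ← mul_assoc, mul_assoc a, r1]; simp)
    (by rw [e1]; exact coe_mem_matrixSet hs)
  have k5 := hR ρ (by
    rw [map_one, ← ha]
    exact mem_rho_one.2 ⟨ms_of_mul_right k4 (by rw [e1]; exact coe_mem_matrixSet hs), r1, r2⟩)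
  rw [← e1]
  exact mul_mem (add_mem (one_mem _) k5) k3

theorem actL (h : ∀ x, x ≠ 0 → Loc φ M x) : ActL φ M (specialLinear β F) fun x => x ≠ 0 :=
  ⟨A.sub, fun x hx => hx, h, fun x x' hx hx' => by
    obtain ⟨g, hg, a, -, e⟩ := sl_trans hx hx'
    exact ⟨g, hg, a, e⟩, fun g _ x x' _ hx' _ => hx'⟩

theorem dich [Fintype F] [Nonempty ι] (hq : 2 < (Fintype.card F - 1) * (Fintype.card β - 1))
    (h : ∀ x, x ≠ 0 → Loc φ M x) {g : GL ι F} (hg : g ∈ M) :
    g ∈ KB φ ∨ ∀ b, Cm φ (cj g (φ b)) := by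
  have hk := A.hk
  have : Nonempty β := Fintype.card_pos_iff.1 (by omega)
  obtain ⟨u, hu, -⟩ := exists_ann2 (F := F) hk 0 0
  obtain ⟨ψ, hψ, h0, -⟩ := exists_ann2 hk u u
  exact (roots_tv (A.actL h) (geoL_sl hk) (Or.inr hk) (fun e he => he) (gen_rootS (by omega))).dich
    (geoD_sl hq) (Or.inr hk) hu hψ h0 ((A.actL h).det_pt (geoL_sl hk) hu hψ) hg

theorem gen [Nonempty ι] (h : ∀ c, Cm φ c → TT φ M c) : specialLinear ι F ≤ M := by
  have k : ∀ x η : β → F, η ⬝ᵥ x = 1 → ∀ u ψ : ι → F, φ (vecMulVec x η) *ᵥ u = u →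
      ψ ᵥ* φ (vecMulVec x η) = 0 → 1 + vecMulVec u ψ ∈ matrixSet M := fun x η h1 u ψ h2 h3 => by
    have := (ad_one h1).full (fun χ h2 _ => A.h0 h1 h2) (fun c hc => A.lev_of_tt h1 (h c hc))
      (ρ := vecMulVec u ψ) (by rw [mul_vmv, h2]) (by
        rw [map_sub, map_one, mul_sub, vmv_mul, vmv_mul, h3]; simp)
    rw [map_one] at this
    exact (mem_rho_one.1 this).1
  let S : (ι → F) → Prop := fun u => ∀ ψ, ψ ⬝ᵥ u = 0 → 1 + vecMulVec u ψ ∈ matrixSet M
  have inv : ∀ g ∈ M, ∀ u, S u → S ((g : Matrix ι ι F) *ᵥ u) := fun g hg u hu ψ h1 => by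
    have := ms_cj (hu (ψ ᵥ* (g : Matrix ι ι F)) (by rw [← dotProduct_mulVec, h1])) hg
    rwa [map_add, map_one, cj_vmv, vecMul_vecMul, Units.mul_inv, vecMul_one] at this
  have sm : ∀ (c : F) u, S u → S (c • u) := fun c u hu ψ h1 => by
    rw [vmv_smul_left, ← vmv_smul_right]
    exact hu _ (by rwa [smul_dotProduct, ← dotProduct_smul])
  have ad : ∀ u v, S u → S v → S (u + v) := fun u v hu hv => by
    by_cases h1 : ∃ a : F, u = a • v
    · obtain ⟨a, rfl⟩ := h1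
      simpa [add_smul] using sm (a + 1) v hv
    obtain ⟨ψ, h2, h3⟩ := exists_dot_of_not_smul (u := v) (v := u) fun a ha => h1 ⟨a, ha⟩
    obtain ⟨g, hg, e⟩ := mem_matrixSet.1 (hv ψ h2)
    simpa [e, add_mulVec, vmv_mulVec, h3] using inv g hg u hu
  have base : ∀ x η : β → F, η ⬝ᵥ x = 1 → ∀ u, φ (vecMulVec x η) *ᵥ u = u → S u := by
    intro x η h1 u h2 χ h3
    obtain ⟨y, y0, h4, -⟩ := exists_ann2 A.hk η η
    rw [dotProduct_comm] at h4
    obtain ⟨η', h5, h6⟩ := exists_dot_of_not_smul (u := x) (v := y) fun a ha => by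
      rw [ha, dotProduct_smul, h1] at h4
      simp at h4
      simp [h4] at ha
      exact y0 ha
    have ab : φ (vecMulVec x η) * φ (vecMulVec y η') = 0 := by rw [← map_mul, vmv_mul_vmv, h4]; simp
    have ba : φ (vecMulVec y η') * φ (vecMulVec x η) = 0 := by rw [← map_mul, vmv_mul_vmv, h5]; simp
    obtain ⟨v, hv⟩ : ∃ v, φ (vecMulVec y η') *ᵥ v ≠ 0 := by
      by_contra hc
      push Not at hc
      exact vmv_ne_zero y0 (ψ := η') (fun h => by simp [h] at h6) (phi_injective (φ := φ)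
        (matrix_ext_mulVec fun v => by rw [hc, map_zero, zero_mulVec]))
    obtain ⟨ψ, hψ⟩ := exists_dot_one hv
    have bv' : φ (vecMulVec y η') *ᵥ φ (vecMulVec y η') *ᵥ v = φ (vecMulVec y η') *ᵥ v := by
      rw [mulVec_mulVec, (ad_one h6).aa]
    have t1 := k x η h1 u (χ ᵥ* (1 - φ (vecMulVec x η))) h2 (by
      rw [vecMul_vecMul, sub_mul, (ad_one h1).aa]; simp)
    have t2 := k y η' h6 _ (χ ᵥ* φ (vecMulVec x η)) bv' (by rw [vecMul_vecMul, ab]; simp)
    obtain ⟨g, hg, e⟩ := mem_matrixSet.1 (k x η h1 u (ψ ᵥ* φ (vecMulVec y η')) h2 (by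
      rw [vecMul_vecMul, ba]; simp))
    have d1 : (χ ᵥ* φ (vecMulVec x η)) ⬝ᵥ u = 0 := by rw [← dotProduct_mulVec, h2, h3]
    have d2 : (χ ᵥ* φ (vecMulVec x η)) ⬝ᵥ φ (vecMulVec y η') *ᵥ v = 0 := by
      rw [← dotProduct_mulVec, mulVec_mulVec, ab]; simp
    have d3 : (ψ ᵥ* φ (vecMulVec y η')) ⬝ᵥ φ (vecMulVec y η') *ᵥ v = 1 := by
      rw [← dotProduct_mulVec, bv', hψ]
    have t3 : 1 + vecMulVec u (χ ᵥ* φ (vecMulVec x η)) ∈ matrixSet M := by
      refine ms_of_mul_right t2 (ms_of_mul_right (coe_mem_matrixSet hg) ?_)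
      convert ms_mul (coe_mem_matrixSet hg) t2 using 1
      have d4 : (ψ ᵥ* φ (vecMulVec y η')) ⬝ᵥ u = 0 := by
        rw [← dotProduct_mulVec, ← h2, mulVec_mulVec, ba]; simp
      simp only [e, mul_add, add_mul, mul_one, one_mul, vmv_mul_vmv, d1, d2, d3, d4, zero_smul,
        one_smul, add_zero, zero_mul]
      abel
    convert ms_mul t3 t1 using 1
    simp only [mul_add, add_mul, mul_one, one_mul, vmv_mul_vmv, d1, zero_smul, add_zero, add_assoc,
      ← vmv_add_right, ← vecMul_add, add_sub_cancel, vecMul_one]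
  have all : ∀ u, S u := fun u => by
    have : u = ∑ i, φ (vecMulVec (bv F i) (bv F i)) *ᵥ u := by
      rw [← Matrix.sum_mulVec, ← map_sum, sum_vmv_bv, map_one, one_mulVec]
    rw [this]
    refine Finset.sum_induction _ S ad (fun ψ _ => by simpa using ms_one) fun i _ => ?_
    have h1 : bv F i ⬝ᵥ bv F i = 1 := by simp
    exact base _ _ h1 _ (by rw [mulVec_mulVec, (ad_one h1).aa])
  exact H99.sl_le_of_et fun i j hij c => mem_of_ms (by
    rw [H99.coe_et, ← H99.vmv_single]; exact all _ _ (H99.single_dot_single hij c))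

end AmbL

end Cfsg.Agent.H9
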