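import Cfsg.Agent.H9.TSLMax

/-! Factors of dimension three over the field with two elements: the dichotomy. Sketch: notes/TENS.md, Batch 3. -/

set_option autoImplicit false
set_option linter.unusedSectionVars false
set_option linter.unusedVariables false
set_option linter.unusedSimpArgs false

namespace Cfsg.Agent.H9

open scoped MatrixGroups Matrix
open Matrix Cfsg.Geo Cfsg.Agent.H98

universe u

variable {ι β τ : Type} [Fintype ι] [DecidableEq ι] [Fintype β] [DecidableEq β] [Fintype τ]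
  [DecidableEq τ] {F : Type u} [Field F]

variable [Fintype F] [Nonempty ι] {M : Subgroup (GL ι F)}

namespace T32

/-- The determinant of three vectors. -/
def D3 (u v w : Fin 3 → F) : F :=
  u 0 * v 1 * w 2 - u 0 * v 2 * w 1 - u 1 * v 0 * w 2 + u 1 * v 2 * w 0 + u 2 * v 0 * w 1 -
    u 2 * v 1 * w 0

theorem eq_det {t : (Fin 3 → F) →ₗ[F] (Fin 3 → F) →ₗ[F] (Fin 3 → F) →ₗ[F] F}
    (h : ∀ a b : Fin 3, a ≠ b → ∀ u v w, t (u + u b • bv F a) (v + v b • bv F a) (w + w b • bv F a) =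
      t u v w) (u v w : Fin 3 → F) : t u v w = D3 u v w * t (bv F 0) (bv F 1) (bv F 2) := by
  have ex : ∀ a c : Fin 3, ∃ b, a ≠ b ∧ c ≠ b := by decide
  have z1 : ∀ a c, t (bv F a) (bv F c) (bv F c) = 0 := fun a c => by
    obtain ⟨b, h1, h2⟩ := ex a c
    simpa [Pi.single_eq_of_ne' h2] using h a b h1 (bv F b) (bv F c) (bv F c)
  have z2 : ∀ a c, t (bv F c) (bv F a) (bv F c) = 0 := fun a c => by
    obtain ⟨b, h1, h2⟩ := ex a c
    simpa [Pi.single_eq_of_ne' h2] using h a b h1 (bv F c) (bv F b) (bv F c)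
  have z3 : ∀ a c, t (bv F c) (bv F c) (bv F a) = 0 := fun a c => by
    obtain ⟨b, h1, h2⟩ := ex a c
    simpa [Pi.single_eq_of_ne' h2] using h a b h1 (bv F c) (bv F c) (bv F b)
  have s1 : ∀ a b c, a ≠ b → c ≠ b → t (bv F a) (bv F b) (bv F c) = -t (bv F b) (bv F a) (bv F c) :=
    fun a b c h1 h2 => by
      have := h a b h1 (bv F b) (bv F b) (bv F c)
      simp [Pi.single_eq_of_ne' h2, z3] at this
      linear_combination this
  have s2 : ∀ a b c, a ≠ b → c ≠ b → t (bv F c) (bv F a) (bv F b) = -t (bv F c) (bv F b) (bv F a) :=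
    fun a b c h1 h2 => by
      have := h a b h1 (bv F c) (bv F b) (bv F b)
      simp [Pi.single_eq_of_ne' h2, z1] at this
      linear_combination this
  have e : ∀ u : Fin 3 → F, u = u 0 • bv F 0 + u 1 • bv F 1 + u 2 • bv F 2 := fun u => by
    ext i; fin_cases i <;> simp
  conv_lhs => rw [e u, e v, e w]
  have e1 := s1 1 0 2 (by decide) (by decide)
  have e2 := s2 2 1 0 (by decide) (by decide)
  have e3 := s2 2 0 1 (by decide) (by decide)
  have e4 := s1 2 0 1 (by decide) (by decide)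
  have e5 := s1 2 1 0 (by decide) (by decide)
  simp only [map_add, map_smul, LinearMap.add_apply, LinearMap.smul_apply, smul_eq_mul, z1, z2, z3,
    e5, e4, e3, e2, e1, D3]
  ring

variable {φ : Matrix (Fin 3) (Fin 3) F →ₐ[F] Matrix ι ι F}
  {Δ : (ι → F) →ₗ[F] (ι → F) →ₗ[F] (ι → F) →ₗ[F] F}

theorem ext3 {p q : (ι → F) →ₗ[F] (ι → F) →ₗ[F] (ι → F) →ₗ[F] F}
    (h : ∀ a b c u v w, p (tv φ (bv F a) u) (tv φ (bv F b) v) (tv φ (bv F c) w) =
      q (tv φ (bv F a) u) (tv φ (bv F b) v) (tv φ (bv F c) w)) (u v w : ι → F) : p u v w = q u v w := by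
  rw [← sum_tv_ev (φ := φ) u, ← sum_tv_ev (φ := φ) v, ← sum_tv_ev (φ := φ) w]
  simp only [map_sum, LinearMap.sum_apply, h]

variable (φ) in
/-- `u ↦ v ⊗ u`. -/
noncomputable def tl (v : ι → F) : (Fin 3 → F) →ₗ[F] (ι → F) where
  toFun u := tv φ u v
  map_add' u u' := tv_add_left u u' v
  map_smul' a u := tv_smul_left a u v

theorem tv_det (A : AmbL φ M) (hΔ : ∀ g ∈ M, ∀ u v w, Δ ((g : Matrix ι ι F) *ᵥ u)
    ((g : Matrix ι ι F) *ᵥ v) ((g : Matrix ι ι F) *ᵥ w) = Δ u v w) (a b c : Fin 3 → F)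
    (u v w : ι → F) : Δ (tv φ a u) (tv φ b v) (tv φ c w) =
      D3 a b c * Δ (tv φ (bv F 0) u) (tv φ (bv F 1) v) (tv φ (bv F 2) w) :=
  eq_det (t := ((Δ.compl₁₂ (tl φ u) (tl φ v)).compr₂ (LinearMap.lcomp F F (tl φ w)))) (fun i j hij a b c => by
    obtain ⟨g, hg, e⟩ := mem_matrixSet.1 (tv_ms (F := F) (u := bv F i) (ψ := bv F j) (by
      simp [Pi.single_eq_of_ne hij]))
    have := hΔ _ (A.sub g hg) (tv φ a u) (tv φ b v) (tv φ c w)
    simp only [coe_gφ, phi_tv, e, add_mulVec, one_mulVec, vmv_mulVec, bv_dot] at this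
    exact this) a b c

variable (Δ) in
/-- The centroid of a trilinear form. -/
def Cen : NonUnitalSubalgebra F (Matrix ι ι F) where
  carrier := {c | ∀ u v w, Δ (c *ᵥ u) v w = Δ u (c *ᵥ v) w ∧ Δ u (c *ᵥ v) w = Δ u v (c *ᵥ w)}
  add_mem' := fun h h' u v w => by simp [add_mulVec, (h u v w).1, (h' u v w).1, (h u v w).2, (h' u v w).2]
  zero_mem' := fun u v w => by simp
  smul_mem' := fun c z h u v w => by simp [smul_mulVec, (h u v w).1, (h u v w).2]
  mul_mem' := fun {c d} h h' u v w => by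
    simp only [← mulVec_mulVec]
    exact ⟨by rw [(h _ _ _).1, (h _ _ _).2, (h' _ _ _).1, ← (h _ _ _).2], by
      rw [(h _ _ _).2, ← (h' _ _ _).1, ← (h _ _ _).2, (h' _ _ _).1, (h' _ _ _).2, (h _ _ _).2]⟩

theorem mem_Cen {T : (ι → F) → (ι → F) → (ι → F) → F}
    (hT : ∀ a b c u v w, Δ (tv φ a u) (tv φ b v) (tv φ c w) = D3 a b c * T u v w)
    {c : Matrix ι ι F} (hc : Cm φ c) (h1 : ∀ u v w, T (c *ᵥ u) v w = T u (c *ᵥ v) w)
    (h2 : ∀ u v w, T u (c *ᵥ v) w = T u v (c *ᵥ w)) : c ∈ Cen Δ := fun u v w =>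
  ⟨ext3 (φ := φ) (p := Δ ∘ₗ c.mulVecLin) (q := Δ.compl₂ c.mulVecLin) (fun a b d u v w => by
      simp only [LinearMap.comp_apply, LinearMap.compl₂_apply, mulVecLin_apply, hc.mulVec_tv, hT,
        h1]) u v w,
    ext3 (φ := φ) (p := Δ.compl₂ c.mulVecLin) (q := Δ.compr₂ (LinearMap.lcomp F F c.mulVecLin))
      (fun a b d u v w => by
        simp only [LinearMap.compr₂_apply, LinearMap.compl₂_apply, LinearMap.lcomp_apply,
          mulVecLin_apply, hc.mulVec_tv, hT, h2]) u v w⟩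

theorem mulVec_tv (z : Matrix ι ι F) (b : Fin 3) (v : ι → F) : z *ᵥ tv φ (bv F b) v =
    ∑ a, tv φ (bv F a) (cf φ (bv F a) z (bv F b) *ᵥ v) := by
  conv_lhs => rw [expand (φ := φ) z]
  simp only [sum_mulVec, ← mulVec_mulVec, phi_tv, vmv_mulVec, bv_dot, (cf_cm _ _ _).mulVec_tv]
  refine Finset.sum_congr rfl fun a _ => ?_
  rw [Finset.sum_eq_single b (fun c _ h => by simp [Pi.single_eq_of_ne h, tv_zero_left]) (by simp)]
  simp

theorem der {T : (ι → F) → (ι → F) → (ι → F) → F}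
    (hT : ∀ a b c u v w, Δ (tv φ a u) (tv φ b v) (tv φ c w) = D3 a b c * T u v w)
    (hZ : ∀ c ∈ Cen Δ, Sc c) {z : Matrix ι ι F}
    (hz : ∀ u v w, Δ (z *ᵥ u) v w + Δ u (z *ᵥ v) w + Δ u v (z *ᵥ w) = 0) :
    ∃ c b, Cm φ c ∧ z = c + φ b := by
  have d0 : D3 (bv F 0) (bv F 1) (bv F 2) = (1 : F) := by simp [D3]
  have hT' : ∀ u v w, T u v w = Δ (tv φ (bv F 0) u) (tv φ (bv F 1) v) (tv φ (bv F 2) w) :=
    fun u v w => by rw [hT, d0, one_mul]
  have k := fun a b c u v w => hz (tv φ (bv F a) u) (tv φ (bv F b) v) (tv φ (bv F c) w)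
  simp only [mulVec_tv, map_add, LinearMap.add_apply, hT, Fin.sum_univ_three] at k
  have s1 : ∀ u u' v w, T (u - u') v w = T u v w - T u' v w := fun u u' v w => by simp [hT', tv_sub]
  have s2 : ∀ u v v' w, T u (v - v') w = T u v w - T u v' w := fun u v v' w => by simp [hT', tv_sub]
  have s3 : ∀ u v w w', T u v (w - w') = T u v w - T u v w' := fun u v w w' => by simp [hT', tv_sub]
  clear hT' hz
  have ex : ∀ a b : Fin 3, a ≠ b → ∃ c, a ≠ c ∧ b ≠ c := by decide
  have off : ∀ a b, a ≠ b → Sc (cf φ (bv F a) z (bv F b)) := fun a b hab => by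
    obtain ⟨c, h1, h2⟩ := ex a b hab
    refine hZ _ (mem_Cen hT (cf_cm _ _ _) (fun u v w => ?_) fun u v w => ?_)
    · have := k b b c u v w
      clear k
      fin_cases a <;> fin_cases b <;> fin_cases c <;> simp [D3] at hab h1 h2 this ⊢ <;>
        first | linear_combination this | linear_combination -this
    · have := k c b b u v w
      clear k
      fin_cases a <;> fin_cases b <;> fin_cases c <;> simp [D3] at hab h1 h2 this ⊢ <;>
        first | linear_combination this | linear_combination -this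
  have dia : ∀ a, Sc (cf φ (bv F a) z (bv F a) - cf φ (bv F 0) z (bv F 0)) := fun a => by
    by_cases ha : a = 0
    · rw [ha, sub_self]; exact Sc.zero
    obtain ⟨c, h1, h2⟩ := ex a 0 ha
    refine hZ _ (mem_Cen hT ((cf_cm _ _ _).sub (cf_cm _ _ _)) (fun u v w => ?_) fun u v w => ?_)
    · have k1 := k a 0 c u v w
      have k2 := k 0 a c u v w
      simp only [sub_mulVec, s1, s2, s3]
      clear k
      fin_cases a <;> fin_cases c <;> simp [D3] at ha h1 h2 k1 k2 ⊢ <;>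
        first | linear_combination k1 + k2 | linear_combination -k1 - k2
    · have k1 := k c a 0 u v w
      have k2 := k c 0 a u v w
      simp only [sub_mulVec, s1, s2, s3]
      clear k
      fin_cases a <;> fin_cases c <;> simp [D3] at ha h1 h2 k1 k2 ⊢ <;>
        first | linear_combination k1 + k2 | linear_combination -k1 - k2
  have hc := cf_cm (φ := φ) (bv F 0) z (bv F 0)
  have : ∀ a b, cf φ (bv F a) (z - cf φ (bv F 0) z (bv F 0)) (bv F b) *
      φ (vecMulVec (bv F a) (bv F b)) ∈ φ.range := fun a b => by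
    refine mul_mem (Sc.mem_range ?_ _) (φ.mem_range_self _)
    rw [cf_sub, hc.cf_eq, bv_dot]
    by_cases h : a = b
    · simpa [h] using dia b
    · simpa [Pi.single_eq_of_ne h] using off a b h
  obtain ⟨b, hb⟩ : z - cf φ (bv F 0) z (bv F 0) ∈ φ.range := by
    rw [expand (φ := φ) (z - _)]
    exact sum_mem fun a _ => sum_mem fun b _ => this a b
  exact ⟨_, b, hc, by rw [show φ b = _ from hb, add_sub_cancel]⟩

end T32

open T32 in
theorem dich_of_tri {φ : τ → Matrix (Fin 3) (Fin 3) F →ₐ[F] Matrix ι ι F} (S : Sys φ)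
    (A : ∀ i, AmbL (φ i) M) (hq : Fintype.card F = 2) (hL : ∀ i x, x ≠ 0 → Loc (φ i) M x)
    {Δ : (ι → F) →ₗ[F] (ι → F) →ₗ[F] (ι → F) →ₗ[F] F} (h0 : Δ ≠ 0)
    (hΔ : ∀ g ∈ M, ∀ u v w, Δ ((g : Matrix ι ι F) *ᵥ u) ((g : Matrix ι ι F) *ᵥ v)
      ((g : Matrix ι ι F) *ᵥ w) = Δ u v w) (i : τ) {g : GL ι F} (hg : g ∈ M) :
    g ∈ KB (φ i) ∨ ∀ b, Cm (φ i) (cj g (φ i b)) := by
  have hk : 3 ≤ Fintype.card (Fin 3) := by simp
  have mv : ∀ g ∈ M, ∀ u v w, Δ ((g : Matrix ι ι F) *ᵥ u) v w =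
      Δ u (((g⁻¹ : GL ι F) : Matrix ι ι F) *ᵥ v) (((g⁻¹ : GL ι F) : Matrix ι ι F) *ᵥ w) :=
    fun g hg u v w => by rw [← hΔ g hg u, mulVec_inv_mulVec, mulVec_inv_mulVec]
  have rad : ∀ u, Δ u = 0 → u = 0 := fun u hu => by_contra fun u0 => by
    let R : Subalgebra F (Matrix ι ι F) :=
      { carrier := {z | ∀ u, Δ u = 0 → Δ (z *ᵥ u) = 0}
        mul_mem' := fun h h' u hu => by rw [← mulVec_mulVec]; exact h _ (h' u hu)
        add_mem' := fun h h' u hu => by rw [add_mulVec, map_add, h u hu, h' u hu, add_zero]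
        algebraMap_mem' := fun r u hu => by
          rw [Algebra.algebraMap_eq_smul_one, smul_mulVec, one_mulVec, map_smul, hu, smul_zero] }
    have top := S.gen R fun j b => by
      have : Algebra.adjoin F (matrixSet (specialLinear (Fin 3) F)) ≤ R.comap (φ j) :=
        Algebra.adjoin_le fun b hb => by
          obtain ⟨h, hh, rfl⟩ := mem_matrixSet.1 hb
          intro u hu
          ext v w
          have := mv _ ((A j).sub h hh) u
          simp [← coe_gφ, this, hu]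
      exact this (by rw [PasA.sl_irr (by simp)]; trivial)
    obtain ⟨ψ, hψ⟩ := exists_dot_one u0
    refine h0 (LinearMap.ext fun v => ?_)
    have : vecMulVec v ψ ∈ R := by rw [top]; trivial
    simpa [vmv_mulVec, hψ] using this u hu
  have hZ : ∀ c ∈ Cen Δ, Sc c := fun c hc => by_contra fun hs => by
    obtain ⟨j, -, hj⟩ := (S.inv (G := fun _ => specialLinear (Fin 3) F) Finset.univ
      (fun j _ => pas_sl (by simp) (by simp)) (Cen Δ) (fun _ _ i hi => absurd (Finset.mem_univ i) hi)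
      (fun j _ h hh z hz u v w => by
        have hg := (A j).sub h hh
        generalize gφ (φ j) h = g at hg
        obtain ⟨e1, e2⟩ := hz (((g⁻¹ : GL ι F) : Matrix ι ι F) *ᵥ u)
          (((g⁻¹ : GL ι F) : Matrix ι ι F) *ᵥ v) (((g⁻¹ : GL ι F) : Matrix ι ι F) *ᵥ w)
        rw [← hΔ g hg, ← hΔ g hg (_ *ᵥ u)] at e1
        rw [← hΔ g hg, ← hΔ g hg _ (_ *ᵥ v)] at e2
        simp only [mulVec_inv_mulVec] at e1 e2
        simp only [cj_apply, ← mulVec_mulVec]
        exact ⟨e1, e2⟩) hc (by rintro rfl; exact hs Sc.zero)).2 hs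
    obtain ⟨b, hb⟩ := not_comm_all (α := Fin 3) (F := F) (by simp)
    refine hb (scalar_of_cm_phi (φ := φ j) fun b' => matrix_ext_mulVec fun u => sub_eq_zero.1
      (rad _ (LinearMap.ext₂ fun v w => ?_)))
    simp only [← mulVec_mulVec, map_sub, LinearMap.sub_apply, LinearMap.zero_apply]
    rw [(hj b' _ _ _).1, (hj b _ _ _).1, (hj b _ _ _).2, (hj b (φ j b' *ᵥ u) _ _).1, (hj b _ _ _).2,
      (hj b' _ _ _).1, sub_self]
  obtain ⟨u, hu, -⟩ := exists_ann2 (F := F) hk 0 0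
  obtain ⟨ψ, hψ, h1, -⟩ := exists_ann2 hk u u
  have hT := tv_det (A i) hΔ
  have n : ∀ a b c, Δ (φ i (vecMulVec u ψ) *ᵥ a) b c + Δ a (φ i (vecMulVec u ψ) *ᵥ b) c +
      Δ a b (φ i (vecMulVec u ψ) *ᵥ c) = 0 :=
    ext3 (φ := φ i) (p := Δ ∘ₗ (φ i (vecMulVec u ψ)).mulVecLin + Δ.compl₂ (φ i (vecMulVec u ψ)).mulVecLin +
      Δ.compr₂ (LinearMap.lcomp F F (φ i (vecMulVec u ψ)).mulVecLin)) (q := 0) fun a b c x y z => by
      simp only [LinearMap.add_apply, LinearMap.comp_apply, LinearMap.compr₂_apply,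
        LinearMap.compl₂_apply, LinearMap.lcomp_apply, mulVecLin_apply, phi_tv, LinearMap.zero_apply]
      rw [hT, hT (bv F a), hT (bv F a), ← add_mul, ← add_mul]
      refine mul_eq_zero_of_left ?_ _
      generalize bv F a = a
      generalize bv F b = b
      generalize bv F c = c
      simp only [dotProduct, Fin.sum_univ_three] at h1
      simp only [D3, vmv_mulVec, dotProduct, Fin.sum_univ_three, Pi.smul_apply, smul_eq_mul]
      linear_combination (norm := (unfold D3; ring1)) D3 a b c * h1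
  obtain ⟨c, b, hc, e⟩ := der hT hZ (z := cj g (φ i (vecMulVec u ψ))) fun a b c => by
    have := n (((g⁻¹ : GL ι F) : Matrix ι ι F) *ᵥ a) (((g⁻¹ : GL ι F) : Matrix ι ι F) *ᵥ b)
      (((g⁻¹ : GL ι F) : Matrix ι ι F) *ᵥ c)
    rw [← hΔ g hg, ← hΔ g hg (_ *ᵥ a), ← hΔ g hg (_ *ᵥ a) (_ *ᵥ b)] at this
    simp only [mulVec_inv_mulVec] at this
    simpa only [cj_apply, ← mulVec_mulVec] using this
  have L := (A i).actL (hL i)
  have hdet := L.det_pt (geoL_sl hk) hu hψ
  rcases rank_sum hc (b := b) (Or.inr hk) (by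
    rw [← e, ← map_mul, ← map_mul, vmv_mul_vmv, h1, zero_smul, map_zero, map_zero])
    (e ▸ (rank_cj_le _ _).trans (rank_phi_vmv_le u ψ)) with ⟨a, rfl⟩ | ⟨a, rfl⟩
  · exact Or.inl (hdet g hg (e ▸ add_mem (Subalgebra.smul_mem _ (one_mem _) _)
      ((φ i).mem_range_self _)))
  · refine Or.inr ((roots_tv L (geoL_sl hk) (Or.inr hk) (fun e he => he)
      (gen_rootS (by simp))).cm_of_det hdet (not_cm_vmv hu hψ h1) hg ?_)
    rw [e, map_smul, map_one]
    exact hc.add (Cm.one.smul a)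

end Cfsg.Agent.H9
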