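import Cfsg.Agent.H9.TLoc
import Cfsg.Agent.H98.Block

/-! The sum of the conjugates of the projection onto a tensor factor. -/

set_option autoImplicit false
set_option linter.unusedSectionVars false
set_option linter.unusedVariables false
set_option linter.unusedSimpArgs false

namespace Cfsg.Agent.H9

open scoped MatrixGroups Matrix
open Matrix Cfsg.Geo Cfsg.Agent.H98 Module

universe u

variable {ι β : Type} [Fintype ι] [DecidableEq ι] [Fintype β] [DecidableEq β] {F : Type u} [Field F]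
variable (φ : Matrix β β F →ₐ[F] Matrix ι ι F)

/-- The conjugate by `g` of the projection onto the factor. -/
def piG (g : GL ι F) : Matrix ι ι F →ₗ[F] Matrix ι ι F :=
  (cj g).toLinearMap ∘ₗ φ.toLinearMap ∘ₗ ptr φ ∘ₗ (cj g⁻¹).toLinearMap

variable {φ}

theorem piG_apply (g : GL ι F) (z : Matrix ι ι F) :
    piG φ g z = cj g (φ (ptr φ (cj g⁻¹ z))) := rfl

theorem trace_cj_mul (g : GL ι F) (z w : Matrix ι ι F) :
    (cj g z * w).trace = (z * cj g⁻¹ w).trace := by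
  rw [← trace_cj g (z * _), map_mul, cj_cj_inv]

theorem phi_ptr_cj {k : GL ι F} (hk : k ∈ KB φ) (z : Matrix ι ι F) :
    φ (ptr φ (cj k z)) = cj k (φ (ptr φ z)) := by
  obtain ⟨x, hx⟩ := hk
  rw [hx]
  congr 1
  refine eq_of_trace_mul fun b => ?_
  rw [trace_ptr_mul, trace_cj_mul, trace_cj_mul, trace_ptr_mul]
  congr 2
  rw [← cj_cj_inv x b, ← hx, cj_inv_cj, cj_inv_cj]

theorem piG_mul (g h : GL ι F) (z : Matrix ι ι F) :
    piG φ (g * h) z = cj g (piG φ h (cj g⁻¹ z)) := by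
  rw [piG_apply, piG_apply, cj_mul, _root_.mul_inv_rev, cj_mul]

theorem piG_of_KB {k : GL ι F} (hk : k ∈ KB φ) (z : Matrix ι ι F) :
    piG φ k z = φ (ptr φ z) := by
  rw [piG_apply, phi_ptr_cj ((KB φ).inv_mem hk), cj_cj_inv]

theorem piG_mul_KB (g : GL ι F) {k : GL ι F} (hk : k ∈ KB φ) : piG φ (g * k) = piG φ g := by
  ext1 z
  rw [piG_mul, piG_of_KB hk, piG_apply]

theorem piG_eq_zero {g : GL ι F} {z : Matrix ι ι F} (h : ∀ b, (z * cj g (φ b)).trace = 0) :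
    piG φ g z = 0 := by
  have : ptr φ (cj g⁻¹ z) = 0 := eq_of_trace_mul fun b => by
    rw [trace_ptr_mul, trace_cj_mul, inv_inv, h]; simp
  rw [piG_apply, this, map_zero, map_zero]

theorem card_modEq_of_inv {p : ℕ} [Fact p.Prime] {U Ω : Type*} [Group U] [MulAction U Ω]
    [Finite Ω] (hU : IsPGroup p U) (S : Set Ω) (hS : ∀ (u : U), ∀ x ∈ S, u • x ∈ S) {x₀ : Ω}
    (h0 : x₀ ∈ S) (h1 : ∀ u : U, u • x₀ = x₀) (h2 : ∀ x ∈ S, (∀ u : U, u • x = x) → x = x₀) :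
    Nat.card S ≡ 1 [MOD p] := by
  let T : SubMulAction U Ω := ⟨S, fun u x hx => hS u x hx⟩
  have := hU.card_modEq_card_fixedPoints T
  have e : Nat.card (MulAction.fixedPoints U T) = 1 := by
    rw [Nat.card_eq_one_iff_exists]
    refine ⟨⟨⟨x₀, h0⟩, fun u => Subtype.ext (h1 u)⟩, ?_⟩
    rintro ⟨⟨x, hx⟩, hx'⟩
    exact Subtype.ext (Subtype.ext (h2 x hx fun u => congrArg Subtype.val (hx' u)))
  rwa [e] at this

theorem sum_split {G Ω A V : Type*} [Group G] [MulAction G Ω] [Fintype Ω] [AddCommGroup A]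
    [Fintype A] [AddCommGroup V] [Module F V] [Finite F] (e : A → G)
    (he : ∀ a b, e (a + b) = e a * e b) (f : Ω → V) (c : Ω → Prop) (N : AddSubgroup V) (v : V)
    (hfree : ∀ B : Ω, ∀ a, a ≠ 0 → e a • B = B → ∀ a', e a' • B = B)
    (hN : ∀ B, ∑ a, f (e a • B) ∈ N) (hC : ∀ B, c B → f B = 0)
    (hB : ∀ B, (∀ a, e a • B = B) → ¬ c B → f B = v) (U : Subgroup G)
    (hU : IsPGroup (ringChar F) U) (hUe : ∀ u ∈ U, ∀ a, u * e a = e a * u)
    (hUc : ∀ u ∈ U, ∀ B, c (u • B) → c B) {B₀ : Ω} (h1 : ∀ a, e a • B₀ = B₀) (h2 : ¬ c B₀)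
    (h3 : ∀ u ∈ U, u • B₀ = B₀)
    (h4 : ∀ B, (∀ a, e a • B = B) → ¬ c B → (∀ u ∈ U, u • B = B) → B = B₀) :
    ∑ B, f B - v ∈ N := by
  classical
  have he0 : e 0 = 1 := by
    have := he 0 0
    rw [add_zero] at this
    exact left_eq_mul.1 this
  let S : Set Ω := {B | (∀ a, e a • B = B) ∧ ¬ c B}
  have hcard : (Nat.card S : F) = 1 := by
    have : Fact (ringChar F).Prime := ⟨CharP.char_is_prime F _⟩
    have := card_modEq_of_inv hU S (x₀ := B₀) ?_ ⟨h1, h2⟩ (fun u => h3 u u.2)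
      fun B hB h => h4 B hB.1 hB.2 fun u hu => h ⟨u, hu⟩
    · rw [(CharP.natCast_eq_natCast F (ringChar F)).2 this, Nat.cast_one]
    · rintro ⟨u, hu⟩ B ⟨h1, h2⟩
      refine ⟨fun a => ?_, fun h => h2 (hUc u hu B h)⟩
      show e a • u • B = u • B
      rw [← mul_smul, ← hUe u hu, mul_smul, h1]
  rw [← Finset.sum_filter_add_sum_filter_not Finset.univ
    (fun B => ∀ a, e a • B = B), ← Finset.sum_filter_add_sum_filter_not
    (Finset.univ.filter fun B => ∀ a, e a • B = B) c]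
  have s1 : ∑ B ∈ (Finset.univ.filter fun B => ∀ a, e a • B = B).filter c, f B = 0 :=
    Finset.sum_eq_zero fun B hB' => hC B (Finset.mem_filter.1 hB').2
  have s2 : ∑ B ∈ (Finset.univ.filter fun B => ∀ a, e a • B = B).filter (fun B => ¬ c B), f B =
      v := by
    rw [Finset.sum_congr rfl (g := fun _ => v), Finset.sum_const, ← Nat.cast_smul_eq_nsmul F]
    · rw [← one_smul F v, smul_smul, mul_one, ← hcard, ← Nat.card_eq_finsetCard]
      congr 2
      refine Nat.card_congr (Equiv.subtypeEquivRight fun B => ?_)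
      simp [S]
    · intro B hB'
      simp only [Finset.mem_filter, Finset.mem_univ, true_and] at hB'
      exact hB B hB'.1 hB'.2
  rw [s1, s2, zero_add, add_sub_cancel_left]
  refine sum_mem_of_free (fun a (B : Ω) => e a • B) (fun B => by rw [he0, one_smul])
    (fun a b B => by rw [he, mul_smul]) f N _ ?_ ?_ fun B _ => hN B
  · intro a B hB'
    simp only [Finset.mem_filter, Finset.mem_univ, true_and] at hB' ⊢
    refine fun h => hB' fun a' => ?_
    have h2 := h a'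
    rw [← mul_smul, ← he, add_comm, he, mul_smul] at h2
    exact smul_left_cancel _ h2
  · intro a B hB' h
    simp only [Finset.mem_filter, Finset.mem_univ, true_and] at hB'
    by_contra ha
    exact hB' (hfree B a ha h)

/-- The norm map of a family. -/
def nrm {A : Type u} [Fintype A] (ε : A → GL ι F) : Matrix ι ι F →ₗ[F] Matrix ι ι F :=
  ∑ a, (cj (ε a)).toLinearMap

theorem nrm_apply {A : Type u} [Fintype A] (ε : A → GL ι F) (z : Matrix ι ι F) :
    nrm ε z = ∑ a, cj (ε a) z := by simp [nrm, LinearMap.sum_apply]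

variable (φ) in
theorem exists_Pi (M : Subgroup (GL ι F)) [Finite F] :
    ∃ Pi : Matrix ι ι F →ₗ[F] Matrix ι ι F, (∀ g ∈ M, ∀ z, Pi (cj g z) = cj g (Pi z)) ∧
      ∀ (A : Type u) [AddCommGroup A] [Fintype A] (ε : A → GL ι F),
        (∀ a b, ε (a + b) = ε a * ε b) → (∀ a, ε a ∈ M) → (∀ a, ε a ∈ KB φ) →
        (¬ ∀ a, Cm φ (ε a)) →
        (∀ g ∈ M, ∀ a, a ≠ 0 → g⁻¹ * ε a * g ∈ KB φ → ∀ a', g⁻¹ * ε a' * g ∈ KB φ) →
        ∀ (U : Subgroup (GL ι F)), U ≤ M → U ≤ KB φ → IsPGroup (ringChar F) U →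
        (∀ u ∈ U, ∀ a, u * ε a = ε a * u) →
        (∀ g ∈ M, (∀ a, g⁻¹ * ε a * g ∈ KB φ) → (¬ ∀ a, Cm φ (cj g⁻¹ (ε a))) →
          (∀ u ∈ U, g⁻¹ * u * g ∈ KB φ) → g ∈ KB φ) →
        ∀ z, (∀ a, cj (ε a) z = z) →
        (∀ g ∈ M, (∀ a, Cm φ (cj g⁻¹ (ε a))) → piG φ g z = 0) →
        (∀ g ∈ M, (∀ a, g⁻¹ * ε a * g ∈ KB φ) → (¬ ∀ a, Cm φ (cj g⁻¹ (ε a))) →
          piG φ g z = φ (ptr φ z)) →
        ∃ w, Pi z - φ (ptr φ z) = nrm ε w := by
  classical
  let K : Subgroup M := (KB φ).subgroupOf M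
  have : Fintype (M ⧸ K) := Fintype.ofFinite _
  obtain ⟨f, hfg⟩ : ∃ f : M ⧸ K → Matrix ι ι F →ₗ[F] Matrix ι ι F, ∀ g : M, f g = piG φ g :=
    ⟨Quotient.lift (fun g : M => piG φ g) (by
    intro a b hab
    have h1 : a⁻¹ * b ∈ K := QuotientGroup.leftRel_apply.1 hab
    have h2 : (b : GL ι F) = a * ((a⁻¹ * b : M) : GL ι F) := by simp
    show piG φ a = piG φ b
    rw [h2, piG_mul_KB _ (Subgroup.mem_subgroupOf.1 h1)]), fun g => rfl⟩
  have ind : ∀ B : M ⧸ K, ∃ g : M, B = g := fun B => (QuotientGroup.mk_surjective B).imp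
    fun g hg => hg.symm
  have hf : ∀ (g : M) (B : M ⧸ K) z, f (g • B) z = cj (g : GL ι F) (f B (cj (g : GL ι F)⁻¹ z)) := by
    intro g B z
    obtain ⟨b, rfl⟩ := ind B
    rw [show g • (b : M ⧸ K) = ((g * b : M) : M ⧸ K) from rfl, hfg, hfg]
    exact piG_mul _ _ _
  refine ⟨∑ B, f B, fun g hg z => ?_, ?_⟩
  · rw [LinearMap.sum_apply, LinearMap.sum_apply, map_sum]
    refine (Fintype.sum_equiv (MulAction.toPerm (⟨g, hg⟩ : M)) _ _ fun B => ?_).symm
    rw [MulAction.toPerm_apply, hf, cj_inv_cj]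
  intro A _ _ ε hε hM hK hn hfree U hUM hUK hU hUε hUfix z hz hC hB
  let e : A → M := fun a => ⟨ε a, hM a⟩
  have hfix : ∀ (k g : M), k • (g : M ⧸ K) = g ↔ (g : GL ι F)⁻¹ * k * g ∈ KB φ := fun k g => by
    rw [show k • (g : M ⧸ K) = ((k * g : M) : M ⧸ K) from rfl, eq_comm, QuotientGroup.eq,
      Subgroup.mem_subgroupOf]
    simp [mul_assoc]
  obtain ⟨c, hc⟩ : ∃ c : M ⧸ K → Prop, ∀ g : M, c g ↔ ∀ a, Cm φ (cj (g : GL ι F)⁻¹ (ε a)) :=
    ⟨Quotient.lift (fun g : M => ∀ a, Cm φ (cj (g : GL ι F)⁻¹ (ε a))) (by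
    have key : ∀ a b : M, a⁻¹ * b ∈ K → (∀ x, Cm φ (cj (a : GL ι F)⁻¹ (ε x))) →
        ∀ x, Cm φ (cj (b : GL ι F)⁻¹ (ε x)) := fun a b hab h x => by
      have := (h x).cj ((KB φ).inv_mem (Subgroup.mem_subgroupOf.1 hab))
      rw [← cj_mul] at this
      simpa using this
    intro a b hab
    have h1 : a⁻¹ * b ∈ K := QuotientGroup.leftRel_apply.1 hab
    exact propext ⟨key a b h1, key b a (by simpa using K.inv_mem h1)⟩), fun g => Iff.rfl⟩
  have := sum_split (F := F) e (fun a b => Subtype.ext (hε a b)) (fun B => f B z) c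
    (LinearMap.range (nrm ε)).toAddSubgroup (φ (ptr φ z)) ?_ ?_ ?_ ?_ (U.subgroupOf M)
    (hU.comap_of_injective _ Subtype.val_injective) (fun u hu a => Subtype.ext (hUε _ hu a)) ?_
    (B₀ := ((1 : M) : M ⧸ K)) (fun a => (hfix _ _).2 (by simpa [e] using hK a))
    (fun h => hn fun a => by simpa [cj_one] using (hc 1).1 h a)
    (fun u hu => (hfix _ _).2 (by simpa using hUK hu)) ?_
  · obtain ⟨w, hw⟩ := this
    exact ⟨w, by rw [LinearMap.sum_apply]; exact hw.symm⟩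
  · intro B a ha h a'
    obtain ⟨b, rfl⟩ := ind B
    exact (hfix (e a') b).2 (hfree b b.2 a ha ((hfix (e a) b).1 h) a')
  · intro B
    refine ⟨f B z, ?_⟩
    rw [nrm_apply]
    refine Finset.sum_congr rfl fun a _ => ?_
    rw [hf]
    congr 2
    conv_lhs => rw [← cj_inv_cj (ε a) z, hz]
  · intro B h
    obtain ⟨b, rfl⟩ := ind B
    exact hfg b ▸ hC b b.2 ((hc b).1 h)
  · intro B h h'
    obtain ⟨b, rfl⟩ := ind B
    exact hfg b ▸ hB b b.2 (fun a => (hfix (e a) b).1 (h a)) fun h2 => h' ((hc b).2 h2)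
  · intro u hu B h3
    obtain ⟨b, rfl⟩ := ind B
    refine (hc b).2 fun a => ?_
    have h4 : Cm φ (cj ((u : GL ι F) * (b : GL ι F))⁻¹ (ε a)) := (hc (u * b)).1 h3 a
    rwa [_root_.mul_inv_rev, cj_mul, cj_coe (u : GL ι F)⁻¹, mul_assoc, inv_inv,
      ← hUε u hu, inv_mul_cancel_left] at h4
  · intro B h1 h2 h3
    obtain ⟨b, rfl⟩ := ind B
    have := hUfix b b.2 (fun a => (hfix (e a) b).1 (h1 a)) (fun h => h2 ((hc b).2 h)) fun u hu =>
      (hfix ⟨u, hUM hu⟩ b).1 (h3 ⟨u, hUM hu⟩ hu)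
    refine (QuotientGroup.eq.2 ?_).symm
    rw [Subgroup.mem_subgroupOf]
    simpa using this

end Cfsg.Agent.H9
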